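import Cfsg.Agent.H29.ExtS

/-! Quadratic extensions: the hermitian form over `K` attached to an adjoint closed quadratic
extension (`exists_unit_form`), overgroups of `SU(K)` in orthogonal and symplectic groups over
`F` (`orth_ext`, `symp_extU`). -/

set_option autoImplicit false
set_option linter.unusedSectionVars false

namespace H29

open Module H11 H11.PForm

variable {F K V : Type*} [Field F] [Field K] [Algebra F K] [AddCommGroup V] [Module F V]
  [Module K V] [IsScalarTower F K V]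

theorem exists_unit_form {P : FParam (RingHom.id F)} {S : PForm P V} (hS : S.Nondeg)
    (hr : finrank F K = 2) (h : ∀ k : K, ∃ k' : K, ∀ x y, S.h (k • x) y = S.h x (k' • y))
    (h' : ¬ ∀ (k : K) x y, S.h (k • x) y = S.h x (k • y)) :
    ∃ (τ : K →+* K) (hτ : ∀ k, τ (τ k) = k) (θ : K) (U : PForm (unitP τ hτ) V),
      τ ≠ RingHom.id K ∧ (∀ k, τ k = k ↔ ∃ c, algebraMap F K c = k) ∧ θ ≠ 0 ∧
      τ θ = algebraMap F K P.ε * θ ∧ (P.ε = 1 → θ = 1) ∧
      ∀ x y, algebraMap F K (S.h x y) = θ * U.h x y + τ (θ * U.h x y) := by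
  haveI : FiniteDimensional F K := finite_of_finrank_pos (by omega)
  obtain ⟨v, hv⟩ : ∃ v : V, v ≠ 0 := by
    by_contra! h0
    exact h' fun k x y => by simp [h0 x]
  choose t ht using h
  have h1 : ∀ a b : K, (∀ x y, S.h x (a • y) = S.h x (b • y)) → a = b := fun a b h =>
    smul_left_injective K hv (hS.ext_right fun x => h x v)
  let τ : K →+* K :=
    { toFun := t
      map_one' := h1 _ _ fun x y => by rw [← ht, one_smul, one_smul]
      map_mul' := fun a b => h1 _ _ fun x y => by rw [← ht, mul_smul, ht, ht, smul_smul, mul_comm]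
      map_zero' := h1 _ _ fun x y => by rw [← ht]; simp
      map_add' := fun a b => h1 _ _ fun x y => by rw [← ht]; simp [add_smul, ht] }
  replace ht : ∀ k x y, S.h (k • x) y = S.h x (τ k • y) := ht
  have hτ : ∀ k, τ (τ k) = k := fun k => h1 _ _ fun x y => by rw [← ht, S.symm, ← ht, ← S.symm]
  have hne : τ ≠ RingHom.id K := fun e => h' fun k x y => by rw [ht, e, RingHom.id_apply]
  have h2 : ∀ c, τ (algebraMap F K c) = algebraMap F K c := fun c => h1 _ _ fun x y => by
    rw [← ht]; simp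
  have h3 : ∀ k, τ k = k ↔ ∃ c, algebraMap F K c = k := fun k => ⟨fun hk => by
    let D : Submodule F K :=
      { carrier := {k | τ k = k}
        add_mem' := fun ha hb => by rw [Set.mem_setOf_eq, map_add, ha, hb]
        zero_mem' := map_zero τ
        smul_mem' := fun c k hk => by rw [Set.mem_setOf_eq, Algebra.smul_def, map_mul, h2, hk] }
    exact mem_range_of_mul (hr ▸ Nat.prime_two) D (map_one τ) (fun e => hne (RingHom.ext fun k =>
      (e ▸ trivial : k ∈ D))) fun d hd => show τ _ = _ by rw [map_mul, hk, hd], by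
    rintro ⟨c, rfl⟩; exact h2 c⟩
  obtain ⟨θ, h4, h5, h5'⟩ : ∃ θ : K, θ ≠ 0 ∧ τ θ = algebraMap F K P.ε * θ ∧ (P.ε = 1 → θ = 1) := by
    by_cases e : P.ε = 1
    · exact ⟨1, one_ne_zero, by simp [e], fun _ => rfl⟩
    · obtain ⟨k, hk⟩ : ∃ k, τ k ≠ k := by simpa [RingHom.ext_iff] using hne
      exact ⟨τ k - k, sub_ne_zero.2 hk, by simp [P.ε_cases.resolve_left e, hτ], fun h => absurd h e⟩
  choose φ hφ using fun y => (h3 (θ * y + τ (θ * y))).1 (by rw [map_add, hτ, add_comm])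
  let φ' : Dual F K :=
    { toFun := φ
      map_add' := fun a b => (algebraMap F K).injective (by simp only [map_add, hφ, mul_add]; ring)
      map_smul' := fun c a => (algebraMap F K).injective (by
        simp only [hφ, Algebra.smul_def, map_mul, h2, RingHom.id_apply, Algebra.algebraMap_self]
        ring) }
  have h6 : φ' ≠ 0 := fun e => by
    obtain ⟨s, hs⟩ := exists_trace_one hτ hne
    have := hφ (s / θ)
    rw [show φ _ = 0 from LinearMap.congr_fun e _, mul_div_cancel₀ _ h4, hs] at this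
    simp at this
  obtain ⟨B, hB⟩ := exists_lift_form h6 S.h τ ht
  have h7 : B.IsSymm := ⟨fun x y => eq_of_dual h6 fun k => (algebraMap F K).injective (by
    have e1 : φ (k * B y x) = P.ε * φ (τ k * B x y) := by
      rw [← smul_eq_mul k, ← map_smul, ← smul_eq_mul (τ k), ← map_smul]
      exact (hB _ _).trans ((S.symm _ _).trans (congrArg _ ((ht _ _ _).trans (hB _ _).symm)))
    have e2 := congrArg (algebraMap F K) P.εε
    change algebraMap F K (φ _) = algebraMap F K (φ _)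
    rw [e1]
    simp only [map_mul, hφ, hτ, h5, map_one] at e2 ⊢
    linear_combination (-(θ * k * τ (B x y))) * e2)⟩
  exact ⟨τ, hτ, θ, unitS hτ hne B h7, hne, h3, h4, h5, h5', fun x y => by rw [← hB]; exact hφ _⟩

variable [FiniteDimensional F V] [Finite K] {τ : K →+* K} {hτ : ∀ k, τ (τ k) = k}
  {U : PForm (unitP τ hτ) V}

theorem semi_of_sing [FiniteDimensional K V] (hU : U.Nondeg) (hne : τ ≠ RingHom.id K)
    (hn : 7 ≤ finrank K V) {g : V ≃ₗ[F] V}
    (hg : ∀ u, U.Sing u → ∀ k : K, g.symm (k • u) ∈ K ∙ g.symm u) (k : K) :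
    ∃ l : K, ∀ x, g (k • x) = l • g x := by
  have h3 := iso3_unit hne U
  let A : V →+ V := (g : V →+ V).comp ((DistribSMul.toAddMonoidHom V k).comp (g.symm : V →+ V))
  have hA : ∀ u, U.Sing u → ∃ l : K, l • u = A u := fun u hu => by
    obtain rfl | h0 := eq_or_ne u 0
    · exact ⟨0, by simp⟩
    obtain ⟨_, ⟨l, rfl⟩, h⟩ : k • g.symm u ∈ (KL F K u).map (g.symm : V →ₗ[F] V) :=
      Submodule.eq_of_le_of_finrank_eq (S₁ := (KL F K u).map (g.symm : V →ₗ[F] V))
        (by rintro _ ⟨_, ⟨l, rfl⟩, rfl⟩; exact mem_KL'.2 (hg u hu l)) (by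
        rw [LinearEquiv.finrank_map_eq, finrank_KL h0, finrank_KL (by simpa)]) ▸ smul_mem_KL k _
    exact ⟨l, by simp [A, ← h]⟩
  obtain ⟨e, -, he0, he⟩ := h3 ⊤ (by rw [finrank_top]; omega)
  obtain ⟨c, hc⟩ := hA e he
  suffices h : ∀ x, A x = c • x from ⟨c, fun x => by simpa [A] using h (g x)⟩
  intro x
  have := span_sing_top hU h3 (by omega) (A - DistribSMul.toAddMonoidHom V c).ker (fun y hy => by
    obtain rfl | hy0 := eq_or_ne y 0
    · exact AddSubgroup.zero_mem _
    obtain ⟨w, hw, hp, hw0⟩ := exists_sing_top hU h3 [e, y] [e, y] (by simpa using hn)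
    simp only [List.mem_cons, List.not_mem_nil, or_false, forall_eq_or_imp, forall_eq] at hp
    rw [list_set_two] at hw0
    obtain ⟨a, ha⟩ := hA w hw
    obtain ⟨b, hb⟩ := hA y hy
    obtain ⟨a', ha'⟩ := hA _ (he.add hw hp.1)
    obtain ⟨b', hb'⟩ := hA _ (hy.add hw hp.2)
    have h1 := eq_of_eigen A he0 (fun h => hw0 (Submodule.span_mono (by simp) h)) hc.symm ha.symm ha'.symm
    have h2 := eq_of_eigen A hy0 (fun h => hw0 (Submodule.span_mono (by simp) h)) hb.symm ha.symm hb'.symm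
    simp [← hb, h1, h2]) x
  simpa [sub_eq_zero] using this

theorem orth_ext {S : PForm (orthP F) V} (hS : S.Nondeg) (hne : τ ≠ RingHom.id K)
    (hfix : ∀ k, τ k = k ↔ ∃ c, algebraMap F K c = k)
    (hU : ∀ x y, algebraMap F K (S.h x y) = U.h x y + τ (U.h x y))
    (hq : ∀ x, algebraMap F K (S.q x) = U.h x x) (hn : 7 ≤ finrank K V) (H : Subgroup S.Isom)
    (hH : ∀ g ∈ U.E, ∃ g' ∈ H, ∀ x, g'.1 x = g.1 x) :
    S.E ≤ H ∨ ∀ g ∈ H, ∀ k : K, ∃ l : K, ∀ x, g.1 (k • x) = l • g.1 x := by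
  haveI : FiniteDimensional K V := Module.Finite.of_restrictScalars_finite F K V
  have h0 : ∀ x y, U.h x y = 0 → S.h x y = 0 := fun x y h => by simpa [h] using hU x y
  have hU' : U.Nondeg := fun x hx => hS x fun y => h0 _ _ (hx y)
  have h3 := iso3_unit hne U
  have hs : ∀ x, S.Sing x ↔ U.Sing x := fun x => by rw [orth_sing, unit_sing, ← hq, map_eq_zero]
  by_cases hc : ∀ g ∈ H, ∀ u, U.Sing u → ∀ k : K, g.1 (k • u) ∈ K ∙ g.1 u
  · exact .inr fun g hg => semi_of_sing hU' hne hn (g := g.1) (hc g⁻¹ (H.inv_mem hg))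
  left
  have tr : ∀ u u', u ≠ 0 → u' ≠ 0 → U.Sing u → U.Sing u' →
      ∃ n ∈ U.E, n.1 u = u' := fun u u' h h' h1 h2 =>
    exists_E_vec hU' h3 (by omega) h h' ((unitP τ hτ).Λ.sub_mem h2 h1)
  obtain ⟨h, hh, u, hu, k, h1, h2⟩ : ∃ h ∈ H, ∃ u, U.Sing u ∧ ∃ k : K, h.1 (k • u) ∉ K ∙ u ∧
      h.1 u = u := by
    push Not at hc
    obtain ⟨g, hg, u, hu, k, h1⟩ := hc
    have hu0 : u ≠ 0 := by rintro rfl; simp at h1
    obtain ⟨n, h2, h4⟩ := tr (g.1 u) u (by simpa) hu0 (by rwa [← hs, isom_sing, hs]) hu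
    obtain ⟨n', h5, h6⟩ := hH n h2
    refine ⟨n' * g, H.mul_mem h5 hg, u, hu, k, fun h7 => h1 ?_, by rw [isom_mul_apply, h6, h4]⟩
    obtain ⟨l, hl⟩ := Submodule.mem_span_singleton.1 h7
    rw [isom_mul_apply, h6, ← h4, ← map_smul, h4, n.1.injective.eq_iff] at hl
    exact hl ▸ Submodule.smul_mem _ _ (Submodule.mem_span_singleton_self _)
  have hu0 : u ≠ 0 := by rintro rfl; simp at h1
  have hu' := (hs u).2 hu
  let B : Submodule F V :=
    { carrier := {v | ∀ c : F, c • v ∈ BSet H hu'}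
      add_mem' := fun h1 h2 c => by rw [smul_add]; exact AddSubgroup.add_mem _ (h1 c) (h2 c)
      zero_mem' := fun c => by simp
      smul_mem' := fun a v h c => by rw [smul_smul]; exact h _ }
  have b1 : ∀ l : K, l • u ∈ B := fun l c => by
    rw [← smul_assoc]
    generalize c • l = l
    have e : S.ECond u (l • u) 0 := ⟨hu', h0 _ _ (by simp [hu.h_self]), by
      simpa [orth_sing] using (hs _).2 (hu.smul l)⟩
    obtain ⟨g, hg, h4⟩ := hH _ (U.eich_mem_E u 0 (τ l - l))
    refine ⟨0, e, (isom_ext fun x => ?_ : g = S.eich u (l • u) 0) ▸ hg⟩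
    rw [h4, transv_apply hu (by simp [mem_unitP_Λ, hτ]), eich_apply e, ← algebraMap_smul K (S.h u x),
      ← algebraMap_smul K (_ * _ : F)]
    simp only [map_mul, map_add, hU, h_smul_left, hτ, orthP_ε, unitP_ε, map_zero, map_one]
    module
  have b2 : ∀ g ∈ H, g.1 u = u → ∀ v ∈ B, g.1 v ∈ B := fun g hg e v hv c =>
    map_smul g.1 c v ▸ BSet_map (hv c) hg e
  have b3 : ∀ w v a, U.h u w = 0 → U.h u v = 0 ∨ w = u → ∀ z ∈ B, (U.eich w v a).1 z ∈ B :=
    fun w v a h4 h5 z hz => by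
      obtain ⟨g, hg, h6⟩ := hH _ (U.eich_mem_E w v a)
      refine h6 z ▸ b2 g hg ?_ z hz
      rw [h6]
      rcases h5 with h5 | rfl
      exacts [eich_apply_of_perp_perp (U.h_swap_zero h4) (U.h_swap_zero h5), eich_apply_self _ _ _]
  have b4 := b2 h hh h2 _ (b1 k)
  obtain ⟨z, z1, z2, z3⟩ : ∃ z ∈ B, U.h u z = 0 ∧ z ∉ K ∙ u := by
    by_cases h4 : U.h u (h.1 (k • u)) = 0
    · exact ⟨_, b4, h4, h1⟩
    obtain ⟨y, -, hy, hy'⟩ := exists_sing_top hU' h3 [u] [u] (by simp; omega)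
    rw [list_set_one] at hy'
    have h5 := hy u (by simp)
    have := b3 u y (U.q y) hu.h_self (.inr rfl) _ b4
    rw [eich_apply (.of_q hu h5), Submodule.sub_mem_iff_left _ (b1 _), B.add_mem_iff_right b4] at this
    exact ⟨_, this, by simp [h5], by rwa [Submodule.smul_mem_iff _ h4]⟩
  have b5 : ∀ y, U.h u y = 0 → y ∈ B := fun y hy =>
    irr hU' h3 hn hu B.toAddSubgroup (fun w v a _ h4 h5 => b3 w v a h4 (.inl h5)) z1 z2 z3 hy
  obtain ⟨v, v1, v2⟩ : ∃ v ∈ B, U.h u v ≠ 0 := by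
    obtain ⟨s, hs⟩ := exists_trace_one hτ hne
    obtain ⟨y, h4, h5⟩ := hU'.exists_perp_of_notMem' h1 s
    refine ⟨_, b2 _ (H.inv_mem hh) (by rw [← h2, isom_inv_apply_self, h2]) y
      (b5 y (U.mem_perp_singleton.1 h4)), fun e => ?_⟩
    have := hU (h.1 (k • u)) y
    rw [h5, hs, isom_h_left, h0 _ _ (by rw [h_smul_left, e, mul_zero])] at this
    simp at this
  have full : Full H u := full_of_BSet hu' (fun x hx => by
    have h4 := hU u x
    have h5 := hU u v
    rw [BSet_perp (by simpa using v1 1), map_zero] at h5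
    rw [hx, map_zero] at h4
    obtain ⟨c, hc⟩ := (hfix (U.h u x / U.h u v)).1 (by
      rw [map_div₀, eq_neg_of_add_eq_zero_right h4.symm, eq_neg_of_add_eq_zero_right h5.symm, neg_div_neg_eq])
    have := B.add_mem (b5 (x - c • v) (by
      rw [← algebraMap_smul K, map_sub, map_smul, hc, smul_eq_mul, div_mul_cancel₀ _ v2, sub_self]))
      (B.smul_mem c v1) 1
    simpa using this) fun a ha => by simp [show a = 0 from ha, eich_zero]
  refine S.E_le_iff.2 fun x y a e => ?_
  obtain rfl | hx := eq_or_ne x 0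
  · exact full_zero H y a
  obtain ⟨n, h4, rfl⟩ := tr u x hu0 hx hu ((hs x).1 e.sing)
  obtain ⟨n', h5, h6⟩ := hH n h4
  exact h6 u ▸ full.map h5 y a

theorem symp_extU {S : PForm (sympP F) V} (hS : S.Nondeg) (h2 : (2 : F) ≠ 0) (hne : τ ≠ RingHom.id K)
    (hfix : ∀ k, τ k = k ↔ ∃ c, algebraMap F K c = k) {θ : K} (hθ0 : θ ≠ 0) (hθ : τ θ = -θ)
    (hU : ∀ x y, algebraMap F K (S.h x y) = θ * U.h x y + τ (θ * U.h x y))
    (hn : 7 ≤ finrank K V) (H : Subgroup S.Isom) (hH : ∀ g ∈ U.E, ∃ g' ∈ H, ∀ x, g'.1 x = g.1 x) :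
    S.E ≤ H ∨ ∀ g ∈ H, ∀ k : K, ∃ l : K, ∀ x, g.1 (k • x) = l • g.1 x := by
  haveI : FiniteDimensional K V := Module.Finite.of_restrictScalars_finite F K V
  have h0 : ∀ x y, U.h x y = 0 → S.h x y = 0 := fun x y h => by simpa [h] using hU x y
  have inj := (algebraMap F K).injective
  have h2' : (2 : K) ≠ 0 := fun e => h2 (inj (by rw [map_ofNat, e, map_zero]))
  obtain ⟨s, hs⟩ := exists_trace_one hτ hne
  have hU' : U.Nondeg := fun x hx => hS x fun y => h0 _ _ (hx y)
  have h3 := iso3_unit hne U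
  by_cases hc : ∀ g ∈ H, ∀ u, U.Sing u → ∀ k : K, g.1 (k • u) ∈ K ∙ g.1 u
  · exact .inr fun g hg => semi_of_sing hU' hne hn (g := g.1) (hc g⁻¹ (H.inv_mem hg))
  left
  have tr : ∀ u u', u ≠ 0 → u' ≠ 0 → U.Sing u → U.Sing u' →
      ∃ n ∈ H, n.1 u = u' := fun u u' h h' h1 h2 => by
    obtain ⟨n, h4, h5⟩ := exists_E_vec hU' h3 (by omega) h h' ((unitP τ hτ).Λ.sub_mem h2 h1)
    obtain ⟨n', h6, h7⟩ := hH n h4
    exact ⟨n', h6, by rw [h7, h5]⟩
  obtain ⟨d, hd⟩ := (hfix (θ * θ)).1 (by simp [hθ])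
  have hd0 : d ≠ 0 := by rintro rfl; simp [hθ0] at hd
  obtain ⟨a, b, h1, h4, h5⟩ : ∃ a b, b ∉ K ∙ a ∧ S.h a b = 0 ∧ S.eich a 0 1 * S.eich b 0 (-d⁻¹) ∈ H := by
    push Not at hc
    obtain ⟨g, hg, u, hu, k, h1⟩ := hc
    have h4 : S.h u (θ • u) = 0 := h0 _ _ (by simp [hu.h_self])
    refine ⟨g.1 u, g.1 (θ • u), fun h => h1 ?_, by rw [isom_h, h4], ?_⟩
    · obtain ⟨c, hc⟩ := (hfix ((k + τ k) / 2)).1 (by simp [hτ, add_comm, map_ofNat])
      obtain ⟨c', hc'⟩ := (hfix ((k - τ k) / (2 * θ))).1 (by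
        simp only [map_div₀, map_sub, map_mul, hτ, hθ, map_ofNat]
        field_simp
        ring)
      rw [show k • u = c • u + c' • θ • u by
        rw [← algebraMap_smul K c, ← algebraMap_smul K c', hc, hc', smul_smul, ← add_smul]
        congr 1
        field_simp
        ring, map_add, map_smul, map_smul, ← algebraMap_smul K c, ← algebraMap_smul K c']
      exact Submodule.add_mem _ (Submodule.smul_mem _ _ (Submodule.mem_span_singleton_self _))
        (Submodule.smul_mem _ _ h)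
    obtain ⟨t, ht, h5⟩ := hH _ (U.eich_mem_E u 0 (-(2 * θ)))
    have h6 : t = S.eich u 0 1 * S.eich (θ • u) 0 (-d⁻¹) := isom_ext fun x => by
      rw [h5, transv_apply hu (by simp [mem_unitP_Λ, hθ, map_ofNat]), isom_mul_apply, symp_transv_apply,
        symp_transv_apply, map_add, (S.h u).map_smul, h4, ← algebraMap_smul K (_ * _ : F),
        ← algebraMap_smul K (_ * _ : F)]
      simp only [map_mul, map_add, hU, h_smul_left, hθ, unitP_ε, map_zero, map_one, map_neg, map_inv₀,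
        hd, smul_zero, add_zero, smul_smul, add_assoc, ← add_smul, sub_eq_add_neg, ← neg_smul]
      congr 2
      field_simp
      ring
    have := H.mul_mem (H.mul_mem hg ht) (H.inv_mem hg)
    rwa [h6, ← conj_mul, conj_eich, conj_eich, map_zero] at this
  obtain ⟨w, hw, hp, hw0⟩ := exists_sing_top hU' h3 [a, b] [a, b] (by simpa using hn)
  simp only [List.mem_cons, List.not_mem_nil, or_false, forall_eq_or_imp, forall_eq] at hp
  rw [list_set_two] at hw0
  have h6 : b ∉ Submodule.span K {a, w} := fun h => by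
    obtain ⟨x, y, e⟩ := Submodule.mem_span_pair.1 h
    obtain rfl | hy := eq_or_ne y 0
    · exact h1 (Submodule.mem_span_singleton.2 ⟨x, by simpa using e⟩)
    · exact hw0 (Submodule.mem_span_pair.2 ⟨-x / y, y⁻¹, by
        rw [← e, smul_add, smul_smul, smul_smul, inv_mul_cancel₀ hy, ← add_assoc, ← add_smul]
        simp [div_eq_mul_inv, mul_comm]⟩)
  have hb : b ∉ K ∙ w := fun h => h6 (Submodule.span_mono (by simp) h)
  have hw1 : w ≠ 0 := by rintro rfl; simp at hw0
  have hwb := U.h_swap_zero hp.2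
  let B := BSet H (S.symp_sing w)
  have b1 : (-d⁻¹) • b ∈ B := by
    obtain ⟨v, h7, h8⟩ := hU'.exists_perp_of_notMem h6 (-1)
    rw [mem_perp_pair] at h7
    obtain ⟨n, h9, h10⟩ := hH _ (U.eich_mem_E w v (U.q v))
    have h11 := H.mul_mem (H.inv_mem h5) (H.mul_mem (H.mul_mem h9 h5) (H.inv_mem h9))
    rw [← conj_mul, conj_eich, conj_eich, map_zero, h10, h10, eich_apply_of_perp_perp
      (U.h_swap_zero hp.1) (U.h_swap_zero h7.1), eich_apply_of_perp (.of_q hw h7.2) hwb, h8,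
      mul_inv_rev, mul_assoc, inv_mul_cancel_left, transv_inv (S.symp_sing _) (AddSubgroup.mem_top _)] at h11
    have e := sec (S := S) (u := w) (v := (-d⁻¹) • b) (by simp [h0 _ _ hwb]) (-d⁻¹)
    refine ⟨_, e, ?_⟩
    convert h11 using 1
    ext1 x
    rw [isom_mul_apply, symp_transv_apply, symp_transv_apply, eich_apply e]
    simp only [unitP_ε, map_add, map_smul, mul_neg, mul_one, neg_smul, one_smul, sub_neg_eq_add,
      symp_h_self, h0 _ _ hp.2, LinearMap.add_apply, sympP_ε, map_neg, LinearMap.neg_apply,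
      LinearMap.smul_apply, smul_eq_mul]
    module
  have b2 : ∀ y, U.h w y = 0 → y ∈ B := fun y hy =>
    irr hU' h3 hn hw B (fun x v a _ h4 h5 z hz => by
      obtain ⟨g, hg, h6⟩ := hH _ (U.eich_mem_E x v a)
      exact h6 z ▸ BSet_map hz hg (by
        rw [h6, eich_apply_of_perp_perp (U.h_swap_zero h4) (U.h_swap_zero h5)])) b1
      (by rw [← algebraMap_smul K, map_smul, hwb, smul_zero])
      (by rwa [← algebraMap_smul K, Submodule.smul_mem_iff _ (by simpa)]) hy
  have b3 : ∀ c, S.eich w 0 c ∈ H := fun c => by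
    obtain ⟨y, h7, h8⟩ := hU'.exists_perp_of_notMem' hb (s * algebraMap F K c / (2 * θ))
    convert eich_comm_mem (b2 b hwb) (b2 y (U.mem_perp_singleton.1 h7)) using 2
    refine inj ?_
    simp only [map_sub, map_mul, hU, h8, sympP_ε, RingHom.id_apply, map_neg, map_one, map_div₀, hθ,
      map_ofNat, (hfix _).2 ⟨c, rfl⟩]
    field_simp
    linear_combination (-2 * algebraMap F K c) * hs
  obtain ⟨w', Hy⟩ := hU'.exists_isHyp hw hw1
  have h7 : S.h w' w = 0 := inj (by simp [hU, Hy.h_fe, hθ])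
  have full : Full H w := full_of_BSet trivial (fun x hx => by
    have h8 := hU w x
    rw [hx, map_zero, map_mul, hθ] at h8
    obtain ⟨c, hc⟩ := (hfix (U.h w x)).1 (mul_left_cancel₀ hθ0 (by linear_combination h8))
    obtain ⟨n, h9, h10⟩ := tr w w' hw1 Hy.f_ne hw Hy.sing_f
    have h11 := eich_conj (b3 (c / (2 * d))) h9
    rw [h10, map_zero] at h11
    have h12 := b2 (θ • w) (by simp [hw.h_self])
    have h13 := BSet_map (hu' := S.symp_sing w) h12 h11 (by simp [symp_transv_apply, h7])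
    rw [symp_transv_apply, show S.h w' (θ • w) = 2 * d from inj (by
      simp [hU, Hy.h_fe, hθ, hd, two_mul]), div_mul_cancel₀ _ (mul_ne_zero h2 hd0),
      AddSubgroup.add_mem_cancel_left _ h12] at h13
    simpa using B.add_mem (b2 (x - c • w') (by
      rw [← algebraMap_smul K, map_sub, map_smul, hc, Hy.h_ef, smul_eq_mul, mul_one, sub_self])) h13)
    fun a _ => b3 a
  obtain ⟨n, h9, h10⟩ := tr w (θ • w') hw1 (smul_ne_zero hθ0 Hy.f_ne) hw (Hy.sing_f.smul θ)
  exact S.E_le_iff.2 fun x v a _ => full_all_of_pair hS trivial trivial full (h10 ▸ full.map h9)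
    (by rw [show S.h w (θ • w') = 2 * d from inj (by simp [hU, Hy.h_ef, hθ, hd, two_mul])]
        exact mul_ne_zero h2 hd0) x v a

end H29
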