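import Cfsg.Agent.H29.Ten
import Cfsg.Agent.H29.ExtS

/-! Overgroups of `SL(U) ⊗ SL(W)` in `SL(U ⊗ W)`, part 2: the maximal intersection argument for the
images of the subspaces `U ⊗ w`, and the maximality `ten_max` of tensor product subgroups. -/

set_option autoImplicit false
set_option linter.unusedSectionVars false

namespace H29

open Module H11 Matrix Cfsg.Geo
open scoped Kronecker

variable {F : Type*} [Field F] {κ μ : Type} [Fintype κ] [DecidableEq κ] [Fintype μ] [DecidableEq μ]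
  {H : Subgroup ((κ × μ → F) ≃ₗ[F] (κ × μ → F))} {w : μ → F} {φ : Dual F (μ → F)}
  {X D : Submodule F (κ × μ → F)} {d : ℕ}

/-- the level of `H` consists of scalars -/
structure NL (H : Subgroup ((κ × μ → F) ≃ₗ[F] (κ × μ → F))) : Prop where
  hW : Lv H .id
  three : 3 ≤ Fintype.card μ
  lt : Fintype.card κ < Fintype.card μ
  sc : ∀ E, Lv H E → ∃ c : F, ∀ x, E x = c • x

/-- images of the subspaces `U ⊗ w` -/
def Wm (H : Subgroup ((κ × μ → F) ≃ₗ[F] (κ × μ → F))) (X : Submodule F (κ × μ → F)) : Prop :=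
  ∃ h ∈ H, ∃ w, w ≠ 0 ∧ X = (LinearMap.range (tp w)).map h.toLinearMap

/-- distinct members meet in dimension at most `d` -/
def Mx (H : Subgroup ((κ × μ → F) ≃ₗ[F] (κ × μ → F))) (d : ℕ) : Prop :=
  ∀ X Y, Wm H X → Wm H Y → d < finrank F (X ⊓ Y : Submodule F _) → X = Y

theorem map_map_symm (g : (κ × μ → F) ≃ₗ[F] (κ × μ → F)) (X : Submodule F (κ × μ → F)) :
    (X.map g.symm.toLinearMap).map g.toLinearMap = X := by
  ext; simp [Submodule.mem_map_equiv]

theorem finrank_tp (hw : w ≠ 0) :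
    finrank F (LinearMap.range (tp (κ := κ) w)) = Fintype.card κ := by
  rw [LinearMap.finrank_range_of_inj (tp_inj hw)]; simp

theorem Wm.finrank (h : Wm H X) : finrank F X = Fintype.card κ := by
  obtain ⟨g, -, w, hw, rfl⟩ := h
  rw [LinearEquiv.finrank_map_eq, finrank_tp hw]

theorem wm_tp (hw : w ≠ 0) : Wm H (LinearMap.range (tp w)) :=
  ⟨1, H.one_mem, w, hw, (Submodule.map_id _).symm⟩

theorem Wm.map (h : Wm H X) {g : (κ × μ → F) ≃ₗ[F] (κ × μ → F)} (hg : g ∈ H) :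
    Wm H (X.map g.toLinearMap) := by
  obtain ⟨k, hk, w, hw, rfl⟩ := h
  exact ⟨g * k, H.mul_mem hg hk, w, hw, (Submodule.map_comp _ _ _).symm⟩

theorem Wm.eq_tp (h : Wm H X) (hw : w ≠ 0) (e : ∀ u, tp w u ∈ X) : X = LinearMap.range (tp w) :=
  (Submodule.eq_of_le_of_finrank_eq (by rintro _ ⟨u, rfl⟩; exact e u)
    (by rw [h.finrank, finrank_tp hw])).symm

theorem Mx.nml (hM : Mx H d) (hX : Wm H X) (hD : D ≤ X) (hd : d ≤ finrank F D)
    {g : (κ × μ → F) ≃ₗ[F] (κ × μ → F)} (hg : g ∈ H) (h1 : ∀ y ∈ D, g y = y) {x y : κ × μ → F}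
    (hy : y ∈ X) (e : g y = x) (hx : x ∈ X) (hxD : x ∉ D) : ∀ x ∈ X, g x ∈ X := fun z hz => by
  rw [hM X _ hX (hX.map hg) (hd.trans_lt (Submodule.finrank_lt_finrank_of_lt (lt_of_le_of_ne
    (le_inf hD fun y hy => ⟨y, hD hy, h1 y hy⟩) fun e' => hxD (e' ▸ ⟨hx, y, hy, e⟩))))]
  exact ⟨z, hz, rfl⟩

namespace NL
variable (h : NL H)
include h

theorem three' : 3 ≤ finrank F (μ → F) := by simpa using h.three

theorem dual3 {k : (κ × μ → F) →ₗ[F] (κ × μ → F)} (hk : In H k) (hφ : φ ≠ 0)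
    (h1 : ∀ x, ct φ x = 0 → k x = 0) (h2 : ∀ x, ct φ (k x) = 0) :
    ∃ w, ∀ x, k x = tp w (ct φ x) := by
  obtain ⟨y, hy⟩ := ex_one hφ
  have h3 : ∀ x, k x = k (tp y (ct φ x)) := fun x => by
    rw [← sub_eq_zero, ← map_sub]; exact h1 _ (by simp [hy])
  have h4 : ∀ j, ∃ c : F, ∀ u, ct (.proj j) (k (tp y u)) = c • u := fun j => by
    obtain ⟨v, a1, a2, a3⟩ := ex_ker2 h.three' φ (.proj j)
    exact h.sc (ct (.proj j) ∘ₗ k ∘ₗ tp y) (lv_of h.hW h.three ((h.hW v _ a3).comm hk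
      (fun x => by rw [h1 (lev _ _ _ _) (by simp [a2]), h3]; simp)
      (fun x => by simp only [lev_apply, LinearMap.id_apply, ct_tp, a3, zero_smul, map_zero]) fun x => h1 _ (by simp [a2])) a1 hφ a2)
  choose c hc using h4
  refine ⟨c, fun x => funext fun p => ?_⟩
  rw [h3, tp_apply, mul_comm]
  exact congrFun (hc p.2 _) p.1

theorem pureC (hX : Wm H X) (hφ : φ ≠ 0) (h1 : ∀ x ∈ X, ct φ x = 0) :
    ∃ w, w ≠ 0 ∧ X = LinearMap.range (tp w) := by
  obtain ⟨v, a1, a2, -⟩ := ex_ker2 h.three' φ φ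
  obtain ⟨y, hy⟩ := ex_one hφ
  by_contra! hn
  have hX' := hX
  obtain ⟨g, hg, w, hw, e⟩ := hX
  obtain ⟨η, hη⟩ := ex_one' (F := F) hw
  refine hn v a1 (hX'.eq_tp a1 fun u => e ▸ ⟨g.symm (tp v u), ⟨_, (eq_tp hη fun ψ hψ => ?_).symm⟩,
    g.apply_symm_apply _⟩)
  have b1 : ∀ u, g (tp w u) ∈ X := fun u => e ▸ ⟨_, ⟨u, rfl⟩, rfl⟩
  let n := g.toLinearMap ∘ₗ lev .id w ψ ∘ₗ g.symm.toLinearMap
  have b2 : In H n := (h.hW w ψ hψ).conj hg fun x => by simp [n]
  obtain ⟨w', b3⟩ := h.dual3 (k := n ∘ₗ lev .id v φ) (b2.comm (h.hW v φ a2)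
    (fun x => by simp [n, h1 _ (b1 _)]) (fun x => by simp [n, hψ]) fun x => by
      simp [n, h1 _ (b1 _)]) hφ (fun x hx => by simp [hx]) fun x => h1 _ (b1 _)
  have b4 : ∀ u, g (tp w (ct ψ (g.symm (tp v u)))) = tp w' u := fun u => by
    simpa [n, hy] using b3 (tp y u)
  by_cases b5 : w' = 0
  · exact tp_inj hw (g.injective (by simp [b4, b5]))
  · exact (hn w' b5 (hX'.eq_tp b5 fun u => b4 u ▸ b1 _)).elim

theorem pureD (hM : Mx H d) (hX : Wm H X) (hD : D ≤ X) (hd : d ≤ finrank F D) (hφ : φ ≠ 0)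
    (h1 : ∀ y ∈ D, ct φ y = 0) {x : κ × μ → F} (hx : x ∈ X) (hxD : x ∉ D) (h2 : ct φ x = 0) :
    ∃ w, w ≠ 0 ∧ X = LinearMap.range (tp w) := by
  refine h.pureC hX hφ fun z hz => by_contra fun h3 => ?_
  have h4 : ((LinearMap.ker φ).map (tp.flip (ct φ z))) ≤ X := by
    rintro _ ⟨v, hv, rfl⟩
    obtain ⟨g, hg, e⟩ := h.hW v φ hv
    have := hM.nml hX hD hd hg (fun y hy => by simp [e, h1 y hy]) hx (by simp [e, h2]) hx hxD z hz
    rw [e] at this
    exact (X.add_mem_iff_right hz).1 this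
  have h5 := LinearMap.finrank_range_add_finrank_ker φ
  have h6 := (LinearMap.range φ).finrank_le
  have h7 := h.lt
  rw [← Submodule.eq_of_le_of_finrank_le h4 (by
    rw [hX.finrank, ← (Submodule.equivMapOfInjective _ (tp_inj' h3) _).finrank_eq]
    simp only [finrank_fintype_fun_eq_card, finrank_self] at h5 h6; omega)] at hz
  obtain ⟨v, hv, e⟩ := hz
  exact h3 (by rw [← e]; simp [show φ v = 0 from hv])

theorem inj (hM : Mx H d) (hX : Wm H X) (hw : w ≠ 0) (hne : X ≠ LinearMap.range (tp w))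
    (h0 : 0 < d) (hd : d ≤ finrank F (X ⊓ LinearMap.range (tp w) : Submodule F _))
    {x : κ × μ → F} (hx : x ∈ X) (hx' : x ∉ LinearMap.range (tp w)) (h1 : φ w = 0)
    (h2 : ct φ x = 0) : φ = 0 := by_contra fun hφ => by
  obtain ⟨v, hv, rfl⟩ := h.pureD hM hX inf_le_left hd hφ
    (by rintro _ ⟨-, u, rfl⟩; simp [h1]) hx (fun e => hx' e.2) h2
  obtain ⟨_, ⟨⟨u', e⟩, u, rfl⟩, hz⟩ := Submodule.exists_mem_ne_zero_of_ne_bot
    (p := LinearMap.range (tp v) ⊓ LinearMap.range (tp (κ := κ) w)) (fun e => by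
      rw [e, finrank_bot] at hd; omega)
  obtain ⟨η, hη⟩ := ex_one' (F := F) hw
  have a1 : u = η v • u' := by simpa [hη] using congrArg (ct η) e.symm
  have a2 : v = η v • w := tp_inj' (u := u') (by rintro rfl; simp [a1] at hz) (by
    simp [e, a1])
  refine hne (hX.eq_tp hw fun z => ⟨(η v)⁻¹ • z, ?_⟩)
  have : η v ≠ 0 := fun e => hv (by rw [a2, e, zero_smul])
  conv_lhs => rw [a2]
  simp [smul_smul, this, hη]

theorem step (hM : Mx H (d + 1)) : Mx H d := by
  have main : ∀ w X, w ≠ 0 → Wm H X →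
      d < finrank F (X ⊓ LinearMap.range (tp w) : Submodule F _) → X = LinearMap.range (tp w) := by
    intro w X hw hX hd
    by_contra hne
    have hX' := hX
    obtain ⟨g, hg, v, hv, e⟩ := hX
    set R := LinearMap.range (tp (κ := κ) w)
    set R' := LinearMap.range (tp (κ := κ) v)
    have hY : Wm H (R.map g.symm.toLinearMap) := (wm_tp hw).map (H.inv_mem hg)
    set Y := R.map g.symm.toLinearMap
    have a0 : ∀ x, x ∈ Y ↔ g x ∈ R := fun x => by simp [Y, Submodule.mem_map_equiv]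
    have a1 : Y ≠ R' := fun e' => hne (by rw [e, ← e', map_map_symm])
    have a2 : d + 1 ≤ finrank F (Y ⊓ R' : Submodule F _) := by
      rw [← g.finrank_map_eq, Submodule.map_inf _ g.injective, ← e, map_map_symm]
      rwa [inf_comm]
    obtain ⟨x, hx, hx'⟩ : ∃ x ∈ Y, x ∉ R' := by
      by_contra! hh
      exact a1 (Submodule.eq_of_le_of_finrank_eq hh (by rw [hY.finrank, finrank_tp hv]))
    obtain ⟨_, ⟨hz, u, rfl⟩, hz0⟩ := Submodule.exists_mem_ne_zero_of_ne_bot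
      (p := Y ⊓ R') (fun e => by rw [e, finrank_bot] at a2; omega)
    obtain ⟨⟨φ, hφ⟩, b1⟩ : u ∈ LinearMap.range
        ((ct.flip x).domRestrict (LinearMap.ker (Dual.eval F _ v))) := by
      have h5 := LinearMap.finrank_range_add_finrank_ker (Dual.eval F _ v)
      have h6 := (LinearMap.range (Dual.eval F _ v)).finrank_le
      have h7 := h.lt
      rw [Submodule.eq_top_of_finrank_eq (S := LinearMap.range _) (le_antisymm
        (Submodule.finrank_le _) ?_)]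
      · trivial
      rw [LinearMap.finrank_range_of_inj ((injective_iff_map_eq_zero _).2
        fun φ hφ => Subtype.ext (h.inj (φ := φ.1) hM hY hv a1 d.succ_pos a2 hx hx' φ.2 hφ))]
      simp only [Subspace.dual_finrank_eq, finrank_fintype_fun_eq_card, finrank_self] at h5 h6 ⊢
      omega
    replace hφ : φ v = 0 := hφ
    replace b1 : ct φ x = u := b1
    obtain ⟨y₀, hy₀⟩ := ex_one (φ := φ) (by rintro rfl; simp [← b1] at hz0)
    obtain ⟨k, hk, ek⟩ := h.hW v φ hφ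
    have b2 := hM.nml hY inf_le_left a2 hk (by rintro _ ⟨-, u, rfl⟩; simp [ek, hφ])
      (Y.sub_mem hx hz) (by simp [ek, hφ, b1]) hx fun e => hx' e.2
    let m := g.toLinearMap ∘ₗ lev .id v φ ∘ₗ g.symm.toLinearMap
    have c1 : ∀ x, m x ∈ X := fun x => e ▸ ⟨_, ⟨_, rfl⟩, rfl⟩
    have c2 : ∀ u, m (tp w u) ∈ R := fun u => by
      have h1 : g.symm (tp w u) ∈ Y := ⟨_, ⟨u, rfl⟩, rfl⟩
      have := b2 _ h1
      rw [ek] at this
      exact (a0 _).1 ((Y.add_mem_iff_right h1).1 this)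
    have c3 : ∀ x, m (m x) = 0 := fun x => by simp [m, hφ]
    obtain ⟨t, ht, et⟩ : In H m := (h.hW v φ hφ).conj hg fun x => by simp [m]
    have c4 : ∀ y u, m (tp y u) ∈ R := fun y u' => by
      obtain ⟨ψ, d1, d2, d3⟩ := ex_dual2 h.three' w y
      obtain ⟨y₁, hy₁⟩ := ex_one d1
      have d4 : ∀ x ∈ R, ct ψ x = 0 := by rintro _ ⟨u, rfl⟩; simp [d2]
      have d5 : ∀ u, ct ψ (t (tp w u)) = 0 := fun u => by rw [et, map_add, d4 _ (c2 u)]; simp [d2]
      let n := t.toLinearMap ∘ₗ lev .id w ψ ∘ₗ (LinearMap.id - m)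
      have d0 : ∀ x, n (t x) = t (lev .id w ψ x) := fun x => by simp [n, et x, c3]
      have d6 : In H n := (h.hW w ψ d2).conj ht d0
      obtain ⟨w', d7⟩ := h.dual3 (k := n ∘ₗ lev .id y ψ) (d6.comm (h.hW y ψ d3)
        (fun x => by simp [n, d5, -map_sub]) (fun x => (d0 _).trans (by simp [d2]))
        fun x => by simp [n, d5, -map_sub]) d1 (fun x hx => by simp [hx]) fun x => d5 _
      have d8 : ∀ u, t (tp w (ct ψ (m (tp y u)))) = -tp w' u := fun u => by
        have := d7 (tp y₁ u)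
        simp only [hy₁, ct_tp, one_smul, lev_apply, LinearMap.comp_apply, LinearMap.id_apply] at this
        simp [← this, n, d3]
      by_cases d9 : w' = 0
      · by_contra d10
        exact d1 (h.inj hM hX' hw hne d.succ_pos hd (c1 _) d10 d2
          (tp_inj hw (t.injective (by simp [d8, d9]))))
      have e1 : Function.Surjective (ct ψ ∘ₗ m ∘ₗ tp y) := LinearMap.injective_iff_surjective.1
        (LinearMap.ker_eq_bot.1 (LinearMap.ker_eq_bot'.2 fun u hu => tp_inj d9 (by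
          have := d8 u
          rw [show ct ψ (m (tp y u)) = 0 from hu] at this
          simpa using this.symm)))
      have e2 : Function.Injective ((ct ψ).domRestrict X) :=
        (LinearMap.injective_iff_surjective_of_finrank_eq_finrank (by simp [hX'.finrank])).2
          fun u => (e1 u).elim fun a ha => ⟨⟨_, c1 _⟩, ha⟩
      have e3 := e2 (a₁ := ⟨g (tp v u), e ▸ ⟨_, ⟨u, rfl⟩, rfl⟩⟩) (a₂ := 0)
        (by simpa using d4 _ ((a0 _).1 hz))
      exact (hz0 (by simpa using e3)).elim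
    have c5 := LinearMap.congr_fun (tp_ext (A := R.mkQ ∘ₗ m) (B := 0) fun y u => by
      simpa using c4 y u)
    refine hne (Submodule.eq_of_le_of_finrank_eq ?_ (by rw [hX'.finrank, finrank_tp hw]))
    rw [e]
    rintro _ ⟨_, ⟨u, rfl⟩, rfl⟩
    simpa [m, hy₀] using c5 (g (tp y₀ u))
  rintro X _ hX ⟨g, hg, w, hw, rfl⟩ hd
  rw [← main w (X.map g.symm.toLinearMap) hw (hX.map (H.inv_mem hg)), map_map_symm]
  rwa [← g.finrank_map_eq, Submodule.map_inf _ g.injective, map_map_symm]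

theorem pure [Nonempty κ] (hX : Wm H X) : ∃ w, w ≠ 0 ∧ X = LinearMap.range (tp w) := by
  have hM : Mx H 0 := Nat.decreasingInduction' (P := Mx H) (fun _ _ _ => h.step)
    (Nat.zero_le (finrank F (κ × μ → F))) fun X Y _ _ hd =>
      (hd.not_ge (Submodule.finrank_le _)).elim
  obtain ⟨x, hx, hx0⟩ := Submodule.exists_mem_ne_zero_of_ne_bot (p := X) fun e => by
    have := hX.finrank
    rw [e, finrank_bot] at this
    exact Fintype.card_ne_zero this.symm
  obtain ⟨φ, h1, h2⟩ := Submodule.exists_mem_ne_zero_of_ne_bot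
    (LinearMap.ker_ne_bot_of_finrank_lt (f := ct.flip x) (by simpa using h.lt))
  exact h.pureD hM hX bot_le (Nat.zero_le _) h2 (fun y hy => by simp [show y = 0 from hy]) hx
    (by simpa) h1

end NL

theorem ten_dich [Nontrivial κ] (hW : Lv H .id) (hU : HU H) (hb : 3 ≤ Fintype.card μ)
    (hlt : Fintype.card κ < Fintype.card μ)
    (hq : (∃ c : F, c ≠ 0 ∧ c ≠ 1) ∨ 3 ≤ Fintype.card κ) :
    (∀ p q, p ≠ q → ∀ c : F, HasTv H (c • LinearMap.proj q) (Pi.single p 1)) ∨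
      ∀ g ∈ H, ∀ w, ∃ w', ∀ x, (∃ u, tp w u = x) ↔ ∃ u, tp w' u = g x := by
  by_cases h : ∀ E, Lv H E → ∃ c : F, ∀ x, E x = c • x
  · refine .inr fun g hg w => ?_
    by_cases hw : w = 0
    · exact ⟨0, fun x => by simp [hw, eq_comm (a := (0 : κ × μ → F))]⟩
    obtain ⟨w', -, e⟩ := (NL.mk hW hb hlt h).pure ((wm_tp hw).map hg)
    refine ⟨w', fun x => Iff.trans ?_ (SetLike.ext_iff.1 e (g x))⟩
    simp [Submodule.mem_map_equiv]
  push Not at h
  obtain ⟨E, h1, h2⟩ := h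
  obtain ⟨u, ψ, a1, a2, a3, a4⟩ := lv_rank hU hq h1 (by
    by_contra! h3
    obtain ⟨c, hc⟩ := kern (K := F) (exists_notMem_line (by simpa using Fintype.one_lt_card))
      E.toAddMonoidHom fun u => Submodule.mem_span_singleton.1 (h3 u)
    exact (h2 c).elim fun x hx => hx (hc x))
  exact .inl (tv_of_lv hb (lv_flag hU a1 a2 a3 a4))

theorem kron_mulVec_tp (A : Matrix κ κ F) (B : Matrix μ μ F) (w : μ → F) (u : κ → F) :
    (A ⊗ₖ B) *ᵥ tp w u = tp (B *ᵥ w) (A *ᵥ u) := by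
  ext p
  simp only [mulVec, dotProduct, tp_apply, kronecker_apply, Fintype.sum_prod_type,
    Finset.sum_mul_sum]
  exact Finset.sum_congr rfl fun _ _ => Finset.sum_congr rfl fun _ _ => by
    simp only [kroneckerMap_apply]; ring

theorem eq_kron_of_pure [Nonempty μ] {A : Matrix (κ × μ) (κ × μ) F}
    (h : ∀ w u, ∃ v, tp w v = A *ᵥ tp w u) : ∃ Y : Matrix κ κ F, Y ⊗ₖ (1 : Matrix μ μ F) = A := by
  obtain ⟨o⟩ := ‹Nonempty μ›
  have h1 : ∀ k l i j, l ≠ j → A (k, l) (i, j) = 0 := fun k l i j hl => by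
    obtain ⟨v, hv⟩ := h (Pi.single j 1) (Pi.single i 1)
    simpa [tp_single, tp_apply, hl] using (congrFun hv (k, l)).symm
  refine ⟨of fun k i => A (k, o) (i, o), ?_⟩
  ext ⟨k, l⟩ ⟨i, j⟩
  by_cases hl : l = j
  · subst hl
    by_cases ho : l = o
    · simp [ho]
    obtain ⟨v, hv⟩ := h (Pi.single l 1 + Pi.single o 1) (Pi.single i 1)
    have a1 := congrFun hv (k, l)
    have a2 := congrFun hv (k, o)
    simp only [map_add, LinearMap.add_apply, tp_single, mulVec_add, mulVec_single_one] at a1 a2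
    simp [tp_apply, ho, Ne.symm ho, h1 _ _ _ _ ho, h1 _ _ _ _ (Ne.symm ho)] at a1 a2
    simp [← a1, ← a2]
  · simp [hl, h1 _ _ _ _ hl]

theorem ten_max [Fintype F] {ι : Type} [Fintype ι] [DecidableEq ι] {a b : ℕ} (ha : 2 ≤ a)
    (hab : a < b) (hq : ¬ (a = 2 ∧ Fintype.card F = 2)) (e : ι ≃ Fin a × Fin b) (P : GL ι F) :
    IsMaximalIn (specialLinear ι F) (tensorProductSubgroup a b e P ⊓ specialLinear ι F) := by
  have hc : Fintype.card ι = a * b := by simp [Fintype.card_congr e]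
  haveI : Nontrivial (Fin a) := Fin.nontrivial_iff_two_le.2 ha
  haveI : Nontrivial (Fin b) := Fin.nontrivial_iff_two_le.2 (by omega)
  refine isMaximalIn_SL _ (SetLike.not_le_iff_exists.1 fun hle => (big_SL (F := F) (ι := ι)
    (by nlinarith)).not_kr (T := coordT e P) (by omega) (by omega) (by nlinarith)
      fun g hg => kr_self e P g (hle hg)) fun L h1 _ => ?_
  let T := coordT e P
  let L' := L.comap (ΦU T).toMonoidHom
  have h2 : ∀ (u : Fin a → F) (ψ : Dual F _) (w : Fin b → F) (φ : Dual F _), ψ u = 0 → φ w = 0 →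
      ∃ g ∈ L'.map glEquiv.toMonoidHom, ∀ y x, g (tp y x) = tp (y + φ y • w) (x + ψ x • u) := by
    intro u ψ w φ a1 a2
    obtain ⟨A, b1, b2⟩ := exists_tv_SL ψ u a1
    obtain ⟨B, b3, b4⟩ := exists_tv_SL φ w a2
    refine ⟨_, ⟨kronU A B, h1 ⟨mem_tensorProductSubgroup.2 ⟨A, B, rfl⟩, mem_specialLinear.2 ?_⟩,
      rfl⟩, fun y x => (kron_mulVec_tp _ _ _ _).trans (by rw [b2, b4])⟩
    exact (det_Φ _ _).trans ((det_kronecker _ _).trans (by
      simp [mem_specialLinear.1 b1, mem_specialLinear.1 b3]))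
  refine (ten_dich (H := L'.map glEquiv.toMonoidHom) (fun w φ h0 => ?_) (fun u ψ h0 => ?_)
    (by simp; omega) (by simpa) ?_).imp (fun h g hg => ?_) fun h => Kr.le fun g hg => ?_
  · obtain ⟨g, hg, e⟩ := h2 0 0 w φ rfl h0
    exact ⟨g, hg, LinearMap.congr_fun (tp_ext (A := g.toLinearMap) (B := .id + lev .id w φ)
      fun y x => by simp [e])⟩
  · simpa using h2 u ψ 0 0 h0 rfl
  · by_cases h : a = 2
    · exact .inl (by simpa using ex_idx2 (by
        have := Fintype.one_lt_card (α := F); omega) (0 : F) 1)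
    · exact .inr (by simp; omega)
  · simpa [L'] using sl_le_of_tv L' h (x := (ΦU T).symm g) (mem_specialLinear.2 (by
      rw [← det_Φ T, ← coe_ΦU, MulEquiv.apply_symm_apply, mem_specialLinear.1 hg]))
  · obtain ⟨g, rfl⟩ := (ΦU T).surjective g
    obtain ⟨A, B, e⟩ := nml_kron (g := g) fun X => eq_kron_of_pure fun w u => by
      obtain ⟨w', h3⟩ := h _ ⟨g⁻¹, L'.inv_mem hg, rfl⟩ w
      obtain ⟨v, hv⟩ := (h3 _).1 ⟨u, rfl⟩
      refine (h3 _).2 ⟨X *ᵥ v, ?_⟩
      change _ = (g⁻¹ : GL _ F).1 *ᵥ _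
      rw [← mulVec_inv_mulVec g (tp w u), cjA_mulVec, inv_mulVec_mulVec]
      change _ = _ *ᵥ (glEquiv.toMonoidHom g⁻¹) _
      rw [← hv, kron_mulVec_tp, one_mulVec]
    exact ⟨A, B, congrArg _ (Units.ext e)⟩

end H29
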