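import Cfsg.Agent.H29.Ext

/-! Overgroups of `SL(U) ⊗ SL(W)` in `SL(U ⊗ W)`, part 1: pure tensors `tp`, contractions `ct`,
the elements `1 + E ⊗ w φ` (`lev`), the level `Lv H E` and `sl_of_lv` (a non-scalar level gives all
elementary transvections). -/

set_option autoImplicit false
set_option linter.unusedSectionVars false

namespace H29

open Module H11

variable {F : Type*} [Field F]

section In
variable {V : Type*} [AddCommGroup V] [Module F V] {H : Subgroup (V ≃ₗ[F] V)} {m n z : V →ₗ[F] V}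

/-- `1 + n ∈ H` -/
def In (H : Subgroup (V ≃ₗ[F] V)) (n : V →ₗ[F] V) : Prop := ∃ g ∈ H, ∀ x, g x = x + n x

theorem In.congr (h : In H n) (e : ∀ x, m x = n x) : In H m := by
  rwa [LinearMap.ext e]

theorem In.comm (hm : In H m) (hn : In H n) (hz : ∀ x, z x = m (n x) - n (m x))
    (h1 : ∀ x, m (z x) = 0) (h2 : ∀ x, n (z x) = 0) : In H z := by
  obtain ⟨g, hg, e⟩ := hm
  obtain ⟨k, hk, e'⟩ := hn
  refine ⟨(k * g)⁻¹ * (g * k), H.mul_mem (H.inv_mem (H.mul_mem hk hg)) (H.mul_mem hg hk),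
    fun x => (k * g).injective ?_⟩
  rw [← LinearEquiv.mul_apply, mul_inv_cancel_left]
  simp only [LinearEquiv.mul_apply, e, e', map_add, h1, h2, map_zero]
  rw [hz]; abel

theorem In.conj (hn : In H n) {g : V ≃ₗ[F] V} (hg : g ∈ H) (e : ∀ x, m (g x) = g (n x)) :
    In H m := by
  obtain ⟨k, hk, e'⟩ := hn
  refine ⟨g * k * g⁻¹, H.mul_mem (H.mul_mem hg hk) (H.inv_mem hg), fun x => ?_⟩
  obtain ⟨y, rfl⟩ := g.surjective x
  simp [LinearEquiv.mul_apply, e, e']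

theorem In.sub (hm : In H m) (hn : In H n) (h : ∀ x, n (m x) = n (n x)) : In H (m - n) := by
  obtain ⟨g, hg, e⟩ := hm
  obtain ⟨k, hk, e'⟩ := hn
  refine ⟨k⁻¹ * g, H.mul_mem (H.inv_mem hk) hg, fun x => k.injective ?_⟩
  rw [← LinearEquiv.mul_apply, mul_inv_cancel_left]
  simp only [e, e', map_add, map_sub, LinearMap.sub_apply, h]
  abel

theorem ex_ker2 [FiniteDimensional F V] (h : 3 ≤ finrank F V) (φ η : Dual F V) :
    ∃ w, w ≠ 0 ∧ φ w = 0 ∧ η w = 0 := by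
  obtain ⟨w, h1, h2⟩ := Submodule.exists_mem_ne_zero_of_ne_bot
    (LinearMap.ker_ne_bot_of_finrank_lt (f := φ.prod η) (by simp; omega))
  exact ⟨w, h2, by simpa using h1⟩

theorem ex_dual2 [FiniteDimensional F V] (h : 3 ≤ finrank F V) (w y : V) :
    ∃ φ : Dual F V, φ ≠ 0 ∧ φ w = 0 ∧ φ y = 0 :=
  ex_ker2 (by simpa using h) (Dual.eval F V w) (Dual.eval F V y)

theorem ex_one {φ : Dual F V} (h : φ ≠ 0) : ∃ y, φ y = 1 := by
  obtain ⟨y, hy⟩ := DFunLike.ne_iff.1 h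
  exact ⟨(φ y)⁻¹ • y, by simp [inv_mul_cancel₀ (show φ y ≠ 0 from hy)]⟩

theorem ex_one' {w : V} (h : w ≠ 0) : ∃ φ : Dual F V, φ w = 1 :=
  let ⟨φ, _, h⟩ := exists_dual_of_notMem (⊥ : Submodule F V) (u := w) (by simpa) 1
  ⟨φ, h⟩

theorem ex_sep {w y : V} (h : w ∉ F ∙ y) : ∃ φ : Dual F V, φ y = 0 ∧ φ w = 1 :=
  let ⟨φ, h1, h2⟩ := exists_dual_of_notMem _ h 1
  ⟨φ, h1 _ (Submodule.mem_span_singleton_self y), h2⟩

theorem ex_idx {ι : Type*} [Fintype ι] (l : List ι) (h : l.length < Fintype.card ι) :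
    ∃ m, m ∉ l := by
  classical
  by_contra! h1
  exact h.not_ge ((Finset.card_le_card fun m _ => List.mem_toFinset.2 (h1 m)).trans
    l.toFinset_card_le)

theorem ex_idx2 {ι : Type*} [Fintype ι] (h : 3 ≤ Fintype.card ι) (i j : ι) : ∃ m, m ≠ i ∧ m ≠ j := by
  simpa using ex_idx [i, j] h

end In

variable {κ μ : Type} [Fintype κ] [DecidableEq κ] [Fintype μ] [DecidableEq μ]

/-- the pure tensor `u ⊗ w` -/
def tp : (μ → F) →ₗ[F] (κ → F) →ₗ[F] (κ × μ → F) :=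
  LinearMap.mk₂ F (fun w u p => u p.1 * w p.2) (fun _ _ _ => by ext; simp [mul_add])
    (fun _ _ _ => by ext; simp [mul_left_comm]) (fun _ _ _ => by ext; simp [add_mul])
    (fun _ _ _ => by ext; simp [mul_assoc])

/-- contraction with a functional on the second factor -/
def ct : Dual F (μ → F) →ₗ[F] (κ × μ → F) →ₗ[F] (κ → F) :=
  LinearMap.mk₂ F (fun φ x i => φ fun j => x (i, j)) (fun _ _ _ => rfl) (fun _ _ _ => rfl)
    (fun φ _ _ => funext fun _ => φ.map_add _ _) (fun c φ _ => funext fun _ => φ.map_smul c _)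

theorem tp_apply (w : μ → F) (u : κ → F) (p : κ × μ) : tp w u p = u p.1 * w p.2 := rfl

theorem ct_apply (φ : Dual F (μ → F)) (x : κ × μ → F) (i : κ) :
    ct φ x i = φ fun j => x (i, j) := rfl

@[simp] theorem ct_tp (φ : Dual F (μ → F)) (w : μ → F) (u : κ → F) : ct φ (tp w u) = φ w • u := by
  ext i
  rw [ct_apply, Pi.smul_apply, smul_eq_mul, mul_comm, ← smul_eq_mul, ← map_smul]; rfl

theorem tp_single (i : κ) (j : μ) :
    tp (Pi.single j (1 : F)) (Pi.single i 1) = Pi.single (i, j) 1 := by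
  ext ⟨a, b⟩
  simp only [tp_apply, Pi.single_apply, Prod.mk.injEq]
  by_cases h : a = i <;> simp [h]

theorem tp_ext {M : Type*} [AddCommGroup M] [Module F M] {A B : (κ × μ → F) →ₗ[F] M}
    (h : ∀ w u, A (tp w u) = B (tp w u)) : A = B :=
  (Pi.basisFun F _).ext fun p => by rw [Pi.basisFun_apply, ← tp_single p.1 p.2, h]

theorem tp_inj {w : μ → F} (hw : w ≠ 0) : Function.Injective (tp (κ := κ) w) := fun u v h => by
  obtain ⟨φ, hφ⟩ := ex_one' (F := F) hw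
  simpa [hφ] using congrArg (ct φ) h

theorem tp_inj' {u : κ → F} (hu : u ≠ 0) : Function.Injective ((tp (μ := μ)).flip u) :=
  fun w v h => funext fun j => by
    simpa [hu] using smul_left_injective F hu (by simpa using congrArg (ct (.proj j)) h)

theorem eq_tp {w : μ → F} {η : Dual F (μ → F)} (hη : η w = 1) {x : κ × μ → F}
    (h : ∀ φ, φ w = 0 → ct φ x = 0) : x = tp w (ct η x) := funext fun p => by
  have := congrFun (h (.proj p.2 - w p.2 • η) (by simp [hη])) p.1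
  simp only [map_sub, map_smul, LinearMap.sub_apply, LinearMap.smul_apply, Pi.sub_apply,
    Pi.smul_apply, smul_eq_mul, Pi.zero_apply, sub_eq_zero] at this
  rw [tp_apply, mul_comm, ← this]; rfl

/-- `E ⊗ w φ` -/
def lev (E : (κ → F) →ₗ[F] (κ → F)) (w : μ → F) (φ : Dual F (μ → F)) :
    (κ × μ → F) →ₗ[F] (κ × μ → F) := tp w ∘ₗ E ∘ₗ ct φ

@[simp] theorem lev_apply (E : (κ → F) →ₗ[F] (κ → F)) (w : μ → F) (φ : Dual F (μ → F))
    (x : κ × μ → F) : lev E w φ x = tp w (E (ct φ x)) := rfl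

/-- `E` lies in the level of `H` -/
def Lv (H : Subgroup ((κ × μ → F) ≃ₗ[F] (κ × μ → F))) (E : (κ → F) →ₗ[F] (κ → F)) : Prop :=
  ∀ w φ, φ w = 0 → In H (lev E w φ)

variable {H : Subgroup ((κ × μ → F) ≃ₗ[F] (κ × μ → F))} {E E' : (κ → F) →ₗ[F] (κ → F)}
  {w w₁ : μ → F} {φ φ₁ : Dual F (μ → F)}

theorem mv1 (hW : Lv H .id) (h : In H (lev E w φ)) (h0 : φ w = 0) (h1 : φ₁ w = 0) (h2 : φ₁ w₁ = 0)
    (h3 : φ w₁ = 1) : In H (lev E w φ₁) :=
  h.comm (hW w₁ φ₁ h2) (fun x => by simp [h1, h3]) (fun x => by simp [h0]) fun x => by simp [h1]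

theorem mv2 (hW : Lv H .id) (h : In H (lev E w φ)) (h1 : φ w₁ = 0) (h2 : φ₁ w₁ = 0)
    (h3 : φ₁ w = 1) : In H (lev E w₁ φ) :=
  (hW w₁ φ₁ h2).comm h (fun x => by simp [h1, h3]) (fun x => by simp [h2]) fun x => by simp [h1]

theorem lv_of (hW : Lv H .id) (hb : 3 ≤ Fintype.card μ) (h : In H (lev E w φ)) (hw : w ≠ 0)
    (hφ : φ ≠ 0) (h0 : φ w = 0) : Lv H E := by
  have hb' : 3 ≤ finrank F (μ → F) := by simpa
  have A : ∀ w φ, In H (lev E w φ) → φ ≠ 0 → φ w = 0 → ∀ φ₁, φ₁ w = 0 → In H (lev E w φ₁) := by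
    intro w φ h hφ h0 φ₁ h1
    obtain ⟨y, hy⟩ := ex_one hφ
    by_cases h2 : φ₁ y = 0
    · exact mv1 hW h h0 h1 h2 hy
    obtain ⟨φ₂, a1, a2, a3⟩ := ex_dual2 hb' w y
    obtain ⟨v, hv⟩ := ex_one a1
    exact mv1 hW (mv1 hW h h0 a2 a3 hy) a2 h1 (w₁ := v - (φ₁ v / φ₁ y) • y) (by simp [h2])
      (by simp [hv, a3])
  have B : ∀ w φ, In H (lev E w φ) → w ≠ 0 → ∀ w₁, φ w₁ = 0 → In H (lev E w₁ φ) := by
    intro w φ h hw w₁ h1
    obtain ⟨η, hη⟩ := ex_one' (F := F) hw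
    by_cases h2 : η w₁ = 0
    · exact mv2 hW h h1 h2 hη
    obtain ⟨w₂, a1, a2, a3⟩ := ex_ker2 hb' φ η
    obtain ⟨χ, hχ⟩ := ex_one' (F := F) a1
    exact mv2 hW (mv2 hW h a2 a3 hη) h1 (φ₁ := χ - (χ w₁ / η w₁) • η) (by simp [h2])
      (by simp [hχ, a3])
  intro w' φ' h1
  obtain ⟨φ₃, a1, a2, a3⟩ := ex_dual2 hb' w w'
  exact A _ _ (B _ _ (A _ _ h hφ h0 _ a2) hw _ a3) a1 a3 _ h1

theorem Lv.smul (h : Lv H E) (c : F) : Lv H (c • E) := fun w φ h0 =>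
  (h w (c • φ) (by simp [h0])).congr fun x => by simp

theorem Lv.sub (h : Lv H E) (h' : Lv H E') : Lv H (E - E') := fun w φ h0 =>
  ((h w φ h0).sub (h' w φ h0) fun x => by simp [h0]).congr fun x => by simp

theorem Lv.congr (h : Lv H E) (e : ∀ x, E' x = E x) : Lv H E' := by rwa [LinearMap.ext e]

/-- `H` contains `SL(U) ⊗ 1` -/
def HU (H : Subgroup ((κ × μ → F) ≃ₗ[F] (κ × μ → F))) : Prop :=
  ∀ u (ψ : Dual F (κ → F)), ψ u = 0 → ∃ g ∈ H, ∀ w x, g (tp w x) = tp w (x + ψ x • u)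

variable {u : κ → F} {ψ : Dual F (κ → F)}

theorem Lv.conj (hU : HU H) (h : Lv H E) (h0 : ψ u = 0)
    (e : ∀ x, E' (x + ψ x • u) = E x + ψ (E x) • u) : Lv H E' := fun w φ h1 => by
  obtain ⟨g, hg, e'⟩ := hU u ψ h0
  refine (h w φ h1).conj hg fun x => ?_
  have := LinearMap.congr_fun (tp_ext (A := ct φ ∘ₗ g.toLinearMap)
    (B := ct φ + (ψ ∘ₗ ct φ).smulRight u) fun w x => by simp [e', smul_smul, mul_comm]) x
  simp only [LinearMap.comp_apply, LinearEquiv.coe_coe, LinearMap.add_apply,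
    LinearMap.smulRight_apply] at this
  rw [lev_apply, this, e, lev_apply, e']

theorem Lv.comm (hU : HU H) (h : Lv H E) (h0 : ψ u = 0)
    (e : ∀ x, E' x = ψ (E x) • u - ψ x • E u - (ψ x * ψ (E u)) • u) : Lv H E' :=
  ((h.conj hU h0 (E' := E + E') fun x => by simp [e, h0]; module).sub h).congr fun x => by simp

theorem lv_rank (hU : HU H) (hq : (∃ c : F, c ≠ 0 ∧ c ≠ 1) ∨ 3 ≤ Fintype.card κ) (h : Lv H E)
    (hE : ∃ u, E u ∉ F ∙ u) :
    ∃ (u : κ → F) (ψ : Dual F (κ → F)), u ≠ 0 ∧ ψ ≠ 0 ∧ ψ u = 0 ∧ Lv H (ψ.smulRight u) := by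
  obtain ⟨u, hu⟩ := hE
  have hu0 : u ≠ 0 := by rintro rfl; simp at hu
  obtain ⟨ψ, a1, a2⟩ := ex_sep hu
  have D : ∀ c : F, Lv H (c • ((ψ ∘ₗ E).smulRight u - ψ.smulRight (E u)) -
      (c * c) • ψ.smulRight u) := fun c =>
    h.comm hU (u := u) (ψ := c • ψ) (by simp [a1]) fun x => by simp [a2]; module
  rcases hq with ⟨c, c0, c1⟩ | hq
  · refine ⟨u, ψ, hu0, fun e => by simp [e] at a2, a1,
      (((D c).sub ((D 1).smul c)).smul (c * (1 - c))⁻¹).congr fun x => ?_⟩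
    have : c * (1 - c) ≠ 0 := mul_ne_zero c0 (sub_ne_zero.2 c1.symm)
    simp only [LinearMap.smulRight_apply, LinearMap.smul_apply, LinearMap.sub_apply]
    match_scalars <;> field_simp <;> ring
  · obtain ⟨χ, b1, b2, b3⟩ := ex_dual2 (F := F) (by simpa) u (E u)
    exact ⟨u, -χ, hu0, neg_ne_zero.2 b1, by simp [b2],
      (D 1).comm hU b2 fun x => by simp [a1, a2, b2, b3]⟩

theorem lv_flag (hU : HU H) (hu : u ≠ 0) (hψ : ψ ≠ 0) (h0 : ψ u = 0) (h : Lv H (ψ.smulRight u))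
    (u' : κ → F) (ψ' : Dual F (κ → F)) (h1 : ψ' u' = 0) : Lv H (ψ'.smulRight u') := by
  have A : ∀ u (ψ : Dual F (κ → F)), ψ ≠ 0 → ψ u = 0 → Lv H (ψ.smulRight u) →
      ∀ ψ' : Dual F (κ → F), ψ' u = 0 → Lv H (ψ'.smulRight u) := by
    intro u ψ hψ h0 h ψ' h1
    by_cases h2 : ∃ v, ψ' v = 0 ∧ ψ v ≠ 0
    · obtain ⟨v, a1, a2⟩ := h2
      exact ((h.comm hU a1 (E' := (-ψ v) • ψ'.smulRight u) fun x => by
        simp [h1, smul_smul, mul_comm]).smul (-ψ v)⁻¹).congr fun x => by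
          simp [smul_smul, ← mul_assoc, a2]
    push Not at h2
    obtain ⟨y, hy⟩ := ex_one hψ
    have h3 : ψ' y ≠ 0 := fun e => by simp [h2 y e] at hy
    refine (h.smul (ψ' y)).congr fun x => ?_
    have := h2 (x - (ψ' x / ψ' y) • y) (by simp [h3])
    simp only [map_sub, map_smul, hy, smul_eq_mul, mul_one, sub_eq_zero] at this
    simp [this, smul_smul, mul_div_cancel₀ _ h3]
  by_cases h2 : u' ∈ F ∙ u
  · obtain ⟨c, rfl⟩ := Submodule.mem_span_singleton.1 h2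
    by_cases hc : c = 0
    · exact (h.smul 0).congr fun x => by simp [hc]
    exact A _ ψ hψ (by simp [h0]) ((h.smul c).congr fun x => by simp [smul_smul, mul_comm]) _ h1
  obtain ⟨χ, a1, a2⟩ := ex_sep h2
  obtain ⟨η, a3⟩ := ex_one' (F := F) hu
  obtain ⟨y, hy⟩ := ex_one hψ
  set θ := η + (1 - η u') • χ with hθ
  have b1 : θ u = 1 := by simp [hθ, a1, a3]
  have b2 : θ u' = 1 := by simp [hθ, a2]
  refine A _ (ψ - ψ u' • θ) (fun e => ?_) (by simp [b2]) (h.conj hU (u := u' - u) (ψ := θ)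
    (by simp [b1, b2]) fun x => by simp [b1, b2, h0]; module) _ h1
  have := LinearMap.congr_fun e (y + θ y • (u' - u))
  simp [b1, b2, h0, hy, mul_comm] at this

theorem tv_of_lv [Nontrivial κ] (hb : 3 ≤ Fintype.card μ)
    (h : ∀ u (ψ : Dual F (κ → F)), ψ u = 0 → Lv H (ψ.smulRight u)) (p q : κ × μ) (hpq : p ≠ q)
    (c : F) : HasTv H (c • LinearMap.proj q) (Pi.single p 1) := by
  let T := fun (p q : κ × μ) (c : F) => In H ((c • LinearMap.proj q : Dual F _).smulRight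
    (Pi.single p 1 : κ × μ → F))
  have A : ∀ p q c, p.1 ≠ q.1 → p.2 ≠ q.2 → T p q c := fun p q c h1 h2 =>
    (h (Pi.single p.1 1) (c • .proj q.1) (by simp [h1.symm]) (Pi.single p.2 1) (.proj q.2)
      (by simp [h2.symm])).congr fun x => by simp [tp_single, ct_apply]
  have B : ∀ p q r c, p ≠ q → q ≠ r → p ≠ r → T p q c → T q r 1 → T p r c :=
    fun p q r c h1 h2 h3 a b => a.comm b (fun x => by simp [h3.symm, mul_comm, smul_smul])
      (fun x => by simp [h1.symm]) fun x => by simp [h3.symm]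
  have C : ∀ i j l c, j ≠ l → T (i, j) (i, l) c := fun i j l c h1 => by
    obtain ⟨k, hk⟩ := exists_ne i
    obtain ⟨m, a1, a2⟩ := ex_idx2 hb j l
    exact B _ (k, m) _ c (by simp [hk.symm]) (by simp [hk]) (by simp [h1]) (A _ _ _ hk.symm a1.symm)
      (A _ _ _ hk a2)
  obtain ⟨i, j⟩ := p
  obtain ⟨k, l⟩ := q
  by_cases h1 : i = k
  · subst h1
    exact C i j l c (by simpa using hpq)
  by_cases h2 : j = l
  · subst h2
    obtain ⟨m, a1, -⟩ := ex_idx2 hb j j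
    exact B _ (k, m) _ c (by simp [h1]) (by simp [a1]) hpq (A _ _ _ h1 a1.symm) (C _ _ _ _ a1)
  exact A _ _ c h1 h2

end H29
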