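import Cfsg.Agent.H29.Fld

/-! Explicit unitary matrices over the models (`lift_SU`), bit-mask predicates on vectors (`BM`). -/

set_option autoImplicit false
set_option linter.unusedSectionVars false

namespace H29

open Matrix Cfsg.Geo Module

variable {F : Type*} [Field F] [Fintype F] {ι κ : Type} [Fintype ι] [DecidableEq ι]
  [Fintype κ] [DecidableEq κ] {M : Type} [Field M] {σ : F →+* F} {G : Matrix ι ι F} {q : ℕ}

theorem lift_SU (e : M ≃+* F) {T : (κ → F) ≃ₗ[F] (ι → F)} (hq : ∀ x, σ x = x ^ q)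
    (hG : gT σ G T = 1) {A : Matrix κ κ M} (h : A.det = 1 ∧ Aᵀ * 1 * A.map (· ^ q) = 1) :
    ∃ g ∈ Iso σ G ⊓ specialLinear ι F, (g : Matrix ι ι F) = Φ T (A.map e) := by
  obtain ⟨g, hg, h1⟩ := exists_lift e T h.1
  exact ⟨g, ⟨lift_iso (fun x => by rw [hq, map_pow]) (hG.trans (Matrix.map_one e (map_zero e) (map_one e)).symm)
    h.2 h1, hg⟩, h1⟩

theorem of_lift_SU {e : M ≃+* F} {T : (κ → F) ≃ₗ[F] (ι → F)} (hq : ∀ x, σ x = x ^ q)
    (hG : gT σ G T = 1) {A : Matrix κ κ M} {g : GL ι F} (hg : g ∈ Iso σ G ⊓ specialLinear ι F)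
    (h : (g : Matrix ι ι F) = Φ T (A.map e)) : A.det = 1 ∧ Aᵀ * 1 * A.map (· ^ q) = 1 :=
  ⟨det_of_lift hg.2 h, iso_of_lift (fun x => by rw [hq, map_pow])
    (hG.trans (Matrix.map_one e (map_zero e) (map_one e)).symm) hg.1 h⟩

/-- code of a vector over a quadratic model -/
def cdv {p : ℕ} {a b : ZMod p} : List (QuadraticAlgebra (ZMod p) a b) → ℕ
  | [] => 0
  | x :: l => x.re.val + p * x.im.val + p * p * cdv l

/-- the vectors whose code is marked in the mask `m` -/
def BM {p n : ℕ} {a b : ZMod p} (m : ℕ) (v : Fin n → QuadraticAlgebra (ZMod p) a b) : Prop :=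
  m.testBit (cdv (List.ofFn v)) = true

instance instDecBM {p n : ℕ} {a b : ZMod p} (m : ℕ) :
    DecidablePred (BM (p := p) (n := n) (a := a) (b := b) m) := fun v => by
  unfold BM; infer_instance

end H29
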