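import Cfsg.Agent.H29.ExtU
import Cfsg.Agent.H29.Ten
import Mathlib.FieldTheory.ChevalleyWarning

/-! Overgroups of `Ω(K)` in orthogonal groups over a subfield `F` of prime index, part 1:
Chevalley–Warning for quadratic systems (`cw2`), the centre of a unipotent radical (`cent_mem`),
levels `LV` at a singular `K`-line and `OX.not_tv` (no element induces a transvection on it). -/

set_option autoImplicit false
set_option linter.unusedSectionVars false

namespace H29

open Module H11 H11.PForm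

open MvPolynomial in
theorem cw2 {F V W : Type*} [Field F] [Finite F] [AddCommGroup V] [Module F V] [AddCommGroup W]
    [Module F W] [FiniteDimensional F V] [FiniteDimensional F W] (B : V →ₗ[F] V →ₗ[F] W)
    (L : V →ₗ[F] W) (h : 2 * finrank F W < finrank F V) : ∃ v, v ≠ 0 ∧ B v v + L v = 0 := by
  classical
  cases nonempty_fintype F
  obtain ⟨p, hp⟩ := CharP.exists F
  let b := finBasis F V
  let c := finBasis F W
  let f : Fin (finrank F W) → MvPolynomial (Fin (finrank F V)) F := fun i =>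
    ∑ j, (∑ k, C (c.coord i (B (b j) (b k))) * X k + C (c.coord i (L (b j)))) * X j
  have e : ∀ x i, eval x (f i) = c.coord i (B (b.equivFun.symm x) (b.equivFun.symm x) +
      L (b.equivFun.symm x)) := fun x i => by
    simp only [f, Basis.equivFun_symm_apply, map_sum, map_add, map_mul, eval_C, eval_X, map_smul,
      LinearMap.sum_apply, LinearMap.smul_apply, smul_eq_mul, add_mul, Finset.sum_add_distrib,
      Finset.sum_mul]
    rw [Finset.sum_comm]
    congr 1 <;> refine Finset.sum_congr rfl fun _ _ => ?_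
    · rw [Finset.mul_sum]; exact Finset.sum_congr rfl fun _ _ => by ring
    · ring
  have d1 : ∀ (a : F) (k : Fin (finrank F V)), (C a * X k).totalDegree ≤ 1 := fun a k =>
    (totalDegree_mul _ _).trans (by simp)
  have hd : p ∣ Fintype.card {x // ∀ i, eval x (f i) = 0} := by
    convert char_dvd_card_solutions_of_fintype_sum_lt p (f := f) ?_
    refine (Finset.sum_le_card_nsmul _ _ 2 fun i _ => totalDegree_finsetSum_le fun j _ =>
      (totalDegree_mul _ _).trans ?_).trans_lt (by simpa [mul_comm] using h)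
    have := (totalDegree_add _ (C (c.coord i (L (b j))))).trans (max_le (totalDegree_finsetSum_le
      (s := Finset.univ) fun k _ => d1 (c.coord i (B (b j) (b k))) k) (by simp))
    simpa using this
  by_contra! hn
  rw [Fintype.card_eq_one_iff.2 ⟨⟨0, fun i => by rw [e]; simp⟩, fun x => Subtype.ext (by_contra fun h0 =>
    hn (b.equivFun.symm x.1) (b.equivFun.symm.map_ne_zero_iff.2 h0) (c.ext_elem fun i => by
      simpa only [e, map_zero, Finsupp.zero_apply, Basis.coord_apply] using x.2 i))⟩] at hd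
  exact CharP.char_ne_one F p (Nat.dvd_one.1 hd)

variable {F K V : Type*} [Field F] [Field K] [Algebra F K] [AddCommGroup V] [Module F V]
  [Module K V] [IsScalarTower F K V] [FiniteDimensional F V] {S : PForm (orthP F) V}
  {H : Subgroup S.Isom}

theorem cent_mem (hS : S.Nondeg) (X : Submodule F V) (hX : ∀ x ∈ X, S.q x = 0)
    (hE : ∀ z ∈ X, ∀ z' ∈ X, S.eich z z' 0 ∈ H) {g : S.Isom} (hg : ∀ x, g.1 x - x ∈ X) : g ∈ H := by
  induction X using WellFoundedLT.induction generalizing g with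
  | ind X ih =>
  have h0 : ∀ x ∈ X, ∀ y ∈ X, S.h x y = 0 := fun x hx y hy => by
    simpa [hX, hx, hy, X.add_mem hx hy] using (S.orth_q_add x y).symm
  have h1 : ∀ x y, S.h x (g.1 y - y) = -S.h (g.1 x - x) y := fun x y => by
    have a := h0 _ (hg x) _ (hg y)
    simp only [map_sub, LinearMap.sub_apply, isom_h] at a ⊢
    linear_combination -a
  have h2 : ∀ x, S.h x (g.1 x - x) = 0 := fun x => by
    simpa [hX _ (hg x)] using (S.orth_q_add x (g.1 x - x)).symm
  have h3 : ∀ z ∈ X, g.1 z = z := fun z hz => sub_eq_zero.1 (hS _ fun y => by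
    rw [← neg_eq_zero, ← h1, h0 z hz _ (hg y)])
  by_cases e : ∀ x, g.1 x = x
  · exact (isom_ext e : g = 1) ▸ H.one_mem
  obtain ⟨x, hx⟩ := not_forall.1 e
  obtain ⟨y, hy⟩ := hS.exists_h_eq_one (sub_ne_zero.2 hx)
  have c : S.ECond (g.1 y - y) (g.1 x - x) 0 :=
    ⟨(S.orth_sing _).2 (hX _ (hg y)), h0 _ (hg y) _ (hg x), by simp [hX _ (hg x)]⟩
  refine (H.mul_mem_cancel_right (hE _ (hg y) _ (hg x))).1 (ih (X ⊓ S.perp (F ∙ y))
    (lt_of_le_of_ne inf_le_left fun a => ?_) (fun z hz => hX z hz.1)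
    (fun z hz z' hz' => hE z hz.1 z' hz'.1) fun w => ?_)
  · have := S.mem_perp_singleton.1 (a.ge (hg x)).2
    rw [S.orth_symm, hy] at this
    exact one_ne_zero this
  rw [isom_mul_apply, eich_apply c, map_sub, map_add, map_smul, map_smul, h3 _ (hg x), h3 _ (hg y),
    show ∀ a b : V, g.1 w + a - b - w = g.1 w - w + a - b from fun _ _ => by abel]
  refine ⟨X.sub_mem (X.add_mem (hg w) (X.smul_mem _ (hg x))) (X.smul_mem _ (hg y)),
    S.mem_perp_singleton.2 ?_⟩
  rw [map_sub, map_add, map_smul, map_smul, h2, h1, S.orth_symm (g.1 x - x) y, hy]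
  simp

/-- `f` is a level of `H` at the `K`-line of `v` -/
def LV (U : PForm (orthP K) V) (H : Subgroup S.Isom) (v : V) (f : V → K) : Prop :=
  ∃ k ∈ H, (∀ a : K, k.1 (a • v) = a • v) ∧ ∀ x, U.h v x = 0 → k.1 x = x + f x • v

variable {φ : Dual F K} {U : PForm (orthP K) V} {v : V} {f f' : V → K}

theorem LV.congr (h : LV U H v f) (e : ∀ x, U.h v x = 0 → f' x = f x) : LV U H v f' :=
  let ⟨k, a, b, c⟩ := h
  ⟨k, a, b, fun x hx => by rw [c x hx, e x hx]⟩

theorem LV.sub (h : LV U H v f) (h' : LV U H v f') : LV U H v fun x => f x - f' x := by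
  obtain ⟨k, a, b, c⟩ := h
  obtain ⟨k', a', b', c'⟩ := h'
  refine ⟨k'⁻¹ * k, H.mul_mem (H.inv_mem a') a, fun s => k'.1.injective (by simp [b, b']),
    fun x hx => k'.1.injective ?_⟩
  rw [isom_mul_apply, isom_apply_inv_self, map_add, b', c x hx, c' x hx]
  module

/-- a proper overgroup of `Ω(K)` -/
structure OX (φ : Dual F K) (U : PForm (orthP K) V) (H : Subgroup S.Isom) : Prop where
  hφ : φ ≠ 0
  nd : S.Nondeg
  two : (2 : F) ≠ 0
  pr : (finrank F K).Prime
  hU : ∀ x y, φ (U.h x y) = S.h x y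
  three : 3 ≤ finrank K V
  hH : ∀ g ∈ U.E, ∃ g' ∈ H, ∀ x, g'.1 x = g.1 x
  nb : ¬ S.E ≤ H

namespace OX
variable [Finite K] (h : OX φ U H)
include h

theorem fd : FiniteDimensional K V := Module.Finite.of_restrictScalars_finite F K V

theorem hz {x y : V} (e : U.h x y = 0) : S.h x y = 0 := by rw [← h.hU, e, map_zero]

theorem ndK : U.Nondeg := fun x hx => h.nd x fun y => h.hz (hx y)

theorem twoK : (2 : K) ≠ 0 := fun e => h.two ((algebraMap F K).injective (by rw [map_ofNat, e, map_zero]))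

theorem perpK {x y : V} (e : ∀ k : K, S.h (k • x) y = 0) : U.h x y = 0 :=
  eq_zero_of_dual h.hφ fun k => by simpa [← h.hU] using e k

theorem qz (hv : U.Sing v) (a : K) : S.q (a • v) = 0 := by
  simpa [S.orth_h_self, h.two] using h.hz (hv.smul a).h_self

theorem conj (hf : LV U H v f) {g : S.Isom} (hg : g ∈ H) {γ γ' : K → K}
    (h1 : ∀ a, g.1 (a • v) = γ a • v) (h2 : ∀ a, γ (γ' a) = a) :
    LV U H v fun x => γ (f (g⁻¹.1 x)) := by
  obtain ⟨k, a, b, c⟩ := hf
  refine ⟨g * k * g⁻¹, H.mul_mem (H.mul_mem hg a) (H.inv_mem hg), fun s => by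
    rw [← h2 s, ← h1]; simp [b], fun x hx => ?_⟩
  rw [isom_mul_apply, isom_mul_apply, c _ (h.perpK fun s => by
    rw [← isom_h_left, h1]; exact h.hz (by simp [hx])), map_add, h1, isom_apply_inv_self]

theorem mul (hv : U.Sing v) (hv0 : v ≠ 0) (hf : LV U H v f) (κ : K) : LV U H v fun x => κ * f x := by
  haveI := h.fd
  obtain ⟨w, Hy⟩ := h.ndK.exists_isHyp hv hv0
  have A : ∀ s : K, LV U H v fun x => s * s * f x := fun s => by
    obtain rfl | hs := eq_or_ne s 0
    · exact (hf.sub hf).congr (by simp)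
    let c := Units.mk0 _ (mul_ne_zero hs hs)
    obtain ⟨g, hg, e⟩ := h.hH _ ((h.ndK.mem_E_iff h.three Hy (Hy.tor c)).2 ⟨h.ndK.dick_tor Hy _, by
      rw [h.ndK.spin_tor, sqSign_eq_one_iff]; exact ⟨s, rfl⟩⟩)
    refine (h.conj hf hg (γ := (s * s * ·)) (γ' := ((s * s)⁻¹ * ·)) (fun a => by
      simp [e, c, smul_smul, mul_comm]) fun a => by field_simp).congr fun x hx => ?_
    obtain ⟨k, -, b, d⟩ := hf
    have e1 : g⁻¹.1 x = x + (((s * s)⁻¹ - 1) * U.h w x) • v := g.1.injective (by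
      rw [isom_apply_inv_self, e, map_add, map_smul, Hy.orth_tor_apply, Hy.tor_e, hx]
      simp only [c, Units.val_mk0]
      match_scalars <;> field_simp <;> ring)
    have := d (g⁻¹.1 x) (by rw [e1]; simp [hx, hv.h_self])
    rw [e1, map_add, b, d x hx, add_right_comm, add_right_inj] at this
    rw [e1, smul_left_injective K hv0 this]
  have := h.twoK
  exact ((A ((κ + 1) / 2)).sub (A ((κ - 1) / 2))).congr fun x _ => by field_simp; ring

theorem ex_pair {w : V} (hv : U.Sing v) (hw : U.Sing w) (e : U.h v w ≠ 0) : ∃ y y', U.h v y = 0 ∧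
    U.h w y = 0 ∧ U.h v y' = 0 ∧ U.h w y' = 0 ∧ S.h y y' = 1 ∧ U.q y ≠ 0 := by
  haveI := h.fd
  have Hy := isHyp_of_ne hv hw e
  have h3 := Hy.finrank_perp
  have h4 := h.three
  obtain ⟨y, hy, qy⟩ := orth_exists_q_ne_mem (h.ndK.restrict_perp Hy.nondeg) (by omega)
  simp only [mem_perp_pair, h_smul_left, mul_eq_zero, map_inv₀, RingHom.id_apply, inv_eq_zero, e,
    false_or] at hy
  obtain ⟨s, hs⟩ := ex_one h.hφ
  have yy : U.h y y ≠ 0 := by simp [U.orth_h_self, qy, h.twoK]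
  exact ⟨y, (s / U.h y y) • y, hy.1, hy.2, by simp [hy.1], by simp [hy.2],
    by simp [← h.hU, yy, hs], qy⟩

theorem not_rad (hv : U.Sing v) (hv0 : v ≠ 0)
    (hL : ∀ w b, U.h v w = 0 → LV U H v fun x => S.h w x • b) : False := by
  haveI := h.fd
  obtain ⟨w, Hy⟩ := h.ndK.exists_isHyp hv hv0
  obtain ⟨y, y', y2, y3, y4, -, y1, qy⟩ := h.ex_pair hv Hy.sing_f (by simp [Hy.h_ef])
  have c0 : ∀ a b : K, S.h (a • v) (b • v) = 0 := fun a b => h.hz (by simp [hv.h_self])
  have A : ∀ a b : K, S.eich (a • v) (b • v) 0 ∈ H := fun a b => by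
    obtain ⟨k, k1, k2, k3⟩ := hL y b y2
    obtain ⟨l, l1, l2, l3⟩ := hL y' a y4
    have e : ∀ {k : S.Isom} {z : V} {b : K}, (∀ a : K, k.1 (a • v) = a • v) → (∀ x, U.h v x = 0 →
        k.1 x = x + (S.h z x • b) • v) → ∀ x, U.h v (k.1 x - x) = 0 ∧ ∀ z', U.h v z' = 0 →
        S.h z' (k.1 x - x) = -S.h z z' * S.h (b • v) x := fun {k z b} k2 k3 x => by
      have e1 : ∀ a : K, S.h (a • v) (k.1 x) = S.h (a • v) x := fun a => by
        conv_lhs => rw [← k2, isom_h]
      refine ⟨h.perpK fun a => by rw [map_sub, e1, sub_self], fun z' hz => ?_⟩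
      have := isom_h k z' x
      rw [k3 z' hz, smul_assoc] at this
      simp only [map_add, map_smul, LinearMap.add_apply, LinearMap.smul_apply, e1, map_sub,
        smul_eq_mul, RingHom.id_apply] at this ⊢
      linear_combination this
    have c : S.ECond (a • v) (b • v) 0 := ⟨(S.orth_sing _).2 (h.qz hv a), c0 a b, by simp [h.qz hv]⟩
    refine (H.mul_mem_cancel_right (H.mul_mem k1 l1)).1 ((isom_ext fun x => ?_ :
      l * k = S.eich (a • v) (b • v) 0 * (k * l)) ▸ H.mul_mem l1 k1)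
    have e1 := k3 _ (e l2 l3 x).1
    have e2 := l3 _ (e k2 k3 x).1
    beta_reduce at e1 e2
    rw [(e l2 l3 x).2 y y2, S.orth_symm, y1, map_sub] at e1
    rw [(e k2 k3 x).2 y' y4, y1, map_sub] at e2
    have e3 : ∀ a : K, S.h (a • v) (k.1 (l.1 x)) = S.h (a • v) x := fun a => by
      conv_lhs => rw [← k2, isom_h, ← l2, isom_h]
    simp only [isom_mul_apply, eich_apply c, e3, orthP_ε, smul_assoc]
    simp only [smul_assoc] at e1 e2
    linear_combination (norm := module) e2 - e1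
  let P : V → Prop := fun v => U.Sing v ∧ ∀ (b : K) z, U.h v z = 0 → S.eich (b • v) z (S.q z) ∈ H
  have c : ∀ {v z : V} (b : K), U.Sing v → U.h v z = 0 → S.ECond (b • v) z (S.q z) :=
    fun b hv hz => .of_q ((S.orth_sing _).2 (h.qz hv b)) (h.hz (by simp [hz]))
  have B : P v := ⟨hv, fun b z hz => by
    obtain ⟨k, k1, k2, k3⟩ := hL z b hz
    refine (H.mul_mem_cancel_left k1).1 (cent_mem h.nd (KL F K v)
      (by rintro _ ⟨a, rfl⟩; exact h.qz hv a) (by rintro _ ⟨a, rfl⟩ _ ⟨b, rfl⟩; exact A a b) fun x =>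
      mem_KL'.2 (h.ndK.perp_perp (K ∙ v) ▸ U.mem_perp.2 fun x' hx' => h.perpK fun a => ?_))
    have e : U.h v (a • x') = 0 := by simp [U.mem_perp_singleton.1 hx']
    rw [map_sub, sub_eq_zero, ← isom_h (k * S.eich (b • v) z (S.q z)) _ x, isom_mul_apply _ _ (a • x'),
      eich_apply_of_perp (c b hv hz) (h.hz (by rw [h_smul_left, e, mul_zero])), map_sub, k.1.map_smul, k2, k3 _ e]
    simp⟩
  have C : ∀ v w, P v → P w → U.h v w ≠ 0 → ∀ b : K, b ≠ 0 → Full H (b • v) := by
    intro v w hv hw e b hb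
    obtain ⟨y, y', y2, y3, y4, y5, y1, -⟩ := h.ex_pair hv.1 hw.1 e
    have hs := (S.orth_sing _).2 (h.qz hv.1 b)
    have m : ∀ z, U.h v z = 0 → z ∈ BSet H hs := fun z hz => ⟨_, c b hv.1 hz, hv.2 b z hz⟩
    refine full_of_BSet hs (fun x hx => ?_) fun a ha => by simp [show a = 0 from ha, eich_zero]
    set a := U.h v x / U.h v w
    have e1 : S.h (a • w) (b • v) = 0 := by
      rw [← hx, ← h.hU, ← h.hU]; simp [a, U.orth_symm v w, e, mul_comm b, mul_assoc]
    have := BSet_map (hu' := hs) (m y' y4) (hw.2 a y y3)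
      (eich_apply_of_perp_perp e1 (h.hz (by simp [U.h_swap_zero y2])))
    rw [eich_apply_of_perp (c a hw.1 y3) (h.hz (by simp [y5])), y1] at this
    simpa using (BSet H hs).add_mem (m (x - a • w) (by simp [a, e])) ((BSet H hs).sub_mem (m y' y4) this)
  obtain ⟨t, ht, e⟩ := h.hH _ (U.eich_mem_E w y (U.q y))
  have e1 : U.h v (t.1 v) ≠ 0 := by
    simp [e, eich_apply (.of_q Hy.sing_f y3), hv.h_self, y2, Hy.h_ef, Hy.h_fe, U.h_swap_zero y2, qy]
  have B' : P (t.1 v) := ⟨by rwa [e, isom_sing], fun b z hz => by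
    have := eich_conj (B.2 b (t⁻¹.1 z) (by rwa [← isom_h (U.eich w y (U.q y)), ← e, ← e,
      isom_apply_inv_self])) ht
    rwa [isom_apply_inv_self, orth_isom_q, e, map_smul, ← e] at this⟩
  obtain ⟨s, hs⟩ := ex_one h.hφ
  have s0 : s ≠ 0 := by rintro rfl; simp at hs
  exact h.nb (S.E_le_iff.2 fun x z a _ => full_all_of_pair h.nd ((S.orth_sing _).2 (h.qz hv 1))
    ((S.orth_sing _).2 (h.qz B'.1 _)) (C _ _ B B' e1 1 one_ne_zero)
    (C _ _ B' B (by rwa [U.orth_symm]) _ (div_ne_zero s0 e1)) (by simp [← h.hU, e1, hs]) x z a)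

theorem not_tv (hv : U.Sing v) (hv0 : v ≠ 0) {g : S.Isom} (hg : g ∈ H) {ψ : Dual F K} {d : K}
    (h1 : ∀ a, g.1 (a • v) = (a + ψ a • d) • v) (hd : d ≠ 0) (h2 : ψ d = 0) (h3 : ψ ≠ 0) : False := by
  haveI : FiniteDimensional F K := finite_of_finrank_pos h.pr.pos
  have h4 : ∀ a, g⁻¹.1 (a • v) = (a - ψ a • d) • v := fun a => g.1.injective (by simp [h1, h2])
  obtain ⟨c, hc⟩ := exists_of_dual h.hφ ψ
  obtain ⟨e, he⟩ := ex_one h3
  have c0 : c ≠ 0 := by rintro rfl; simp [← hc] at he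
  refine h.not_rad hv hv0 fun w b hw => ?_
  obtain ⟨k, hk, ek⟩ := h.hH _ (U.eich_mem_E v (c⁻¹ • w) (U.q (c⁻¹ • w)))
  have L : LV U H v fun x => -U.h (c⁻¹ • w) x := ⟨k, hk, fun a => by simp [ek, eich_apply_self],
    fun x hx => by
      rw [ek, eich_apply_of_perp (.of_q hv (by simp [hw])) hx]; simp [sub_eq_add_neg]⟩
  have a1 : ∀ {f}, LV U H v f → LV U H v fun x => f (g⁻¹.1 x) + ψ (f (g⁻¹.1 x)) • d := fun hf =>
    h.conj hf hg (γ := fun a => a + ψ a • d) (γ' := fun a => a - ψ a • d) h1 (by simp [h2])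
  have a2 : ∀ {f}, LV U H v f → LV U H v fun x => f (g.1 x) - ψ (f (g.1 x)) • d := fun hf =>
    h.conj hf (H.inv_mem hg) (γ := fun a => a - ψ a • d) (γ' := fun a => a + ψ a • d) h4 (by simp [h2])
  have L' := h.mul hv hv0 L (e / d)
  have := h.twoK
  refine (h.mul hv hv0 ((L'.sub (a1 (h.mul hv hv0 (a2 L) (e / d)))).sub
    ((a2 (h.mul hv hv0 (a1 L) (e / d))).sub L')) (-b / (2 * d))).congr fun x _ => ?_
  have e1 : ψ (U.h (c⁻¹ • w) x) = S.h w x := by simp [← hc, ← h.hU, c0, mul_comm, mul_assoc]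
  simp only [isom_apply_inv_self, isom_inv_apply_self, mul_sub, mul_add, map_sub, map_add, mul_smul_comm,
    div_mul_cancel₀ _ hd, ψ.map_smul, he, map_neg, e1, smul_eq_mul, mul_one, h2, smul_zero]
  simp only [Algebra.smul_def, map_add, map_sub, map_neg, map_zero, mul_zero]
  field_simp
  ring

end OX

end H29
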