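import Cfsg.Agent.H29.Cv3

/-! Aschbacher's theorem, part 10: criteria for subfield structures (`subS_of_coord`,
`subS_of_set`), decompositions from invariant families (`dec_of_set`), normal forms of tensor
structures, tensor products of groups of symplectic type (`KrF.xs`). -/

set_option autoImplicit false
set_option linter.unusedSectionVars false

namespace H29

open Matrix Cfsg.Geo Module
open scoped Kronecker commutatorElement

variable {F : Type*} [Field F] {ι κ μ : Type} [Fintype ι] [DecidableEq ι] [Fintype κ]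
  [DecidableEq κ] [Fintype μ] [DecidableEq μ] {σ : F →+* F} {H : Subgroup (GL ι F)}
  {G G' : Matrix ι ι F} {ε : F} {t : ℕ} {F₀ : Subfield F}

local notation "ρ" => RingHom.id _

theorem RatM.det {X : Matrix κ κ F} (h : RatM F₀ X) : X.det ∈ F₀ := by
  rw [det_apply']
  exact sum_mem fun s _ => mul_mem (intCast_mem _ _) (prod_mem fun i _ => h _ _)

theorem RatM.smul {X : Matrix κ κ F} (h : RatM F₀ X) {c : F} (hc : c ∈ F₀) : RatM F₀ (c • X) :=
  fun i j => mul_mem hc (h i j)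

theorem RatM.mul {X Y : Matrix κ κ F} (h : RatM F₀ X) (h' : RatM F₀ Y) : RatM F₀ (X * Y) :=
  fun i j => by
    rw [Matrix.mul_apply]
    exact sum_mem fun k _ => mul_mem (h i k) (h' k j)

theorem RatM.of_mul {X A : Matrix κ κ F} (hA : RatM F₀ A) (hu : IsUnit A) (h : RatM F₀ (X * A)) :
    RatM F₀ X := by
  have h1 : RatM F₀ A.adjugate := fun i j => by
    rw [adjugate_apply]
    refine RatM.det fun k l => ?_
    rw [updateRow_apply, Pi.single_apply]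
    split_ifs
    exacts [one_mem _, zero_mem _, hA k l]
  have := (h.mul h1).smul (inv_mem hA.det)
  rwa [mul_assoc, mul_adjugate, Matrix.mul_smul, mul_one, smul_smul,
    inv_mul_cancel₀ ((isUnit_iff_isUnit_det A).1 hu).ne_zero, one_smul] at this

theorem RatM.ten {X : Fin t → Matrix κ κ F} (h : ∀ i, RatM F₀ (X i)) : RatM F₀ (ten X) :=
  fun x y => by
    rw [ten_apply]
    exact prod_mem fun i _ => h i _ _

theorem gT_coordT (e : ι ≃ κ) (P : GL ι F) :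
    gT σ G (H11.glEquiv P) = (gT σ G (coordT e P)).submatrix e e := by
  ext i j
  rw [submatrix_apply, ← fm_single (σ := σ) (G := gT σ G (H11.glEquiv P)),
    ← fm_single (σ := σ) (G := gT σ G (coordT e P)), fm_gT, fm_gT, coordT_apply, coordT_apply, glEquiv_apply, glEquiv_apply]
  congr 2 <;> ext k <;> simp [Pi.single_apply]

theorem subS_of_coord [Fintype F] (h0 : F₀ ≠ ⊤) (T : (κ → F) ≃ₗ[F] (ι → F)) {c : F} (hc : c ≠ 0)
    (h1 : ∀ g ∈ H, ∃ s : F, s ≠ 0 ∧ ∃ X, (g : Matrix ι ι F) = Φ T X ∧ RatM F₀ (s • X))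
    (h2 : RatM F₀ (c • gT σ G T)) : SubS σ G H := by
  obtain ⟨F₁, r, h3, h4, h5⟩ := exists_prime_index h0
  obtain ⟨e, P, rfl⟩ := exists_coordT T
  refine ⟨F₁, r, P, c, h4, h5, fun g hg => ?_, hc, fun i j => by
    rw [gT_coordT e]; exact h3 (h2 _ _)⟩
  obtain ⟨s, hs, X, h6, h7⟩ := h1 g hg
  exact mem_subfieldSubgroup.2 ⟨s, hs, fun i j => by
    rw [h6, Φ_coordT, cjA_inv_cjA]; exact h3 (h7 _ _)⟩

theorem subS_of_set [Fintype F] (h : HF σ ε G) (h0 : F₀ ≠ ⊤) {L : Set (ι → F)}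
    (hL : Submodule.span F L = ⊤) {c : F} (hc : c ≠ 0)
    (h1 : ∀ g ∈ H, ∀ x ∈ L, (g : Matrix ι ι F) *ᵥ x ∈ L)
    (h2 : ∀ x ∈ L, ∀ y ∈ L, c * fm σ G x y ∈ F₀) : SubS σ G H := by
  obtain ⟨s, h3, h4, h5⟩ := exists_linearIndependent F L
  haveI := Fintype.ofFinite s
  let b := (Basis.mk h5 (by rw [Subtype.range_coe, h4, hL])).reindex
    (Fintype.equivOfCardEq (β := ι) (α := s) (by
      rw [← finrank_eq_card_basis (Basis.mk h5 (by rw [Subtype.range_coe, h4, hL]))]; simp))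
  have hb : ∀ i, b.equivFun.symm (Pi.single i 1) ∈ L := fun i => by
    simpa [b, Pi.single_apply] using h3 (Subtype.coe_prop _)
  have h6 : RatM F₀ (c • gT σ G b.equivFun.symm) := fun i j => by
    rw [Matrix.smul_apply, ← fm_single (σ := σ) (G := gT _ _ _), fm_gT]
    exact h2 _ (hb i) _ (hb j)
  refine subS_of_coord h0 b.equivFun.symm hc (fun g hg => ⟨1, one_ne_zero,
    (Φ b.equivFun.symm).symm g, by simp, fun i j => ?_⟩) h6
  refine RatM.of_mul (X := ((Φ b.equivFun.symm).symm g)ᵀ) h6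
    ((h.gT _).unit.smul (Units.mk0 c hc)) (fun i j => ?_) j i |> (by simpa using ·)
  rw [Matrix.mul_smul, Matrix.smul_apply, ← fm_single (σ := σ) (G := _ * _), ← fm_mulVec_left, fm_gT, ← Φ_mulVec,
    AlgEquiv.apply_symm_apply]
  exact h2 _ (h1 g hg _ (hb i)) _ (hb j)

theorem subfieldSubgroup_scU (s : Fˣ) (P : GL ι F) :
    subfieldSubgroup F₀ (scU s * P) = subfieldSubgroup F₀ P := by
  ext g
  rw [mem_subfieldSubgroup, mem_subfieldSubgroup, _root_.mul_inv_rev, cjA_mul,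
    show (scU s : GL ι F)⁻¹ = scU s⁻¹ from (map_inv _ s).symm, cjA_scU]

theorem gT_scU (s : Fˣ) (P : GL ι F) :
    gT σ G (H11.glEquiv (scU s * P)) = ((s : F) * σ s) • gT σ G (H11.glEquiv P) :=
  fm_ext (σ := σ) fun x y => by
    simp [fm_gT, fm_smul, glEquiv_apply, smul_mulVec, fm_smul_left, fm_smul_right, mul_assoc,
      mul_left_comm]

theorem span_of_irr (hH : Irr H) {L : Set (ι → F)}
    (h1 : ∀ g ∈ H, ∀ x ∈ L, (g : Matrix ι ι F) *ᵥ x ∈ L) {v : ι → F} (hv : v ∈ L) (h0 : v ≠ 0) :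
    Submodule.span F L = ⊤ :=
  (hH _ fun g hg x hx => (Submodule.span_le (p := (Submodule.span F L).comap (toLin' g.1))).2
    (fun y hy => Submodule.subset_span (h1 g hg y hy)) hx).resolve_left
      fun e => h0 (by simpa [e] using Submodule.subset_span (R := F) hv)

theorem dec_of_set [Finite F] {S : Set (Submodule F (ι → F))} {k : ℕ} (hk : 0 < k)
    (hn : k < Fintype.card ι) (h1 : ∀ W ∈ S, finrank F W = k ∧ IsNondegenerateOn (fm σ G) W)
    (h2 : ∀ W ∈ S, ∀ W' ∈ S, W ≠ W' → AreOrthogonalFor (fm σ G) W W') (h3 : sSup S = ⊤)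
    (h4 : ∀ g ∈ H, ∀ W ∈ S, W.map (toLin' (g : Matrix ι ι F)) ∈ S) :
    ∃ (t : ℕ) (D : Fin t → Submodule F (ι → F)), IsNondegenerateMDecomposition (fm σ G) k D ∧
      H ≤ decompositionStabilizer D ∧ ∀ i, D i ∈ S := by
  obtain ⟨t, ⟨e⟩⟩ := Finite.exists_equiv_fin S
  have h5 : ⨆ i, (e.symm i : Submodule F (ι → F)) = ⊤ := by
    rw [← h3, sSup_eq_iSup', e.symm.iSup_comp]
  have h6 : ∀ i j, i ≠ j → AreOrthogonalFor (fm σ G) (e.symm i) (e.symm j) := fun i j hij =>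
    h2 _ (e.symm i).2 _ (e.symm j).2 fun h => hij (e.symm.injective (Subtype.ext h))
  refine ⟨t, fun i => e.symm i, ⟨⟨?_, hk, fun i => (h1 _ (e.symm i).2).1, fun i => ?_, h5⟩,
    fun i => (h1 _ (e.symm i).2).2, h6⟩, fun g hg => ⟨Equiv.ofBijective
      (fun i => e ⟨_, h4 g hg _ (e.symm i).2⟩) (Finite.injective_iff_bijective.1 fun i j h => ?_),
      fun i => by simp⟩, fun i => (e.symm i).2⟩
  · by_contra! h7
    obtain rfl | rfl : t = 0 ∨ t = 1 := by omega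
    · rw [iSup_of_empty] at h5
      exact ne_top_of_lt (by simp; omega) h5
    · have := (h1 _ (e.symm 0).2).1
      rw [iSup_unique] at h5
      exact ne_top_of_lt (this ▸ hn) h5
  · exact (disjoint_iff.2 (inf_pp (h1 _ (e.symm i).2).2)).mono_right
      (iSup₂_le fun j hj => h6 j i hj)
  · exact e.symm.injective (Subtype.ext (Submodule.map_injective_of_injective
      (H11.glEquiv g).injective (congrArg Subtype.val (e.injective h))))

theorem dec_of_frame [Finite F] (h : HF σ ε G) (hn : 2 ≤ Fintype.card ι) {L : Set (ι → F)}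
    (h1 : ∀ w ∈ L, fm σ G w w ≠ 0) (h2 : ∀ g ∈ H, ∀ w ∈ L, (g : Matrix ι ι F) *ᵥ w ∈ L)
    (h3 : ∀ w ∈ L, ∀ w' ∈ L, w' ∈ F ∙ w ∨ fm σ G w w' = 0) (h4 : Submodule.span F L = ⊤) :
    ∃ (t : ℕ) (D : Fin t → Submodule F (ι → F)), IsNondegenerateMDecomposition (fm σ G) 1 D ∧
      H ≤ decompositionStabilizer D := by
  have h0 : ∀ w ∈ L, w ≠ 0 := fun w hw e => h1 w hw (by simp [e])
  obtain ⟨t, D, h5, h6, -⟩ := dec_of_set (σ := σ) (G := G) (H := H) (S := (F ∙ ·) '' L) one_pos hn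
    (by
      rintro _ ⟨w, hw, rfl⟩
      refine ⟨finrank_span_singleton (h0 w hw), h.ndOn fun x hx h5 => ?_⟩
      obtain ⟨c, rfl⟩ := Submodule.mem_span_singleton.1 hx
      have := h5 w (Submodule.mem_span_singleton_self w)
      rw [fm_smul_left] at this
      rw [(mul_eq_zero.1 this).resolve_right (h1 w hw), zero_smul])
    (by
      rintro _ ⟨w, hw, rfl⟩ _ ⟨w', hw', rfl⟩ hne x hx y hy
      obtain ⟨c, rfl⟩ := Submodule.mem_span_singleton.1 hx
      obtain ⟨d, rfl⟩ := Submodule.mem_span_singleton.1 hy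
      rw [fm_smul_left, fm_smul_right, (h3 w hw w' hw').resolve_left fun e => hne
        (Submodule.eq_of_le_of_finrank_eq ((Submodule.span_singleton_le_iff_mem _ _).2 e) (by
          rw [finrank_span_singleton (h0 w hw), finrank_span_singleton (h0 w' hw')])).symm]
      simp)
    (by rw [sSup_image, ← Submodule.span_eq_iSup_of_singleton_spans, h4])
    (by
      rintro g hg _ ⟨w, hw, rfl⟩
      exact ⟨_, h2 g hg w hw, by simp [Submodule.map_span]⟩)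
  exact ⟨t, D, h5, h6⟩

section tensor

variable {T : (κ × μ → F) ≃ₗ[F] (ι → F)} {G₁ : Matrix κ κ F} {G₂ : Matrix μ μ F} {ε₁ ε₂ : F}

theorem KrF.smul (h : KrF σ G H T G₁ G₂ ε₁ ε₂) {c ε₁' ε₂' : F} (hc : c ≠ 0)
    (h1 : HF σ ε₁' (c • G₁)) (h2 : HF σ ε₂' (c⁻¹ • G₂)) :
    KrF σ G H T (c • G₁) (c⁻¹ • G₂) ε₁' ε₂' :=
  ⟨h.kr, h1, h2, by rw [h.gram, smul_kronecker, kronecker_smul, smul_smul, mul_inv_cancel₀ hc,
    one_smul]⟩

theorem KrF.wrF {T : (κ × κ → F) ≃ₗ[F] (ι → F)} {G₂ : Matrix κ κ F}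
    (h : KrF σ G H T G₁ G₂ ε₁ ε₂) {c : F} (hc : c ≠ 0) {e : (κ → F) ≃ₗ[F] (κ → F)}
    (he : gT σ G₂ e = c • G₁) :
    ∃ T' : ((Fin 2 → κ) → F) ≃ₗ[F] (ι → F), WrF σ G H T' G₁ ε₁ c := by
  obtain ⟨P, hP⟩ := exists_gl (σ := σ) (G := G₂) e
  obtain ⟨T', h1, h2⟩ := h.kr.wr ![1, P]
  refine ⟨T', h1, h.h1, hc, (h2 _ _ _ _ h.gram).trans ?_⟩
  ext x y
  simp [ten_apply, ← hP, he, mul_left_comm]

theorem WrF.congr {T : ((Fin t → κ) → F) ≃ₗ[F] (ι → F)} {G₀ G₀' : Matrix κ κ F} {ε₀ ε₀' c d : F}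
    (h : WrF σ G H T G₀ ε₀ c) (h' : HF σ ε₀' G₀') (hd : d ≠ 0) {e : (κ → F) ≃ₗ[F] (κ → F)}
    (he : gT σ G₀ e = d • G₀') :
    ∃ T' : ((Fin t → κ) → F) ≃ₗ[F] (ι → F), WrF σ G H T' G₀' ε₀' (c * d ^ t) := by
  obtain ⟨P, hP⟩ := exists_gl (σ := σ) (G := G₀) e
  refine ⟨_, h.wr.mulT P, h', mul_ne_zero h.ne (pow_ne_zero _ hd), ?_⟩
  rw [gT_mulT, h.gram, Matrix.mul_smul, Matrix.smul_mul, tenU_gram, ← hP, he, ten_smul, smul_smul]
  simp

theorem kronU_mul (a a' : GL κ F) (b b' : GL μ F) :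
    kronU (a * a') (b * b') = kronU a b * kronU a' b' := Units.ext (mul_kronecker_mul _ _ _ _)

/-- the tensor product of two groups -/
noncomputable def kronG (T : (κ × μ → F) ≃ₗ[F] (ι → F)) (A : Subgroup (GL κ F)) (B : Subgroup (GL μ F)) :
    Subgroup (GL ι F) :=
  (A.prod B).map ((ΦU T).toMonoidHom.comp
    (MonoidHom.mk' (fun p => kronU p.1 p.2) fun _ _ => kronU_mul _ _ _ _))

theorem mem_kronG {A : Subgroup (GL κ F)} {B : Subgroup (GL μ F)} {g : GL ι F} :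
    g ∈ kronG T A B ↔ ∃ a ∈ A, ∃ b ∈ B, ΦU T (kronU a b) = g :=
  ⟨fun ⟨p, h, e⟩ => ⟨p.1, h.1, p.2, h.2, e⟩, fun ⟨a, ha, b, hb, e⟩ => ⟨(a, b), ⟨ha, hb⟩, e⟩⟩

theorem kron_mem_scalars [Nonempty κ] [Nonempty μ] [Nonempty ι] {a : GL κ F} {b : GL μ F}
    (ha : a ∈ scalars κ F) (hb : b ∈ scalars μ F) : ΦU T (kronU a b) ∈ scalars ι F := by
  obtain ⟨c, hc⟩ := mem_scalars.1 ha
  obtain ⟨d, hd⟩ := mem_scalars.1 hb
  refine mem_scalars.2 ⟨c * d, ?_⟩
  change Φ T (a.1 ⊗ₖ b.1) = _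
  rw [hc, hd, smul_kronecker, kronecker_smul, one_kronecker_one, smul_smul, map_smul, map_one]

theorem Xs.kron [Nonempty κ] [Nonempty μ] [Nonempty ι] {A : Subgroup (GL κ F)}
    {B : Subgroup (GL μ F)} (hA : Xs A) (hB : Xs B) : Xs (kronG T A B) := by
  refine ⟨?_, ?_⟩
  · have := eq_top_of_kron (A := (env F (kronG T A B)).comap (Φ T).toAlgHom)
      (fun X => env_ind (k := F) (p := fun X => Φ T (X ⊗ₖ (1 : Matrix μ μ F)) ∈ env F (kronG T A B))
        (fun a ha => coe_mem_env (x := ΦU T (kronU a 1)) (mem_kronG.2 ⟨a, ha, 1, one_mem _, rfl⟩))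
        (by simp) (fun a b ha hb => by rw [add_kronecker, map_add]; exact add_mem ha hb)
        (fun c a ha => by rw [smul_kronecker, map_smul]; exact Subalgebra.smul_mem _ ha c)
        (hA.top ▸ Algebra.mem_top))
      (fun X => env_ind (k := F) (p := fun X => Φ T ((1 : Matrix κ κ F) ⊗ₖ X) ∈ env F (kronG T A B))
        (fun a ha => coe_mem_env (x := ΦU T (kronU 1 a)) (mem_kronG.2 ⟨1, one_mem _, a, ha, rfl⟩))
        (by simp) (fun a b ha hb => by rw [kronecker_add, map_add]; exact add_mem ha hb)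
        (fun c a ha => by rw [kronecker_smul, map_smul]; exact Subalgebra.smul_mem _ ha c)
        (hB.top ▸ Algebra.mem_top))
    refine Algebra.eq_top_iff.2 fun X => ?_
    obtain ⟨Y, rfl⟩ := (Φ T).surjective X
    exact (Algebra.eq_top_iff.1 this Y :)
  · rintro _ ⟨p, hp, rfl⟩ _ ⟨q, hq, rfl⟩
    rw [← map_commutatorElement]
    exact kron_mem_scalars (hA.comm _ hp.1 _ hq.1) (hB.comm _ hp.2 _ hq.2)

theorem KrF.nml_kron [Nonempty κ] [Nonempty μ] (h : KrF σ G H T G₁ G₂ ε₁ ε₂) (hs : H ≤ Sim σ G)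
    {A : Subgroup (GL κ F)} {B : Subgroup (GL μ F)} (hA : Nml (Sim σ G₁) A)
    (hB : Nml (Sim σ G₂) B) : Nml H (kronG T A B) := by
  rintro g hg _ ⟨p, hp, rfl⟩
  obtain ⟨a, ha, b, hb, rfl⟩ := h.sim hs g hg
  exact ⟨(a, b) * p * (a, b)⁻¹, ⟨hA a ha _ hp.1, hB b hb _ hp.2⟩, by
    rw [map_mul, map_mul, map_inv]; rfl⟩

theorem KrF.kron_le (h : KrF σ G H T G₁ G₂ ε₁ ε₂) {A : Subgroup (GL κ F)} {B : Subgroup (GL μ F)}
    (hA : A ≤ Iso σ G₁) (hB : B ≤ Iso σ G₂) : kronG T A B ≤ Iso σ G := by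
  rintro _ ⟨p, hp, rfl⟩
  refine ΦU_mem_Iso.2 (mem_Iso.2 ?_)
  change (p.1.1 ⊗ₖ p.2.1)ᵀ * _ * (p.1.1 ⊗ₖ p.2.1).map σ = _
  rw [h.gram, kron_map, ← kroneckerMap_transpose, ← mul_kronecker_mul, ← mul_kronecker_mul,
    mem_Iso.1 (hA hp.1), mem_Iso.1 (hB hp.2)]

end tensor

theorem Big.not_pair {Ω : Subgroup (GL ι F)} {Sg : (ι → F) → Prop} {d k : ℕ} (h : Big Ω Sg d)
    {D : Fin 2 → Submodule F (ι → F)} (hD : IsMDecomposition k D) (hk : 2 ≤ k)
    (h1 : ∀ x ∈ D 0, Sg x) (h2 : ∀ x ∈ D 0, ∀ y ∈ D 1, fm σ G y x = 0 → Sg (x + y)) :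
    ¬ Ω ≤ decompositionStabilizer D := by
  obtain ⟨x, hx, hx0⟩ := Submodule.exists_mem_ne_zero_of_ne_bot (p := D 0) fun e => by
    have := hD.finrank_eq 0
    rw [e, finrank_bot] at this
    omega
  obtain ⟨y, hy, hy0⟩ := Submodule.exists_mem_ne_zero_of_ne_bot (p := D 1 ⊓ pp σ G (F ∙ x))
    fun e => by
      have h3 := Submodule.finrank_sup_add_finrank_inf_eq (D 1) (pp σ G (F ∙ x))
      have h4 := le_finrank_pp (σ := σ) (G := G) (F ∙ x)
      have h5 := Submodule.finrank_le (D 1 ⊔ pp σ G (F ∙ x))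
      rw [e, finrank_bot, hD.finrank_eq] at h3
      rw [finrank_span_singleton hx0] at h4
      rw [finrank_fintype_fun_eq_card] at h5
      omega
  exact h.not_dec hD (· = 0) (Submodule.mem_iSup_of_mem 0 (Submodule.mem_iSup_of_mem rfl hx))
    (Submodule.mem_iSup_of_mem 1 (Submodule.mem_iSup_of_mem one_ne_zero hy.1)) hx0 hy0 (h1 x hx)
    (h2 x hx y hy.1 (hy.2 x (Submodule.mem_span_singleton_self x)))

end H29
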