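import Cfsg.Agent.H29.As10

/-! Aschbacher's theorem, part 11: the refined list `UC` for the unitary groups (`u_cases`). -/

set_option autoImplicit false
set_option linter.unusedSectionVars false

namespace H29

open Matrix Cfsg.Geo Module
open scoped Kronecker commutatorElement

variable {F : Type*} [Field F] {ι κ μ : Type} [Fintype ι] [DecidableEq ι] [Fintype κ]
  [DecidableEq κ] [Fintype μ] [DecidableEq μ] {σ : F →+* F} {H : Subgroup (GL ι F)}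
  {G G' : Matrix ι ι F} {ε : F} {t : ℕ} {F₀ : Subfield F}

local notation "ρ" => RingHom.id _

theorem gT_smul (c : F) (T : (κ → F) ≃ₗ[F] (ι → F)) : gT σ (c • G) T = c • gT σ G T :=
  fm_ext (σ := σ) fun x y => by rw [fm_gT, fm_smul, fm_smul, fm_gT]

theorem hf_J2' (hσ : ∀ a, σ (σ a) = a) : HF σ (-1) (J2 F) :=
  ⟨hσ, hf_J2.unit, by ext i j; fin_cases i <;> fin_cases j <;> simp [J2]⟩

theorem rat_of_sim_J2 {a : GL (Fin 2) F} (ha : a ∈ Sim σ (J2 F)) :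
    ∃ s : F, s ≠ 0 ∧ RatM (σ.eqLocusField ρ) (s • (a : Matrix (Fin 2) (Fin 2) F)) := by
  obtain ⟨c, hc, e⟩ := mem_Sim.1 ha
  have h1 : (a : Matrix (Fin 2) (Fin 2) F).map σ = (c / a.1.det) • a.1 :=
    (((isUnit_transpose _).2 a.isUnit).mul hf_J2.unit).mul_left_cancel (by
      have := gram_J2 a.1
      rw [RingHom.coe_id, Matrix.map_id] at this
      rw [e, Matrix.mul_smul, this, smul_smul, div_mul_cancel₀ _ (det_ne_zero a)])
  obtain ⟨i, j, h2⟩ : ∃ i j, a.1 i j ≠ 0 := by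
    by_contra! h2
    exact a.ne_zero (Matrix.ext h2)
  have h3 : ∀ k l, σ (a.1 k l) = c / a.1.det * a.1 k l := congrFun₂ h1
  refine ⟨_, inv_ne_zero h2, fun k l => ?_⟩
  change σ (_ * _) = _ * _
  have := det_ne_zero a
  rw [map_mul, map_inv₀, h3, h3]
  field_simp

theorem fix_ne_top (hne : σ ≠ ρ) : σ.eqLocusField ρ ≠ ⊤ := fun e =>
  hne (RingHom.ext fun c => e.ge (Subfield.mem_top c))

theorem eq_bot_of_solvable {G : Type*} [Group G] {P K : Subgroup G} (h : ⁅P, P⁆ = P) (h1 : P ≤ K)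
    (h2 : Group.IsSolvable K) : P = ⊥ := by
  haveI := solvable_of_solvable_injective (Subgroup.inclusion_injective h1)
  by_contra h3
  haveI := (Subgroup.nontrivial_iff_ne_bot _).2 h3
  refine (IsSolvable.commutator_lt_top_of_nontrivial P).ne ?_
  apply Subgroup.map_injective P.subtype_injective
  rw [Subgroup.map_subtype_commutator, h, ← MonoidHom.range_eq_map, Subgroup.range_subtype]

theorem solv_cases [Finite F] (hp : (Fintype.card ι).Prime) (h : HF σ ε G) (hs : H ≤ Sim σ G)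
    (hH : Irr H) (h1 : Group.IsSolvable H) : AbN σ G H ∨ ∃ M r, CaseB H M r := by
  rcases form_cases hH hp.two_le h hs with h2 | ⟨d, m, T, -, -, -, -, hd, hm, -⟩ |
    ⟨-, h2 | ⟨t, P, h2⟩ | ⟨P, h2⟩⟩
  · exact .inl h2
  · rw [← KrF.card T, Fintype.card_prod, Fintype.card_fin, Fintype.card_fin] at hp
    exact absurd hp (Nat.not_prime_mul (by omega) (by omega))
  · exact .inr h2
  · obtain ⟨o⟩ : Nonempty (Fin t) := ⟨⟨0, by have := h2.two; omega⟩⟩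
    exact (h2.ne o (eq_bot_of_solvable (h2.perfect o) (h2.le o) h1)).elim
  · exact ((irr_of_env h2.top).not_le_scalars hp.two_le
      (eq_bot_of_solvable h2.perfect h2.le h1 ▸ bot_le)).elim

/-- an absolutely irreducible group of exponent dividing `s`, abelian modulo scalars -/
structure XsR (σ : F →+* F) (G : Matrix ι ι F) (H R : Subgroup (GL ι F)) (s : ℕ) : Prop where
  xs : Xs R
  nml : Nml H R
  sim : R ≤ Sim σ G
  pow : ∀ x ∈ R, x ^ s = 1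
  sc : ∀ c : Fˣ, c ^ s = 1 → scU c ∈ R

theorem CaseB.xsR [Finite F] {M : Subgroup (GL ι F)} {r : ℕ} (h : CaseB H M r)
    (hn : 2 ≤ Fintype.card ι) (hs : H ≤ Sim σ G) : ∃ R, XsR σ G H R (r * Nat.gcd 2 r) := by
  haveI : Nonempty ι := Fintype.card_pos_iff.1 (by omega)
  obtain ⟨R, h1, h2, h3⟩ := h.exists_R hn
  exact ⟨R, h.xs.of_le (fun x hx => ((h1 x).1 hx).1) h3, h2, fun x hx =>
    sup_le (h.le.trans hs) scalars_le_Sim ((h1 x).1 hx).1, fun x hx => ((h1 x).1 hx).2,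
    fun c hc => (h1 _).2 ⟨Subgroup.mem_sup_right (scU_mem c), by rw [← scU_pow, hc, scU_one]⟩⟩

theorem XsR.adj_eq [Nonempty ι] {R : Subgroup (GL ι F)} {s : ℕ} (hR : XsR σ G H R s)
    (h : HF σ ε G) {x : GL ι F} (hx : x ∈ R) :
    ∃ c : Fˣ, c ^ s = 1 ∧ σ c = c ∧ adj σ G x = (scU c * x⁻¹ : GL ι F) := by
  obtain ⟨c, hc, e⟩ := h.adj_sim (hR.sim hx)
  have h1 : adj σ G x * x = c • 1 := by rw [e, smul_mul_assoc, Units.inv_mul]
  refine ⟨Units.mk0 c hc, Units.ext (smul_left_injective F (one_ne_zero' (Matrix ι ι F)) ?_),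
    smul_left_injective F (one_ne_zero' (Matrix ι ι F)) ?_, by simp [e]⟩
  · have := h.adj_pow x s
    rw [e, smul_pow, ← Units.val_pow_eq_pow_val, ← Units.val_pow_eq_pow_val, inv_pow,
      hR.pow x hx, inv_one, Units.val_one, h.adj_one] at this
    simpa using this.symm
  · have := congrArg (adj σ G) h1
    rwa [h.adj_mul, h.adj_adj, h1, adj_smul, h.adj_one, eq_comm] at this

variable [Fintype F]

theorem WrF.subS {T : ((Fin t → Fin 2) → F) ≃ₗ[F] (ι → F)} {G₀ : Matrix (Fin 2) (Fin 2) F}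
    {ε₀ c : F} (h : WrF σ G H T G₀ ε₀ c) (hne : σ ≠ ρ) (hs : H ≤ Sim σ G) : SubS σ G H := by
  obtain ⟨d, hd, h1⟩ := h.h0.exists_herm hne
  obtain ⟨ζ, h2, h3⟩ := H11.exists_mem_unit_Λ h1.σσ hne
  obtain ⟨e, he⟩ := unit_congr h1 ((hf_J2' h1.σσ).smul h2 (ε' := 1) (by
    linear_combination -(H11.mem_unitP_Λ.1 h3))) hne rfl
  obtain ⟨T', h4⟩ := h.congr (hf_J2' h1.σσ) (mul_ne_zero (inv_ne_zero hd) h2) (e := e) (by
    rw [mul_smul, ← he, gT_smul, inv_smul_smul₀ hd])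
  refine subS_of_coord (fix_ne_top hne) T' (inv_ne_zero h4.ne) (fun g hg => ?_) (by
    rw [h4.gram, inv_smul_smul₀ h4.ne]
    exact RatM.ten fun _ i j => by fin_cases i <;> fin_cases j <;> simp [J2])
  obtain ⟨b, π, a, ha, rfl⟩ := h4.sim hs g hg
  choose s h5 h6 using fun i => rat_of_sim_J2 (ha i)
  refine ⟨(∏ i, s i) * (b⁻¹ : Fˣ), mul_ne_zero (Finset.prod_ne_zero_iff.2 fun i _ => h5 i)
    (Units.ne_zero _), (b : F) • (pmU F _ π * tenU a).1, by simp, ?_⟩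
  rw [smul_smul, Units.inv_mul_cancel_right, Units.val_mul, ← Matrix.mul_smul]
  refine RatM.mul (fun x y => ?_) (ten_smul s (fun i => (a i).1) ▸ RatM.ten h6)
  change ite _ _ _ ∈ _
  split_ifs
  exacts [one_mem _, zero_mem _]

theorem exists_onb (h : HF σ 1 G) (hne : σ ≠ ρ) {W : Submodule F (ι → F)} {k : ℕ}
    (hk : finrank F W = k) (hW : IsNondegenerateOn (fm σ G) W) : ∃ B : Matrix ι (Fin k) F,
      (∀ x, x ∈ W ↔ ∃ y, x = B *ᵥ y) ∧ ∀ x y, fm σ G (B *ᵥ x) (B *ᵥ y) = ∑ i, x i * σ (y i) := by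
  obtain ⟨B, h1, h2⟩ := exists_gram_sub h hk hW
  obtain ⟨T, hT⟩ := unit_congr h2 (hf_one h.σσ) hne rfl
  refine ⟨B * (H11.glEquiv.symm T).1, fun x => (h1 x).trans ⟨fun ⟨y, e⟩ => ⟨T.symm y, ?_⟩,
    fun ⟨y, e⟩ => ⟨_, e.trans (mulVec_mulVec _ _ _).symm⟩⟩, fun x y => ?_⟩
  · rw [← mulVec_mulVec, glEquiv_symm_mulVec, T.apply_symm_apply, e]
  · rw [← mulVec_mulVec, ← mulVec_mulVec, glEquiv_symm_mulVec, glEquiv_symm_mulVec, fm_mulVec,
      ← fm_gT, hT, ← one_smul F (1 : Matrix _ _ F), fm_smul_one, one_mul]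

theorem norm_four (hF : Fintype.card F = 4) (hσ : ∀ a, σ (σ a) = a) (hne : σ ≠ ρ) {c : F}
    (hc : c ≠ 0) : c * σ c = 1 := by
  rw [H11.unit_σ_eq hσ hne (q := 2) (by simpa), ← pow_succ', pow_card_sub hF hc]

theorem frame_u2 (hF : Fintype.card F = 4) (h : HF σ 1 G) (hne : σ ≠ ρ) {W : Submodule F (ι → F)}
    (hk : finrank F W = 2) (hW : IsNondegenerateOn (fm σ G) W) :
    W ≤ Submodule.span F {w | w ∈ W ∧ fm σ G w w ≠ 0} ∧ ∀ w ∈ W, ∀ w' ∈ W,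
      fm σ G w w ≠ 0 → fm σ G w' w' ≠ 0 → w' ∈ F ∙ w ∨ fm σ G w w' = 0 := by
  obtain ⟨B, h1, h2⟩ := exists_onb h hne hk hW
  have h3 : ∀ x : Fin 2 → F, fm σ G (B *ᵥ x) (B *ᵥ x) ≠ 0 →
      x 0 = 0 ∧ x 1 ≠ 0 ∨ x 1 = 0 ∧ x 0 ≠ 0 := fun x hx => by
    rw [h2, Fin.sum_univ_two] at hx
    by_cases a : x 0 = 0 <;> by_cases b : x 1 = 0 <;>
      simp_all [norm_four hF h.σσ hne, one_add_one_eq_two, two_eq_of_card (k := 2) hF]
  refine ⟨fun x hx => ?_, fun w hw w' hw' => ?_⟩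
  · obtain ⟨y, rfl⟩ := (h1 x).1 hx
    rw [pi_eq_sum_univ' y, mulVec_sum]
    refine sum_mem fun i _ => ?_
    rw [mulVec_smul]
    exact Submodule.smul_mem _ _ (Submodule.subset_span ⟨(h1 _).2 ⟨_, rfl⟩, by
      rw [h2]; simp [Pi.single_apply]⟩)
  obtain ⟨x, rfl⟩ := (h1 w).1 hw
  obtain ⟨y, rfl⟩ := (h1 w').1 hw'
  intro hx hy
  have h4 : ∀ c : F, (∀ i, c * x i = y i) → B *ᵥ y ∈ F ∙ B *ᵥ x := fun c hc =>
    Submodule.mem_span_singleton.2 ⟨c, by rw [← mulVec_smul]; exact congrArg _ (funext hc)⟩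
  rcases h3 x hx with a | a <;> rcases h3 y hy with b | b
  · exact .inl (h4 (y 1 / x 1) (by simp [a, b]))
  · exact .inr (by simp [h2, a, b])
  · exact .inr (by simp [h2, a, b])
  · exact .inl (h4 (y 0 / x 0) (by simp [a, b]))

theorem HF.ndTop (h : HF σ ε G) : IsNondegenerateOn (fm σ G) ⊤ :=
  h.ndOn fun _ _ h1 => h.left fun y => h1 y trivial

theorem abN_u2 (hF : Fintype.card F = 4) {G : Matrix (Fin 2) (Fin 2) F} (h : HF σ 1 G)
    (hne : σ ≠ ρ) : AbN σ G (Sim σ G) := by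
  obtain ⟨h1, h2⟩ := frame_u2 hF h hne (by simp) h.ndTop
  obtain ⟨v, hv⟩ : ∃ v, fm σ G v v ≠ 0 := by
    by_contra! h3
    simp [h3] at h1
  refine abN_of_frame h le_rfl (by simp) (fun w => fm σ G w w ≠ 0) (fun _ h => h)
    (fun g hg w hw => ?_) (fun w w' => h2 w trivial w' trivial) hv
  obtain ⟨c, hc⟩ := hg
  exact hc w w ▸ mul_ne_zero c.ne_zero hw

theorem dec_u2 (hF : Fintype.card F = 4) (h : HF σ 1 G) (hne : σ ≠ ρ) (hs : H ≤ Iso σ G)
    {D : Fin t → Submodule F (ι → F)} (hD : IsNondegenerateMDecomposition (fm σ G) 2 D)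
    (h1 : H ≤ decompositionStabilizer D) :
    ∃ (t : ℕ) (D : Fin t → Submodule F (ι → F)), IsNondegenerateMDecomposition (fm σ G) 1 D ∧
      H ≤ decompositionStabilizer D := by
  have h2 := fun i => frame_u2 hF h hne (hD.decomp.finrank_eq i) (hD.nondegenerate i)
  refine dec_of_frame h (L := {w | ∃ i, w ∈ D i ∧ fm σ G w w ≠ 0})
    (by have := mdec_card hD.decomp; have := hD.decomp.two_le; omega) (fun w ⟨_, hw⟩ => hw.2)
    (fun g hg w ⟨i, hw⟩ => ?_) (fun w ⟨i, hw⟩ w' ⟨j, hw'⟩ => ?_) (top_le_iff.1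
      (hD.decomp.iSup_eq_top ▸ iSup_le fun i => (h2 i).1.trans (Submodule.span_mono
        fun w hw => ⟨i, hw⟩)))
  · obtain ⟨τ, hτ⟩ := of_mem_decStab (h1 hg)
    exact ⟨_, hτ i w hw.1, by rw [hs hg]; exact hw.2⟩
  · obtain rfl | e := eq_or_ne i j
    · exact (h2 i).2 w hw.1 w' hw'.1 hw.2 hw'.2
    · exact .inr (hD.orthogonal i j e w hw.1 w' hw'.1)

theorem Sim_le_Iso [Nonempty ι] (hF : Fintype.card F = 4) (h : HF σ 1 G) (hne : σ ≠ ρ) :
    Sim σ G ≤ Iso σ G := fun g hg => by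
  obtain ⟨c, hc, e⟩ := h.adj_sim hg
  have h1 : adj σ G g * g = c • 1 := by rw [e, smul_mul_assoc, Units.inv_mul]
  have h2 := congrArg (adj σ G) h1
  rw [h.adj_mul, h.adj_adj, h1, adj_smul, h.adj_one] at h2
  have h3 := norm_four hF h.σσ hne hc
  rw [← smul_left_injective F (one_ne_zero' (Matrix ι ι F)) h2] at h3
  have h4 := pow_card_sub (q := 3) hF hc
  exact h.mem_Iso (by rw [h1, show c = 1 by linear_combination h4 - c * h3, one_smul])

theorem card_Iso_unit (h : HF σ 1 G) (hne : σ ≠ ρ) {q : ℕ} (hF : Fintype.card F = q ^ 2) :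
    Nat.card (Iso σ G) = H11.guOrd q (Fintype.card ι) := by
  let S := H11.unitS h.σσ hne _ h.sesq_symm
  have h1 : Iso σ G = (toGL S).range := by
    ext g
    rw [mem_range_toGL]
    exact ⟨fun h => H11.PForm.unit_isIsom fun x y => h y x, fun h x y => h.h_eq y x⟩
  rw [h1, ← H11.PForm.unit_card_Isom hne (by simpa using hF) _ (S := S) (fun x hx => h.right hx)
    (by simp)]
  exact Nat.card_congr (MonoidHom.ofInjective (toGL_injective S)).toEquiv.symm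

theorem solvable_u3 (hF : Fintype.card F = 4) {G : Matrix (Fin 3) (Fin 3) F} (h : HF σ 1 G)
    (hne : σ ≠ ρ) : Group.IsSolvable (Sim σ G) :=
  H5.burnside_paqb_dvd (a := 3) (b := 4) Nat.prime_two Nat.prime_three (by
    rw [(Sim_le_Iso hF h hne).antisymm Iso_le_Sim, card_Iso_unit h hne (q := 2) hF]
    decide)

theorem u3_cases (hF : Fintype.card F = 4) {G : Matrix (Fin 3) (Fin 3) F} (h : HF σ 1 G)
    (hne : σ ≠ ρ) (hI : Irr (Sim σ G)) : AbN σ G (Sim σ G) ∨ ∃ R, XsR σ G (Sim σ G) R 3 := by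
  refine (solv_cases (by simpa using Nat.prime_three) h le_rfl hI
    (solvable_u3 hF h hne)).imp_right ?_
  rintro ⟨M, r, h1⟩
  obtain rfl : r = 3 := (Nat.prime_dvd_prime_iff_eq h1.prime Nat.prime_three).1
    (by simpa [hF] using h1.dvd (by simp))
  exact h1.xsR (by simp) le_rfl

theorem KrF.xsR [Nonempty κ] [Nonempty μ] [Nonempty ι] {T : (κ × μ → F) ≃ₗ[F] (ι → F)}
    {G₁ : Matrix κ κ F} {G₂ : Matrix μ μ F} {ε₁ ε₂ : F} (h : KrF σ G H T G₁ G₂ ε₁ ε₂)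
    (hs : H ≤ Sim σ G) {A : Subgroup (GL κ F)} {B : Subgroup (GL μ F)} {s : ℕ}
    (hA : XsR σ G₁ (Sim σ G₁) A s) (hB : XsR σ G₂ (Sim σ G₂) B s) :
    XsR σ G H (kronG T A B) s := by
  refine ⟨hA.xs.kron hB.xs, h.nml_kron hs hA.nml hB.nml, ?_, ?_, fun c hc =>
    mem_kronG.2 ⟨_, hA.sc c hc, 1, one_mem _, Units.ext ?_⟩⟩
  · rintro _ ⟨p, hp, rfl⟩
    exact ΦU_mem_Sim.2 (h.gram ▸ kron_mem_Sim (hA.sim hp.1) (hB.sim hp.2))
  · rintro _ ⟨p, hp, rfl⟩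
    rw [← map_pow, show p ^ s = 1 from Prod.ext (hA.pow _ hp.1) (hB.pow _ hp.2), map_one]
  · change Φ T ((scU c : GL κ F).1 ⊗ₖ (1 : Matrix μ μ F)) = _
    simp [smul_kronecker]

/-- the normalised group of symplectic type, over its minimal field -/
structure XsU (σ : F →+* F) (G : Matrix ι ι F) (H R : Subgroup (GL ι F)) (r m : ℕ) : Prop where
  xsR : XsR σ G H R (r * Nat.gcd 2 r)
  st : IsSymplecticTypeGroup r R
  dim : Fintype.card ι = r ^ m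
  cent : Nat.card (Subgroup.center R) = r * Nat.gcd 2 r
  card : Nat.card R = r * Nat.gcd 2 r * r ^ (2 * m)
  min : ∃ p e, r ≠ p ∧ IsMinimalFieldFor (r * Nat.gcd 2 r) p e F

theorem XsR.cases {R : Subgroup (GL ι F)} {r : ℕ} (hR : XsR σ G H R (r * Nat.gcd 2 r))
    (hr : r.Prime) (hn : 2 ≤ Fintype.card ι) (h : HF σ ε G)
    (hd : r * Nat.gcd 2 r ∣ Fintype.card F - 1) :
    AbN σ G H ∨ SubS σ G H ∨ ∃ m, XsU σ G H R r m := by
  haveI : Nonempty ι := Fintype.card_pos_iff.1 (by omega)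
  refine (char_ab_cases h hR.nml hR.sim).imp_right fun h1 => ?_
  have hS := sympType hR.xs.top hn hr hR.pow h1
  have hc : Nat.card (ZR R) = r * Nat.gcd 2 r := (card_of_mem_iff fun c => ⟨fun hc =>
    scU_injective (ι := ι) (by rw [scU_pow, hR.pow _ (mem_ZR.1 hc), scU_one]), hR.sc c⟩).trans
      (Nat.gcd_eq_right hd)
  rcases min_or_sub (ZR R) with ⟨p, e, h2⟩ | ⟨F₀, h2, h3⟩
  · obtain ⟨m, hm⟩ := hR.xs.pow_of_pGroup hr hS.pGroup
    refine .inr ⟨m, hR, hS, hm, (card_center hR.xs.top).trans hc, by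
      rw [hR.xs.card, card_center hR.xs.top, hc, hm, ← pow_mul'], p, e, ?_, hc ▸ h2⟩
    rintro rfl
    refine hr.not_dvd_one ((Nat.dvd_sub_iff_right Fintype.card_pos (h2.2.2.1 ▸
      dvd_pow_self r (min_pos h2).ne')).1 ((Dvd.intro _ rfl).trans hd))
  · refine .inl (subS_of_env h hR.xs.top hR.nml h2 (hR.xs.sc_cond h3) fun x hx => ?_)
    obtain ⟨c, h4, -, e⟩ := hR.adj_eq h hx
    exact e ▸ coe_mem_env (mul_mem (hR.sc c h4) (inv_mem hx))

theorem alt_of_skew (h : HF ρ (-1) G) (h0 : ∀ i, G i i = 0) (v : ι → F) : fm ρ G v v = 0 := by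
  induction v using Pi.single_induction with
  | zero => simp
  | add x y hx hy =>
    rw [fm_add_left, fm_add_right, fm_add_right, hx, hy, h.swap y x]
    simp
  | single i c =>
    rw [← mul_one c, ← smul_eq_mul, Pi.single_smul', fm_smul_left, fm_smul_right, fm_single, h0]
    simp

theorem HF.of_rat (h : HF σ ε G) (hσ : ∀ c ∈ F₀, σ c = c) (h1 : RatM F₀ G) : HF ρ ε G :=
  ⟨fun _ => rfl, h.unit, by
    have := h.herm
    rwa [show G.map σ = G.map (RingHom.id F) from Matrix.ext fun i j => hσ _ (h1 i j)] at this⟩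

theorem le_Sim_of_rat (hσ : ∀ c ∈ F₀, σ c = c) {P : GL ι F} (h1 : H ≤ subfieldSubgroup F₀ P)
    (hs : H ≤ Iso σ G) : H ≤ Sim ρ (gT ρ (gT σ G (H11.glEquiv P)) (H11.glEquiv P).symm) :=
  fun g hg => by
    obtain ⟨t, ht, h2⟩ := mem_subfieldSubgroup.1 (h1 hg)
    have h3 : (g : Matrix ι ι F) = Φ (H11.glEquiv P) (cjA P⁻¹ g.1) := by
      rw [Φ_glEquiv, cjA_cjA_inv]
    generalize cjA P⁻¹ g.1 = X at h2 h3
    have h4 : Xᵀ * gT σ G (H11.glEquiv P) * X.map σ = gT σ G (H11.glEquiv P) :=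
      fm_ext (σ := σ) fun x y => by
        rw [← fm_mulVec, fm_gT, fm_gT, ← Φ_mulVec, ← Φ_mulVec, ← h3, hs hg]
    have h5 : σ t • X.map σ = t • X.map (RingHom.id F) := by
      rw [← map_smul_σ]
      exact Matrix.ext fun i j => hσ _ (h2 i j)
    refine mem_Sim_of_Φ h3 (c := t⁻¹ * σ t)
      (mul_ne_zero (inv_ne_zero ht) ((map_ne_zero σ).2 ht)) ?_
    rw [← inv_smul_smul₀ ht (X.map (RingHom.id F)), ← h5, smul_smul, Matrix.mul_smul, h4]

/-- the three kinds of subfield subgroups of a unitary group -/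
def SubU (σ : F →+* F) (G : Matrix ι ι F) (H : Subgroup (GL ι F)) : Prop :=
  (∃ (F₀ : Subfield F) (r : ℕ) (P : GL ι F), r.Prime ∧ Odd r ∧ Fintype.card F = Nat.card F₀ ^ r ∧
    IsFormRationalStructure (fm σ G) F₀ 1 P ∧ H ≤ subfieldSubgroup F₀ P) ∨
  (Odd (Fintype.card F) ∧ ∃ (F₀ : Subfield F) (P : GL ι F), Fintype.card F = Nat.card F₀ ^ 2 ∧
    IsFormRationalStructure (fm σ G) F₀ 1 P ∧ H ≤ subfieldSubgroup F₀ P) ∨
  (Even (Fintype.card ι) ∧ ∃ (F₀ : Subfield F) (P : GL ι F) (ζ : F),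
    Fintype.card F = Nat.card F₀ ^ 2 ∧ ζ ≠ 0 ∧ ζ + σ ζ = 0 ∧
    IsFormRationalStructure (fm σ G) F₀ ζ P ∧ (∀ u : ι → F, (∀ i, u i ∈ F₀) →
      fm σ G ((P : Matrix ι ι F) *ᵥ u) ((P : Matrix ι ι F) *ᵥ u) = 0) ∧ H ≤ subfieldSubgroup F₀ P)

theorem SubS.subU (hS : SubS σ G H) (h : HF σ 1 G) (hne : σ ≠ ρ) (hH : Irr H)
    (hn : 2 ≤ Fintype.card ι) (hs : H ≤ Iso σ G) : SubU σ G H := by
  haveI : Nonempty ι := Fintype.card_pos_iff.1 (by omega)
  obtain ⟨F₀, r, P, c, hr, hc, h1, h2, h3⟩ := hS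
  obtain ⟨q, hq, hq', -⟩ := H11.unit_field_facts h.σσ hne
  have hσ : ∀ c ∈ F₀, σ c ∈ F₀ := fun c => σ_mem F₀
  have h4 := fm_rat hσ h3
  by_cases hA : ∃ u : ι → F, (∀ i, u i ∈ F₀) ∧ fm σ G (P.1 *ᵥ u) (P.1 *ᵥ u) ≠ 0
  · obtain ⟨u, hu, h5⟩ := hA
    obtain ⟨s, h6⟩ := H11.exists_norm_eq h.σσ hne (μ := (fm σ G (P.1 *ᵥ u) (P.1 *ᵥ u))⁻¹) (by
      rw [map_inv₀, h.swap, one_mul, h.σσ, ← one_mul (σ _), ← h.swap])
    have hs0 : s ≠ 0 := by rintro rfl; simp [eq_comm, h5] at h6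
    obtain ⟨P', hP⟩ : ∃ P', P' = scU (Units.mk0 s hs0) * P := ⟨_, rfl⟩
    have h7 : gT σ G (H11.glEquiv P') = (c * fm σ G (P.1 *ᵥ u) (P.1 *ᵥ u))⁻¹ •
        c • gT σ G (H11.glEquiv P) := by
      rw [hP, gT_scU, Units.val_mk0, mul_comm s, h6, smul_smul]
      congr 1
      field_simp
    have h8 : RatM F₀ (gT σ G (H11.glEquiv P')) := h7 ▸ h3.smul (inv_mem (h4 u u hu hu))
    have h9 := fm_rat (c := 1) hσ (by rwa [one_smul])
    rw [← subfieldSubgroup_scU (Units.mk0 s hs0), ← hP] at h1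
    rcases hr.eq_two_or_odd' with rfl | ho
    swap
    · exact .inl ⟨F₀, r, P', hr, ho, hc, h9, h1⟩
    refine .inr (.inl ⟨?_, F₀, P', hc, h9, h1⟩)
    have h10 : ∀ c ∈ F₀, σ c = c := fun c => σ_eq_of_two hq' hq (by simpa using hc)
    rcases bil_cases hH hn (((h.gT _).of_rat h10 h8).gT (H11.glEquiv P').symm)
      (le_Sim_of_rat h10 h1 hs) with h11 | h11
    · have := h11.alternating (H11.glEquiv P' u)
      rw [← fm_gT, gT_symm, fm_eq, show (RingHom.id F) ∘ u = σ ∘ u from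
        funext fun i => (h10 _ (hu i)).symm, ← fm_eq, h7, fm_smul, fm_smul, fm_gT] at this
      exact absurd this (mul_ne_zero (inv_ne_zero (mul_ne_zero h2 h5)) (mul_ne_zero h2 h5))
    · exact odd_of_two_ne h11.1
  push Not at hA
  have h5 : ∀ i, ∀ θ ∈ F₀, ∀ j, (θ • Pi.single i 1 : ι → F) j ∈ F₀ := fun i θ hθ j => by
    by_cases e : j = i <;> simp [e, hθ]
  have h6 : ∀ θ ∈ F₀, ∀ i j, θ * gT σ G (H11.glEquiv P) i j +
      σ (θ * gT σ G (H11.glEquiv P) i j) = 0 := fun θ hθ i j => by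
    have := hA (θ • Pi.single i 1 + (1 : F) • Pi.single j 1) fun k =>
      add_mem (h5 i θ hθ k) (h5 j 1 (one_mem _) k)
    rw [mulVec_add, fm_add_left, fm_add_right, fm_add_right, hA _ (h5 i θ hθ),
      hA _ (h5 j 1 (one_mem _)), h.swap (P.1 *ᵥ _) (P.1 *ᵥ (θ • _)), ← glEquiv_apply,
      ← glEquiv_apply, ← fm_gT, one_smul, fm_smul_left, fm_single] at this
    simpa using this
  obtain ⟨i, j, h7⟩ : ∃ i j, gT σ G (H11.glEquiv P) i j ≠ 0 := by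
    by_contra! h7
    exact (h.gT _).ne_zero (Matrix.ext h7)
  have h8 := h6 1 (one_mem _) i j
  rw [one_mul] at h8
  have h9 : ∀ θ ∈ F₀, σ θ = θ := fun θ hθ => mul_right_cancel₀ h7 (by
    have := h6 θ hθ i j
    rw [map_mul] at this
    linear_combination σ θ * h8 - this)
  rcases hr.eq_two_or_odd' with rfl | ho
  swap
  · obtain ⟨θ, hθ, e⟩ := exists_σ_ne_of_odd h.σσ hne 
      (finrank_of_card (Nat.card_eq_fintype_card.trans hc) ▸ ho)
    exact absurd (h9 θ hθ) e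
  have h10 : c + σ c = 0 := mul_right_cancel₀ h7 (by
    have := h9 _ (h3 i j)
    rw [Matrix.smul_apply, smul_eq_mul, map_mul] at this
    linear_combination σ c * h8 - this)
  have h11 := ((h.gT (H11.glEquiv P)).smul h2 (ε' := -1) (by linear_combination h10)).of_rat h9 h3
  refine .inr (.inr ⟨even_of_symp (h11.symp (alt_of_skew h11 fun i => ?_)), F₀, P, c, hc, h2, h10,
    h4, hA, h1⟩)
  have := hA _ (h5 i 1 (one_mem _))
  rw [← glEquiv_apply, ← fm_gT, one_smul, fm_single] at this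
  rw [Matrix.smul_apply, this, smul_zero]

/-- the geometric classes for a unitary group -/
def UC (σ : F →+* F) (G : Matrix ι ι F) (H : Subgroup (GL ι F)) : Prop :=
  (∃ W, W ≠ ⊥ ∧ IsTotallySingularFor (fm σ G) W ∧ H ≤ subspaceStabilizer W) ∨
  (∃ W, W ≠ ⊥ ∧ IsNondegenerateOn (fm σ G) W ∧ 2 * finrank F W < Fintype.card ι ∧
    H ≤ subspaceStabilizer W) ∨
  (∃ (t k : ℕ) (D : Fin t → Submodule F (ι → F)), IsNondegenerateMDecomposition (fm σ G) k D ∧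
    (k = 2 → Fintype.card F ≠ 4) ∧ H ≤ decompositionStabilizer D) ∨
  TPair σ G H ∨ SubU σ G H ∨ (∃ R r m, XsU σ G H R r m) ∨
  (∃ r K, r.Prime ∧ Odd r ∧ FldN σ G H r K) ∨
  (∃ (d m : ℕ) (T : (Fin d × Fin m → F) ≃ₗ[F] (ι → F)) (G₁ : _) (G₂ : _),
    2 ≤ d ∧ d < m ∧ (d = 2 → Fintype.card F ≠ 4) ∧ KrF σ G H T G₁ G₂ 1 1) ∨
  ∃ (k t : ℕ) (T : ((Fin t → Fin k) → F) ≃ₗ[F] (ι → F)) (G₀ : _) (c : F),
    3 ≤ k ∧ 2 ≤ t ∧ ¬ (Fintype.card F = 4 ∧ k = 3) ∧ WrF σ G H T G₀ 1 c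

theorem uC_dec (h : HF σ 1 G) (hne : σ ≠ ρ) (hs : H ≤ Iso σ G) {k : ℕ}
    {D : Fin t → Submodule F (ι → F)} (hD : IsNondegenerateMDecomposition (fm σ G) k D)
    (h1 : H ≤ decompositionStabilizer D) : UC σ G H := by
  by_cases h2 : k = 2 → Fintype.card F ≠ 4
  · exact .inr (.inr (.inl ⟨t, k, D, hD, h2, h1⟩))
  · push Not at h2
    obtain ⟨rfl, h2⟩ := h2
    obtain ⟨t, D, h3, h4⟩ := dec_u2 h2 h hne hs hD h1
    exact .inr (.inr (.inl ⟨t, 1, D, h3, by omega, h4⟩))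

theorem uC_abN [Nonempty ι] (hH : Irr H) (h : HF σ 1 G) (hne : σ ≠ ρ) (hs : H ≤ Iso σ G)
    (hA : AbN σ G H) : UC σ G H := by
  rcases hA.cases hH h (hs.trans Iso_le_Sim) with ⟨k, t, D, h1, h2, -⟩ | h1 | ⟨d, K, hd, h1⟩
  · exact uC_dec h hne hs h1 h2
  · exact .inr (.inr (.inr (.inl h1)))
  · exact .inr (.inr (.inr (.inr (.inr (.inr (.inl (h1.unit h hne hd)))))))

theorem uC_sub (hH : Irr H) (hn : 2 ≤ Fintype.card ι) (h : HF σ 1 G) (hne : σ ≠ ρ)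
    (hs : H ≤ Iso σ G) (hS : SubS σ G H) : UC σ G H :=
  .inr (.inr (.inr (.inr (.inl (hS.subU h hne hH hn hs)))))

theorem uC_xs (hH : Irr H) (hn : 2 ≤ Fintype.card ι) (h : HF σ 1 G) (hne : σ ≠ ρ)
    (hs : H ≤ Iso σ G) {R : Subgroup (GL ι F)} {r : ℕ} (hR : XsR σ G H R (r * Nat.gcd 2 r))
    (hr : r.Prime) (hd : r ∣ Fintype.card F - 1) : UC σ G H := by
  haveI : Nonempty ι := Fintype.card_pos_iff.1 (by omega)
  rcases hR.cases hr hn h (by
    rcases hr.eq_two_or_odd' with rfl | ho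
    · obtain ⟨q, hq, -⟩ := H11.unit_field_facts h.σσ hne
      rw [Nat.card_eq_fintype_card] at hq
      have := Fintype.card_pos (α := F)
      rcases Nat.even_or_odd' q with ⟨k, rfl | rfl⟩
      · rw [hq, show (2 * k) ^ 2 = 2 * (2 * k ^ 2) by ring] at hd this
        omega
      · exact ⟨k ^ 2 + k, by rw [hq, Nat.sub_eq_iff_eq_add (hq ▸ this)]; norm_num; ring⟩
    · rwa [(Nat.coprime_two_left.2 ho).gcd_eq_one, mul_one]) with h1 | h1 | h1
  · exact uC_abN hH h hne hs h1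
  · exact uC_sub hH hn h hne hs h1
  · exact .inr (.inr (.inr (.inr (.inr (.inl ⟨R, r, h1⟩)))))

theorem uC_wr (hH : Irr H) (hn : 2 ≤ Fintype.card ι) (h : HF σ 1 G) (hne : σ ≠ ρ)
    (hs : H ≤ Iso σ G) {k : ℕ} {T : ((Fin t → Fin k) → F) ≃ₗ[F] (ι → F)} {G₀ : _} {c : F}
    (hk : 2 ≤ k) (ht : 2 ≤ t) (h1 : ¬ (Fintype.card F = 4 ∧ k = 3)) (hw : WrF σ G H T G₀ 1 c) :
    UC σ G H := by
  obtain rfl | hk := hk.eq_or_lt
  · exact uC_sub hH hn h hne hs (hw.subS hne (hs.trans Iso_le_Sim))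
  · iterate 8 right
    exact ⟨k, t, T, G₀, c, hk, ht, h1, hw⟩

theorem uC_kr [Nonempty ι] (hH : Irr H) (h : HF σ 1 G) (hne : σ ≠ ρ) (hs : H ≤ Iso σ G) {d m : ℕ}
    {T : (Fin d × Fin m → F) ≃ₗ[F] (ι → F)} {G₁ : _} {G₂ : _} (hd : 2 ≤ d) (hm : d < m)
    (hk : KrF σ G H T G₁ G₂ 1 1) : UC σ G H := by
  by_cases h1 : d = 2 → Fintype.card F ≠ 4
  · iterate 7 right
    exact .inl ⟨d, m, T, G₁, G₂, hd, hm, h1, hk⟩
  · push Not at h1
    obtain ⟨rfl, h1⟩ := h1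
    haveI : NeZero m := ⟨by omega⟩
    exact uC_abN hH h hne hs (hk.abN h (hs.trans Iso_le_Sim) (abN_u2 h1 hk.h1 hne))

theorem u_cases (hn : 2 ≤ Fintype.card ι) (h : HF σ 1 G) (hne : σ ≠ ρ) (hs : H ≤ Iso σ G) :
    UC σ G H ∨ InUnitaryResidualClass H := by
  haveI : Nonempty ι := Fintype.card_pos_iff.1 (by omega)
  have hs' := hs.trans Iso_le_Sim
  by_cases hH : Irr H
  swap
  · rcases red_cases h hs' hH with h1 | h1 | ⟨W, h1, h2, h3, h4⟩
    · exact .inl (.inl h1)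
    · exact .inl (.inr (.inl h1))
    · exact .inl (uC_dec h hne hs (h.ndec_pair h1 (inf_pp h2) h3) (le_decStab_pair hs' h4))
  rcases form_cases hH hn h hs' with h1 | ⟨d, m, T, G₁, G₂, ε₁, ε₂, hd, hm, hk⟩ |
    ⟨-, ⟨M, r, h1⟩ | ⟨t, P, h1⟩ | ⟨P, h1⟩⟩
  · exact .inl (uC_abN hH h hne hs h1)
  · haveI : NeZero d := ⟨by omega⟩
    haveI : NeZero m := ⟨by omega⟩
    obtain ⟨c, hc, h1⟩ := hk.h1.exists_herm hne
    have h2 : HF σ 1 (c⁻¹ • G₂) := hk.h2.smul (inv_ne_zero hc) (by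
      have h4 := (map_ne_zero σ).2 hc
      have h2 := h1.ε_eq (hk.h1.smul hc (ε' := c * ε₁ / σ c) (by field_simp))
      have h3 := hk.ε_eq h
      rw [eq_div_iff h4] at h2
      rw [map_inv₀]
      field_simp
      linear_combination ε₂ * h2 + c * h3)
    replace hk := hk.smul hc h1 h2
    left
    rcases lt_trichotomy d m with h3 | rfl | h3
    · exact uC_kr hH h hne hs hd h3 hk
    swap
    · exact uC_kr hH h hne hs hm h3 hk.swap
    by_cases h3 : Fintype.card F = 4 ∧ d = 3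
    · obtain ⟨h3, rfl⟩ := h3
      rcases u3_cases h3 h1 hne (hk.irr hH hs') with h4 | ⟨A, h4⟩
      · exact uC_abN hH h hne hs (hk.abN h hs' h4)
      rcases u3_cases h3 h2 hne (hk.swap.irr hH hs') with h5 | ⟨B, h5⟩
      · exact uC_abN hH h hne hs (hk.swap.abN h hs' h5)
      · exact uC_xs hH hn h hne hs (r := 3) (hk.xsR hs' h4 h5) Nat.prime_three (by simp [h3])
    obtain ⟨e, he⟩ := unit_congr h2 h1 hne rfl
    obtain ⟨T', h4⟩ := hk.wrF one_ne_zero (he.trans (one_smul _ _).symm)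
    exact uC_wr hH hn h hne hs hd le_rfl h3 h4
  · obtain ⟨R, hR⟩ := h1.xsR hn hs'
    exact .inl (uC_xs hH hn h hne hs hR h1.prime (h1.dvd hn))
  · obtain ⟨k, T, G₀, ε₀, c, hk, hw, h3⟩ := h1.wrF h hs'
    haveI : NeZero k := ⟨by omega⟩
    obtain ⟨d, hd, h2⟩ := hw.h0.exists_herm hne
    obtain ⟨T', h4⟩ := hw.congr h2 (inv_ne_zero hd) (e := LinearEquiv.refl F _)
      (fm_ext (σ := σ) fun x y => by rw [fm_gT, inv_smul_smul₀ hd]; rfl)
    refine .inl (uC_wr hH hn h hne hs hk h1.two ?_ h4)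
    rintro ⟨h5, rfl⟩
    exact h3 (Sim_smul (σ := σ) (G := G₀) hd ▸ solvable_u3 h5 h2 hne)
  rcases h1.cases h hs with h2 | ⟨h2, h3⟩
  · exact .inl (uC_sub hH hn h hne hs h2)
  refine .inr ⟨P, h2, ?_, ?_⟩
  · rintro ⟨Q, h4, h5⟩
    obtain ⟨G', e, h6⟩ := hf_of_quad h4
    exact hne (h3 _ _ _ h6 fun x hx => iso_of_quad e (h5 _ ⟨x, hx, rfl⟩)).symm
  · rintro ⟨f, h4, h5⟩
    obtain ⟨G', rfl, h6⟩ := hf_of_symp h4
    exact hne (h3 _ _ _ h6 (fixes_iff.1 h5)).symm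

end H29
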