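import Cfsg.Agent.H29.ND

/-! Stabilisers of non-degenerate subspaces in `Ω`: `orth_irr_of_hex`, `isMaximalIn_nd_orth`. -/

set_option autoImplicit false

namespace H29
open H11 H11.PForm Module Matrix
open scoped MatrixGroups

variable {F : Type*} [Field F] {ι : Type} [Fintype ι] [DecidableEq ι]

theorem nondegOn_of_restrict {Q : (ι → F) → F} (hQ : Cfsg.Geo.IsNondegenerateQuadraticForm Q)
    {U : Submodule F (ι → F)} (hU : ((orthS (quadOf hQ)).restrict U).Nondeg) :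
    Cfsg.Geo.IsNondegenerateOn (QuadraticMap.polar Q) U := by
  rw [restrict_nondeg_iff'] at hU
  intro w hw h0
  have : ∃ x ∈ U, QuadraticMap.polar Q w x ≠ 0 := by
    by_contra h
    push Not at h
    exact h0 (hU w hw h)
  obtain ⟨x, hx, h⟩ := this
  exact ⟨⟨x, hx, by rwa [QuadraticMap.polar_comm]⟩, x, hx, h⟩

theorem plusType_of_sing {Q : (ι → F) → F} (hQ : Cfsg.Geo.IsNondegenerateQuadraticForm Q)
    {U : Submodule F (ι → F)} (h2 : finrank F U = 2) {x : ι → F} (hxU : x ∈ U) (hx0 : x ≠ 0)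
    (hx : Q x = 0) : Cfsg.Geo.IsPlusTypeOn Q U := by
  refine ⟨F ∙ x, (Submodule.span_singleton_le_iff_mem _ _).2 hxU,
    fun w hw => ?_, by rw [finrank_span_singleton hx0, h2]⟩
  obtain ⟨c, rfl⟩ := Submodule.mem_span_singleton.1 hw
  rw [hQ.smul]
  exact mul_eq_zero_of_right _ hx

theorem sing_of_plusType {Q : (ι → F) → F} {U : Submodule F (ι → F)} (h2 : 0 < finrank F U)
    (h : Cfsg.Geo.IsPlusTypeOn Q U) : ∃ x ∈ U, x ≠ 0 ∧ Q x = 0 := by
  obtain ⟨T, hT, h1, h3⟩ := h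
  obtain ⟨x, hx, hx0⟩ := exists_ne_zero_of_finrank T (by omega)
  exact ⟨x, hT hx, hx0, h1 x hx⟩

theorem orth_irr_of_hex [Fintype F] {Q : (ι → F) → F}
    (hQ : Cfsg.Geo.IsNondegenerateQuadraticForm Q) {U : Submodule F (ι → F)}
    (hU : ((orthS (quadOf hQ)).restrict U).Nondeg)
    (hex : ¬ (Fintype.card F ≤ 3 ∧ finrank F U = 2 ∧
      Cfsg.Geo.IsNondegenerateOn (QuadraticMap.polar Q) U ∧ Cfsg.Geo.IsPlusTypeOn Q U)) :
    IsomIrr ((orthS (quadOf hQ)).restrict U) := by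
  refine orth_irr hU ?_
  rintro ⟨h3, h2, x, hx0, hx⟩
  exact hex ⟨by rwa [Nat.card_eq_fintype_card] at h3, h2, nondegOn_of_restrict hQ hU,
    plusType_of_sing hQ h2 x.2 (by simpa using hx0) hx⟩

theorem isMaximalIn_nd_orth [Fintype F] {n : ℕ} (hn : 13 ≤ n) {Q : (Fin n → F) → F}
    (hQ : Cfsg.Geo.IsNondegenerateQuadraticForm Q) (W : Submodule F (Fin n → F)) (hW0 : W ≠ ⊥)
    (hW1 : W ≠ ⊤) (hW : Cfsg.Geo.IsNondegenerateOn (QuadraticMap.polar Q) W)
    (hdim : 2 * finrank F W = n → ∀ g : (orthS (quadOf hQ)).Isom,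
      ¬ ∀ x ∈ W, g.1 x ∈ (orthS (quadOf hQ)).perp W)
    (hex : ¬ (Fintype.card F ≤ 3 ∧ (∃ U : Submodule F (Fin n → F), finrank F U = 2 ∧
      Cfsg.Geo.IsNondegenerateOn (QuadraticMap.polar Q) U ∧ Cfsg.Geo.IsPlusTypeOn Q U ∧
      (U = W ∨ (Cfsg.Geo.AreOrthogonalFor (QuadraticMap.polar Q) U W ∧
        finrank F U + finrank F W = n))))) (M : Subgroup (GL (Fin n) F))
    (hM : M.comap (toGL (orthS (quadOf hQ))) = (orthS (quadOf hQ)).stab W) :
    Cfsg.Geo.IsMaximalIn (Cfsg.Geo.omegaGL Q) (M ⊓ Cfsg.Geo.omegaGL Q) := by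
  have hS := quadOf_nondeg hQ
  have hW' := restrict_nondeg_of_on (orthS (quadOf hQ)) (fun x y h => h) hW
  rw [← coe_quadOf hQ, omegaGL_eq _ hS (by simp; omega)]
  have h1 := hS.finrank_perp W
  simp only [Module.finrank_fintype_fun_eq_card, Fintype.card_fin] at h1
  have i1 := orth_irr_of_hex hQ hW' (fun h => hex ⟨h.1, W, h.2.1, h.2.2.1, h.2.2.2, Or.inl rfl⟩)
  have i2 := orth_irr_of_hex hQ (hS.restrict_perp hW') (fun h => hex ⟨h.1, _, h.2.1, h.2.2.1,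
    h.2.2.2, Or.inr ⟨fun u hu v hv => (orthS (quadOf hQ)).h_swap_zero (hu v hv), by omega⟩⟩)
  have hp0 : (orthS (quadOf hQ)).perp W ≠ ⊥ := fun h => hW1 (by rw [← hS.perp_perp W, h, perp_bot])
  rcases lt_trichotomy (2 * finrank F W) n with h | h | h
  · refine isMaximalIn_nd hS (iso3_orth _) (hS.restrict_perp hW') (by omega)
      (by rwa [hS.perp_perp]) (by rwa [hS.perp_perp])
      (hside_of_lt (by rw [hS.perp_perp]; omega)) _ ?_
    rw [hM, stab_perp hS]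
  · exact isMaximalIn_nd hS (iso3_orth _) hW' (by omega) hp0 i2 (hdim h) _ hM
  · exact isMaximalIn_nd hS (iso3_orth _) hW' (by omega) hp0 i2 (hside_of_lt (by omega)) _ hM

end H29
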