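import Cfsg.Agent.H29.Typ
import Cfsg.Agent.H29.NDOrth

/-! Aschbacher's theorem, part 12: orthogonal groups.  Hyperbolic pairs and planes, reducible
groups (`ORed`, `oRed`), small orthogonal decompositions (`ODc`, `NDec.oDc`), subfield structures
for quadratic forms (`SubQ`). -/

set_option autoImplicit false
set_option linter.unusedSectionVars false

namespace H29

open Matrix Cfsg.Geo Module
open scoped Kronecker commutatorElement

variable {F : Type*} [Field F] {ι κ μ : Type} [Fintype ι] [DecidableEq ι] [Fintype κ]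
  [DecidableEq κ] [Fintype μ] [DecidableEq μ] {H : Subgroup (GL ι F)} {G : Matrix ι ι F} {t : ℕ}
  {Q : (ι → F) → F} {A B W : Submodule F (ι → F)}

local notation "ρ" => RingHom.id _

theorem plane_span (hk : finrank F W = 2) {u w : ι → F} (hu : u ∈ W) (hw : w ∈ W) (h0 : u ≠ 0)
    (h1 : w ∉ F ∙ u) {x : ι → F} (hx : x ∈ W) : ∃ a b : F, a • u + b • w = x := by
  have h3 : LinearIndependent F ![u, w] := (LinearIndependent.pair_iff' h0).2 fun l e =>
    h1 (Submodule.mem_span_singleton.2 ⟨l, e⟩)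
  have h4 : Submodule.span F {u, w} = W := Submodule.eq_of_le_of_finrank_eq
    (Submodule.span_le.2 (Set.pair_subset hu hw)) (by
      rw [hk, ← Matrix.range_cons_cons_empty u w ![], finrank_span_eq_card h3, Fintype.card_fin])
  exact Submodule.mem_span_pair.1 (h4 ▸ hx)

theorem mdec_ne_bot {k : ℕ} {D : Fin t → Submodule F (ι → F)} (hD : IsMDecomposition k D)
    (i : Fin t) : D i ≠ ⊥ := fun e => by
  have := hD.finrank_eq i
  rw [e, finrank_bot] at this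
  exact hD.pos.ne this

theorem split_nd {σ : F →+* F} {ε : F} (h : HF σ ε G) (hA : IsNondegenerateOn (fm σ G) A)
    (hW : IsNondegenerateOn (fm σ G) W) (hle : A ≤ W) :
    IsNondegenerateOn (fm σ G) (W ⊓ pp σ G A) ∧ A ⊔ W ⊓ pp σ G A = W ∧
      AreOrthogonalFor (fm σ G) A (W ⊓ pp σ G A) ∧
      finrank F A + finrank F (W ⊓ pp σ G A : Submodule F _) = finrank F W := by
  have h1 : A ⊔ W ⊓ pp σ G A = W := by
    rw [inf_comm, ← sup_inf_assoc_of_le _ hle, (pp_compl (inf_pp hA)).1, top_inf_eq]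
  have h2 : IsNondegenerateOn (fm σ G) (W ⊓ pp σ G A) := h.ndOn fun w hw h2 =>
    (Submodule.eq_bot_iff _).1 (inf_pp hW) w ⟨hw.1, fun x hx => by
      obtain ⟨a, ha, b, hb, rfl⟩ := Submodule.mem_sup.1 (h1.ge hx)
      rw [fm_add_right, hw.2 a ha, h2 b hb, add_zero]⟩
  have h3 : AreOrthogonalFor (fm σ G) A (W ⊓ pp σ G A) := fun x hx y hy =>
    h.eq_zero_comm (hy.2 x hx)
  exact ⟨h2, h1, h3, by rw [← (nd_sup h hA h2 h3).2, h1]⟩

theorem prime_of_bot [Fintype F] (h : (⊥ : Subfield F) = ⊤) : (Fintype.card F).Prime := by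
  obtain ⟨p, _⟩ := CharP.exists F
  obtain ⟨n, hp, -⟩ := FiniteField.card F p
  haveI := Fact.mk hp
  have := Subfield.card_bot F p
  rw [h, Nat.card_congr Subfield.topEquiv.toEquiv, Nat.card_eq_fintype_card] at this
  rwa [this]

theorem stab_point {v : ι → F} (h : ∀ g ∈ H, (g : Matrix ι ι F) *ᵥ v ∈ F ∙ v) :
    H ≤ subspaceStabilizer (F ∙ v) := le_stab fun g hg x hx => by
  obtain ⟨c, rfl⟩ := Submodule.mem_span_singleton.1 hx
  rw [mulVec_smul]
  exact Submodule.smul_mem _ _ (h g hg)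

namespace QInv

variable (h : QInv G H Q)
include h

theorem smul (c : F) (v : ι → F) : Q (c • v) = c ^ 2 * Q v := h.1.smul c v

theorem symm (x y : ι → F) : fm ρ G x y = fm ρ G y x := h.hf.symm x y

theorem alt (h2 : (2 : F) = 0) (v : ι → F) : fm ρ G v v = 0 := by rw [h.self, h2, zero_mul]

theorem tsq (h2 : (2 : F) ≠ 0) (hW : IsTotallySingularFor (fm ρ G) W) :
    IsTotallySingularQuad Q W := fun w hw =>
  (mul_eq_zero.1 ((h.self w).symm.trans (hW w hw w hw))).resolve_left h2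

theorem lin2 (a b : F) (x y : ι → F) :
    Q (a • x + b • y) = a ^ 2 * Q x + b ^ 2 * Q y + a * b * fm ρ G x y := by
  rw [h.add, h.smul, h.smul, fm_smul_left, fm_smul_right, RingHom.id_apply, mul_assoc]

theorem nd_point {v : ι → F} (hv : fm ρ G v v ≠ 0) : IsNondegenerateOn (fm ρ G) (F ∙ v) :=
  h.hf.ndOn fun w hw h1 => by
    obtain ⟨c, rfl⟩ := Submodule.mem_span_singleton.1 hw
    have := h1 v (Submodule.mem_span_singleton_self v)
    rw [fm_smul_left] at this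
    rw [(mul_eq_zero.1 this).resolve_right hv, zero_smul]

theorem exists_ne (hW : IsNondegenerateOn (fm ρ G) W) (h0 : W ≠ ⊥) : ∃ v ∈ W, Q v ≠ 0 := by
  by_contra! h1
  exact h0 (eq_bot_iff.2 ((le_inf le_rfl (h.ts_pp h1)).trans (inf_pp hW).le))

theorem exists_hyp (hW : IsNondegenerateOn (fm ρ G) W) {e : ι → F} (he : e ∈ W) (h0 : e ≠ 0)
    (h1 : Q e = 0) : ∃ f ∈ W, Q f = 0 ∧ fm ρ G e f = 1 := by
  obtain ⟨-, x, hx, h2⟩ := hW e he h0
  refine ⟨_, W.add_mem (W.smul_mem (-Q x / fm ρ G e x ^ 2) he) (W.smul_mem (fm ρ G e x)⁻¹ hx),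
    ?_, ?_⟩
  · rw [h.lin2, h1]; field_simp; ring
  · simp [fm_add_right, fm_smul_right, h.self, h1, h2]

theorem plane_plus (hW : IsNondegenerateOn (fm ρ G) W) (hk : finrank F W = 2)
    (hp : IsPlusTypeOn Q W) : (∃ v ∈ W, Q v = 1) ∧ ∀ x ∈ W, ∀ y ∈ W, Q x = 1 → Q y = 1 →
      ∃ s : F, s ≠ 0 ∧ fm ρ G x y = s + s⁻¹ ∧ (s ^ 2 = 1 → y ∈ F ∙ x) := by
  obtain ⟨e, he, h0, h1⟩ := sing_of_plusType (by omega) hp
  obtain ⟨f, hf, h2, h3⟩ := h.exists_hyp hW he h0 h1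
  have h4 : f ∉ F ∙ e := fun h4 => by
    obtain ⟨c, rfl⟩ := Submodule.mem_span_singleton.1 h4
    simp [fm_smul_right, h.self, h1] at h3
  refine ⟨⟨_, W.add_mem he hf, by simp [h.add, h1, h2, h3]⟩, fun x hx y hy h5 h6 => ?_⟩
  obtain ⟨a, b, rfl⟩ := plane_span hk he hf h0 h4 hx
  obtain ⟨c, d, rfl⟩ := plane_span hk he hf h0 h4 hy
  simp only [h.lin2, h1, h2, h3, mul_zero, zero_add, mul_one] at h5 h6
  have h7 : a * d * (b * c) = 1 := by linear_combination c * d * h5 + h6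
  refine ⟨a * d, left_ne_zero_of_mul_eq_one h7, ?_, fun h8 =>
    Submodule.mem_span_singleton.2 ⟨a * d, ?_⟩⟩
  · rw [← eq_inv_of_mul_eq_one_right h7]
    simp only [fm_add_left, fm_add_right, fm_smul_left, fm_smul_right, h.self, h1, h2, h3,
      h.symm f e, RingHom.id_apply]
    ring
  · rw [smul_add, smul_smul, smul_smul, show a * d * a = c by
      linear_combination c * h8 - a * d * a * h6, show a * d * b = d by linear_combination d * h5]

theorem plane_three [Fintype F] (hF : Fintype.card F = 3) (hW : IsNondegenerateOn (fm ρ G) W)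
    (hk : finrank F W = 2) {v w : ι → F} (hv : v ∈ W) (hw : w ∈ W) (h0 : Q v ≠ 0) (h1 : Q w = Q v) :
    w ∈ F ∙ v ∨ fm ρ G w v = 0 := or_iff_not_imp_left.2 fun h2 => by_contra fun h3 => by
  have h4 : v ≠ 0 := by rintro rfl; exact h0 h.zero
  have h5 : (2 : F) ≠ 0 := two_ne_zero_of_odd (by rw [hF]; decide)
  have h6 := pow_card_sub (q := 2) hF (mul_ne_zero h5 h0)
  have h7 := pow_card_sub (q := 2) hF h3
  have h8 : (2 * Q v) • w - fm ρ G w v • v = 0 := (Submodule.eq_bot_iff _).1 (inf_pp hW) _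
    ⟨W.sub_mem (W.smul_mem _ hw) (W.smul_mem _ hv), fun x hx => by
      obtain ⟨a, b, rfl⟩ := plane_span hk hv hw h4 h2 hx
      simp only [sub_eq_add_neg, ← neg_smul, fm_add_left, fm_add_right, fm_smul_left,
        fm_smul_right, h.self, h1, h.symm v w, RingHom.id_apply]
      linear_combination b * h6 - b * h7⟩
  exact h2 ((Submodule.smul_mem_iff _ (mul_ne_zero h5 h0)).1 (sub_eq_zero.1 h8 ▸
    Submodule.smul_mem _ _ (Submodule.mem_span_singleton_self v)))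

theorem odec {k : ℕ} {D : Fin t → Submodule F (ι → F)}
    (h1 : IsNondegenerateMDecomposition (fm ρ G) k D)
    (h2 : ∀ i j, AreIsometricFor Q (D i) (D j)) : IsOrthogonalMDecomposition Q k D :=
  ⟨h.2.1 ▸ h1, h2⟩

theorem ndec {k : ℕ} {D : Fin t → Submodule F (ι → F)} (h1 : IsOrthogonalMDecomposition Q k D) :
    IsNondegenerateMDecomposition (fm ρ G) k D := h.2.1 ▸ h1.1

end QInv

/-- the vectors of a given length in the members of a decomposition -/
def LS (Q : (ι → F) → F) (D : Fin t → Submodule F (ι → F)) (a : F) : Set (ι → F) :=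
  {w | (∃ i, w ∈ D i) ∧ Q w = a}

theorem QInv.ls (h : QInv G H Q) {D : Fin t → Submodule F (ι → F)}
    (hD : H ≤ decompositionStabilizer D) (a : F) :
    ∀ g ∈ H, ∀ w ∈ LS Q D a, (g : Matrix ι ι F) *ᵥ w ∈ LS Q D a := fun g hg _ ⟨⟨i, hi⟩, e⟩ =>
  let ⟨_, hτ⟩ := of_mem_decStab (hD hg); ⟨⟨_, hτ i _ hi⟩, (h.2.2 g hg _).trans e⟩

theorem ls_cases {k : ℕ} {D : Fin t → Submodule F (ι → F)} {a : F}
    (hD : IsNondegenerateMDecomposition (fm ρ G) k D) {p : (ι → F) → (ι → F) → Prop}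
    (h1 : ∀ i, ∀ x ∈ D i, ∀ y ∈ D i, Q x = a → Q y = a → p x y)
    (h2 : ∀ x y, fm ρ G x y = 0 → p x y) : ∀ x ∈ LS Q D a, ∀ y ∈ LS Q D a, p x y := by
  rintro x ⟨⟨i, hi⟩, hx⟩ y ⟨⟨j, hj⟩, hy⟩
  obtain rfl | e := eq_or_ne i j
  · exact h1 i x hi y hj hx hy
  · exact h2 _ _ (hD.orthogonal i j e x hi y hj)

variable [Fintype F]

/-- the reducible classes for an orthogonal group -/
def ORed (G : Matrix ι ι F) (H : Subgroup (GL ι F)) (Q : (ι → F) → F) : Prop :=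
  (∃ W, W ≠ ⊥ ∧ IsTotallySingularQuad Q W ∧ H ≤ subspaceStabilizer W) ∨
  (∃ W, W ≠ ⊥ ∧ IsNondegenerateOn (fm ρ G) W ∧ 2 * finrank F W ≤ Fintype.card ι ∧
    ¬ (Fintype.card F ≤ 3 ∧ finrank F W = 2 ∧ IsPlusTypeOn Q W) ∧ H ≤ subspaceStabilizer W) ∨
  (¬ Odd (Fintype.card F) ∧ ∃ v, Q v ≠ 0 ∧ H ≤ subspaceStabilizer (F ∙ v))

theorem sq_eq_one_of_le (hF : Fintype.card F ≤ 3) {s : F} (hs : s ≠ 0) : s ^ 2 = 1 := by
  obtain h | h : Fintype.card F = 2 ∨ Fintype.card F = 3 := by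
    have := Fintype.one_lt_card (α := F); omega
  · rw [eq_one_of_card_two h hs, one_pow]
  · exact pow_card_sub h hs

theorem QInv.point_of_plane (h : QInv G H Q) (hF : Fintype.card F ≤ 3)
    (hW : IsNondegenerateOn (fm ρ G) W) (hk : finrank F W = 2) (hp : IsPlusTypeOn Q W)
    (hs : H ≤ subspaceStabilizer W) : ∃ v ∈ W, Q v = 1 ∧ H ≤ subspaceStabilizer (F ∙ v) := by
  obtain ⟨⟨v, hv, h1⟩, h2⟩ := h.plane_plus hW hk hp
  refine ⟨v, hv, h1, stab_point fun g hg => ?_⟩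
  obtain ⟨s, h3, -, h4⟩ := h2 v hv _ (mulVec_mem_of_stab (hs hg) hv) h1 ((h.2.2 g hg v).trans h1)
  exact h4 (sq_eq_one_of_le hF h3)

theorem QInv.oRed (h : QInv G H Q) (hI : ¬ Irr H) : ORed G H Q := by
  have key : ∀ W, W ≠ ⊥ → IsNondegenerateOn (fm ρ G) W → 2 * finrank F W ≤ Fintype.card ι →
      H ≤ subspaceStabilizer W → ORed G H Q := fun W h0 h1 h2 h3 => by
    by_cases h4 : Fintype.card F ≤ 3 ∧ finrank F W = 2 ∧ IsPlusTypeOn Q W
    swap
    · exact .inr (.inl ⟨W, h0, h1, h2, h4, h3⟩)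
    obtain ⟨v, -, h5, h6⟩ := h.point_of_plane h4.1 h1 h4.2.1 h4.2.2 h3
    by_cases ho : Odd (Fintype.card F)
    swap
    · exact .inr (.inr ⟨ho, v, by simp [h5], h6⟩)
    have h7 : v ≠ 0 := by rintro rfl; simp [h.zero] at h5
    refine .inr (.inl ⟨_, by simpa, h.nd_point (by simp [h.self, h5, two_ne_zero_of_odd ho]),
      ?_, ?_, h6⟩) <;> rw [finrank_span_singleton h7] <;> omega
  rcases red_cases h.hf (h.iso.trans Iso_le_Sim) hI with ⟨W, h0, h1, h2⟩ | ⟨W, h0, h1, h2, h3⟩ |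
    ⟨W, h0, h1, h2, h3⟩
  · by_cases ho : Odd (Fintype.card F)
    · exact .inl ⟨W, h0, h.tsq (two_ne_zero_of_odd ho) h1, h2⟩
    let W₀ : Submodule F (ι → F) :=
      { carrier := {w | w ∈ W ∧ Q w = 0}
        add_mem' := fun a b => ⟨W.add_mem a.1 b.1, by simp [h.add, a.2, b.2, h1 _ a.1 _ b.1]⟩
        zero_mem' := ⟨W.zero_mem, h.zero⟩
        smul_mem' := fun c x a => ⟨W.smul_mem c a.1, by simp [h.smul, a.2]⟩ }
    by_cases h3 : W₀ = ⊥
    swap
    · exact .inl ⟨W₀, h3, fun w hw => hw.2, le_stab fun g hg x hx =>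
        ⟨mulVec_mem_of_stab (h2 hg) hx.1, (h.2.2 g hg x).trans hx.2⟩⟩
    obtain ⟨v, hv, h4⟩ := Submodule.exists_mem_ne_zero_of_ne_bot h0
    refine .inr (.inr ⟨ho, v, fun e => h4 ((Submodule.eq_bot_iff _).1 h3 v ⟨hv, e⟩),
      stab_point fun g hg => ?_⟩)
    have h5 := mulVec_mem_of_stab (h2 hg) hv
    rw [eq_neg_of_add_eq_zero_left ((Submodule.eq_bot_iff _).1 h3 _ ⟨W.add_mem h5 hv, by
      rw [h.add, h.2.2 g hg, h1 _ h5 _ hv, ← two_mul, two_eq_of_not_odd ho]; simp⟩)]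
    exact Submodule.neg_mem _ (Submodule.mem_span_singleton_self v)
  · exact key W h0 h1 h2.le h3
  · exact key W h0 h1 h2.le h3

/-- the imprimitive class for an orthogonal group -/
def ODc (H : Subgroup (GL ι F)) (Q : (ι → F) → F) : Prop :=
  ∃ (t k : ℕ) (D : Fin t → Submodule F (ι → F)), IsOrthogonalMDecomposition Q k D ∧
    (k = 1 → (Fintype.card F).Prime) ∧
    (k = 2 → Fintype.card F ≠ 3 ∧ ∀ i, IsPlusTypeOn Q (D i) → 7 ≤ Fintype.card F) ∧
    (k = 3 → Fintype.card F ≠ 3) ∧ (k = 4 → ∀ i, IsPlusTypeOn Q (D i) → Fintype.card F ≠ 2) ∧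
    H ≤ decompositionStabilizer D

theorem NDec.odec {k : ℕ} (hD : NDec ρ G H k) (h : QInv G H Q) :
    ∃ (t : ℕ) (D : Fin t → Submodule F (ι → F)), IsOrthogonalMDecomposition Q k D ∧
      H ≤ decompositionStabilizer D :=
  let ⟨t, D, h1, h2, h3⟩ := hD
  ⟨t, D, h.odec h1 fun i j => let ⟨_, hg, e⟩ := h3 i j; e ▸ h.isom_map hg, h2⟩

theorem NDec.oDc_one (hD : NDec ρ G H 1) (h : QInv G H Q) (hH : Irr H) :
    ODc H Q ∨ SubS ρ G H := by
  obtain ⟨t, D, h1, h2⟩ := hD.odec h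
  by_cases h3 : (⊥ : Subfield F) = ⊤
  · exact .inl ⟨t, 1, D, h1, fun _ => prime_of_bot h3, by simp, by simp, by simp, h2⟩
  have h4 := h.ndec h1
  have i : Fin t := ⟨0, by have := h4.decomp.two_le; omega⟩
  obtain ⟨v, hv, h5⟩ := h.exists_ne (h4.nondegenerate i) (mdec_ne_bot h4.decomp i)
  refine .inr (subS_of_set h.hf h3 (span_of_irr hH (h.ls h2 _) ⟨⟨i, hv⟩, rfl⟩ (by
    rintro rfl; exact h5 h.zero)) (inv_ne_zero h5) (h.ls h2 _) (ls_cases h4 (fun j x hx y hy a b => ?_)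
      fun x y e => by simp [e]))
  obtain ⟨c, hc⟩ := (finrank_eq_one_iff_of_nonzero' (⟨x, hx⟩ : D j) fun e => h5 (by
    rw [← a, show x = 0 from congrArg Subtype.val e, h.zero])).1 (h4.decomp.finrank_eq j) ⟨y, hy⟩
  obtain rfl : c • x = y := congrArg Subtype.val hc
  rw [h.smul, a, mul_left_eq_self₀, or_iff_left h5, sq_eq_one_iff] at b
  rw [fm_smul_right, h.self, a]
  rcases b with rfl | rfl <;> simp [h5, mul_left_comm _ (2 : F)]

theorem QInv.ndec_one (h : QInv G H Q) (hH : Irr H) {k : ℕ} {D : Fin t → Submodule F (ι → F)}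
    (h1 : IsNondegenerateMDecomposition (fm ρ G) k D) (h2 : H ≤ decompositionStabilizer D)
    {v : ι → F} {i : Fin t} (hv : v ∈ D i) (h0 : fm ρ G v v ≠ 0)
    (h3 : ∀ j, ∀ x ∈ D j, ∀ y ∈ D j, Q x = Q v → Q y = Q v → y ∈ F ∙ x ∨ fm ρ G y x = 0) :
    NDec ρ G H 1 := H29.ndec_one hH (by
      rw [← mdec_card h1.decomp]; nlinarith [h1.decomp.two_le, h1.decomp.pos]) h.hf
    (h.iso.trans Iso_le_Sim) h0 fun g hg => ls_cases h1 h3 (fun _ _ e => .inr (h.hf.eq_zero_comm e))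
      v ⟨⟨i, hv⟩, rfl⟩ _ (h.ls h2 _ g hg v ⟨⟨i, hv⟩, rfl⟩)

theorem card_ne_six : Fintype.card F ≠ 6 := fun e => by
  have := FiniteField.isPrimePow_card F
  rw [e] at this
  exact absurd this (by decide)

theorem NDec.oDc_two (hD : NDec ρ G H 2) (h : QInv G H Q) (hH : Irr H) :
    ODc H Q ∨ SubS ρ G H := by
  obtain ⟨t, D, h1, h2⟩ := hD.odec h
  have h4 := h.ndec h1
  by_cases hF : Fintype.card F = 3
  · have i : Fin t := ⟨0, by have := h4.decomp.two_le; omega⟩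
    obtain ⟨v, hv, h5⟩ := h.exists_ne (h4.nondegenerate i) (mdec_ne_bot h4.decomp i)
    exact (h.ndec_one hH h4 h2 hv (h.self v ▸ mul_ne_zero (two_ne_zero_of_odd (by
      rw [hF]; decide)) h5) fun j x hx y hy a b => h.plane_three hF (h4.nondegenerate j)
        (h4.decomp.finrank_eq j) hx hy (a ▸ h5) (b.trans a.symm)).oDc_one h hH
  by_cases h3 : ∀ i, IsPlusTypeOn Q (D i) → 7 ≤ Fintype.card F
  · exact .inl ⟨t, 2, D, h1, by simp, fun _ => ⟨hF, h3⟩, by simp, by simp, h2⟩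
  push Not at h3
  obtain ⟨i, h3, h5⟩ := h3
  have h6 := fun j => h.plane_plus (h4.nondegenerate j) (h4.decomp.finrank_eq j)
    (plus_of_isom (h1.isometric i j) h3)
  obtain ⟨v, hv, h7⟩ := (h6 i).1
  have h8 := span_of_irr hH (h.ls h2 1) ⟨⟨i, hv⟩, h7⟩ (by rintro rfl; simp [h.zero] at h7)
  obtain e | e | e : Fintype.card F = 2 ∨ Fintype.card F = 4 ∨ Fintype.card F = 5 := by
    have := Fintype.one_lt_card (α := F); have := card_ne_six (F := F); omega
  · have h9 := ls_cases h4 (p := fun x y => fm ρ G x y = 0) (fun j x hx y hy a b => by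
      obtain ⟨s, hs, h9, -⟩ := (h6 j).2 x hx y hy a b
      rw [h9, eq_one_of_card_two e hs, inv_one, one_add_one_eq_two, two_eq_of_card (k := 1) e])
      fun _ _ => id
    have : v = 0 := h.hf.right fun y => (Submodule.span_le (p := pp ρ G (F ∙ v))).2 (fun x hx w hw => by
      obtain ⟨c, rfl⟩ := Submodule.mem_span_singleton.1 hw
      rw [fm_smul_right, h9 x hx v ⟨⟨i, hv⟩, h7⟩, mul_zero]) (h8 ▸ Submodule.mem_top) v
        (Submodule.mem_span_singleton_self v)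
    simp [this, h.zero] at h7
  · refine .inr (subS_of_set h.hf (fun a => absurd (prime_of_bot a) (by rw [e]; decide)) h8
      one_ne_zero (h.ls h2 _) (ls_cases h4 (fun j x hx y hy a b => ?_) fun x y e => by simp [e]))
    obtain ⟨s, hs, h9, -⟩ := (h6 j).2 x hx y hy a b
    have a1 := pow_card_sub (q := 3) e hs
    have a2 := two_eq_of_card (k := 2) e
    rw [h9, one_mul, ← eq_inv_of_mul_eq_one_right (show s * s ^ 2 = 1 by linear_combination a1)]
    rcases mul_eq_zero.1 (show (s + s ^ 2) * (s + s ^ 2 - 1) = 0 by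
      linear_combination (s + 2) * a1 + a2) with a3 | a3
    · simp [a3]
    · simp [sub_eq_zero.1 a3]
  · refine (h.ndec_one hH h4 h2 hv (by
      simpa [h.self, h7] using two_ne_zero_of_odd (by rw [e]; decide)) fun j x hx y hy a b =>
        ?_).oDc_one h hH
    obtain ⟨s, hs, h9, h10⟩ := (h6 j).2 x hx y hy (a.trans h7) (b.trans h7)
    refine (mul_eq_zero.1 (show (s ^ 2 - 1) * (s ^ 2 + 1) = 0 by
      linear_combination pow_card_sub (q := 4) e hs)).imp (fun a => h10 (sub_eq_zero.1 a)) fun a => ?_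
    rw [h.symm, h9]
    field_simp
    linear_combination a

theorem QInv.nd_pair (h : QInv G H Q) (h2 : (2 : F) = 0) {x y : ι → F} (h1 : fm ρ G x y = 1) :
    IsNondegenerateOn (fm ρ G) (Submodule.span F {x, y}) ∧
      finrank F (Submodule.span F {x, y}) = 2 := by
  refine ⟨h.hf.ndOn fun w hw h3 => ?_, ?_⟩
  · obtain ⟨a, b, rfl⟩ := Submodule.mem_span_pair.1 hw
    have a1 := h3 x (Submodule.subset_span (by simp))
    have a2 := h3 y (Submodule.subset_span (by simp))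
    simp only [fm_add_left, fm_smul_left, h.alt h2, h.symm y x, h1, mul_zero, mul_one, zero_add,
      add_zero] at a1 a2
    simp [a1, a2]
  · rw [← Matrix.range_cons_cons_empty x y ![], finrank_span_eq_card, Fintype.card_fin]
    refine (LinearIndependent.pair_iff' (by rintro rfl; simp at h1)).2 fun c e => ?_
    simp [← e, fm_smul_right, h.alt h2] at h1

theorem QInv.two_planes (h : QInv G H Q) (hF : Fintype.card F = 2)
    (hW : IsNondegenerateOn (fm ρ G) W) (hk : finrank F W = 4) (hp : IsPlusTypeOn Q W) :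
    ∃ A ≤ W, IsNondegenerateOn (fm ρ G) A ∧ finrank F A = 2 ∧ (∀ x ∈ A, Q x = 0 → x = 0) ∧
      (∀ x ∈ W ⊓ pp ρ G A, Q x = 0 → x = 0) ∧ ∀ x ∈ W, Q x ≠ 0 → x ∈ A ∨ x ∈ pp ρ G A := by
  have h2 : (2 : F) = 0 := two_eq_of_card (k := 1) hF
  obtain ⟨e, he, h0, h1⟩ := sing_of_plusType (by omega) hp
  obtain ⟨f, hf, h3, h4⟩ := h.exists_hyp hW he h0 h1
  obtain ⟨h5, h6⟩ := h.nd_pair h2 h4
  obtain ⟨h7, -, h8, h9⟩ := split_nd h.hf h5 hW (Submodule.span_le.2 (Set.pair_subset he hf))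
  obtain ⟨u, hu, a1⟩ := h.exists_ne h7 fun e => by rw [e, finrank_bot] at h9; omega
  have a2 := h8 e (Submodule.subset_span (by simp)) u hu
  have a3 := h8 f (Submodule.subset_span (by simp)) u hu
  replace a1 := eq_one_of_card_two hF a1
  have a4 : fm ρ G (e + f) (e + u) = 1 := by
    simp [fm_add_left, fm_add_right, h.alt h2, a2, a3, h.symm f e, h4]
  obtain ⟨a5, a6⟩ := h.nd_pair h2 a4
  have a7 : Submodule.span F {e + f, e + u} ≤ W :=
    Submodule.span_le.2 (Set.pair_subset (W.add_mem he hf) (W.add_mem he hu.1))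
  obtain ⟨b1, b2, b3, b4⟩ := split_nd h.hf a5 hW a7
  have b5 : ∀ x ∈ Submodule.span F {e + f, e + u}, Q x = 0 → x = 0 := fun x hx b5 => by
    obtain ⟨a, b, rfl⟩ := Submodule.mem_span_pair.1 hx
    rw [h.lin2, a4, h.add, h.add, h1, h3, h4, a1, a2] at b5
    obtain rfl | c1 := eq_or_ne a 0 <;> obtain rfl | c2 := eq_or_ne b 0
    · simp
    · simp [c2] at b5
    · simp [c1] at b5
    · rw [eq_one_of_card_two hF c1, eq_one_of_card_two hF c2] at b5
      exact absurd (by linear_combination b5 - h2) (one_ne_zero (α := F))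
  have b6 : ∀ x ∈ W ⊓ pp ρ G (Submodule.span F {e + f, e + u}), Q x = 0 → x = 0 :=
    fun x hx b6 => by_contra fun b7 => by
      have := h.typ_sup a5 b1 b3 a6.symm.dvd (by omega)
      rw [b2, typ_eq_one.2 hp, typ_eq_one.2 (plusType_of_sing h.1 (by omega) hx b7 b6), mul_one,
        eq_comm, typ_eq_one] at this
      obtain ⟨y, hy, c1, c2⟩ := sing_of_plusType (by omega) this
      exact c1 (b5 y hy c2)
  refine ⟨_, a7, a5, a6, b5, b6, fun x hx b7 => ?_⟩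
  obtain ⟨a, ha, b, hb, rfl⟩ := Submodule.mem_sup.1 (b2.ge hx)
  obtain rfl | c1 := eq_or_ne a 0
  · exact .inr (by simpa using hb.2)
  obtain rfl | c2 := eq_or_ne b 0
  · exact .inl (by simpa)
  rw [h.add, eq_one_of_card_two hF (mt (b5 a ha) c1), eq_one_of_card_two hF (mt (b6 b hb) c2),
    b3 a ha b hb, one_add_one_eq_two, h2] at b7
  simp at b7

theorem NDec.oDc {k : ℕ} (hD : NDec ρ G H k) (h : QInv G H Q) (hH : Irr H) :
    ODc H Q ∨ SubS ρ G H := by
  obtain rfl | h1 := eq_or_ne k 1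
  · exact hD.oDc_one h hH
  obtain rfl | h2 := eq_or_ne k 2
  · exact hD.oDc_two h hH
  by_cases h3 : k = 3 ∧ Fintype.card F = 3
  · obtain ⟨rfl, h3⟩ := h3
    exact (hD.one33 h3 hH h.hf h.iso).oDc_one h hH
  obtain ⟨t, D, h4, h5⟩ := hD.odec h
  by_cases h6 : k = 4 → ∀ i, IsPlusTypeOn Q (D i) → Fintype.card F ≠ 2
  · exact .inl ⟨t, k, D, h4, by simp [h1], by simp [h2], by simpa using h3, h6, h5⟩
  push Not at h6
  obtain ⟨rfl, i, h6, h7⟩ := h6
  have h8 := h.ndec h4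
  obtain ⟨A, a1, a2, a3, a4, -, a5⟩ := h.two_planes h7 (h8.nondegenerate i)
    (h8.decomp.finrank_eq i) h6
  refine NDec.oDc_two (a3 ▸ ndec_of_sub hH h.hf (h.iso.trans Iso_le_Sim)
    (fun e => by rw [e, finrank_bot] at a3; omega) (ne_top_of_lt (by
      have := h8.decomp.two_le; have := mdec_card h8.decomp; omega)) a2 fun g hg => ?_) h hH
  obtain ⟨τ, hτ⟩ := of_mem_decStab (h5 hg)
  by_cases e : τ i = i
  · refine map_le_or (B := pp ρ G A) (toLin' (g : Matrix ι ι F)) fun x hx => ?_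
    obtain rfl | hx0 := eq_or_ne x 0
    · simp
    · exact a5 _ (e ▸ hτ i x (a1 hx)) (h.2.2 g hg x ▸ mt (a4 x hx) hx0)
  · exact .inr fun x hx y hy => h8.orthogonal _ _ e _ (hτ i x (a1 hx)) y (a1 hy)

/-- a subfield structure for a quadratic form -/
def SubQ (G : Matrix ι ι F) (H : Subgroup (GL ι F)) (Q : (ι → F) → F) : Prop :=
  ∃ (F₀ : Subfield F) (r : ℕ) (P : GL ι F) (c : F), r.Prime ∧ Fintype.card F = Nat.card F₀ ^ r ∧
    H ≤ subfieldSubgroup F₀ P ∧ c ≠ 0 ∧ RatM F₀ (c • gT ρ G (H11.glEquiv P)) ∧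
    IsQuadFormRationalStructure (fun v => c * Q v) F₀ P

theorem map_fm (φ : F →+* F) (A : Matrix κ κ F) (u v : κ → F) :
    φ (fm ρ A u v) = fm ρ (A.map φ) (φ ∘ u) (φ ∘ v) := by simp [fm, formOfGram]

theorem SubS.subQ (hS : SubS ρ G H) (h : QInv G H Q) (hH : Irr H) (hn : 2 ≤ Fintype.card ι) :
    SubQ G H Q := by
  haveI : Nonempty ι := Fintype.card_pos_iff.1 (by omega)
  obtain ⟨F₀, r, P, c, hr, hc, h1, h2, h3⟩ := hS
  refine ⟨F₀, r, P, c, hr, hc, h1, h2, h3, fun u hu => ?_⟩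
  by_cases h4 : (2 : F) = 0
  swap
  · have := div_mem (fm_rat (fun _ => id) h3 u u hu hu) (show (2 : F) ∈ F₀ by simp)
    rwa [h.self, mul_left_comm, mul_div_cancel_left₀ _ h4] at this
  obtain ⟨φ, hφ, -⟩ := exists_frob_sub F₀
  let e := RingEquiv.ofBijective φ (Finite.injective_iff_bijective.1 φ.injective)
  obtain ⟨ψ, h5, h6⟩ : ∃ ψ : F →+* F, (∀ x, φ (ψ x) = x) ∧ ∀ x ∈ F₀, ψ x = x :=
    ⟨e.symm, e.apply_symm_apply, fun x hx => e.symm_apply_eq.2 ((hφ x).2 hx).symm⟩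
  have h7 := quad_unique (Q' := fun v => c⁻¹ * φ (c * Q (P.1 *ᵥ (ψ ∘ (P⁻¹.1 *ᵥ v))))) hH hn h.smul
    (fun a v => by
      rw [mulVec_smul, show ψ ∘ (a • P⁻¹.1 *ᵥ v) = ψ a • ψ ∘ (P⁻¹.1 *ᵥ v) from funext (by simp),
        mulVec_smul, h.smul]
      simp only [map_mul, map_pow, h5]
      ring) (fun x y => by
      rw [h.2.1, QuadraticMap.polar, mulVec_add, show ψ ∘ (P⁻¹.1 *ᵥ x + P⁻¹.1 *ᵥ y) =
        ψ ∘ (P⁻¹.1 *ᵥ x) + ψ ∘ (P⁻¹.1 *ᵥ y) from funext (by simp), mulVec_add, h.add, mul_add,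
        mul_add, map_add, map_add, ← glEquiv_apply P (ψ ∘ _), ← glEquiv_apply P (ψ ∘ _), ← fm_gT,
        ← fm_smul, map_fm, show (c • gT ρ G (H11.glEquiv P)).map φ = _ from
          Matrix.ext fun i j => (hφ _).2 (h3 i j), ← Function.comp_assoc, ← Function.comp_assoc,
        show φ ∘ ψ = id from funext h5, fm_smul, fm_gT]
      simp only [glEquiv_apply, Function.id_comp, mulVec_inv_mulVec]
      field_simp
      ring) (fun g hg x hx => ?_) (P.1 *ᵥ u)
  · rw [inv_mulVec_mulVec, show ψ ∘ u = u from funext fun i => h6 _ (hu i),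
      eq_inv_mul_iff_mul_eq₀ h2] at h7
    exact (hφ _).1 h7.symm
  obtain ⟨s, hs, h8⟩ := mem_subfieldSubgroup.1 (h1 hg)
  have h9 : ∀ v, P.1 *ᵥ cjA P⁻¹ g.1 *ᵥ v = g.1 *ᵥ P.1 *ᵥ v := fun v => by
    rw [← cjA_mulVec, cjA_cjA_inv]
  generalize cjA P⁻¹ g.1 = Y at h8 h9
  obtain ⟨i, j, a1⟩ : ∃ i j, (c • gT ρ G (H11.glEquiv P)) i j ≠ 0 := by
    by_contra! a1
    exact smul_ne_zero h2 (h.hf.gT _).ne_zero (Matrix.ext a1)
  have a2 : s ^ 2 * (c • gT ρ G (H11.glEquiv P)) i j ∈ F₀ := by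
    have := fm_rat (fun _ => id) h3 ((s • Y) *ᵥ Pi.single i 1) ((s • Y) *ᵥ Pi.single j 1)
      (fun k => by simpa using h8 k i) fun k => by simpa using h8 k j
    rwa [smul_mulVec, smul_mulVec, mulVec_smul,
      mulVec_smul, h9, h9, fm_smul_left, fm_smul_right, h.iso hg, ← glEquiv_apply,
      ← glEquiv_apply, ← fm_gT, fm_single, RingHom.id_apply, mul_left_comm, mul_left_comm c,
      ← mul_assoc, ← sq] at this
  have a3 : s ∈ F₀ := (hφ s).1 (sub_eq_zero.1 (pow_eq_zero_iff (two_ne_zero) |>.1 (by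
    have := (hφ _).2 (mul_div_cancel_right₀ _ a1 ▸ div_mem a2 (h3 i j))
    rw [map_pow] at this
    linear_combination this + (s ^ 2 - φ s * s) * h4)))
  have a4 := h8.smul (inv_mem a3)
  rw [inv_smul_smul₀ hs] at a4
  rw [h.2.2 g hg, hx, ← mulVec_inv_mulVec P x, ← h9, inv_mulVec_mulVec, inv_mulVec_mulVec,
    comp_mulVec Y, show Y.map ψ = Y from Matrix.ext fun i j => h6 _ (a4 i j), h9, h.2.2 g hg]

end H29
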