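import Cfsg.Agent.H29.As12

/-! Aschbacher's theorem, part 13: criteria for plus type (`QInv.plus_of`, `plus_of_sub`,
`XsB.plus`, `FldN.even_of_plus`) and field extension subgroups of orthogonal groups
(`FldN.ne_card`, `exists_om`, `FldN.half`). -/

set_option autoImplicit false
set_option linter.unusedSectionVars false

namespace H29

open Matrix Cfsg.Geo Module H11
open scoped Kronecker commutatorElement

variable {F : Type*} [Field F] {ι κ μ : Type} [Fintype ι] [DecidableEq ι] [Fintype κ]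
  [DecidableEq κ] [Fintype μ] [DecidableEq μ] {H : Subgroup (GL ι F)} {G : Matrix ι ι F} {t : ℕ}
  {Q : (ι → F) → F} {A B W : Submodule F (ι → F)} {K : Subalgebra F (Matrix ι ι F)} {r : ℕ}

local notation "ρ" => RingHom.id _

theorem QInv.tsq_span (h : QInv G H Q) {S : Set (ι → F)} (h1 : ∀ x ∈ S, Q x = 0)
    (h2 : ∀ x ∈ S, ∀ y ∈ S, fm ρ G x y = 0) : IsTotallySingularQuad Q (Submodule.span F S) := by
  have h3 : ∀ x ∈ Submodule.span F S, ∀ y ∈ Submodule.span F S, fm ρ G x y = 0 :=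
    (Submodule.span_le (p := pp ρ G _)).2 fun x hx y hy => h.hf.eq_zero_comm
      ((Submodule.span_le (p := pp ρ G (F ∙ x))).2 (fun z hz w hw => by
        obtain ⟨c, rfl⟩ := Submodule.mem_span_singleton.1 hw
        rw [fm_smul_right, h2 z hz x hx, mul_zero]) hy x (Submodule.mem_span_singleton_self x))
  intro x hx
  induction hx using Submodule.span_induction with
  | mem x hx => exact h1 x hx
  | zero => exact h.zero
  | add x y hx hy a b => rw [h.add, a, b, h3 x hx y hy]; simp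
  | smul c x _ a => rw [h.smul, a, mul_zero]

theorem QInv.plus_of (h : QInv G H Q) {w : κ → ι → F} (hw : LinearIndependent F w)
    (h1 : ∀ i, Q (w i) = 0) (h2 : ∀ i j, i ≠ j → fm ρ G (w i) (w j) = 0)
    (hn : 2 * Fintype.card κ = Fintype.card ι) : IsPlusTypeOn Q ⊤ :=
  ⟨Submodule.span F (Set.range w), le_top, h.tsq_span (by rintro _ ⟨i, rfl⟩; exact h1 i) (by
    rintro _ ⟨i, rfl⟩ _ ⟨j, rfl⟩
    obtain rfl | e := eq_or_ne i j
    · rw [h.self, h1, mul_zero]
    · exact h2 i j e), by simpa [finrank_span_eq_card hw]⟩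

theorem QInv.plus_of_coord (h : QInv G H Q) (T : (κ → F) ≃ₗ[F] (ι → F)) {j : μ → κ}
    (hj : Function.Injective j) (h1 : ∀ i, Q (T (Pi.single (j i) 1)) = 0)
    (h2 : ∀ i i', gT ρ G T (j i) (j i') = 0) (hn : 2 * Fintype.card μ = Fintype.card κ) :
    IsPlusTypeOn Q ⊤ :=
  h.plus_of (w := fun i => T (Pi.single (j i) 1)) (by
    simpa [Function.comp_def] using ((Pi.basisFun F κ).map T).linearIndependent.comp j hj) h1
    (fun i i' _ => by rw [← fm_gT, fm_single, h2]) (hn.trans (KrF.card T))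

theorem KrF.plus {m : ℕ} {T : (Fin 2 × Fin m → F) ≃ₗ[F] (ι → F)} {G₁ : _} {G₂ : _} {ε₁ ε₂ : F}
    (hk : KrF ρ G H T G₁ G₂ ε₁ ε₂) (h : QInv G H Q) (h1 : IsSymplecticForm (fm ρ G₁))
    (h2 : ∀ (u : Fin 2 → F) (v : Fin m → F), Q (T fun p => u p.1 * v p.2) = 0) :
    IsPlusTypeOn Q ⊤ :=
  h.plus_of_coord T (j := fun i => (0, i)) (fun _ _ e => (Prod.ext_iff.1 e).2) (fun i => by
    convert h2 (Pi.single 0 1) (Pi.single i 1) using 3
    ext p
    simp [Pi.single_apply, Prod.ext_iff, ite_and]; split_ifs <;> rfl) (fun i j => by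
      rw [hk.gram, kroneckerMap_apply, ← fm_single (σ := ρ) (G := G₁), h1.alternating, zero_mul])
    (by simp)

theorem WrF.plus {T : ((Fin (t + 1) → Fin 2) → F) ≃ₗ[F] (ι → F)} {G₀ : _} {ε₀ c : F}
    (hk : WrF ρ G H T G₀ ε₀ c) (h : QInv G H Q) (h1 : IsSymplecticForm (fm ρ G₀))
    (h2 : ∀ u : Fin (t + 1) → Fin 2 → F, Q (T fun y => ∏ i, u i (y i)) = 0) :
    IsPlusTypeOn Q ⊤ :=
  h.plus_of_coord T (j := fun x : Fin t → Fin 2 => Fin.cons 0 x) (fun _ _ e => Fin.cons_right_injective (α := fun _ => Fin 2) _ e)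
    (fun x => by
      convert h2 fun i => Pi.single (Fin.cons (α := fun _ => Fin 2) 0 x i) 1 using 3
      ext z
      simp [Pi.single_apply, Finset.prod_boole, funext_iff]) (fun i j => by
      rw [hk.gram, Matrix.smul_apply, ten_apply, Fin.prod_univ_succ, Fin.cons_zero, Fin.cons_zero,
        ← fm_single (σ := ρ) (G := G₀), h1.alternating, zero_mul, smul_zero])
    (by simp [pow_succ'])

theorem det_gT (T : (ι → F) ≃ₗ[F] (ι → F)) : ∃ s : F, (gT ρ G T).det = s ^ 2 * G.det :=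
  ⟨(LinearMap.toMatrix' T.toLinearMap).det, by simp [gT]; ring⟩

theorem isSquare_det_of_sq (h2 : (2 : F) ≠ 0) {x : Matrix ι ι F} (h : x * x = -1)
    (hn : Even (Fintype.card ι)) : IsSquare x.det := by
  obtain ⟨m, hm⟩ := hn
  have h1 : (1 + x) * (1 + x) = (2 : F) • x := by rw [two_smul]; linear_combination (norm := noncomm_ring) h
  have h3 := congrArg det h1
  rw [det_mul, det_smul, hm, pow_add] at h3
  exact ⟨(1 + x).det / 2 ^ m, by field_simp; linear_combination -h3⟩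

/-- the span of a vector under an algebra of matrices -/
def Kv (K : Subalgebra F (Matrix ι ι F)) (v : ι → F) : Submodule F (ι → F) :=
  K.toSubmodule.map (toLin'.toLinearMap.flip v)

theorem mem_Kv {v x : ι → F} : x ∈ Kv K v ↔ ∃ k ∈ K, k *ᵥ v = x := Iff.rfl

theorem Kv_inv (v : ι → F) : ∀ k ∈ K, ∀ x ∈ Kv K v, k *ᵥ x ∈ Kv K v := by
  rintro k hk _ ⟨k', hk', rfl⟩
  exact ⟨_, K.mul_mem hk hk', (mulVec_mulVec _ _ _).symm⟩

theorem eq_zero_of_field (hK : IsFieldSubalgebra r K) {k : Matrix ι ι F} (hk : k ∈ K) {v : ι → F}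
    (hv : v ≠ 0) (h : k *ᵥ v = 0) : k = 0 := by_contra fun h0 => by
  obtain ⟨y, hy, e⟩ := hK.inv k hk h0
  exact hv (by rw [← one_mulVec v, ← e, hK.comm k hk y hy, ← mulVec_mulVec, h, mulVec_zero])

theorem finrank_Kv (hK : IsFieldSubalgebra r K) {v : ι → F} (hv : v ≠ 0) :
    finrank F (Kv K v) = r := by
  rw [← hK.finrank_eq, Kv, ← LinearMap.range_domRestrict]
  exact LinearMap.finrank_range_of_inj ((injective_iff_map_eq_zero _).2 fun k hk =>
    Subtype.ext (eq_zero_of_field hK k.2 hv hk))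

theorem field_of_le {B : Subalgebra F (Matrix ι ι F)} (hB : IsFieldSubalgebra r B) (h : K ≤ B) :
    IsFieldSubalgebra (finrank F K) K := by
  refine ⟨fun x hx y hy => hB.comm x (h hx) y (h hy), fun x hx h0 => ?_, rfl⟩
  obtain ⟨y, hy⟩ := LinearMap.injective_iff_surjective.1 ((injective_iff_map_eq_zero
    (LinearMap.mulLeft F (⟨x, hx⟩ : K))).2 fun y hy =>
      Subtype.ext (inv_eq_of_field hB (h hx) h0 (congrArg Subtype.val hy))) 1
  exact ⟨y, y.2, congrArg Subtype.val hy⟩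

theorem mem_of_comm (hK : IsFieldSubalgebra (Fintype.card ι) K) [Nonempty ι] {z : Matrix ι ι F}
    (hz : ∀ k ∈ K, z * k = k * z) : z ∈ K := by
  obtain ⟨v, hv⟩ := exists_ne (0 : ι → F)
  have h1 : Kv K v = ⊤ := Submodule.eq_top_of_finrank_eq (by simp [finrank_Kv hK hv])
  obtain ⟨k, hk, e⟩ := mem_Kv.1 (h1 ▸ Submodule.mem_top : z *ᵥ v ∈ Kv K v)
  rwa [show z = k from ext_mulVec fun x => by
    obtain ⟨k', hk', rfl⟩ := mem_Kv.1 (h1 ▸ Submodule.mem_top : x ∈ Kv K v)
    rw [mulVec_mulVec, hz k' hk', ← mulVec_mulVec, ← e, mulVec_mulVec, mulVec_mulVec,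
      hK.comm k hk k' hk']]

theorem det_adj {ε : F} (h : HF ρ ε G) (a : Matrix ι ι F) : (adj ρ G a).det = a.det := by
  have := congrArg det (mul_adj h.σσ h.unit a)
  rw [RingHom.coe_id, Matrix.map_id, det_mul, det_mul, det_transpose, mul_comm] at this
  exact mul_right_cancel₀ h.det_ne this

variable [Fintype F]

theorem isSquare_det_skew (h2 : (2 : F) ≠ 0) (h : IsSymplecticForm (fm ρ G)) : IsSquare G.det := by
  obtain ⟨m, hm⟩ := even_of_symp h
  obtain ⟨T, hT⟩ := symp_congr ((hf_J m).symp (alt_J m)) h (by simpa)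
  let e := Fintype.equivOfCardEq (show Fintype.card ι = Fintype.card (Fin m ⊕ Fin m) by simpa)
  obtain ⟨s, hs⟩ := det_gT (G := J (Fin m) F) (reT e T)
  rw [← hT, ← gT_reT e, det_submatrix_equiv_self, hs]
  exact (IsSquare.sq s).mul (isSquare_det_of_sq h2 (J_squared _ _) (by simp))

theorem XsB.plus {R : Subgroup (GL ι F)} {m : ℕ} (hx : XsB G H R m) (h : QInv G H Q)
    (hm : 2 ≤ m) : IsPlusTypeOn Q ⊤ := by
  obtain ⟨m, rfl⟩ := Nat.exists_eq_add_of_le' hm
  have hn := hx.dim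
  haveI : Nonempty ι := Fintype.card_pos_iff.1 (by rw [hn]; positivity)
  have h2 := two_ne_zero_of_odd hx.odd
  obtain ⟨x, h3, h4⟩ : ∃ x ∈ R, x * x = -1 := by
    by_contra! h3
    have h4 : ∀ x ∈ R, x⁻¹ = x := fun x h4 => inv_eq_of_mul_eq_one_right
      ((sq_eq_one_of_Iso h.hf (mem_scalars.2 (sc_of_env hx.xs.top fun y hy => by
        rcases sq_eq_one_of_Iso h.hf (hx.xs.comm x h4 y hy) (hx.iso (R.mul_mem (R.mul_mem
          (R.mul_mem h4 hy) (R.inv_mem h4)) (R.inv_mem hy))) with e | e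
        · rw [← Units.val_mul, ← Units.val_mul, mul_assoc,
            commutatorElement_eq_one_iff_mul_comm.1 e, ← mul_assoc,
            commutatorElement_eq_one_iff_mul_comm.1 e, mul_assoc]
        · have : x * y = -(y * x) := by rw [← neg_one_mul, ← e]; group
          rw [← Units.val_mul, ← Units.val_mul, mul_assoc, this, mul_neg, ← mul_assoc, this,
            neg_mul, neg_neg, mul_assoc])) (hx.iso (R.mul_mem h4 h4))).resolve_right (h3 x h4))
    exact env_ne_top (by rw [hn, pow_add]; have := m.one_le_two_pow; omega) (fun x a y b => by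
      rw [← h4 _ (R.mul_mem a b), _root_.mul_inv_rev, h4 x a, h4 y b]) hx.xs.top
  have h5 : adj ρ G x = -x := by
    rw [h.hf.adj_iso (hx.iso h3), inv_eq_of_mul_eq_one_right (show x * -x = 1 by simp [h4])]; rfl
  have h6 : ∀ u v, fm ρ (G * x.1) u v = fm ρ G u (x.1 *ᵥ v) := fun u v => by
    simp [fm_mulVec_right]
  have h7 : HF ρ (-1) (G * x.1) := HF.of_swap h.hf.σσ (h.hf.unit.mul x.isUnit) fun u v => by
    rw [h6, h6, ← h.hf.fm_adj', h5, neg_mulVec, ← neg_one_smul F, fm_smul_left, h.symm]; rfl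
  have h8 := sqSign_eq_one_iff.2 (isSquare_det_skew h2 (h7.symp (h7.alt h2)))
  rw [det_mul, sqSign_mul h.hf.det_ne (det_ne_zero x), sqSign_eq_one_iff.2 (isSquare_det_of_sq h2
    (congrArg Units.val h4) (by rw [hn]; exact (Nat.even_pow' (by omega)).2 even_two)), mul_one] at h8
  rw [h.plus_iff_det h2 (m := 2 * 2 ^ m) (by rw [hn]; ring) (LinearEquiv.refl _ _),
    show gT ρ G (LinearEquiv.refl _ _) = G from congr_of_equiv _ fun _ _ => rfl, h8, pow_mul, Int.units_sq, one_pow]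

section sub

variable {F₀ : Subfield F} {P : GL ι F} {c : F}

theorem isSquare_of_mem (h2 : (2 : F) ≠ 0) (hF : Fintype.card F = Nat.card F₀ ^ 2) {x : F}
    (hx : x ∈ F₀) : IsSquare x := by
  obtain ⟨σ, h1, h3, h4⟩ := exists_frob hF
  obtain ⟨s, rfl⟩ := exists_norm_eq h3 h4 (σ_eq_of_two h1 (by simpa) (by simpa) hx)
  obtain ⟨k, hk⟩ := (Nat.odd_pow_iff two_ne_zero).1 (hF ▸ odd_of_two_ne h2)
  exact ⟨s ^ (k + 1), by rw [h1, hk]; ring⟩

theorem exists_root (h2 : (2 : F) = 0) (hF : Fintype.card F = Nat.card F₀ ^ 2) {x : F}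
    (hx : x ∈ F₀) : ∃ s, s ^ 2 + s + x = 0 := by
  obtain ⟨σ, h1, h3, h4⟩ := exists_frob hF
  have h5 := σ_eq_of_two h1 (by simpa) (by simpa) hx
  obtain ⟨l, hl⟩ : ∃ l, l + σ l ≠ 0 := by
    by_contra! hl
    exact h4 (RingHom.ext fun l => by simp only [RingHom.id_apply]; linear_combination hl l - l * h2)
  obtain ⟨y, rfl⟩ : ∃ y, y + σ y = x := ⟨x * l / (l + σ l), by
    rw [map_div₀, map_mul, map_add, h3, h5, add_comm (σ l)]; field_simp⟩
  by_cases h6 : ∃ s, s ^ 2 + s + y = 0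
  · obtain ⟨s, hs⟩ := h6
    have := congrArg σ hs
    simp only [map_add, map_pow, map_zero] at this
    exact ⟨s + σ s, by linear_combination hs + this + s * σ s * h2⟩
  · push Not at h6
    obtain ⟨s, hs⟩ := exists_artin_schreier h2 h6 (b := σ y) fun s e => h6 (σ s) (by
      simpa [h3] using congrArg σ e)
    exact ⟨s, by linear_combination hs + σ y * h2⟩

theorem QInv.plus_of_sub (h : QInv G H Q) (hF : Fintype.card F = Nat.card F₀ ^ 2) (hc : c ≠ 0)
    (h1 : RatM F₀ (c • gT ρ G (glEquiv P)))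
    (h3 : IsQuadFormRationalStructure (fun v => c * Q v) F₀ P) {m : ℕ}
    (hm : Fintype.card ι = 2 * m) : IsPlusTypeOn Q ⊤ := by
  by_cases h2 : (2 : F) = 0
  swap
  · have h4 := sqSign_eq_one_iff.2 (isSquare_of_mem h2 hF h1.det)
    rw [det_smul, hm, sqSign_mul (pow_ne_zero _ hc) (h.hf.gT _).det_ne, pow_mul', sqSign_sq,
      one_mul] at h4
    rw [h.plus_iff_det h2 hm (glEquiv P), h4,
      sqSign_eq_one_iff.2 (isSquare_of_mem h2 hF (neg_mem (one_mem _))), one_pow]
  haveI := Fintype.ofFinite F₀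
  let A : Matrix ι ι F₀ := of fun i j => ⟨_, h1 i j⟩
  have h4 : ∀ u v : ι → F₀, F₀.subtype (fm ρ A u v) =
      c * fm ρ G (P.1 *ᵥ (F₀.subtype ∘ u)) (P.1 *ᵥ (F₀.subtype ∘ v)) := fun u v => by
    rw [← glEquiv_apply, ← glEquiv_apply, ← fm_gT, ← fm_smul]
    simp [fm, formOfGram, A]
  have h5 : HF ρ 1 A := HF.of_swap (fun _ => rfl) ((isUnit_iff_isUnit_det _).2 (Ne.isUnit fun e =>
    ((h.hf.gT (glEquiv P)).smul hc (ε' := 1) (by simp)).det_ne
      ((F₀.subtype.map_det A).symm.trans (by rw [e, map_zero])))) fun x y => F₀.subtype.injective (by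
        rw [one_mul, RingHom.id_apply, h4, h4, h.symm])
  obtain ⟨T, hT⟩ := symp_congr (h5.symp fun v => F₀.subtype.injective (by
    rw [h4, h.alt h2, mul_zero, map_zero]))
    ((hf_J m).symp (alt_J m)) (by simp [hm, two_mul])
  let e : Fin m ⊕ Fin m → ι → F := fun a => P.1 *ᵥ (F₀.subtype ∘ T (Pi.single a 1))
  have h6 : ∀ a b, c * fm ρ G (e a) (e b) = J (Fin m) F a b := fun a b => by
    rw [← h4, ← fm_gT, hT, fm_single, ← map_J (Fin m) F₀.subtype]; rfl
  have h7 : ∀ i, ∃ x y : F, (x ≠ 0 ∨ y ≠ 0) ∧ Q (x • e (.inl i) + y • e (.inr i)) = 0 := fun i => by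
    by_cases a : Q (e (.inl i)) = 0
    · exact ⟨1, 0, by simp, by simpa⟩
    obtain ⟨s, hs⟩ := exists_root h2 hF (x := c * Q (e (.inl i)) * (c * Q (e (.inr i))))
      (mul_mem (h3 _ fun j => (T (Pi.single (.inl i) 1) j).2)
      (h3 _ fun j => (T (Pi.single (.inr i) 1) j).2))
    refine ⟨s, c * Q (e (.inl i)), .inr (mul_ne_zero hc a), ?_⟩
    have := h6 (.inl i) (.inr i)
    simp only [J, fromBlocks_apply₁₂, Matrix.neg_apply, one_apply_eq] at this
    rw [h.lin2]
    linear_combination Q (e (.inl i)) * (hs + s * this - s * h2)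
  choose x y h7 h8 using h7
  have h9 : ∀ i j a b, c * fm ρ G (x i • e (.inl i) + y i • e (.inr i))
      (a • e (.inl j) + b • e (.inr j)) = if i = j then y i * a - x i * b else 0 := fun i j a b => by
    simp only [fm_add_left, fm_add_right, fm_smul_left, fm_smul_right, mul_add,
      mul_left_comm c, h6, J, fromBlocks_apply₁₁, fromBlocks_apply₁₂, fromBlocks_apply₂₁,
      fromBlocks_apply₂₂, Matrix.neg_apply, one_apply, Matrix.zero_apply, RingHom.id_apply]
    split_ifs <;> ring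
  refine h.plus_of (w := fun i => x i • e (.inl i) + y i • e (.inr i))
    (Fintype.linearIndependent_iff.2 fun g hg i => ?_) h8
    (fun i j hij => by simpa [hij, hc] using h9 i j (x j) (y j)) (by simp [hm])
  have a : ∀ a b, g i * (y i * a - x i * b) = 0 := fun a b => by
    have := congrArg (fun z => c * sesq ρ G (a • e (.inl i) + b • e (.inr i)) z) hg
    simpa only [map_sum, map_smul, sesq_apply, smul_eq_mul, Finset.mul_sum, mul_left_comm c, h9,
      mul_ite, mul_zero, Finset.sum_ite_eq', Finset.mem_univ, if_true, map_zero] using this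
  rcases h7 i with b | b
  · simpa [b] using a 0 1
  · simpa [b] using a 1 0

theorem QInv.sub_one (h : QInv G H Q) (hc : c ≠ 0) (h1 : RatM F₀ (c • gT ρ G (glEquiv P)))
    (h3 : IsQuadFormRationalStructure (fun v => c * Q v) F₀ P) (hn : Odd (Fintype.card ι))
    (hG : G.det ∈ F₀) : ∃ P', IsQuadFormRationalStructure Q F₀ P' ∧
      subfieldSubgroup F₀ P' = subfieldSubgroup F₀ P := by
  obtain ⟨m, hm⟩ := hn
  obtain ⟨s, hs⟩ := det_gT (G := G) (glEquiv P)
  have h4 : s ≠ 0 := by rintro rfl; exact (h.hf.gT (glEquiv P)).det_ne (by simpa using hs)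
  have h5 := div_mem h1.det hG
  rw [det_smul, hs, ← mul_assoc, mul_div_cancel_right₀ _ h.hf.det_ne, hm] at h5
  refine ⟨scU (Units.mk0 _ (inv_ne_zero (mul_ne_zero (pow_ne_zero m hc) h4))) * P, fun u hu => ?_,
    subfieldSubgroup_scU _ _⟩
  convert div_mem (h3 u hu) h5 using 1
  rw [Units.val_mul, coe_scU, smul_mul_assoc, one_mul, smul_mulVec, h.smul, Units.val_mk0]
  field_simp
  ring

end sub

end H29
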