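import Cfsg.Agent.H29.As13

/-! Aschbacher's theorem, part 14: field extension subgroups of orthogonal groups
(`FldN.ne_card`, `exists_om`, `FldN.half`, `FldN.even_of_plus`). -/

set_option autoImplicit false
set_option linter.unusedSectionVars false

namespace H29

open Matrix Cfsg.Geo Module H11
open scoped Kronecker commutatorElement

variable {F : Type*} [Field F] {ι κ μ : Type} [Fintype ι] [DecidableEq ι] [Fintype κ]
  [DecidableEq κ] [Fintype μ] [DecidableEq μ] {H : Subgroup (GL ι F)} {G : Matrix ι ι F} {t : ℕ}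
  {Q : (ι → F) → F} {A B W : Submodule F (ι → F)} {K : Subalgebra F (Matrix ι ι F)} {r : ℕ}
  {σ : F →+* F} {ε : F}

local notation "ρ" => RingHom.id _

theorem abN_cases [Finite F] [Nonempty ι] (hH : Irr H) (h : HF σ ε G) (hs : H ≤ Sim σ G)
    {B : Subalgebra F (Matrix ι ι F)} (hB : NmlA H B) (hc : ∀ x ∈ B, ∀ y ∈ B, x * y = y * x)
    (ha : ∀ x ∈ B, adj σ G x ∈ B) :
    (∃ k, NDec σ G H k) ∨ TPair σ G H ∨ FldN σ G H (finrank F B) B := by
  rcases idem_or_field hH hB hc with ⟨e, he, h1, h2, h3, h4⟩ | h1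
  swap
  · exact .inr (.inr ⟨⟨hc, h1, rfl⟩, hB, ha⟩)
  have he' := ha e he
  have h1' : adj σ G e * adj σ G e = adj σ G e := by rw [← h.adj_mul, h1]
  have h4' : ∀ f ∈ B, f * f = f → f * adj σ G e = 0 ∨ f * adj σ G e = adj σ G e := fun f hf h5 => by
    have h6 : f * adj σ G e = adj σ G (adj σ G f * e) := by
      rw [h.adj_mul, h.adj_adj, hc _ hf _ he']
    rw [h6]
    exact (h4 _ (ha f hf) (by rw [← h.adj_mul, h5])).imp (fun h => by rw [h, adj_zero])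
      fun h => by rw [h]
  have ho := fun g (hg : g ∈ H) => orbit_idem hB hc he he h1 h1 h4 h4 hg
  have ho' := fun g (hg : g ∈ H) => orbit_idem hB hc he he' h1 h1' h4 h4' hg
  rcases h4 _ he' h1' with h5 | h5
  swap
  · refine .inl ⟨_, ndec_of_idem hH h hs h1 h2 h3 ?_ ho⟩
    rcases h4' e he h1 with h6 | h6
    · exact absurd (by rw [← h5, hc _ he' _ he, h6]) h2
    · rw [← h6, hc _ he _ he', h5]
  have h5' : e * adj σ G e = 0 := by rw [hc _ he _ he', h5]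
  by_cases h6 : e + adj σ G e = 1
  · refine .inr (.inl (tpair_of_idem hH h h1 h2 h3 ⟨h6, fun g hg => ?_⟩))
    refine (ho g hg).imp_right fun h7 => (ho' g hg).resolve_right fun h8 => h2 ?_
    rw [← map_eq_zero_iff _ (cjA g).injective, ← mul_one (cjA g e), ← h6, mul_add, h7, h8, add_zero]
  refine .inl ⟨_, ndec_of_idem hH h hs (u := e + adj σ G e) ?_ (fun h7 => h2 ?_) h6 ?_
    fun g hg => ?_⟩
  · rw [mul_add, add_mul, add_mul, h1, h1', h5, h5', add_zero, zero_add]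
  · simpa [add_mul, h1, h5] using congrArg (· * e) h7
  · rw [adj_add, h.adj_adj, add_comm]
  rw [map_add, ← h.adj_cjA (hs hg)]
  rcases ho g hg with h7 | h7
  · rw [h7]; exact .inl rfl
  rcases ho' g hg with h8 | h8
  · rw [h8, h.adj_adj]; exact .inl (add_comm _ _)
  have h9 := ha _ (hB g hg e he)
  have a := congrArg (adj σ G) h7
  have b := congrArg (adj σ G) h8
  rw [h.adj_mul, adj_zero, hc _ he' _ h9] at a
  rw [h.adj_mul, adj_zero, h.adj_adj, hc _ he _ h9] at b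
  exact .inr (by rw [mul_add, add_mul, add_mul, h7, h8, a, b]; simp)

theorem fm_sub_left (x y z : ι → F) : fm σ G (x - y) z = fm σ G x z - fm σ G y z :=
  map_sub (sesq σ G z) x y

theorem fm_sub_right (x y z : ι → F) : fm σ G x (y - z) = fm σ G x y - fm σ G x z := by
  simp [← sesq_apply]

theorem HF.pp_pp (h : HF σ ε G) (W : Submodule F (ι → F)) : pp σ G (pp σ G W) = W :=
  (Submodule.eq_of_le_of_finrank_eq (show W ≤ pp σ G (pp σ G W) from fun x hx y hy =>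
    h.eq_zero_comm (hy x hx)) (by
    have := h.finrank_pp W; have := h.finrank_pp (pp σ G W); omega)).symm

theorem eq_Kv (hK : IsFieldSubalgebra r K) (hW : ∀ k ∈ K, ∀ x ∈ W, k *ᵥ x ∈ W)
    (h1 : finrank F W = r) {u : ι → F} (hu : u ∈ W) (h0 : u ≠ 0) : Kv K u = W :=
  Submodule.eq_of_le_of_finrank_eq (by rintro _ ⟨k, hk, rfl⟩; exact hW k hk u hu)
    (by rw [finrank_Kv hK h0, h1])

theorem pp_Kinv (h : HF σ ε G) (ha : ∀ x ∈ K, adj σ G x ∈ K)
    (hW : ∀ k ∈ K, ∀ x ∈ W, k *ᵥ x ∈ W) : ∀ k ∈ K, ∀ x ∈ pp σ G W, k *ᵥ x ∈ pp σ G W :=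
  fun k hk x hx w hw => by rw [h.fm_adj, hx _ (hW _ (ha k hk) w hw)]

variable [Fintype F]

theorem FldN.ne_card (hK : FldN ρ G H r K) (hH : Irr H) (h : HF ρ 1 G) (hs : H ≤ Iso ρ G)
    (h1 : ∀ x ∈ K, adj ρ G x = x) (h2 : (2 : F) ≠ 0) (hn : Odd (Fintype.card ι))
    (hn' : 2 ≤ Fintype.card ι) : r ≠ Fintype.card ι := by
  rintro rfl
  haveI : Nonempty ι := Fintype.card_pos_iff.1 (by omega)
  obtain ⟨κ, h3, h4⟩ : ∃ κ ∈ K, κ ≠ 0 ∧ ∀ k ∈ K, k ≠ 0 → ∃ a : ℕ, κ ^ a = k := by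
    letI := (isField_of hK.1).toField
    obtain ⟨κ, hκ⟩ := IsCyclic.exists_monoid_generator (α := Kˣ)
    refine ⟨κ.1, κ.1.2, fun e => κ.ne_zero (Subtype.ext e), fun k hk h0 => ?_⟩
    exact (hκ (Units.mk0 ⟨k, hk⟩ fun e => h0 (congrArg Subtype.val e))).imp fun a ha =>
      congrArg (fun u : Kˣ => u.1.1) ha
  have h5 : ∀ g ∈ H, ∃ a : ℕ, κ ^ a = cjA g κ := fun g hg => h4.2 _ (hK.2.1 g hg κ h3)
    ((map_ne_zero_iff _ (cjA g).injective).2 h4.1)
  have h6 : ∀ g ∈ H, ∀ g' ∈ H, g * g' = g' * g := fun g hg g' hg' => by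
    obtain ⟨a, ha⟩ := h5 g hg
    obtain ⟨b, hb⟩ := h5 g' hg'
    obtain ⟨c, hc⟩ : ∃ c, c = (g' * g)⁻¹ * (g * g') := ⟨_, rfl⟩
    have h6 : cjA c κ = κ := by
      rw [hc, cjA_mul, cjA_mul g, ← hb, map_pow, ← ha, pow_right_comm, hb, ← map_pow, ha, ← cjA_mul g',
        cjA_inv_cjA]
    have h7 : c.1 ∈ K := mem_of_comm hK.1 fun k hk => cjA_eq_iff.1 (by
      obtain rfl | h0 := eq_or_ne k 0
      · simp
      · obtain ⟨a, rfl⟩ := h4.2 k hk h0
        rw [map_pow, h6])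
    have h8 : c.1 * c.1 = 1 := by
      nth_rw 1 [← h1 _ h7]
      rw [h.adj_iso (hs (hc ▸ mul_mem (inv_mem (mul_mem hg' hg)) (mul_mem hg hg'))), Units.inv_mul]
    have h9 : c.1.det = 1 := by
      rw [← GeneralLinearGroup.val_det_apply, hc, map_mul, map_inv, map_mul, map_mul,
        mul_comm (GeneralLinearGroup.det g'), inv_mul_cancel, Units.val_one]
    refine (inv_mul_eq_one.1 (hc ▸ Units.ext (sub_eq_zero.1 (inv_eq_of_field hK.1
      (add_mem h7 (one_mem K)) (fun e => h2 ?_) ?_)))).symm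
    · rw [eq_neg_of_add_eq_zero_left e, det_neg, hn.neg_one_pow, det_one] at h9
      linear_combination -h9
    · rw [Units.val_one]
      linear_combination (norm := noncomm_ring) h8
  refine hH.not_le_scalars hn' fun g hg => mem_scalars.2 ?_
  have h7 := congrArg det (mem_Iso.1 (hs hg))
  rw [RingHom.coe_id, Matrix.map_id, det_mul, det_mul, det_transpose, mul_right_comm,
    mul_left_eq_self₀, or_iff_left h.det_ne] at h7
  have h8 : (g.1 - g.1.det • 1).det = 0 := by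
    have h8 := det_adj h (g.1 - g.1.det • 1)
    rw [adj_sub, adj_smul, h.adj_one, h.adj_iso (hs hg), RingHom.id_apply,
      show (g⁻¹.1 - g.1.det • 1 : Matrix ι ι F) = (-g.1.det) • (g⁻¹.1 * (g.1 - g.1.det • 1)) by
        rw [mul_sub, Units.inv_mul, smul_sub, mul_smul_comm, smul_smul, neg_mul, h7]
        simp [neg_add_eq_sub], det_smul, det_mul, hn.neg_pow, coe_units_inv, det_nonsing_inv,
      Ring.inverse_eq_inv] at h8
    obtain ⟨m, hm⟩ := hn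
    rw [hm, pow_succ, pow_mul, sq, h7, one_pow, one_mul, neg_mul,
      mul_inv_cancel_left₀ (det_ne_zero g)] at h8
    exact (mul_eq_zero.1 (by linear_combination -h8)).resolve_left h2
  obtain ⟨v, hv, h9⟩ := exists_mulVec_eq_zero_iff.2 h8
  exact sc_of_eigen hH (fun x hx => congrArg Units.val (h6 g hg x hx)) hv (c := g.1.det)
    (by rwa [sub_mulVec, sub_eq_zero, smul_mulVec, one_mulVec] at h9)

theorem exists_sq_mem [Nonempty ι] (hK : IsFieldSubalgebra r K) (h2 : (2 : F) = 0) :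
    ∀ k ∈ K, ∃ s ∈ K, s * s = k := fun k hk => by
  letI := (isField_of hK).toField
  obtain ⟨s, hs⟩ := exists_sq (F := K) (by rw [← map_ofNat (algebraMap F K), h2, map_zero]) ⟨k, hk⟩
  exact ⟨s, s.2, by rw [← sq]; exact congrArg Subtype.val hs⟩

theorem QInv.exists_mu [Nonempty ι] (h : QInv G H Q) (hK : IsFieldSubalgebra r K)
    (h1 : ∀ x ∈ K, adj ρ G x = x) (v : ι → F) :
    ∃ μ : K →ₗ[F] F, ∀ a, μ (a * a) = Q (a.1 *ᵥ v) := by
  by_cases h2 : (2 : F) = 0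
  swap
  · refine ⟨(2⁻¹ : F) • sesq ρ G v ∘ₗ toLin'.toLinearMap.flip v ∘ₗ K.val.toLinearMap, fun a => ?_⟩
    change 2⁻¹ * fm ρ G ((a.1 * a.1) *ᵥ v) v = _
    rw [← mulVec_mulVec, h.hf.fm_adj, h1 _ a.2, h.self, inv_mul_cancel_left₀ h2]
  choose! s h3 h4 using exists_sq_mem hK h2
  have h5 : ∀ a ∈ K, ∀ b ∈ K, b * b = a → s a = b := fun a ha b hb e => by_contra fun h0 =>
    h0 (sub_eq_zero.1 (inv_eq_of_field hK (sub_mem (h3 a ha) hb) (sub_ne_zero.2 h0) (by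
      rw [sub_mul, mul_sub, mul_sub, h4 a ha, e, hK.comm _ hb _ (h3 a ha)]
      linear_combination (norm := module) h2 • (a - s a * b))))
  refine ⟨⟨⟨fun a => Q (s a *ᵥ v), fun a b => ?_⟩, fun c a => ?_⟩, fun a => by
    simp [h5 _ (mul_mem a.2 a.2) a a.2 rfl]⟩
  · have h6 := hK.comm _ (h3 _ a.2) _ (h3 _ b.2)
    rw [h5 _ (a + b).2 _ (add_mem (h3 _ a.2) (h3 _ b.2)) (by
      rw [mul_add, add_mul, add_mul, h4 _ a.2, h4 _ b.2, h6, add_assoc, ← add_assoc (_ * _),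
        ← two_smul F, h2, zero_smul, zero_add]; rfl), add_mulVec, h.add, ← h1 _ (h3 _ b.2),
      ← h.hf.fm_adj, h1 _ (h3 _ b.2), mulVec_mulVec, ← h4 _ (mul_mem (h3 _ b.2) (h3 _ a.2)),
      ← mulVec_mulVec, h.hf.fm_adj, h1 _ (h3 _ (mul_mem (h3 _ b.2) (h3 _ a.2))), h.alt h2, add_zero]
  · obtain ⟨c, rfl⟩ := exists_sq h2 c
    simp only [RingHom.id_apply, smul_eq_mul]
    rw [h5 _ (c ^ 2 • a).2 _ (K.smul_mem (h3 _ a.2) c) (by
      rw [smul_mul_smul_comm, h4 _ a.2, sq]; rfl), smul_mulVec, h.smul]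

theorem QInv.exists_om (h : QInv G H Q) (hK : IsFieldSubalgebra r K)
    (h1 : ∀ x ∈ K, adj ρ G x = x) (hn : 2 * r = Fintype.card ι) (hr : 0 < r) :
    ∃ ω, (∀ k ∈ K, ω * k = k * ω) ∧ (∀ v, fm ρ G (ω *ᵥ v) v = Q v) ∧ adj ρ G ω ≠ ω := by
  haveI : Nonempty ι := Fintype.card_pos_iff.1 (by omega)
  obtain ⟨v, hv⟩ := _root_.exists_ne (0 : ι → F)
  obtain ⟨w, h2, h3⟩ : ∃ w, w ∉ Kv K v ∧ w ∉ pp ρ G (Kv K v) := by
    by_contra! h2
    have := h.hf.finrank_pp (Kv K v)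
    have := finrank_Kv hK hv
    rcases map_le_or (W := ⊤) (A := Kv K v) (B := pp ρ G (Kv K v)) LinearMap.id
      (fun x _ => or_iff_not_imp_left.2 (h2 x)) with h3 | h3 <;>
      exact ne_top_of_lt (by omega) (eq_top_iff.2 h3)
  let e₀ : (K × K) →ₗ[F] (ι → F) := (toLin'.toLinearMap.flip v ∘ₗ K.val.toLinearMap).coprod
    (toLin'.toLinearMap.flip w ∘ₗ K.val.toLinearMap)
  obtain ⟨e, he⟩ : ∃ e : (K × K) ≃ₗ[F] (ι → F), ∀ p, e p = p.1.1 *ᵥ v + p.2.1 *ᵥ w :=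
    ⟨e₀.linearEquivOfInjective ((injective_iff_map_eq_zero _).2 fun ⟨a, b⟩ e => by
      replace e : a.1 *ᵥ v + b.1 *ᵥ w = 0 := e
      obtain rfl : b = 0 := Subtype.ext (by_contra fun h0 => by
        obtain ⟨y, hy, e'⟩ := hK.inv _ b.2 h0
        refine h2 ⟨-(y * a), K.neg_mem (K.mul_mem hy a.2), ?_⟩
        change (-(y * a.1)) *ᵥ v = w
        rw [neg_mulVec, ← mulVec_mulVec, eq_neg_of_add_eq_zero_left e, mulVec_neg, neg_neg,
          mulVec_mulVec, ← hK.comm _ b.2 _ hy, e', one_mulVec])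
      obtain rfl : a = 0 := Subtype.ext (eq_zero_of_field hK a.2 hv (by simpa using e))
      rfl) (by simp [hK.finrank_eq, ← hn, two_mul]), fun _ => rfl⟩
  obtain ⟨μ, hμ⟩ := h.exists_mu hK h1 v
  obtain ⟨ν, hν⟩ := h.exists_mu hK h1 w
  obtain ⟨ω, h4⟩ : ∃ ω : Matrix ι ι F, ∀ p q, fm ρ G (ω *ᵥ e p) (e q) =
      μ (p.1 * q.1) + fm ρ G (p.1.1 *ᵥ v) (q.2.1 *ᵥ w) + ν (p.2 * q.2) := by
    have h4 := eq_fm (σ := ρ) (f := fun x y => μ ((e.symm x).1 * (e.symm y).1) +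
      fm ρ G ((e.symm x).1.1 *ᵥ v) ((e.symm y).2.1 *ᵥ w) + ν ((e.symm x).2 * (e.symm y).2))
      (fun x y z => by simp [add_mul, add_mulVec, fm_add_left]; ring)
      (fun c x z => by simp [smul_mulVec, fm_smul_left]; ring)
      (fun x y z => by simp [mul_add, add_mulVec, fm_add_right]; ring)
      (fun c x z => by simp [smul_mulVec, fm_smul_right]; ring)
    obtain ⟨U, h4⟩ : ∃ U, _ = fm ρ U := ⟨_, h4⟩
    refine ⟨(U * G⁻¹)ᵀ, fun p q => ?_⟩
    rw [fm_mulVec_left, transpose_transpose, nonsing_inv_mul_cancel_right _ _ h.hf.det_ne.isUnit,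
      ← h4]
    simp
  refine ⟨ω, fun k hk => ext_mulVec fun x => sub_eq_zero.1 (h.hf.left fun y => ?_), fun x => ?_,
    fun h5 => h3 ?_⟩
  · obtain ⟨p, rfl⟩ := e.surjective x
    obtain ⟨q, rfl⟩ := e.surjective y
    have h5 : ∀ p, k *ᵥ e p = e (⟨k, hk⟩ * p.1, ⟨k, hk⟩ * p.2) := fun p => by
      simp [he, mulVec_add]
    rw [fm_sub_left, ← mulVec_mulVec, ← mulVec_mulVec, h.hf.fm_adj k, h1 k hk, h5, h5, h4, h4]
    have h6 : ∀ a b : K, ⟨k, hk⟩ * a * b = a * (⟨k, hk⟩ * b) := fun a b => Subtype.ext (by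
      simp only [MulMemClass.coe_mul, hK.comm k hk _ a.2, ← mul_assoc])
    simp only [h6, MulMemClass.coe_mul, ← mulVec_mulVec, h.hf.fm_adj k, h1 k hk]
    ring
  · obtain ⟨p, rfl⟩ := e.surjective x
    rw [h4, he, h.add, hμ, hν]
    ring
  · rintro _ ⟨k, hk, rfl⟩
    have h6 := h4 (0, 1) (⟨k, hk⟩, 0)
    rw [h.hf.fm_adj, h5, h.symm, h4] at h6
    simpa [h.symm w] using h6

theorem skew_perp [Nonempty ι] (h : HF ρ ε G) (hK : IsFieldSubalgebra r K)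
    (h1 : ∀ x ∈ K, adj ρ G x = x) {z : Matrix ι ι F} (h2 : ∀ k ∈ K, z * k = k * z)
    (h3 : ∀ v, fm ρ G (z *ᵥ v) v = 0) (v : ι → F) : z *ᵥ v ∈ pp ρ G (Kv K v) := by
  rintro _ ⟨k, hk, rfl⟩
  change fm ρ G _ (k *ᵥ v) = 0
  by_cases h4 : (2 : F) = 0
  · obtain ⟨s, hs, rfl⟩ := exists_sq_mem hK h4 k hk
    rw [← mulVec_mulVec, ← h1 s hs, ← h.fm_adj, h1 s hs, mulVec_mulVec, ← h2 s hs, ← mulVec_mulVec,
      h3]
  · have := h3 (v + k *ᵥ v)
    rw [mulVec_add, fm_add_left, fm_add_right, fm_add_right, h3, h3, mulVec_mulVec, h2 k hk,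
      ← mulVec_mulVec, h.fm_adj k, h1 k hk] at this
    exact (mul_eq_zero.1 (by linear_combination this)).resolve_left h4

theorem skew_inj [Nonempty ι] (h : HF ρ ε G) (hK : IsFieldSubalgebra r K)
    (h1 : ∀ x ∈ K, adj ρ G x = x) (hn : 2 * r = Fintype.card ι) {z : Matrix ι ι F}
    (h2 : ∀ k ∈ K, z * k = k * z) (h3 : ∀ v, fm ρ G (z *ᵥ v) v = 0) {v : ι → F} (hv : v ≠ 0)
    (h4 : z *ᵥ v = 0) : z = 0 := ext_mulVec fun w => by_contra fun h5 => by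
  rw [zero_mulVec] at h5
  have h6 : ∀ k ∈ K, z *ᵥ k *ᵥ v = 0 := fun k hk => by
    rw [mulVec_mulVec, h2 k hk, ← mulVec_mulVec, h4, mulVec_zero]
  have h7 : ∀ u, u ≠ 0 → z *ᵥ w ∈ pp ρ G (Kv K u) → Kv K u = pp ρ G (Kv K (z *ᵥ w)) := fun u hu a => by
    rw [eq_Kv hK (pp_Kinv h (fun x hx => (h1 x hx).symm ▸ hx) (Kv_inv u)) (by
      have := h.finrank_pp (Kv K u); have := finrank_Kv hK hu; omega) a h5, h.pp_pp]
  obtain ⟨k, hk, rfl⟩ := mem_Kv.1 (((h7 w (by rintro rfl; simp at h5)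
    (skew_perp h hK h1 h2 h3 w)).trans (h7 v hv (by
      rintro _ ⟨k, hk, rfl⟩
      have := h3 (w + k *ᵥ v)
      rwa [mulVec_add, h6 k hk, add_zero, fm_add_right, h3, zero_add] at this)).symm).le
        ⟨1, K.one_mem, one_mulVec _⟩)
  exact h5 (h6 k hk)

theorem skew_dim [Nonempty ι] (h : HF ρ ε G) (hK : IsFieldSubalgebra r K)
    (h1 : ∀ x ∈ K, adj ρ G x = x) (hn : 2 * r = Fintype.card ι) {z z' : Matrix ι ι F}
    (h2 : ∀ k ∈ K, z * k = k * z) (h3 : ∀ v, fm ρ G (z *ᵥ v) v = 0) (h0 : z ≠ 0)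
    (h2' : ∀ k ∈ K, z' * k = k * z') (h3' : ∀ v, fm ρ G (z' *ᵥ v) v = 0) : ∃ k ∈ K, z' = k * z := by
  obtain ⟨v, hv⟩ := exists_ne (0 : ι → F)
  obtain ⟨k, hk, e⟩ := mem_Kv.1 ((eq_Kv hK (pp_Kinv h (fun x hx => (h1 x hx).symm ▸ hx) (Kv_inv v))
    (by have := h.finrank_pp (Kv K v); have := finrank_Kv hK hv; omega) (skew_perp h hK h1 h2 h3 v)
      (mt (skew_inj h hK h1 hn h2 h3 hv) h0)).ge (skew_perp h hK h1 h2' h3' v))
  refine ⟨k, hk, sub_eq_zero.1 (skew_inj h hK h1 hn (fun a ha => ?_) (fun w => ?_) hv ?_)⟩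
  · rw [sub_mul, mul_sub, h2' a ha, mul_assoc, h2 a ha, ← mul_assoc, ← mul_assoc, hK.comm k hk a ha]
  · rw [sub_mulVec, fm_sub_left, h3', ← mulVec_mulVec, h.fm_adj, h1 k hk,
      skew_perp h hK h1 h2 h3 w _ (mem_Kv.2 ⟨k, hk, rfl⟩), sub_zero]
  · rw [sub_mulVec, ← mulVec_mulVec, e, sub_self]

theorem FldN.half (hK : FldN ρ G H r K) (hH : Irr H) (h : QInv G H Q)
    (h1 : ∀ x ∈ K, adj ρ G x = x) (hn : 2 * r = Fintype.card ι) (hr : Odd r) :
    (∃ k, NDec ρ G H k) ∨ TPair ρ G H ∨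
      ∃ K, FldN ρ G H 2 K ∧ ∀ x ∈ K, adj ρ G x = x → Sc x := by
  haveI : Nonempty ι := Fintype.card_pos_iff.1 (by have := hr.pos; omega)
  obtain ⟨ω, h2, h3, h4⟩ := h.exists_om hK.1 h1 hn hr.pos
  have h5 : adj ρ G ω = 1 - ω := h.hf.adj_eq fun x y => by
    have := h3 (x + y)
    rw [mulVec_add, fm_add_left, fm_add_right, fm_add_right, h3, h3, h.add] at this
    rw [sub_mulVec, one_mulVec, fm_sub_right, h.symm x (ω *ᵥ y)]
    linear_combination this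
  let B := Algebra.adjoin F (insert ω (K : Set (Matrix ι ι F)))
  have a1 : ω ∈ B := Algebra.subset_adjoin (by simp)
  have a2 : K ≤ B := fun k hk => Algebra.subset_adjoin (by simp [hk])
  have a3 : ∀ x ∈ B, ∀ y ∈ B, x * y = y * x := fun a ha b hb =>
    Algebra.commute_of_mem_adjoin_of_forall_mem_commute hb fun y hy =>
      (Algebra.commute_of_mem_adjoin_of_forall_mem_commute ha fun z hz => by
        rcases hy with rfl | hy <;> rcases hz with rfl | hz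
        exacts [rfl, h2 z hz, (h2 y hy).symm, hK.1.comm y hy z hz]).symm
  have a4 : ∀ x ∈ B, adj ρ G x ∈ B := fun x hx => by
    induction hx using Algebra.adjoin_induction with
    | mem x hx =>
      rcases hx with rfl | hx
      · exact h5 ▸ sub_mem (one_mem _) a1
      · exact a2 (hK.2.2 x hx)
    | algebraMap c =>
      rw [Algebra.algebraMap_eq_smul_one, adj_smul, h.hf.adj_one]; exact B.smul_mem (one_mem _) _
    | add x y _ _ a b => exact adj_add (σ := ρ) (G := G) x y ▸ add_mem a b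
    | mul x y _ _ a b => exact h.hf.adj_mul x y ▸ mul_mem b a
  have a5 : NmlA H B := fun g hg => (Algebra.adjoin_le (S := B.comap (cjA g).toAlgHom) (by
    rintro x (rfl | hx)
    swap
    · exact a2 (hK.2.1 g hg x hx)
    obtain ⟨k, hk, e⟩ := skew_dim h.hf hK.1 h1 hn (z := x - (1 - x)) (z' := cjA g x - x)
      (fun k hk => by simp [sub_mul, mul_sub, h2 k hk]) (fun v => by
        simp only [sub_mulVec, one_mulVec, fm_sub_left, h3, h.self]
        ring) (fun e => h4 (by rw [h5, ← sub_eq_zero.1 e])) (fun k hk => by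
        rw [sub_mul, mul_sub, h2 k hk, ← cjA_cjA_inv g k, ← map_mul,
          h2 _ (hK.2.1 _ (inv_mem hg) k hk), map_mul]) fun v => by
        rw [sub_mulVec, fm_sub_left, h3, ← mulVec_inv_mulVec g v, cjA_mulVec, h.iso hg, h3,
          h.2.2 g hg, sub_self]
    exact (sub_eq_iff_eq_add.1 e ▸ add_mem (mul_mem (a2 hk) (sub_mem a1 (sub_mem (one_mem _) a1)))
      a1 : cjA g x ∈ B)) : B ≤ _)
  refine (abN_cases hH h.hf (h.iso.trans Iso_le_Sim) a5 a3 a4).imp_right (Or.imp_right fun hB => ?_)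
  have a6 : ∀ C : Subalgebra F (Matrix ι ι F), K < C → C ≤ B → finrank F C = 2 * r :=
    fun C c1 c2 => by
      obtain ⟨s, hs⟩ := field_dvd (field_of_le hB.1 c2)
      have := Submodule.finrank_lt_finrank_of_lt (s := K.toSubmodule) (t := C.toSubmodule) c1
      rw [Subalgebra.finrank_toSubmodule, Subalgebra.finrank_toSubmodule, hK.1.finrank_eq] at this
      obtain rfl : s = 1 := by
        rcases s with _ | _ | s <;> [(simp at hs); rfl; nlinarith]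
      omega
  have a7 := a6 B (a2.lt_of_ne fun e => h4 (h1 ω (e ▸ a1))) le_rfl
  obtain ⟨K', b1, b2, -⟩ := hB.sub h.hf (r := 2) (a7 ▸ Dvd.intro _ rfl)
  refine ⟨K', b1, fun x hx b3 => by_contra fun b4 => ?_⟩
  let B₀ : Subalgebra F (Matrix ι ι F) :=
    { carrier := {x | x ∈ B ∧ adj ρ G x = x}
      mul_mem' := fun ha hb => ⟨B.mul_mem ha.1 hb.1, by
        rw [h.hf.adj_mul, ha.2, hb.2, a3 _ ha.1 _ hb.1]⟩
      add_mem' := fun ha hb => ⟨B.add_mem ha.1 hb.1, by rw [adj_add, ha.2, hb.2]⟩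
      algebraMap_mem' := fun c => ⟨B.algebraMap_mem c, by
        rw [Algebra.algebraMap_eq_smul_one, adj_smul, h.hf.adj_one]; rfl⟩ }
  obtain b5 | b5 := (show K ≤ B₀ from fun k hk => ⟨a2 hk, h1 k hk⟩).lt_or_eq
  · exact h4 ((Subalgebra.eq_of_le_of_finrank_eq (show B₀ ≤ B from fun x hx => hx.1)
      ((a6 _ b5 fun x hx => hx.1).trans a7.symm)).ge a1).2
  obtain ⟨v, hv⟩ := exists_ne (0 : ι → F)
  have b6 : K' ⊓ K = K' := Subalgebra.eq_of_le_of_finrank_le inf_le_left (b1.1.finrank_eq ▸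
    one_lt_finrank (B := K' ⊓ K) ⟨hx, b5 ▸ ⟨b2 hx, b3⟩⟩ b4)
  exact hr.not_two_dvd_nat (finrank_Kv hK.1 hv ▸
    field_dvd' b1.1 fun k hk => Kv_inv v k (b6.ge hk).2)

theorem QInv.unique (h : QInv G H Q) {Q' : (ι → F) → F} (h' : QInv G H Q') (hH : Irr H)
    (hn : 2 ≤ Fintype.card ι) : ∀ x, Q x = Q' x :=
  quad_unique hH hn h.smul h'.smul (fun x y => by rw [h.2.1, h'.2.1])
    fun g hg x e => by rw [h.2.2 g hg, e, h'.2.2 g hg]

theorem FldN.scale [Nonempty ι] (hK : FldN ρ G H 2 K) (hH : Irr H) (hn : 2 ≤ Fintype.card ι)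
    (h : QInv G H Q) (h1 : ∀ x ∈ K, adj ρ G x = x → Sc x) :
    ∀ k ∈ K, ∃ c : F, ∀ v, Q (k *ᵥ v) = c * Q v := fun k hk => by
  obtain ⟨c, hc⟩ := h1 _ (mul_mem (hK.2.2 k hk) hk) (by rw [h.hf.adj_mul, h.hf.adj_adj])
  have h3 : ∀ x y, fm ρ G (k *ᵥ x) (k *ᵥ y) = c * fm ρ G x y := fun x y => by
    rw [h.hf.fm_adj, mulVec_mulVec, hc, smul_mulVec, one_mulVec, fm_smul_right]; rfl
  refine ⟨c, fun v => ?_⟩
  by_cases h2 : (2 : F) = 0
  · obtain ⟨ω, h4, h5⟩ := hK.om one_lt_two h.hf h2 h1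
    have h7 := h.unique (h5.qInv h.hf h.iso h2 (h.alt h2)) hH hn
    rw [h7, h7, mulVec_mulVec, hK.1.comm ω h4 k hk, ← mulVec_mulVec, h3]
  · exact mul_left_cancel₀ h2 (by rw [← h.self, h3, h.self, mul_left_comm])

theorem QInv.dvd_of_plus [Nonempty ι] (h : QInv G H Q) (hK : IsFieldSubalgebra r K)
    (ha : ∀ x ∈ K, adj ρ G x ∈ K) (h1 : ∀ k ∈ K, ∃ c : F, ∀ v, Q (k *ᵥ v) = c * Q v)
    (hp : IsPlusTypeOn Q ⊤) : 2 * r ∣ Fintype.card ι := by
  obtain ⟨W, ⟨h3, h4⟩, h5⟩ := (Set.toFinite {W : Submodule F (ι → F) |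
    (∀ k ∈ K, ∀ x ∈ W, k *ᵥ x ∈ W) ∧ IsTotallySingularQuad Q W}).exists_maximal
      ⟨⊥, by simp, by simp [IsTotallySingularQuad, h.zero]⟩
  obtain ⟨U, -, h6, h7⟩ := hp
  have := h.le_of_max h4 (fun v hv h8 => h5 (y := W ⊔ Kv K v) ⟨fun k hk x hx => ?_, fun x hx => ?_⟩
    le_sup_left (Submodule.mem_sup_right ⟨1, K.one_mem, one_mulVec _⟩)) h6
  · have := h.two_mul_le h4
    rw [finrank_top, Module.finrank_fintype_fun_eq_card] at h7
    exact (show 2 * finrank F W = Fintype.card ι by omega) ▸ Nat.mul_dvd_mul_left 2 (field_dvd' hK h3)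
  · obtain ⟨w, hw, y, hy, rfl⟩ := Submodule.mem_sup.1 hx
    exact mulVec_add k w y ▸ Submodule.add_mem_sup (h3 k hk w hw) (Kv_inv v k hk y hy)
  · obtain ⟨w, hw, _, ⟨k, hk, rfl⟩, rfl⟩ := Submodule.mem_sup.1 hx
    obtain ⟨c, hc⟩ := h1 k hk
    change Q (w + k *ᵥ v) = 0
    rw [h.add, h4 w hw, hc, h8, h.symm, pp_Kinv h.hf ha h3 k hk v hv w hw]
    simp

end H29
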