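import Cfsg.Agent.H29.As14

/-! Aschbacher's theorem, part 15: the refined list `OI` of irreducible geometric classes for
orthogonal groups and the case division `o_cases`. -/

set_option autoImplicit false
set_option linter.unusedSectionVars false

namespace H29

open Matrix Cfsg.Geo Module H11
open scoped Kronecker commutatorElement

variable {F : Type*} [Field F] {ι κ μ : Type} [Fintype ι] [DecidableEq ι] [Fintype κ]
  [DecidableEq κ] [Fintype μ] [DecidableEq μ] {H : Subgroup (GL ι F)} {G : Matrix ι ι F} {t : ℕ}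
  {Q : (ι → F) → F} {K : Subalgebra F (Matrix ι ι F)} {r : ℕ} {ε : F}

local notation "ρ" => RingHom.id _

theorem WrF.qInv' {k : ℕ} {T : ((Fin t → Fin k) → F) ≃ₗ[F] (ι → F)} {G₀ : Matrix (Fin k) (Fin k) F}
    {ε₀ c : F} (hk : WrF ρ G H T G₀ ε₀ c) (h : HF ρ ε G) (hs : H ≤ Iso ρ G) (h2 : (2 : F) = 0)
    (ht : 2 ≤ t) (h3 : IsSymplecticForm (fm ρ G₀)) : ∃ Q, QInv G H Q ∧
      ∀ u : Fin t → Fin k → F, Q (T fun y => ∏ i, u i (y i)) = 0 := by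
  obtain ⟨U, hU⟩ := exists_upper h2 h3
  have h5 : ∀ i j, G₀ j i = G₀ i j := fun i j => by rw [← hU]; simp [add_comm]
  obtain ⟨o, o', ho⟩ : ∃ o o' : Fin t, o' ≠ o := ⟨⟨0, by omega⟩, ⟨1, by omega⟩, by simp⟩
  refine (qInv_of h hs T (U := c • ten (Function.update (fun _ => G₀) o U)) ?_
    (fun x => ∃ u : Fin t → Fin k → F, x = fun y => ∏ i, u i (y i)) ?_ (fun y =>
      ⟨fun i => Pi.single (y i) 1, funext fun z => by
        simp [Pi.single_apply, Finset.prod_boole, funext_iff]⟩) ?_).imp fun _ =>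
          And.imp_right fun h u => h _ ⟨u, rfl⟩
  · rw [hk.gram, transpose_smul, ← smul_add]
    congr 1
    ext x y
    simp only [Matrix.add_apply, transpose_apply, ten_apply,
      ← Finset.mul_prod_erase _ _ (Finset.mem_univ o), Function.update_self]
    rw [← congrFun₂ hU (x o) (y o), Matrix.add_apply, add_mul, transpose_apply]
    congr 2 <;> refine Finset.prod_congr rfl fun i hi => ?_ <;>
      rw [Function.update_of_ne (Finset.ne_of_mem_erase hi)]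
    exact h5 _ _
  · rintro _ ⟨u, rfl⟩
    rw [fm_smul, fm_ten, Finset.prod_eq_zero (Finset.mem_univ o'), mul_zero]
    rw [Function.update_of_ne ho, h3.alternating]
  · rintro g hg _ ⟨u, rfl⟩
    obtain ⟨c, π, a, rfl⟩ := hk.wr g hg
    exact ⟨c, _, ⟨_, rfl⟩, by rw [Units.val_mul, ← mulVec_mulVec, coe_ΦU, Φ_mulVec, ten_mulVec,
      coe_scU, smul_mulVec, one_mulVec]⟩

variable [Fintype F]

theorem TPair.tsq (hP : TPair ρ G H) (h : QInv G H Q) (hH : Irr H) (hn : 2 ≤ Fintype.card ι) :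
    ∃ (k : ℕ) (D : Fin 2 → Submodule F (ι → F)), IsMDecomposition k D ∧
      (∀ i, IsTotallySingularQuad Q (D i)) ∧ H ≤ decompositionStabilizer D := by
  obtain ⟨k, D, h1, h3, h4, ω, h5, h6⟩ := hP
  refine ⟨k, D, h1, fun i => ?_, h4⟩
  by_cases h2 : (2 : F) = 0
  · intro v hv
    rw [h.unique (h5.qInv h.hf h.iso h2 (h.alt h2)) hH hn]
    rcases h6 i with e | e <;> simp [e v hv, h.alt h2]
  · exact h.tsq h2 (h3 i)

theorem KrF.wrF_odd {d : ℕ} {T : (Fin d × Fin d → F) ≃ₗ[F] (ι → F)} {G₁ G₂ : _}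
    (hk : KrF ρ G H T G₁ G₂ 1 1) (h2 : (2 : F) ≠ 0) (hd : Odd d) :
    ∃ (T' : ((Fin 2 → Fin d) → F) ≃ₗ[F] (ι → F)) (c : F), WrF ρ G H T' G₁ 1 c := by
  have h1 := mul_ne_zero hk.h1.det_ne hk.h2.det_ne
  obtain ⟨e, he⟩ := symm_congr h2 hk.h2 (hk.h1.smul h1 (ε' := 1) (by simp)) rfl (by
    obtain ⟨m, rfl⟩ := hd
    rw [det_smul, Fintype.card_fin, show (G₁.det * G₂.det) ^ (2 * m + 1) * G₁.det =
      ((G₁.det * G₂.det) ^ m * G₁.det) ^ 2 * G₂.det by ring, sqSign_mul (pow_ne_zero _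
        (mul_ne_zero (pow_ne_zero _ h1) hk.h1.det_ne)) hk.h2.det_ne, sqSign_sq, one_mul])
  exact (hk.wrF h1 he).imp fun _ h => ⟨_, h⟩

/-- the irreducible geometric classes for an orthogonal group -/
def OI (G : Matrix ι ι F) (H : Subgroup (GL ι F)) (Q : (ι → F) → F) : Prop :=
  ODc H Q ∨
  (∃ (k : ℕ) (D : Fin 2 → Submodule F (ι → F)), IsMDecomposition k D ∧
    (∀ i, IsTotallySingularQuad Q (D i)) ∧ H ≤ decompositionStabilizer D) ∨ SubQ G H Q ∨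
  (∃ r K, r.Prime ∧ FldN ρ G H r K ∧ (∀ x ∈ K, adj ρ G x = x) ∧ r ≠ Fintype.card ι ∧
    2 * r ≠ Fintype.card ι ∧ (¬ Odd (Fintype.card F) → 2 * r ∣ Fintype.card ι)) ∨
  (∃ K, FldN ρ G H 2 K ∧ (∀ x ∈ K, adj ρ G x = x → Sc x) ∧
    ∀ k ∈ K, ∃ c : F, ∀ v, Q (k *ᵥ v) = c * Q v) ∨
  (∃ (d m : ℕ) (T : (Fin d × Fin m → F) ≃ₗ[F] (ι → F)) (G₁ : _) (G₂ : _) (ε₁ ε₂ : F),
    2 ≤ d ∧ d ≤ m ∧ IsSymplecticForm (fm ρ G₁) ∧ IsSymplecticForm (fm ρ G₂) ∧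
    KrF ρ G H T G₁ G₂ ε₁ ε₂ ∧ ∀ (u : Fin d → F) (v : Fin m → F), Q (T fun p => u p.1 * v p.2) = 0) ∨
  (Odd (Fintype.card F) ∧ ∃ (d m : ℕ) (T : (Fin d × Fin m → F) ≃ₗ[F] (ι → F)) (G₁ : _) (G₂ : _),
    3 ≤ d ∧ d ≤ m ∧ (d = m → Even d) ∧ ¬ (Fintype.card F = 3 ∧ d = 3) ∧ KrF ρ G H T G₁ G₂ 1 1) ∨
  (Odd (Fintype.card F) ∧ ∃ (k t : ℕ) (T : ((Fin t → Fin k) → F) ≃ₗ[F] (ι → F)) (G₀ : _) (c : F),
    3 ≤ k ∧ 2 ≤ t ∧ ¬ (Fintype.card F = 3 ∧ k = 3) ∧ WrF ρ G H T G₀ 1 c) ∨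
  ∃ k t, Even k ∧ 2 ≤ t ∧ k ^ t = Fintype.card ι ∧ (k = 2 → IsPlusTypeOn Q ⊤)

section

variable (h : QInv G H Q) (hH : Irr H) (hn : 5 ≤ Fintype.card ι)
include h hH hn

theorem oI_sub (hS : SubS ρ G H) : OI G H Q := .inr (.inr (.inl (hS.subQ h hH (by omega))))

theorem oI_dec {k : ℕ} (hD : NDec ρ G H k) : OI G H Q := (hD.oDc h hH).elim .inl (oI_sub h hH hn)

theorem oI_pair (hD : TPair ρ G H) : OI G H Q := .inr (.inl (hD.tsq h hH (by omega)))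

theorem oI_two (hK : FldN ρ G H 2 K) (h1 : ∀ x ∈ K, adj ρ G x = x → Sc x) : OI G H Q :=
  haveI : Nonempty ι := Fintype.card_pos_iff.1 (by omega)
  .inr (.inr (.inr (.inr (.inl ⟨K, hK, h1, hK.scale hH (by omega) h h1⟩))))

theorem oI_abN (hA : AbN ρ G H) : OI G H Q := by
  haveI : Nonempty ι := Fintype.card_pos_iff.1 (by omega)
  rcases hA.cases hH h.hf (h.iso.trans Iso_le_Sim) with ⟨k, h1⟩ | h1 | ⟨d, K, hd, h1⟩
  · exact oI_dec h hH hn h1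
  · exact oI_pair h hH hn h1
  rcases h1.bil h.hf (h.iso.trans Iso_le_Sim) hd with ⟨r, K, hr, h2, h3, h4⟩ | ⟨rfl, h2⟩
  swap
  · exact oI_two h hH hn h1 h2
  by_cases h5 : 2 * r = Fintype.card ι
  · rcases h2.half hH h h3 h5 (hr.odd_of_ne_two (by omega)) with ⟨k, h6⟩ | h6 | ⟨K, h6, h7⟩
    exacts [oI_dec h hH hn h6, oI_pair h hH hn h6, oI_two h hH hn h6 h7]
  have h6 : ¬ Odd (Fintype.card F) → 2 * r ∣ Fintype.card ι := fun ho => two_mul_dvd h.hf h2.1 h3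
    fun x hx => selfadj_alt h.hf (h.alt (two_eq_of_not_odd ho)) hr.ne_zero (h3 x hx) (h4 x hx)
  refine .inr (.inr (.inr (.inl ⟨r, K, hr, h2, h3, fun e => ?_, h5, h6⟩)))
  by_cases ho : Odd (Fintype.card F)
  · exact h2.ne_card hH h.hf h.iso h3 (two_ne_zero_of_odd ho)
      (e ▸ hr.odd_of_ne_two (by omega)) (by omega) e
  · have := Nat.le_of_dvd (by omega) (h6 ho)
    omega

theorem oI_wr {k : ℕ} {T : ((Fin t → Fin k) → F) ≃ₗ[F] (ι → F)} {G₀ : _} {c : F} (hk : 2 ≤ k)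
    (ht : 2 ≤ t) (h2 : (2 : F) ≠ 0) (hw : WrF ρ G H T G₀ 1 c) : OI G H Q := by
  haveI : NeZero k := ⟨by omega⟩
  obtain rfl | hk := hk.eq_or_lt
  · exact oI_abN h hH hn (hw.abN h.hf (h.iso.trans Iso_le_Sim) (by omega) (abN_two hw.h0 h2))
  by_cases h3 : Fintype.card F = 3 ∧ k = 3
  · obtain ⟨h3, rfl⟩ := h3
    exact oI_abN h hH hn (hw.abN h.hf (h.iso.trans Iso_le_Sim) (by omega) (abN_33 h3 hw.h0))
  exact .inr (.inr (.inr (.inr (.inr (.inr (.inr (.inl ⟨odd_of_two_ne h2, k, t, T, G₀, c, hk, ht,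
    h3, hw⟩)))))))

theorem oI_kr {d m : ℕ} {T : (Fin d × Fin m → F) ≃ₗ[F] (ι → F)} {G₁ : _} {G₂ : _} {ε₁ ε₂ : F}
    (hd : 2 ≤ d) (hm : d ≤ m) (hk : KrF ρ G H T G₁ G₂ ε₁ ε₂) : OI G H Q := by
  haveI : NeZero d := ⟨by omega⟩
  haveI : NeZero m := ⟨by omega⟩
  have hs := h.iso.trans Iso_le_Sim
  rcases bil_cases (hk.irr hH hs) (by simpa) hk.h1 le_rfl with h1 | ⟨h2, rfl⟩
  · have h3 := (bil_cases (hk.swap.irr hH hs) (by simp; omega) hk.h2 le_rfl).resolve_right (by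
      rintro ⟨h2, rfl⟩
      obtain ⟨_, e, h3⟩ := hf_of_symp h1
      obtain rfl := fm_ext (congrFun₂ e)
      exact h2 (by linear_combination hk.h1.ε_eq h3 - hk.ε_eq h.hf))
    refine .inr (.inr (.inr (.inr (.inr (.inl ⟨d, m, T, G₁, G₂, ε₁, ε₂, hd, hm, h1, h3, hk,
      fun u v => ?_⟩)))))
    by_cases h2 : (2 : F) = 0
    · obtain ⟨Q', h4, h5⟩ := hk.qInv h.hf h.iso h2 h1 h3
      rw [h.unique h4 hH (by omega), h5]
    · refine (mul_eq_zero.1 ?_).resolve_left h2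
      rw [← h.self, ← fm_gT, hk.gram, fm_kron, h1.alternating, zero_mul]
  obtain rfl : ε₂ = 1 := by simpa using hk.ε_eq h.hf
  obtain rfl | hd := hd.eq_or_lt
  · exact oI_abN h hH hn (hk.abN h.hf hs (abN_two hk.h1 h2))
  by_cases h3 : Fintype.card F = 3 ∧ d = 3
  · obtain ⟨h3, rfl⟩ := h3
    exact oI_abN h hH hn (hk.abN h.hf hs (abN_33 h3 hk.h1))
  by_cases h4 : d = m → Even d
  · exact .inr (.inr (.inr (.inr (.inr (.inr (.inl ⟨odd_of_two_ne h2, d, m, T, G₁, G₂, hd, hm, h4,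
      h3, hk⟩))))))
  · push Not at h4
    obtain ⟨rfl, h4⟩ := h4
    obtain ⟨T', c, h5⟩ := hk.wrF_odd h2 (Nat.not_even_iff_odd.1 h4)
    exact oI_wr h hH hn hd.le le_rfl h2 h5

theorem oI_cases : OI G H Q ∨ InOrthogonalResidualClass H := by
  haveI : Nonempty ι := Fintype.card_pos_iff.1 (by omega)
  have hs := h.iso.trans Iso_le_Sim
  rcases form_cases hH (by omega) h.hf hs with h1 | ⟨d, m, T, G₁, G₂, ε₁, ε₂, hd, hm, hk⟩ |
    ⟨-, ⟨M, r, h1⟩ | ⟨t, P, h1⟩ | ⟨P, h1⟩⟩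
  · exact .inl (oI_abN h hH hn h1)
  · rcases le_total d m with e | e
    exacts [.inl (oI_kr h hH hn hd e hk), .inl (oI_kr h hH hn hm e hk.swap)]
  · rcases xsB_cases (by omega) h.hf h1.xs h1.nml (h1.le.trans h.iso) with h2 | h2 | ⟨R, m, h2⟩
    · exact .inl (oI_abN h hH hn h2)
    · exact .inl (oI_sub h hH hn h2)
    have h3 : 2 ≤ m := by
      have := h2.dim
      rcases m with _ | _ | m <;> omega
    exact .inl (.inr (.inr (.inr (.inr (.inr (.inr (.inr (.inr ⟨2, m, even_two, h3, h2.dim.symm,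
      fun _ => h2.plus h h3⟩))))))))
  · obtain ⟨k, T, G₀, ε₀, c, hk, hw, -⟩ := h1.wrF h.hf hs
    haveI : NeZero k := ⟨by omega⟩
    have ht := h1.two
    rcases bil_cases (hw.irr hH hs (by omega)) (by simpa) hw.h0 le_rfl with h3 | ⟨h2, rfl⟩
    swap
    · exact .inl (oI_wr h hH hn hk ht h2 hw)
    refine .inl (.inr (.inr (.inr (.inr (.inr (.inr (.inr (.inr ⟨k, t, by simpa using even_of_symp h3,
      ht, by simpa using KrF.card T, ?_⟩))))))))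
    rintro rfl
    obtain ⟨t, rfl⟩ := Nat.exists_eq_add_of_le' (show 1 ≤ t by omega)
    refine hw.plus h h3 fun u => ?_
    by_cases h2 : (2 : F) = 0
    · obtain ⟨Q', h4, h5⟩ := hw.qInv' h.hf h.iso h2 ht h3
      rw [h.unique h4 hH (by omega), h5]
    · refine (mul_eq_zero.1 ?_).resolve_left h2
      rw [← h.self, ← fm_gT, hw.gram, fm_smul, fm_ten, Fin.prod_univ_succ, h3.alternating, zero_mul,
        mul_zero]
  rcases h1.cases h.hf h.iso with h2 | ⟨h2, h3⟩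
  · exact .inl (oI_sub h hH hn h2)
  refine .inr ⟨P, h2, ?_⟩
  rintro ⟨τ, f, h4, h5⟩
  obtain ⟨G', rfl, h6⟩ := hf_of_unit h4
  exact ne_id_of_unit h4 (h3 _ _ _ h6 (fixes_iff.1 h5))

end

theorem o_cases (h : QInv G H Q) (hn : 5 ≤ Fintype.card ι) :
    ORed G H Q ∨ (Irr H ∧ OI G H Q) ∨ InOrthogonalResidualClass H := by
  by_cases hH : Irr H
  · exact .inr ((oI_cases h hH hn).imp_left fun h1 => ⟨hH, h1⟩)
  · exact .inl (h.oRed hH)

end H29
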