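import Cfsg.Agent.H29.As15

/-! Aschbacher's theorem, part 16: the Dickson invariant on `omegaGL` (`omega_even`,
`exists_stab_max`), similarities of the tensor square of the symplectic plane (`sim_JJ`) and the
re-association of `O₃ ⊗ O₄⁺` (`KrF.assoc`). -/

set_option autoImplicit false
set_option linter.unusedSectionVars false

namespace H29

open Matrix Cfsg.Geo Module H11
open scoped Kronecker commutatorElement

variable {F : Type*} [Field F] {ι κ μ ν : Type} [Fintype ι] [DecidableEq ι] [Fintype κ]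
  [DecidableEq κ] [Fintype μ] [DecidableEq μ] [Fintype ν] [DecidableEq ν] {H : Subgroup (GL ι F)}
  {G : Matrix ι ι F} {t : ℕ} {Q : (ι → F) → F} {W U : Submodule F (ι → F)} {σ : F →+* F}

local notation "ρ" => RingHom.id _

theorem exists_qInv (hQ : IsNondegenerateQuadraticForm Q) : ∃ G, QInv G (Cfsg.isometryGroup F Q) Q :=
  let ⟨G, h, _⟩ := hf_of_quad hQ; ⟨G, hQ, h, fun _ hg v => hg v v⟩

theorem omegaGL_le : omegaGL Q ≤ Cfsg.isometryGroup F Q := Subgroup.map_subtype_le _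

theorem omegaGL_le_SL : omegaGL Q ≤ specialLinear ι F := by
  rintro _ ⟨g, hg, rfl⟩
  exact mem_specialLinear.2 (congrArg Units.val (Abelianization.commutator_subset_ker
    (GeneralLinearGroup.det.comp (Cfsg.isometryGroup F Q).subtype) hg))

theorem omega_even [Finite F] (hQ : IsNondegenerateQuadraticForm Q) (hn : 7 ≤ Fintype.card ι)
    (hU : IsTotallySingularQuad Q U) (h1 : 2 * finrank F U = Fintype.card ι) {g : GL ι F}
    (hg : g ∈ omegaGL Q) : Even (finrank F U +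
      finrank F (U ⊓ U.map (toLin' (g : Matrix ι ι F)) : Submodule F _)) := by
  have hS := quadOf_nondeg hQ
  rw [← coe_quadOf hQ, omegaGL_eq _ hS hn] at hg
  obtain ⟨g, hg, rfl⟩ := hg
  rw [toLin'_toGL, ← neg_one_pow_eq_one_iff_even (R := ℤˣ) (by decide), ← hS.dick_eq_maxTS
    (.inr (.inl (by simp; omega))) ⟨orth_ts hU, by simpa⟩]
  exact hS.E_le_ker_dick hg

theorem QInv.exists_stab_max [Fintype F] (h : QInv G H Q) (hn : 7 ≤ Fintype.card ι)
    (hp : IsPlusTypeOn Q ⊤) (hW : IsTotallySingularQuad Q W)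
    (h1 : 2 * (finrank F W + 1) = Fintype.card ι) : ∃ U, W ≤ U ∧ IsTotallySingularQuad Q U ∧
      2 * finrank F U = Fintype.card ι ∧ subspaceStabilizer W ⊓ omegaGL Q ≤ subspaceStabilizer U := by
  obtain ⟨x, h2, h3, h4⟩ : ∃ x ∈ pp ρ G W, Q x = 0 ∧ x ∉ W := by
    by_contra! h2
    obtain ⟨U, -, h3, h4⟩ := hp
    have := h.le_of_max hW h2 h3
    simp at h4
    omega
  have h5 : IsTotallySingularQuad Q (W ⊔ F ∙ x) := fun y hy => by
    obtain ⟨w, hw, _, hz, rfl⟩ := Submodule.mem_sup.1 hy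
    obtain ⟨c, rfl⟩ := Submodule.mem_span_singleton.1 hz
    simp [h.add, h.smul, hW w hw, h3, fm_smul_right, h.symm w x, h2 w hw]
  have h6 := h.two_mul_le h5
  have h7 := Submodule.finrank_lt_finrank_of_lt (show W < W ⊔ F ∙ x from
    lt_of_le_of_ne le_sup_left fun e => h4 (e ▸ Submodule.mem_sup_right
      (Submodule.mem_span_singleton_self x)))
  refine ⟨_, le_sup_left, h5, by omega, fun g hg => mem_subspaceStabilizer_of_le fun y hy => ?_⟩
  have h8 : W ≤ W ⊔ F ∙ x := le_sup_left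
  generalize W ⊔ F ∙ x = U at *
  obtain ⟨k, hk⟩ := omega_even h.1 hn h5 (by omega) (inv_mem hg.2)
  have h9 := Submodule.finrank_mono (show W ≤ U ⊓ U.map (toLin' (g⁻¹ : GL ι F).1) from
    le_inf h8 fun w hw => ⟨_, h8 (mulVec_mem_of_stab hg.1 hw), inv_mulVec_mulVec g w⟩)
  have a1 := Submodule.finrank_mono (inf_le_left : U ⊓ U.map (toLin' (g⁻¹ : GL ι F).1) ≤ U)
  obtain ⟨z, hz, rfl⟩ := ((Submodule.eq_of_le_of_finrank_eq inf_le_left (by omega) :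
    U ⊓ U.map (toLin' (g⁻¹ : GL ι F).1) = U).ge hy).2
  simpa using hz

theorem stab_of_pair [Finite F] (hQ : IsNondegenerateQuadraticForm Q) (hn : 7 ≤ Fintype.card ι)
    {k : ℕ} {D : Fin 2 → Submodule F (ι → F)} (hD : IsMDecomposition k D)
    (h1 : IsTotallySingularQuad Q (D 0)) (hk : Odd k) :
    decompositionStabilizer D ⊓ omegaGL Q ≤ subspaceStabilizer (D 0) := fun g hg => by
  obtain ⟨τ, hτ⟩ := of_mem_decStab hg.1
  by_cases e : τ 0 = 0
  · exact mem_subspaceStabilizer_of_le (e ▸ hτ 0 :)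
  have := omega_even hQ hn h1 (by rw [hD.finrank_eq, mdec_card hD]) hg.2
  rw [hD.finrank_eq, eq_bot_iff.2 ((inf_le_inf_left _ (Submodule.map_le_iff_le_comap.2
    (hτ 0))).trans (hD.indep.pairwiseDisjoint (Ne.symm e)).le_bot), finrank_bot] at this
  exact absurd this (Nat.not_even_iff_odd.2 hk)

theorem adj_J2 (X : Matrix (Fin 2) (Fin 2) F) : adj ρ (J2 F) X = X.trace • 1 - X :=
  adj_eq hf_J2.σσ hf_J2.unit (by
    ext i j
    fin_cases i <;> fin_cases j <;> simp [J2, trace, mul_apply])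

theorem sq_of_trace {X : Matrix (Fin 2) (Fin 2) F} (h : X.trace = 0) : X * X = (-X.det) • 1 := by
  rw [trace_fin_two, ← eq_neg_iff_add_eq_zero] at h
  ext i j
  fin_cases i <;> fin_cases j <;> simp [mul_apply, det_fin_two, h] <;> ring

theorem skew_JJ (h2 : (2 : F) ≠ 0) (Y : Matrix (Fin 2 × Fin 2) (Fin 2 × Fin 2) F) :
    ∃ X X' : Matrix (Fin 2) (Fin 2) F, X.trace = 0 ∧ X'.trace = 0 ∧
      Y - adj ρ (J2 F ⊗ₖ J2 F) Y = X ⊗ₖ 1 + 1 ⊗ₖ X' := by
  induction Y using Matrix.induction_on' with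
  | h_zero => exact ⟨0, 0, by simp⟩
  | h_add A B hA hB =>
    obtain ⟨X, X', h1, h3, h4⟩ := hA
    obtain ⟨Y, Y', h5, h6, h7⟩ := hB
    exact ⟨X + Y, X' + Y', by simp [*], by simp [*], by
      rw [adj_add, add_kronecker, kronecker_add]
      linear_combination (norm := module) h4 + h7⟩
  | h_std_basis i j x =>
    rw [← mul_one x, ← single_kronecker_single, adj_kron hf_J2 hf_J2 (hf_J2.kron hf_J2).unit,
      adj_J2, adj_J2]
    generalize single i.1 j.1 x = A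
    generalize single i.2 j.2 (1 : F) = B
    refine ⟨B.trace • (A - (A.trace / 2) • 1), A.trace • (B - (B.trace / 2) • 1), by simp [h2],
      by simp [h2], ?_⟩
    ext ⟨a, b⟩ ⟨c, d⟩
    simp only [kroneckerMap_apply, Matrix.sub_apply, Matrix.add_apply, Matrix.smul_apply,
      smul_eq_mul]
    field_simp
    ring

theorem kron_or (h2 : (2 : F) ≠ 0) {Y : Matrix (Fin 2 × Fin 2) (Fin 2 × Fin 2) F}
    (h1 : adj ρ (J2 F ⊗ₖ J2 F) Y = -Y) (h3 : Sc (Y * Y)) :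
    Y ∈ (kronL F (Fin 2) (Fin 2)).toLinearMap.range ∨
      Y ∈ (kronR F (Fin 2) (Fin 2)).toLinearMap.range := by
  obtain ⟨X, X', h4, h5, h6⟩ := skew_JJ h2 Y
  obtain ⟨c, hc⟩ := h3
  rw [h1, sub_neg_eq_add, ← two_smul F] at h6
  have h7 := congrArg₂ (· * ·) h6 h6
  simp only [smul_mul_smul_comm, hc, add_mul, mul_add, ← mul_kronecker_mul, sq_of_trace h4,
    sq_of_trace h5, one_mul, mul_one, smul_kronecker, kronecker_smul, one_kronecker_one] at h7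
  have h8 : (2 : F) • X ⊗ₖ X' = (4 * c + X.det + X'.det) • 1 := by
    linear_combination (norm := module) -h7
  have h9 := congrArg trace h8
  rw [trace_smul, trace_kronecker, h4, trace_smul, trace_one] at h9
  rw [show 4 * c + X.det + X'.det = 0 from (mul_eq_zero.1 (show _ * (2 * 2 : F) = 0 by
    simp only [Fintype.card_prod, Fintype.card_fin, smul_eq_mul] at h9
    push_cast at h9; linear_combination -h9)).resolve_right (mul_ne_zero h2 h2), zero_smul,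
    smul_eq_zero_iff_right h2] at h8
  rw [← Submodule.smul_mem_iff _ h2, ← Submodule.smul_mem_iff (p := LinearMap.range _) (x := Y) h2,
    h6]
  by_cases a : X = 0
  · exact .inr ⟨X', by simp [a]⟩
  · obtain ⟨i, j, a⟩ : ∃ i j, X i j ≠ 0 := by
      by_contra! b; exact a (Matrix.ext b)
    rw [show X' = 0 from Matrix.ext fun k l => by simpa [a] using congrFun₂ h8 (i, k) (j, l)]
    exact .inl ⟨X, by simp⟩

/-- the permutation of the two tensor factors -/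
def swp (F : Type*) [Field F] (κ : Type) [Fintype κ] [DecidableEq κ] : GL (κ × κ) F where
  val := (1 : Matrix (κ × κ) (κ × κ) F).submatrix id (Equiv.prodComm κ κ)
  inv := (1 : Matrix (κ × κ) (κ × κ) F).submatrix id (Equiv.prodComm κ κ)
  val_inv := by
    ext ⟨a, b⟩ ⟨c, d⟩
    simp [mul_apply, one_apply, Fintype.sum_prod_type, Prod.ext_iff, ite_and, eq_comm]
  inv_val := by
    ext ⟨a, b⟩ ⟨c, d⟩
    simp [mul_apply, one_apply, Fintype.sum_prod_type, Prod.ext_iff, ite_and, eq_comm]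

theorem cjA_swp (X Y : Matrix κ κ F) : cjA (swp F κ) (X ⊗ₖ Y) = Y ⊗ₖ X := cjA_eq_iff.2 (by
  ext ⟨a, b⟩ ⟨c, d⟩
  simp [swp, mul_apply, one_apply, Fintype.sum_prod_type, Prod.ext_iff, ite_and, mul_comm])

theorem swp_mem_Iso (X : Matrix κ κ F) : swp F κ ∈ Iso σ (X ⊗ₖ X) := mem_Iso.2 (by
  ext ⟨a, b⟩ ⟨c, d⟩
  simp [swp, mul_apply, one_apply, Fintype.sum_prod_type, Prod.ext_iff, ite_and, mul_comm,
    apply_ite σ])

theorem det_swp : (swp F (Fin 2)).1.det = -1 := by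
  rw [swp, det_permute', det_one, mul_one,
    show Equiv.Perm.sign (Equiv.prodComm (Fin 2) (Fin 2)) = -1 by decide]
  simp

theorem sim_JJ_aux (h2 : (2 : F) ≠ 0) {b : GL (Fin 2 × Fin 2) F}
    (hb : b ∈ Sim ρ (J2 F ⊗ₖ J2 F)) (X : Matrix (Fin 2) (Fin 2) F) :
    cjA b (X ⊗ₖ 1) ∈ (kronL F (Fin 2) (Fin 2)).toLinearMap.range ∨
      cjA b (X ⊗ₖ 1) ∈ (kronR F (Fin 2) (Fin 2)).toLinearMap.range := by
  obtain ⟨X, c, h3, rfl⟩ : ∃ (Y : Matrix (Fin 2) (Fin 2) F) (c : F), Y.trace = 0 ∧ X = Y + c • 1 :=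
    ⟨X - (2⁻¹ * X.trace) • 1, 2⁻¹ * X.trace, by simp; field_simp; ring, by simp⟩
  rw [add_kronecker, map_add, smul_kronecker, map_smul, one_kronecker_one, map_one]
  refine (kron_or h2 (Y := cjA b (X ⊗ₖ 1)) ?_ ⟨-X.det, ?_⟩).imp
    (fun h => add_mem h (Submodule.smul_mem _ _ ⟨1, by simp⟩))
    (fun h => add_mem h (Submodule.smul_mem _ _ ⟨1, by simp⟩))
  · rw [(hf_J2.kron hf_J2).adj_cjA hb, adj_kron hf_J2 hf_J2 (hf_J2.kron hf_J2).unit, hf_J2.adj_one,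
      adj_J2, h3, zero_smul, zero_sub, ← neg_one_smul F X, smul_kronecker, map_smul, neg_one_smul]
  · rw [← map_mul, ← mul_kronecker_mul, sq_of_trace h3, smul_kronecker, mul_one,
      one_kronecker_one, map_smul, map_one]

theorem sim_JJ (h2 : (2 : F) ≠ 0) {b : GL (Fin 2 × Fin 2) F} (hb : b ∈ Sim ρ (J2 F ⊗ₖ J2 F)) :
    ∃ a a', b = kronU a a' ∨ b = swp F (Fin 2) * kronU a a' := by
  let ψ := (cjA b).toLinearMap ∘ₗ (kronL F (Fin 2) (Fin 2)).toLinearMap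
  rcases map_le_or (W := ⊤) (A := (kronL F (Fin 2) (Fin 2)).toLinearMap.range.comap ψ)
    (B := (kronR F (Fin 2) (Fin 2)).toLinearMap.range.comap ψ) LinearMap.id
    (fun X _ => sim_JJ_aux h2 hb X) with h4 | h4
  · obtain ⟨a, a', e⟩ := nml_kron (g := b) fun X => (h4 X trivial).imp fun Y hY => hY
    exact ⟨a, a', .inl (Units.ext e)⟩
  · obtain ⟨a, a', e⟩ := nml_kron (g := swp F (Fin 2) * b) fun X => (h4 X trivial).imp
      fun Y hY => by
        rw [cjA_mul, ← cjA_swp 1 Y]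
        exact congrArg (cjA _) hY
    exact ⟨a, a', .inr (inv_mul_eq_iff_eq_mul.1 (Units.ext e))⟩

variable {T : (κ × μ → F) ≃ₗ[F] (ι → F)} {G₁ : Matrix κ κ F} {G₂ : Matrix μ μ F} {ε₁ ε₂ : F}

theorem KrF.congr (h : KrF σ G H T G₁ G₂ ε₁ ε₂) (e : (ν → F) ≃ₗ[F] (μ → F)) :
    ∃ T' : (κ × ν → F) ≃ₗ[F] (ι → F), KrF σ G H T' G₁ (gT σ G₂ e) ε₁ ε₂ ∧
      ∀ (u : κ → F) (v : ν → F), (T' fun p => u p.1 * v p.2) = T fun p => u p.1 * e v p.2 := by
  obtain ⟨e, P, rfl⟩ := exists_coordT e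
  refine ⟨reT ((Equiv.refl κ).prodCongr e) (mulT T (kronU 1 P)), ⟨fun g hg => ?_, h.h1, h.h2.gT _,
    ?_⟩, fun u v => ?_⟩
  · obtain ⟨a, b, rfl⟩ := h.kr g hg
    refine ⟨a, (ΦU (coordT e P)).symm b, Units.ext ?_⟩
    obtain ⟨b, rfl⟩ := (ΦU (coordT e P)).surjective b
    rw [MulEquiv.symm_apply_apply, coe_ΦU, coe_ΦU, Φ_reT, Φ_mulT]
    exact congrArg _ ((congrArg₂ _ (cjA_one _).symm (Φ_coordT e P b)).trans (cjA_kron _ _ _ _).symm)
  · refine (Matrix.reindex ((Equiv.refl κ).prodCongr e).symm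
      ((Equiv.refl κ).prodCongr e).symm).injective ((gT_reT _ _).trans ?_)
    rw [gT_mulT, h.gram]
    change (1 ⊗ₖ P.1)ᵀ * _ * (1 ⊗ₖ P.1).map σ = G₁ ⊗ₖ (gT σ G₂ (coordT e P)).submatrix e e
    rw [← gT_coordT, kron_map, ← kroneckerMap_transpose, ← mul_kronecker_mul, ← mul_kronecker_mul,
      show gT σ G₂ (glEquiv P) = _ from gT_mulT (LinearEquiv.refl _ _) P,
      show gT σ G₂ (LinearEquiv.refl _ _) = G₂ from congr_of_equiv _ fun _ _ => rfl]
    simp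
  · exact congrArg T ((kron_mulVec 1 P.1 u (v ∘ e)).trans (by rw [one_mulVec]; rfl))

theorem KrF.assoc {T : (κ × (μ × ν) → F) ≃ₗ[F] (ι → F)} {G₃ : Matrix ν ν F} {ε ε₃ : F}
    (h : KrF σ G H T G₁ (G₂ ⊗ₖ G₃) ε₁ ε) (h2 : HF σ ε₂ G₂) (h3 : HF σ ε₃ G₃)
    (h4 : ∀ g ∈ H, ∃ a b c, g = ΦU T (kronU a (kronU b c))) :
    ∃ T' : (μ × (κ × ν) → F) ≃ₗ[F] (ι → F), KrF σ G H T' G₂ (G₁ ⊗ₖ G₃) ε₂ (ε₁ * ε₃) := by
  let e : κ × (μ × ν) ≃ μ × (κ × ν) := ⟨fun p => (p.2.1, p.1, p.2.2), fun p => (p.2.1, p.1, p.2.2),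
    fun _ => rfl, fun _ => rfl⟩
  refine ⟨reT e T, fun g hg => ?_, h2, h.h1.kron h3,
    (Matrix.reindex e.symm e.symm).injective ((gT_reT _ _).trans (h.gram.trans ?_))⟩
  · obtain ⟨a, b, c, rfl⟩ := h4 g hg
    refine ⟨b, kronU a c, Units.ext ?_⟩
    rw [coe_ΦU, coe_ΦU, Φ_reT]
    exact congrArg _ (Matrix.ext fun _ _ => mul_left_comm _ _ _)
  · exact Matrix.ext fun _ _ => mul_left_comm _ _ _

theorem exists_JJ [Fintype F] (h2 : (2 : F) ≠ 0) {G : Matrix (Fin 4) (Fin 4) F} (h : HF ρ 1 G)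
    (hp : sqSign G.det = 1) : ∃ e, gT ρ G e = J2 F ⊗ₖ J2 F :=
  symm_congr h2 h (by simpa using (hf_J2 (F := F)).kron hf_J2) (by simp)
    (by simp [hp, det_kronecker, J2, sqSign_one])

theorem plus_iff_sq [Fintype F] (h2 : (2 : F) ≠ 0) (h : HF ρ 1 G) {m : ℕ}
    (hm : Fintype.card ι = 2 * m) :
    IsPlusTypeOn (fun v => fm ρ G v v) ⊤ ↔ sqSign G.det = sqSign (-1 : F) ^ m := by
  have h1 : QInv (G + Gᵀ) ⊥ fun v => fm ρ G v v :=
    ⟨h.quad h2, funext₂ polar_fm, by simp⟩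
  rw [h1.plus_iff_det h2 hm (LinearEquiv.refl _ _),
    show gT ρ (G + Gᵀ) (LinearEquiv.refl _ _) = _ from congr_of_equiv _ fun _ _ => rfl,
    h.transpose_eq, ← two_smul F, det_smul, hm, pow_mul', sqSign_mul
      (pow_ne_zero _ (pow_ne_zero _ h2)) h.det_ne, sqSign_sq, one_mul]

theorem KrF.plus34 [Fintype F] {T : (Fin 3 × Fin 4 → F) ≃ₗ[F] (ι → F)} {G₁ : _} {G₂ : _}
    (hk : KrF ρ G H T G₁ G₂ 1 1) (h : QInv G H Q) (h2 : (2 : F) ≠ 0) :
    IsPlusTypeOn Q ⊤ ↔ sqSign G₂.det = 1 := by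
  rw [h.plus_iff_det h2 (m := 2 * 3) (by simpa using (KrF.card T).symm) T, hk.gram, det_kronecker,
    pow_mul, Int.units_sq, one_pow, Fintype.card_fin, Fintype.card_fin,
    show G₁.det ^ 4 * G₂.det ^ 3 = (G₁.det ^ 2 * G₂.det) ^ 2 * G₂.det by ring, sqSign_mul
      (pow_ne_zero _ (mul_ne_zero (pow_ne_zero _ hk.h1.det_ne) hk.h2.det_ne)) hk.h2.det_ne,
    sqSign_sq, one_mul]

theorem KrF.sp26 [Fintype F] {T : (Fin 3 × Fin 4 → F) ≃ₗ[F] (ι → F)} {G₁ : _} {G₂ : _}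
    (hk : KrF ρ G H T G₁ G₂ 1 1) (hs : H ≤ Iso ρ G) (hs' : H ≤ specialLinear ι F)
    (h2 : (2 : F) ≠ 0) (hp : sqSign G₂.det = 1) :
    ∃ (T : (Fin 2 × Fin 6 → F) ≃ₗ[F] (ι → F)) (G₂ : _), KrF ρ G H T (J2 F) G₂ (-1) (-1) := by
  obtain ⟨e, he⟩ := exists_JJ h2 hk.h2 hp
  obtain ⟨T, hk, -⟩ := hk.congr e
  rw [he] at hk
  obtain ⟨T', h3⟩ := hk.assoc hf_J2 hf_J2 fun g hg => by
    obtain ⟨a, ⟨c, hc⟩, b, hb, rfl⟩ := hk.sim (hs.trans Iso_le_Sim) g hg
    obtain ⟨x, y, rfl | rfl⟩ := sim_JJ h2 hb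
    · exact ⟨a, x, y, rfl⟩
    exfalso
    obtain ⟨c, -, hc⟩ := mem_Sim.1 ⟨c, hc⟩
    have h3 := mem_Iso.1 (hk.gram ▸ ΦU_mem_Iso.1 (hs hg))
    have h4 := mem_specialLinear.1 (hs' hg)
    have h5 := mem_Iso.1 (swp_mem_Iso (σ := ρ) (J2 F))
    change (a.1 ⊗ₖ ((swp F (Fin 2)).1 * x.1 ⊗ₖ y.1))ᵀ * _ *
      (a.1 ⊗ₖ ((swp F (Fin 2)).1 * x.1 ⊗ₖ y.1)).map _ = _ at h3
    change (Φ T (a.1 ⊗ₖ ((swp F (Fin 2)).1 * x.1 ⊗ₖ y.1))).det = 1 at h4
    rw [kron_map, ← kroneckerMap_transpose, ← mul_kronecker_mul, ← mul_kronecker_mul, hc,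
      transpose_mul, Matrix.map_mul, mul_assoc _ _ (J2 F ⊗ₖ J2 F), mul_assoc, ← mul_assoc (_ * _), h5,
      kron_map, ← kroneckerMap_transpose, ← mul_assoc, ← mul_kronecker_mul, ← mul_kronecker_mul,
      gram_J2, gram_J2, smul_kronecker, smul_kronecker, kronecker_smul, kronecker_smul,
      kronecker_smul, smul_smul, smul_smul, ← sub_eq_zero, ← one_smul F (G₁ ⊗ₖ _), smul_smul,
      ← sub_smul, smul_eq_zero_iff_left (hk.h1.kron hk.h2).ne_zero] at h3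
    have h6 := congrArg det hc
    simp only [det_Φ, det_kronecker, det_mul, det_swp, Fintype.card_fin, Fintype.card_prod,
      det_transpose, det_smul, RingHom.coe_id, Matrix.map_id] at h4 h6
    rw [mul_right_comm, mul_left_inj' hk.h1.det_ne] at h6
    refine h2 ?_
    have h7 : (c * x.1.det * y.1.det) ^ 6 = 1 := by
      rw [show c * x.1.det * y.1.det = 1 by linear_combination h3, one_pow]
    linear_combination -h4 - h7 - (x.1.det * y.1.det) ^ 6 * (a.1.det ^ 2 + c ^ 3) * h6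
  obtain ⟨T, h4, -⟩ := h3.congr (LinearEquiv.funCongrLeft F F (finProdFinEquiv (m := 3) (n := 2)))
  exact ⟨T, _, by simpa using h4⟩

end H29
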