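import Cfsg.Agent.H29.As11

/-! The lists `u_list`, `u_max` for the standard unitary groups. -/

set_option autoImplicit false
set_option linter.unusedSectionVars false

namespace H29

open Matrix Cfsg.Geo Module
open scoped Kronecker commutatorElement

variable {F : Type*} [Field F] {ι : Type} [Fintype ι] [DecidableEq ι] {σ : F →+* F}
  {H : Subgroup (GL ι F)} {G : Matrix ι ι F} {ε : F} {n q : ℕ}

local notation "ρ" => RingHom.id _

theorem herm_eq (hq : ∀ x, σ x = x ^ q) (n : ℕ) : Cfsg.hermForm n F q = fm σ 1 := by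
  funext u v
  simp [fm_eq, Cfsg.hermForm, dotProduct, hq]

theorem GU_iso (hq : ∀ x, σ x = x ^ q) (n : ℕ) : Cfsg.GU n F q = Iso σ 1 := by
  rw [Cfsg.GU, herm_eq hq]
  rfl

theorem HF.unitPow (h : HF σ 1 G) (hq : ∀ x, σ x = x ^ q) : IsUnitaryFormPow q (fm σ G) :=
  ⟨fm_add_left, fm_smul_left, fun v w => by rw [h.swap, one_mul, hq], h.nondeg⟩

theorem nml_Iso' {R : Subgroup (GL ι F)} (h : R ≤ Sim σ G) : Nml R (Iso σ G) :=
  fun g hg x hx u v => by
    obtain ⟨c, hc⟩ := h hg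
    simp only [Units.val_mul, ← mulVec_mulVec]
    rw [hc, hx, ← hc, mulVec_inv_mulVec, mulVec_inv_mulVec]

theorem Nml.inf {G : Type*} [Group G] {R A B : Subgroup G} (h : Nml R A) (h' : Nml R B) :
    Nml R (A ⊓ B) := fun g hg x hx => ⟨h g hg x hx.1, h' g hg x hx.2⟩

theorem orth_of_dec {t k : ℕ} {D : Fin t → Submodule F (ι → F)}
    (h : IsNondegenerateMDecomposition (fm σ G) k D) (p : Fin t → Prop) {x y : ι → F}
    (hx : x ∈ ⨆ i, ⨆ _ : p i, D i) (hy : y ∈ ⨆ i, ⨆ _ : ¬ p i, D i) : fm σ G x y = 0 :=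
  (iSup₂_le fun i hi x hx y hy => (iSup₂_le fun j hj y hy =>
    h.orthogonal i j (by rintro rfl; exact hj hi) x hx y hy : _ ≤ LinearMap.ker
      ((sesq σ G).flip x)) hy : _ ≤ pp σ G _) hx y hy

variable [Fintype F]

/-- the classes for the unitary groups; `R X` is the conclusion about the overgroup `X` -/
def UL (n : ℕ) (F : Type*) [Field F] [Fintype F] (q : ℕ) (R : Subgroup (GL (Fin n) F) → Prop) :
    Prop :=
  let f := Cfsg.hermForm n F q
  (∃ W, W ≠ ⊥ ∧ IsTotallySingularFor f W ∧ R (subspaceStabilizer W)) ∨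
  (∃ W, W ≠ ⊥ ∧ IsNondegenerateOn f W ∧ 2 * finrank F W < n ∧ R (subspaceStabilizer W)) ∨
  (∃ (t k : ℕ) (D : Fin t → Submodule F (Fin n → F)), IsNondegenerateMDecomposition f k D ∧
    t * k = n ∧ 2 ≤ t ∧ (k = 2 → 3 ≤ q) ∧ R (decompositionStabilizer D)) ∨
  (∃ (k : ℕ) (D : Fin 2 → Submodule F (Fin n → F)), 2 * k = n ∧ IsMDecomposition k D ∧
    (∀ i, IsTotallySingularFor f (D i)) ∧ R (decompositionStabilizer D)) ∨
  (∃ (F₀ : Subfield F) (r : ℕ) (P : GL (Fin n) F), r.Prime ∧ Odd r ∧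
    Fintype.card F = Nat.card F₀ ^ r ∧ IsFormRationalStructure f F₀ 1 P ∧
      R (subfieldSubgroup F₀ P)) ∨
  (Odd q ∧ ∃ (F₀ : Subfield F) (P : GL (Fin n) F), Fintype.card F = Nat.card F₀ ^ 2 ∧
    IsFormRationalStructure f F₀ 1 P ∧ R (subfieldSubgroup F₀ P)) ∨
  (Even n ∧ ∃ (F₀ : Subfield F) (P : GL (Fin n) F) (ζ : F), Fintype.card F = Nat.card F₀ ^ 2 ∧
    ζ ≠ 0 ∧ ζ + ζ ^ q = 0 ∧ IsFormRationalStructure f F₀ ζ P ∧ (∀ u : Fin n → F, (∀ i, u i ∈ F₀) →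
      f ((P : Matrix _ _ F) *ᵥ u) ((P : Matrix _ _ F) *ᵥ u) = 0) ∧ R (subfieldSubgroup F₀ P)) ∨
  (∃ (r m p e : ℕ) (E : Subgroup (GL (Fin n) F)), n = r ^ m ∧ r ≠ p ∧ q = p ^ e ∧
    IsMinimalFieldFor (r * Nat.gcd 2 r) p (2 * e) F ∧ (Odd r → E ≤ Cfsg.GU n F q) ∧
    IsSymplecticTypeGroup r E ∧ ActsAbsolutelyIrreducibly (matrixSet E) ∧ E ≤ similarityGroup f ∧
    Nat.card E = r * Nat.gcd 2 r * r ^ (2 * m) ∧ Nat.card (Subgroup.center E) = r * Nat.gcd 2 r ∧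
      R (subgroupNormalizer E)) ∨
  (∃ (r : ℕ) (K : Subalgebra F (Matrix (Fin n) (Fin n) F)), r.Prime ∧ Odd r ∧ r ∣ n ∧
    IsFieldSubalgebra r K ∧ IsAdjointClosedFor f K ∧ R (subalgebraNormalizer K)) ∨
  (∃ (a b : ℕ) (e : Fin n ≃ Fin a × Fin b) (P : GL (Fin n) F)
    (f₁ : (Fin a → F) → (Fin a → F) → F) (f₂ : (Fin b → F) → (Fin b → F) → F), a * b = n ∧
      2 ≤ a ∧ a < b ∧ (a = 2 → 3 ≤ q) ∧ IsUnitaryFormPow q f₁ ∧ IsUnitaryFormPow q f₂ ∧
      IsTensorFormStructure (fun x : F => x ^ q) f f₁ f₂ e P ∧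
      R (tensorProductSubgroup a b e P)) ∨
  ∃ (k t : ℕ) (e : Fin n ≃ (Fin t → Fin k)) (P : GL (Fin n) F)
    (f₁ : (Fin k → F) → (Fin k → F) → F), k ^ t = n ∧ 3 ≤ k ∧ 2 ≤ t ∧ (k = 3 → 3 ≤ q) ∧
      IsUnitaryFormPow q f₁ ∧ IsTensorPowerFormStructure (fun x : F => x ^ q) f f₁ e P ∧
      R (tensorWreathSubgroup k t e P)

theorem three_le (hF : Fintype.card F = q ^ 2) (h : Fintype.card F ≠ 4) : 3 ≤ q := by
  have := Fintype.one_lt_card (α := F)
  by_contra! h1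
  interval_cases q <;> omega

theorem UC.uL (hn : 3 ≤ n) (hF : Fintype.card F = q ^ 2) (hq : ∀ x, σ x = x ^ q)
    (hσ : ∀ a, σ (σ a) = a) (hne : σ ≠ ρ) {H : Subgroup (GL (Fin n) F)} (h : UC σ 1 H)
    {R : _ → Prop} (hR : ∀ X, H ≤ X →
      (4 ≤ n → ¬ Cfsg.GU n F q ⊓ specialLinear (Fin n) F ≤ X) → R X) : UL n F q R := by
  have h0 := hf_one (κ := Fin n) hσ
  have hb := fun h : 4 ≤ n => big_su h0 hne (by simpa) (by simp; omega)
  have hc := Fintype.card_fin n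
  haveI : NeZero n := ⟨by omega⟩
  have e0 : (fun x : F => x ^ q) = σ := funext fun x => (hq x).symm
  rw [GU_iso hq] at hR
  rw [UL, herm_eq hq, GU_iso hq, e0]
  rcases h with ⟨W, h1, h2, h3⟩ | ⟨W, h1, h2, h3, h4⟩ | ⟨t, k, D, h1, h2, h3⟩ |
    ⟨k, D, h1, h2, h3, -⟩ | (⟨F₀, r, P, h1, h2, h3, h4, h5⟩ | ⟨h1, F₀, P, h2, h3, h4⟩ |
    ⟨h1, F₀, P, ζ, h2, h3, h4, h5, h6, h7⟩) | ⟨E, r, m, h1⟩ | ⟨r, K, hr, h1, h2⟩ |
    ⟨a, b, T, G₁, G₂, h1, h2, h3, h4⟩ | ⟨k, t, T, G₀, c, h1, h2, h3, h4⟩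
  · exact .inl ⟨W, h1, h2, hR _ h3 fun h => (hb h).not_stab h1 (ts_ne_top h0 h2)⟩
  · exact .inr (.inl ⟨W, h1, h2, by omega, hR _ h4 fun h =>
      (hb h).not_stab h1 (ne_top_of_lt (by omega))⟩)
  · have := h1.decomp.two_le
    have := h1.decomp.pos
    have h4 := mdec_card h1.decomp
    refine .inr (.inr (.inl ⟨t, k, D, h1, hc ▸ h4, by omega, fun e => three_le hF (h2 e),
      hR _ h3 fun h => (hb h).not_dec' h1.decomp (if k = 1 then 2 else 1) ?_ ?_ ?_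
        fun p x hx y hy h5 h6 => ?_⟩))
    · split_ifs <;> omega
    · split_ifs <;> omega
    · split_ifs with e
      · subst e; omega
      · nlinarith [Nat.sub_add_cancel (show 1 ≤ t by omega)]
    · have := orth_of_dec h1 p hx hy
      rw [fm_add_left, fm_add_right, fm_add_right, h5, h6, this, h0.eq_zero_comm this]
      simp
  · have h4 := mdec_card h1
    refine .inr (.inr (.inr (.inl ⟨k, D, hc ▸ h4, h1, h2, hR _ h3 fun h => (hb h).not_pair
      (σ := σ) (G := 1) h1 (by omega) (fun x hx => h2 0 x hx x hx) fun x hx y hy h5 => ?_⟩)))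
    rw [fm_add_left, fm_add_right, fm_add_right, h2 0 x hx x hx, h2 1 y hy y hy, h5,
      h0.eq_zero_comm h5]
    simp
  · exact .inr (.inr (.inr (.inr (.inl ⟨F₀, r, P, h1, h2, h3, h4, hR _ h5 fun h =>
      (hb h).not_sub (ne_top_of_card h1 h3) P⟩))))
  · exact .inr (.inr (.inr (.inr (.inr (.inl ⟨(Nat.odd_pow_iff two_ne_zero).1 (hF ▸ h1), F₀, P,
      h2, h3, hR _ h4 fun h => (hb h).not_sub (ne_top_of_card Nat.prime_two h2) P⟩)))))
  · iterate 6 right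
    exact .inl ⟨hc ▸ h1, F₀, P, ζ, h2, h3, hq ζ ▸ h4, h5, h6, hR _ h7 fun h =>
      (hb h).not_sub (ne_top_of_card Nat.prime_two h2) P⟩
  · iterate 7 right
    obtain ⟨p, e, h2, h3⟩ := h1.min
    obtain ⟨j, -, h4⟩ := (Nat.dvd_prime_pow h3.1).1
      (show q ∣ p ^ e from h3.2.2.1 ▸ hF ▸ Dvd.intro_left q (sq q).symm)
    obtain rfl : e = 2 * j := Nat.pow_right_injective h3.1.two_le
      (by simp only [← h3.2.2.1, hF, h4, ← pow_mul, mul_comm])
    refine .inl ⟨r, m, p, j, E, hc ▸ h1.dim, h2, h4, h3, fun ho x hx => ?_, h1.st,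
      absIrr_of_env h1.xsR.xs.top, h1.xsR.sim, h1.card, h1.cent, hR _ (nml_iff.1 h1.xsR.nml)
        fun h => (hb h).not_nml h1.st.prime h1.st.pGroup (absIrr_of_env h1.xsR.xs.top)
          ((nml_Iso' h1.xsR.sim).inf (nml_SL E))⟩
    obtain ⟨c, h5, h6, h7⟩ := h1.xsR.adj_eq h0 hx
    rw [(Nat.coprime_two_left.2 ho).gcd_eq_one, mul_one] at h3 h5
    have h8 : c ^ 2 = 1 := Units.ext (by
      have := congrArg Units.val (orderOf_dvd_iff_pow_eq_one.1 ((orderOf_dvd_of_pow_eq_one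
        h5).trans (dvd_succ_of_min (.inl h1.st.prime) h3 (by have := min_pos h3; omega))))
      rwa [← h4, pow_succ, Units.val_mul, Units.val_pow_eq_pow_val, ← hq, h6, ← sq] at this)
    obtain rfl : c = 1 := orderOf_eq_one_iff.1 (Nat.eq_one_of_dvd_coprimes
      (Nat.coprime_two_left.2 ho) (orderOf_dvd_of_pow_eq_one h8) (orderOf_dvd_of_pow_eq_one h5))
    exact h0.mem_Iso (by rw [h7, scU_one, one_mul, Units.inv_mul])
  · iterate 8 right
    exact .inl ⟨r, K, hr, h1, hc ▸ field_dvd h2.1, h2.1, h2.adjClosed h0,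
      hR _ (le_subalgebraNormalizer h2.2.1) fun h => (hb h).not_field h2.1 hr.one_lt⟩
  · iterate 9 right
    obtain ⟨e, P, rfl⟩ := exists_coordT T
    exact .inl ⟨a, b, e, P, _, _, by simpa using (Fintype.card_congr e).symm, h1, h2,
      fun e => three_le hF (h3 e), h4.h1.unitPow hq, h4.h2.unitPow hq, tensorForm h4.gram,
      hR _ h4.kr.le fun h h' => (hb h).not_kr (by omega) (by omega) (by nlinarith)
        fun g hg => kr_self e P g (h' hg)⟩
  · iterate 10 right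
    obtain ⟨e, P, rfl⟩ := exists_coordT T
    exact ⟨k, t, e, P, _, by simpa using (Fintype.card_congr e).symm, h1, h2,
      fun e => three_le hF fun e' => h3 ⟨e', e⟩, h4.h0.unitPow hq, tensorPowerForm h4.ne h4.gram,
      hR _ (h4.wr.le (by omega)) fun h h' => (hb h).not_wr (by omega) (by omega)
        (by have := wr_bound h1 h2; omega) fun g hg => wr_self e P g (h' hg)⟩

theorem u_list (hn : 3 ≤ n) (hF : Fintype.card F = q ^ 2) {H : Subgroup (GL (Fin n) F)}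
    (h : H ≤ Cfsg.GU n F q) {R : _ → Prop} (hR : ∀ X, H ≤ X →
      (4 ≤ n → ¬ Cfsg.GU n F q ⊓ specialLinear (Fin n) F ≤ X) → R X) :
    UL n F q R ∨ InUnitaryResidualClass H := by
  obtain ⟨σ, hq, hσ, hne⟩ := H11.exists_frob hF
  exact (u_cases (by simp; omega) (hf_one hσ) hne (GU_iso hq n ▸ h)).imp_left
    fun h => h.uL hn hF hq hσ hne hR

theorem u_max (hn : 4 ≤ n) (hF : Fintype.card F = q ^ 2) {H : Subgroup (GL (Fin n) F)}
    (h : IsMaximalIn (Cfsg.GU n F q ⊓ specialLinear (Fin n) F) H) :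
    UL n F q (fun X => H = X ⊓ (Cfsg.GU n F q ⊓ specialLinear (Fin n) F)) ∨
      InUnitaryResidualClass H :=
  u_list (by omega) hF (h.1.le.trans inf_le_left) fun _ h1 h2 => eq_of_max h h1 (h2 hn)

variable {p e : ℕ}

theorem min_not {r d : ℕ} (h : IsMinimalFieldFor r p e F) (hd : ¬ e ∣ d) :
    (p % r) ^ d % r ≠ 1 % r := fun h1 => hd (min_dvd h (by rwa [Nat.ModEq, Nat.pow_mod]))

theorem min_four (h : IsMinimalFieldFor 4 p (2 * e) F) (hp : 2 ≠ p) : e = 1 ∧ p % 4 = 3 := by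
  have h1 := Nat.odd_iff.1 (h.1.odd_of_ne_two hp.symm)
  have h2 := min_pos h
  have h3 := Nat.le_of_dvd two_pos (min_dvd h (d := 2) (by
    rw [Nat.ModEq, Nat.pow_mod]
    obtain h | h : p % 4 = 1 ∨ p % 4 = 3 := by omega
    all_goals rw [h]))
  have := min_ne_one h (by omega)
  omega

theorem min_mod {r : ℕ} (h : IsMinimalFieldFor r p e F) (hr : r.Prime) (hp : r ≠ p) :
    p % r ≠ 0 ∧ p % r < r ∧ (p % r) ^ e % r = 1 % r :=
  ⟨fun h1 => hp ((Nat.prime_dvd_prime_iff_eq hr h.1).1 (Nat.dvd_of_mod_eq_zero h1)),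
    Nat.mod_lt _ hr.pos, Nat.pow_mod p e r ▸ min_modEq h⟩

theorem min_ev_three (h : IsMinimalFieldFor 3 p (2 * e) F) (hp : 3 ≠ p) : e = 1 ∧ p % 3 = 2 := by
  have := Nat.le_of_dvd (by norm_num) (min_dvd_pred h Nat.prime_three hp)
  have := min_pos h
  have := min_mod h Nat.prime_three hp
  have := min_ne_one h (by omega)
  omega

theorem min_ev_five (h : IsMinimalFieldFor 5 p (2 * e) F) (hp : 5 ≠ p) :
    e = 1 ∧ p % 5 = 4 ∨ e = 2 ∧ (p % 5 = 2 ∨ p % 5 = 3) := by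
  have := Nat.le_of_dvd (by norm_num) (min_dvd_pred h Nat.prime_five hp)
  have := min_pos h
  obtain ⟨h1, h2, h3⟩ := min_mod h Nat.prime_five hp
  have h4 := min_ne_one h (by omega)
  have h5 := fun d => min_not h (d := d)
  obtain rfl | rfl : e = 1 ∨ e = 2 := by omega
  · interval_cases p % 5 <;> simp_all
  · have := h5 2 (by norm_num)
    interval_cases p % 5 <;> simp_all

theorem min_ev_seven (h : IsMinimalFieldFor 7 p (2 * e) F) (hp : 7 ≠ p) :
    e = 1 ∧ p % 7 = 6 ∨ e = 3 ∧ (p % 7 = 3 ∨ p % 7 = 5) := by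
  have h0 := min_dvd_pred h (by norm_num) hp
  have := Nat.le_of_dvd (by norm_num) h0
  have := min_pos h
  obtain ⟨h1, h2, h3⟩ := min_mod h (by norm_num) hp
  have h4 := min_ne_one h (by omega)
  have h5 := fun d => min_not h (d := d)
  obtain rfl | rfl : e = 1 ∨ e = 3 := by
    have : e ≤ 3 := by omega
    interval_cases e <;> omega
  · interval_cases p % 7 <;> simp_all
  · have := h5 2 (by norm_num)
    have := h5 3 (by norm_num)
    interval_cases p % 7 <;> simp_all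

theorem min_ev_eleven (h : IsMinimalFieldFor 11 p (2 * e) F) (hp : 11 ≠ p) :
    e = 1 ∧ p % 11 = 10 ∨ e = 5 ∧ (p % 11 = 2 ∨ p % 11 = 6 ∨ p % 11 = 7 ∨ p % 11 = 8) := by
  have h0 := min_dvd_pred h (by norm_num) hp
  have := Nat.le_of_dvd (by norm_num) h0
  have := min_pos h
  obtain ⟨h1, h2, h3⟩ := min_mod h (by norm_num) hp
  have h4 := min_ne_one h (by omega)
  have h5 := fun d => min_not h (d := d)
  obtain rfl | rfl : e = 1 ∨ e = 5 := by
    have : e ≤ 5 := by omega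
    interval_cases e <;> omega
  · interval_cases p % 11 <;> simp_all
  · have := h5 2 (by norm_num)
    have := h5 5 (by norm_num)
    interval_cases p % 11 <;> simp_all

end H29
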