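import Cfsg.Agent.H29.As16
import Cfsg.Agent.H29.Cv4

/-! The lists `OoL`, `OeL` of geometric classes for the orthogonal groups of odd and even
dimension (`oo_list`, `oo_max`, `oe_list`, `oe_max`). -/

set_option autoImplicit false
set_option linter.unusedSectionVars false

namespace H29

open Matrix Cfsg.Geo Module H11
open scoped Kronecker commutatorElement

variable {F : Type*} [Field F] [Fintype F] {ι : Type} [Fintype ι] [DecidableEq ι]
  {H : Subgroup (GL ι F)} {G : Matrix ι ι F} {Q : (ι → F) → F} {t k m : ℕ}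
  {W : Submodule F (ι → F)}

local notation "ρ" => RingHom.id _

namespace QInv

variable (h : QInv G H Q)
include h

theorem not_odec (hn : 7 ≤ Fintype.card ι) {D : Fin t → Submodule F (ι → F)}
    (hD : IsNondegenerateMDecomposition (fm ρ G) k D) :
    ¬ omegaGL Q ≤ decompositionStabilizer D := by
  have h1 := hD.decomp.two_le
  have h2 := hD.decomp.pos
  have h3 := mdec_card hD.decomp
  refine (big_omega h.1 hn).not_dec' hD.decomp (if k = 1 then 3 else if k = 2 then 2 else 1)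
    ?_ ?_ ?_ fun p x hx y hy h5 h6 => by simp [h.add, h5, h6, orth_of_dec hD p hx hy]
  · split_ifs <;> subst_vars <;> omega
  · split_ifs <;> omega
  · split_ifs <;> subst_vars
    · omega
    · omega
    · nlinarith [Nat.sub_add_cancel (show 1 ≤ t by omega), show 3 ≤ k by omega]

theorem ts_ne_top [Nonempty ι] (hW : IsTotallySingularQuad Q W) : W ≠ ⊤ :=
  ne_top_of_lt (by have := h.two_mul_le hW; have := Fintype.card_pos (α := ι); omega)

theorem odd_of_nd (hW : IsNondegenerateOn (fm ρ G) W) (h1 : Odd (finrank F W)) :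
    Odd (Fintype.card F) := by_contra fun ho => Nat.not_even_iff_odd.2 h1
      (even_of_nd h.hf (h.alt (two_eq_of_not_odd ho)) hW)

theorem odec_typ (hm : Fintype.card ι = 2 * m) {D : Fin t → Submodule F (ι → F)}
    (hD : IsOrthogonalMDecomposition Q k D) :
    (Odd k → Odd (Fintype.card F) ∧ (IsPlusTypeOn Q ⊤ ↔ Fintype.card F ^ m % 4 = 1)) ∧
    (Even k → (∀ i, IsPlusTypeOn Q (D i)) ∧ IsPlusTypeOn Q ⊤ ∨
      (∀ i, ¬ IsPlusTypeOn Q (D i)) ∧ (IsPlusTypeOn Q ⊤ ↔ Even t)) := by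
  have h1 := h.ndec hD
  obtain ⟨o⟩ : Nonempty (Fin t) := ⟨⟨0, by have := h1.decomp.two_le; omega⟩⟩
  refine ⟨fun hk => ?_, fun hk => ?_⟩
  · have ho := h.odd_of_nd (h1.nondegenerate o) ((h1.decomp.finrank_eq o).symm ▸ hk)
    have h2 := two_ne_zero_of_odd ho
    have h3 : Even t := (Nat.even_mul.1 (mdec_card h1.decomp ▸ hm ▸ even_two_mul m)).resolve_right
      (Nat.not_even_iff_odd.2 hk)
    rw [h.plus_iff_dsc h2 hm, h.dsc_dec h1, Finset.prod_congr rfl fun i _ => (h.isom_iff_dsc h2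
      (h1.nondegenerate i) (h1.nondegenerate o) (by simp [h1.decomp.finrank_eq])).1
        (hD.isometric i o), Finset.prod_const, Finset.card_fin, Int.units_pow_eq_pow_mod_two,
      Nat.even_iff.1 h3, pow_zero, eq_comm]
    exact ⟨ho, (sqSign_neg_one_pow h2 m).1⟩
  · have h2 := h.typ_dec h1 hk
    rw [Finset.prod_congr rfl fun i _ => typ_isom (hD.isometric i o), Finset.prod_const,
      Finset.card_fin] at h2
    by_cases h3 : IsPlusTypeOn Q (D o)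
    · exact .inl ⟨fun i => plus_of_isom (hD.isometric o i) h3, typ_eq_one.1 (by
        rw [h2, typ_eq_one.2 h3, one_pow])⟩
    · exact .inr ⟨fun i h4 => h3 (plus_of_isom (hD.isometric i o) h4), by
        rw [← typ_eq_one, h2, typ_eq_neg.2 h3, neg_one_pow_eq_one_iff_even (by decide)]⟩

end QInv

/-- the classes for the orthogonal groups of odd dimension -/
def OoL (Q : (ι → F) → F) (R : Subgroup (GL ι F) → Prop) : Prop :=
  let f := QuadraticMap.polar Q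
  (∃ W, W ≠ ⊥ ∧ IsTotallySingularQuad Q W ∧ R (subspaceStabilizer W)) ∨
  (∃ W : Submodule F (ι → F), W ≠ ⊤ ∧ W ≠ ⊥ ∧ Even (finrank F W) ∧ IsNondegenerateOn f W ∧
    ¬ (Fintype.card F = 3 ∧ finrank F W = 2 ∧ IsPlusTypeOn Q W) ∧ R (subspaceStabilizer W)) ∨
  (∃ (t k : ℕ) (D : Fin t → Submodule F (ι → F)), t * k = Fintype.card ι ∧ 2 ≤ t ∧
    (k = 1 → (Fintype.card F).Prime) ∧ (k = 3 → 5 ≤ Fintype.card F) ∧
    IsOrthogonalMDecomposition Q k D ∧ R (decompositionStabilizer D)) ∨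
  (∃ (r : ℕ) (K : Subalgebra F (Matrix ι ι F)), r.Prime ∧ r ∣ Fintype.card ι ∧
    Fintype.card ι ≠ r ∧ IsFieldSubalgebra r K ∧ IsSelfAdjointFor f K ∧
      R (subalgebraNormalizer K)) ∨
  (∃ (a b : ℕ) (e : ι ≃ Fin a × Fin b) (P : GL ι F) (f₁ : (Fin a → F) → (Fin a → F) → F)
    (f₂ : (Fin b → F) → (Fin b → F) → F), a * b = Fintype.card ι ∧ 3 ≤ a ∧ a < b ∧
      IsSymmetricForm f₁ ∧ IsSymmetricForm f₂ ∧ IsTensorFormStructure id f f₁ f₂ e P ∧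
      R (tensorProductSubgroup a b e P)) ∨
  (∃ (F₀ : Subfield F) (r : ℕ) (P : GL ι F), r.Prime ∧ Fintype.card F = Nat.card F₀ ^ r ∧
    IsQuadFormRationalStructure Q F₀ P ∧ R (subfieldSubgroup F₀ P)) ∨
  ∃ (k t : ℕ) (e : ι ≃ (Fin t → Fin k)) (P : GL ι F) (f₁ : (Fin k → F) → (Fin k → F) → F),
    k ^ t = Fintype.card ι ∧ 3 ≤ k ∧ 2 ≤ t ∧ ¬ (Fintype.card F = 3 ∧ k = 3) ∧ IsSymmetricForm f₁ ∧
      IsTensorPowerFormStructure id f f₁ e P ∧ R (tensorWreathSubgroup k t e P)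

theorem oo_list (h : QInv G H Q) (ho : Odd (Fintype.card F)) (hn : 7 ≤ Fintype.card ι)
    (hn' : Odd (Fintype.card ι)) (hG : ∀ F₀ : Subfield F, G.det ∈ F₀) {R : _ → Prop}
    (hR : ∀ X, H ≤ X → ¬ omegaGL Q ≤ X → R X) : OoL Q R ∨ InOrthogonalResidualClass H := by
  have hb := big_omega h.1 hn
  haveI := hb.nonempty
  have hs := h.iso.trans Iso_le_Sim
  have he := Nat.not_even_iff_odd.2 hn'
  rw [OoL, h.2.1]
  rcases o_cases h (by omega) with (⟨W, h1, h2, h3⟩ | ⟨W, h1, h2, h3, h4, h5⟩ | h1) |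
    ⟨-, ⟨t, k, D, h1, h2, -, h3, -, h4⟩ | ⟨k, D, h1, -⟩ | ⟨F₀, r, P, c, h1, h2, h3, h4, h5, h6⟩ |
    ⟨r, K, hr, h1, h2, h3, -⟩ | ⟨K, h1, -⟩ | ⟨a, b, T, G₁, G₂, -, -, -, -, h1, -⟩ |
    ⟨-, a, b, T, G₁, G₂, h1, h2, h3, -, h4⟩ | ⟨-, k, t, T, G₀, c, h1, h2, h3, h4⟩ |
    ⟨k, t, h1, h2, h3, -⟩⟩ | h1
  · exact .inl (.inl ⟨W, h1, h2, hR _ h3 (hb.not_stab h1 (h.ts_ne_top h2))⟩)
  · have h6 : W ≠ ⊤ := ne_top_of_lt (by omega)
    rcases Nat.even_or_odd (finrank F W) with h7 | h7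
    · exact .inl (.inr (.inl ⟨W, h6, h1, h7, h2, fun e => h4 ⟨e.1.le, e.2⟩,
        hR _ h5 (hb.not_stab h1 h6)⟩))
    have h8 := pp_compl (inf_pp h2)
    have h9 : pp ρ G W ≠ ⊥ := fun e => h6 (by simpa [e] using h8.1)
    have a1 : pp ρ G W ≠ ⊤ := ne_top_of_lt (by have := h7.pos; omega)
    exact .inl (.inr (.inl ⟨_, a1, h9, (Nat.odd_add.1 (h8.2 ▸ hn')).1 h7,
      (h.hf.nd_of_inf (inf_pp h2)).2, by omega, hR _ (stab_pp hs h5) (hb.not_stab h9 a1)⟩))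
  · exact absurd ho h1.1
  · exact .inl (.inr (.inr (.inl ⟨t, k, D, mdec_card h1.1.decomp, h1.1.decomp.two_le, h2,
      fun e => five_le ho (h3 e), h1, hR _ h4 (h.not_odec hn (h.ndec h1))⟩)))
  · exact absurd (mdec_card h1 ▸ even_two_mul k) he
  · obtain ⟨P', h7, h8⟩ := h.sub_one h4 h5 h6 hn' (hG F₀)
    left
    iterate 5 right
    exact .inl ⟨F₀, r, P', h1, h2, h7, hR _ (h8 ▸ h3) (hb.not_sub (ne_top_of_card h1 h2) _)⟩
  · exact .inl (.inr (.inr (.inr (.inl ⟨r, K, hr, field_dvd h1.1, h3.symm, h1.1,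
      (selfAdj_iff h.hf).2 h2, hR _ (le_subalgebraNormalizer h1.2.1)
        (hb.not_field h1.1 hr.one_lt)⟩))))
  · exact absurd (even_iff_two_dvd.2 (field_dvd h1.1)) he
  · exact absurd (by rw [← KrF.card T, Fintype.card_prod]; exact (even_of_symp h1).mul_right _) he
  · obtain ⟨e, P, rfl⟩ := exists_coordT T
    have h5 : a * b = Fintype.card ι := by simpa using (Fintype.card_congr e).symm
    have h6 : a < b := h2.lt_of_ne fun e => he (h5 ▸ (h3 e).mul_right _)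
    exact .inl (.inr (.inr (.inr (.inr (.inl ⟨a, b, e, P, _, _, h5, h1, h6, h4.h1.symmetric,
      h4.h2.symmetric, tensorForm h4.gram, hR _ h4.kr.le fun h => hb.not_kr (by omega) (by omega)
        (by nlinarith) fun g hg => kr_self e P g (h hg)⟩)))))
  · obtain ⟨e, P, rfl⟩ := exists_coordT T
    exact .inl (.inr (.inr (.inr (.inr (.inr (.inr ⟨k, t, e, P, _,
      by simpa using (Fintype.card_congr e).symm, h1, h2, h3, h4.h0.symmetric,
      tensorPowerForm h4.ne h4.gram, hR _ (h4.wr.le (by omega)) fun h => hb.not_wr (by omega) h1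
        (wr_bound h1 h2) fun g hg => wr_self e P g (h hg)⟩))))))
  · exact absurd (h3 ▸ h1.pow_of_ne_zero (by omega)) he
  · exact .inr h1

theorem oo_std (ho : Odd (Fintype.card F)) (hm : 3 ≤ m)
    {H : Subgroup (GL (Unit ⊕ (Fin m ⊕ Fin m)) F)} (hH : H ≤ omegaGL (Cfsg.quadFormOdd m F))
    {R : _ → Prop} (hR : ∀ X, H ≤ X → ¬ omegaGL (Cfsg.quadFormOdd m F) ≤ X → R X) :
    OoL (Cfsg.quadFormOdd m F) R ∨ InOrthogonalResidualClass H := by
  obtain ⟨G, h⟩ := exists_qInv (quadFormOdd_nondeg (two_ne_zero_of_odd ho) m)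
  refine oo_list (h.mono (hH.trans omegaGL_le)) ho (by simp; omega) ⟨m, by simp; omega⟩
    (fun F₀ => RatM.det fun i j => ?_) hR
  have h1 : ∀ i j : Unit ⊕ (Fin m ⊕ Fin m), (Pi.single i 1 : _ → F) j ∈ F₀ := fun i j => by
    rw [Pi.single_apply]; split_ifs; exacts [one_mem _, zero_mem _]
  have h2 : ∀ v : _ → F, (∀ j, v j ∈ F₀) → Cfsg.quadFormOdd m F v ∈ F₀ := fun v hv =>
    add_mem (pow_mem (hv _) 2) (sum_mem fun _ _ => mul_mem (hv _) (hv _))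
  rw [← fm_single (σ := ρ) (G := G), ← h.2.1]
  exact sub_mem (sub_mem (h2 _ fun _ => add_mem (h1 _ _) (h1 _ _)) (h2 _ (h1 _))) (h2 _ (h1 _))

theorem oo_max (ho : Odd (Fintype.card F)) (hm : 3 ≤ m)
    {H : Subgroup (GL (Unit ⊕ (Fin m ⊕ Fin m)) F)}
    (hH : IsMaximalIn (omegaGL (Cfsg.quadFormOdd m F)) H) :
    OoL (Cfsg.quadFormOdd m F) (fun X => H = X ⊓ omegaGL (Cfsg.quadFormOdd m F)) ∨
      InOrthogonalResidualClass H := oo_std ho hm hH.1.le fun _ => eq_of_max hH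

/-- the classes for the orthogonal groups of even dimension `2 * m` -/
def OeL (Q : (ι → F) → F) (m : ℕ) (R : Subgroup (GL ι F) → Prop) : Prop :=
  let f := QuadraticMap.polar Q
  (∃ W, W ≠ ⊥ ∧ IsTotallySingularQuad Q W ∧ (IsPlusTypeOn Q ⊤ → finrank F W + 1 ≠ m) ∧
    R (subspaceStabilizer W)) ∨
  (Odd (Fintype.card F) ∧ ∃ W : Submodule F (ι → F), finrank F W < m ∧ W ≠ ⊥ ∧ W ≠ ⊤ ∧
    Odd (finrank F W) ∧ IsNondegenerateOn f W ∧ R (subspaceStabilizer W)) ∨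
  (∃ (k : ℕ) (W : Submodule F (ι → F)), 0 < k ∧ 2 * k < m ∧
    (k = 1 → IsPlusTypeOn Q W → 4 ≤ Fintype.card F) ∧ finrank F W = 2 * k ∧
    IsNondegenerateOn f W ∧ R (subspaceStabilizer W)) ∨
  (¬ IsPlusTypeOn Q ⊤ ∧ Even m ∧ ∃ W : Submodule F (ι → F), finrank F W = m ∧
    IsNondegenerateOn f W ∧ R (subspaceStabilizer W)) ∨
  (¬ Odd (Fintype.card F) ∧ ∃ v, Q v ≠ 0 ∧ R (subspaceStabilizer (F ∙ v))) ∨
  (∃ (t k : ℕ) (D : Fin t → Submodule F (ι → F)), t * k = 2 * m ∧ 2 ≤ t ∧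
    (k = 1 → (Fintype.card F).Prime) ∧
    (k = 2 → Fintype.card F ≠ 3 ∧ ∀ i, IsPlusTypeOn Q (D i) → 7 ≤ Fintype.card F) ∧
    (k = 3 → Fintype.card F ≠ 3) ∧
    (k = 4 → t ≠ 2 → ∀ i, IsPlusTypeOn Q (D i) → Fintype.card F ≠ 2) ∧
    (Odd k → Odd (Fintype.card F) ∧ (IsPlusTypeOn Q ⊤ ↔ Fintype.card F ^ m % 4 = 1)) ∧
    (Even k → (∀ i, IsPlusTypeOn Q (D i)) ∧ IsPlusTypeOn Q ⊤ ∨
      (∀ i, ¬ IsPlusTypeOn Q (D i)) ∧ (IsPlusTypeOn Q ⊤ ↔ Even t)) ∧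
    IsOrthogonalMDecomposition Q k D ∧ R (decompositionStabilizer D)) ∨
  (Odd m ∧ Odd (Fintype.card F) ∧ (IsPlusTypeOn Q ⊤ ↔ Fintype.card F ^ m % 4 = 3) ∧
    ∃ D : Fin 2 → Submodule F (ι → F), IsNondegenerateMDecomposition f m D ∧
      ¬ AreIsometricFor Q (D 0) (D 1) ∧ R (decompositionStabilizer D)) ∨
  (IsPlusTypeOn Q ⊤ ∧ Even m ∧ ∃ D : Fin 2 → Submodule F (ι → F), IsMDecomposition m D ∧
    (∀ i, IsTotallySingularQuad Q (D i)) ∧ R (decompositionStabilizer D)) ∨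
  (∃ (F₀ : Subfield F) (r : ℕ) (P : GL ι F) (ζ : F), (r = 2 → IsPlusTypeOn Q ⊤) ∧ r.Prime ∧
    Fintype.card F = Nat.card F₀ ^ r ∧ ζ ≠ 0 ∧
    IsQuadFormRationalStructure (fun v => ζ * Q v) F₀ P ∧ R (subfieldSubgroup F₀ P)) ∨
  (∃ (r : ℕ) (K : Subalgebra F (Matrix ι ι F)), r.Prime ∧ r ∣ 2 * m ∧ r ≠ m ∧
    (¬ Odd (Fintype.card F) → r ∣ m) ∧ IsFieldSubalgebra r K ∧ IsSelfAdjointFor f K ∧
      R (subalgebraNormalizer K)) ∨
  ((IsPlusTypeOn Q ⊤ → Even m) ∧ ∃ K : Subalgebra F (Matrix ι ι F), IsFieldSubalgebra 2 K ∧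
    IsAdjointClosedFor f K ∧ ¬ IsSelfAdjointFor f K ∧
    (∀ k ∈ K, ∃ c : F, ∀ v, Q (k *ᵥ v) = c * Q v) ∧ R (subalgebraNormalizer K)) ∨
  (IsPlusTypeOn Q ⊤ ∧ Even m ∧ ∃ K : Subalgebra F (Matrix ι ι F), IsFieldSubalgebra 2 K ∧
    R (subalgebraNormalizer K)) ∨
  (∃ (a b : ℕ) (e : ι ≃ Fin a × Fin b) (P : GL ι F) (f₁ : (Fin a → F) → (Fin a → F) → F)
    (f₂ : (Fin b → F) → (Fin b → F) → F), a * b = 2 * m ∧ 2 ≤ a ∧ a ≤ b ∧ Even a ∧ Even b ∧
      (a = 2 → IsPlusTypeOn Q ⊤ ∧ 3 ≤ Fintype.card F) ∧ IsSymplecticForm f₁ ∧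
      IsSymplecticForm f₂ ∧ IsTensorFormStructure id f f₁ f₂ e P ∧
      (∀ (x : Fin a → F) (y : Fin b → F),
        Q ((P : Matrix ι ι F) *ᵥ ((fun p : Fin a × Fin b => x p.1 * y p.2) ∘ e)) = 0) ∧
      R (tensorProductSubgroup a b e P)) ∨
  (Odd (Fintype.card F) ∧ ∃ (a b : ℕ) (e : ι ≃ Fin a × Fin b) (P : GL ι F)
    (f₁ : (Fin a → F) → (Fin a → F) → F) (f₂ : (Fin b → F) → (Fin b → F) → F), a * b = 2 * m ∧
      3 ≤ a ∧ a ≤ b ∧ (a = 3 → 5 ≤ Fintype.card F) ∧ (a = 3 → b = 4 → ¬ IsPlusTypeOn Q ⊤ ∧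
        ¬ IsPlusTypeOn (fun v => f₂ v v) ⊤) ∧ IsSymmetricForm f₁ ∧ IsSymmetricForm f₂ ∧
      IsTensorFormStructure id f f₁ f₂ e P ∧ R (tensorProductSubgroup a b e P)) ∨
  ∃ k t : ℕ, 2 ≤ t ∧ k ^ t = 2 * m ∧ (k = 2 → IsPlusTypeOn Q ⊤)

section

variable (h : QInv G H Q) (hm : Fintype.card ι = 2 * m) (hm' : 4 ≤ m) (hH : H ≤ omegaGL Q)
  {R : Subgroup (GL ι F) → Prop} (hR : ∀ X, H ≤ X → ¬ omegaGL Q ≤ X → R X)
include h hm hm' hH hR

theorem oeL_red (h1 : ORed G H Q) : OeL Q m R := by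
  have hb := big_omega h.1 (by omega)
  haveI := hb.nonempty
  have hs := h.iso.trans Iso_le_Sim
  rw [OeL, h.2.1]
  rcases h1 with ⟨W, h1, h2, h3⟩ | ⟨W, h1, h2, h3, h4, h5⟩ | ⟨h1, v, h2, h3⟩
  · by_cases h4 : IsPlusTypeOn Q ⊤ → finrank F W + 1 ≠ m
    · exact .inl ⟨W, h1, h2, h4, hR _ h3 (hb.not_stab h1 (h.ts_ne_top h2))⟩
    push Not at h4
    obtain ⟨U, h5, h6, h7, h8⟩ := h.exists_stab_max (by omega) h4.1 h2 (by omega)
    have h9 := ne_bot_of_le_ne_bot h1 h5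
    exact .inl ⟨U, h9, h6, fun _ => by omega,
      hR _ ((le_inf h3 hH).trans h8) (hb.not_stab h9 (h.ts_ne_top h6))⟩
  · have h6 : W ≠ ⊤ := ne_top_of_lt (by omega)
    have h7 := hR _ h5 (hb.not_stab h1 h6)
    have h8 := Submodule.finrank_eq_zero.not.2 h1
    obtain h9 | rfl : finrank F W < m ∨ finrank F W = m := by omega
    · rcases Nat.even_or_odd (finrank F W) with ⟨k, hk⟩ | a1
      · exact .inr (.inr (.inl ⟨k, W, by omega, by omega, fun e hp => by_contra fun a =>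
          h4 ⟨by omega, by omega, hp⟩, by omega, h2, h7⟩))
      · exact .inr (.inl ⟨h.odd_of_nd h2 a1, W, h9, h1, h6, a1, h2, h7⟩)
    have a1 := h.hf.ndec_pair h1 (inf_pp h2) hm.symm
    have a2 := hR _ (le_decStab_pair hs h5) (h.not_odec (by omega) a1)
    by_cases a3 : AreIsometricFor Q W (pp ρ G W)
    · have a4 := h.odec a1 (by
        simpa [Fin.forall_fin_two] using ⟨⟨⟨.refl _ _, fun _ => rfl⟩, a3⟩,
          isom_symm a3, .refl _ _, fun _ => rfl⟩)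
      exact .inr (.inr (.inr (.inr (.inr (.inl ⟨2, _, _, rfl, le_rfl, by omega, by omega, by omega,
        fun _ e => absurd rfl e, (h.odec_typ hm a4).1, (h.odec_typ hm a4).2, a4, a2⟩)))))
    rcases Nat.even_or_odd (finrank F W) with a4 | a4
    · refine .inr (.inr (.inr (.inl ⟨fun hp => a3 ?_, a4, W, rfl, h2, h7⟩)))
      obtain ⟨k, hk⟩ := a4.two_dvd
      have a5 := h.typ_dec a1 a4
      rw [typ_eq_one.2 hp, Fin.prod_univ_two] at a5
      exact h.isom_of_typ h2 (a1.nondegenerate 1) hk ((a1.decomp.finrank_eq 1).trans hk)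
        (by simpa using eq_inv_of_mul_eq_one_left a5.symm)
    · have ho := h.odd_of_nd h2 a4
      have a5 := two_ne_zero_of_odd ho
      iterate 6 right
      refine .inl ⟨a4, ho, ?_, _, a1, a3, a2⟩
      replace a3 := mt (h.isom_iff_dsc a5 h2 (a1.nondegenerate 1)
        (a1.decomp.finrank_eq 1).symm).2 a3
      rw [h.plus_iff_dsc a5 hm, h.dsc_dec a1, Fin.prod_univ_two, ← (sqSign_neg_one_pow a5 _).2,
        eq_comm, show h.dsc (![W, pp ρ G W] 0) * h.dsc (![W, pp ρ G W] 1) = -1 by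
          change h.dsc W * _ = -1
          rw [Int.units_ne_iff_eq_neg.1 a3, neg_mul, Int.units_mul_self]]
  · have h4 : v ≠ 0 := by rintro rfl; exact h2 h.zero
    exact .inr (.inr (.inr (.inr (.inl ⟨h1, v, h2, hR _ h3 (hb.not_stab (by simpa)
      (ne_top_of_lt (by rw [finrank_span_singleton h4]; omega)))⟩))))

theorem oeL_sp {a b : ℕ} {T : (Fin a × Fin b → F) ≃ₗ[F] (ι → F)} {G₁ : _} {G₂ : _} {ε₁ ε₂ : F}
    (h1 : 2 ≤ a) (h2 : a ≤ b) (h3 : IsSymplecticForm (fm ρ G₁)) (h4 : IsSymplecticForm (fm ρ G₂))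
    (h5 : KrF ρ G H T G₁ G₂ ε₁ ε₂)
    (h6 : ∀ (u : Fin a → F) (v : Fin b → F), Q (T fun p => u p.1 * v p.2) = 0) : OeL Q m R := by
  have hb := big_omega h.1 (by omega)
  haveI := hb.nonempty
  have h7 : a * b = 2 * m := by simpa [hm] using KrF.card T
  have h8 : Even b := by simpa using even_of_symp h4
  rw [OeL, h.2.1]
  by_cases h9 : a = 2 ∧ Fintype.card F = 2
  · obtain ⟨rfl, h9⟩ := h9
    obtain ⟨K, a1, a2⟩ := kr_two_field h9 h5.kr
    iterate 11 right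
    exact .inl ⟨h5.plus h h3 h6, (show b = m by omega) ▸ h8, K, a1,
      hR _ a2 (hb.not_field a1 one_lt_two)⟩
  obtain ⟨e, P, rfl⟩ := exists_coordT T
  have a1 : 3 ≤ b := by nlinarith
  iterate 12 right
  refine .inl ⟨a, b, e, P, _, _, h7, h1, h2, by simpa using even_of_symp h3, h8, ?_, h3, h4,
    tensorForm h5.gram, h6, hR _ h5.kr.le fun h => hb.not_kr (by omega) a1 ?_
      fun g hg => kr_self e P g (h hg)⟩
  · rintro rfl
    have := Fintype.one_lt_card (α := F)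
    exact ⟨h5.plus h h3 h6, by omega⟩
  · obtain rfl | h1 := h1.eq_or_lt
    · omega
    · nlinarith

theorem oe_list : OeL Q m R ∨ InOrthogonalResidualClass H := by
  have hb := big_omega h.1 (by omega)
  haveI := hb.nonempty
  rcases o_cases h (by omega) with h1 | ⟨hI, ⟨t, k, D, h1, h2, h3, h4, h5, h6⟩ |
    ⟨k, D, h1, h2, h3⟩ | ⟨F₀, r, P, c, h1, h2, h3, h4, h5, h6⟩ | ⟨r, K, hr, h1, h2, -, h3, h4⟩ |
    ⟨K, h1, h2, h3⟩ | ⟨a, b, T, G₁, G₂, ε₁, ε₂, h1, h2, h3, h4, h5, h6⟩ |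
    ⟨ho, a, b, T, G₁, G₂, h1, h2, -, h3, h4⟩ | ⟨-, k, t, T, G₀, c, h1, h2, -⟩ |
    ⟨k, t, -, h1, h2, h3⟩⟩ | h1
  · exact .inl (oeL_red h hm hm' hH hR h1)
  · exact .inl (.inr (.inr (.inr (.inr (.inr (.inl ⟨t, k, D, hm ▸ mdec_card h1.1.decomp,
      h1.1.decomp.two_le, h2, h3, h4, fun e _ => h5 e, (h.odec_typ hm h1).1, (h.odec_typ hm h1).2,
      h1, hR _ h6 (h.not_odec (by omega) (h.ndec h1))⟩))))))
  · obtain rfl : k = m := by have := mdec_card h1; omega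
    left
    iterate 7 right
    refine .inl ⟨⟨D 0, le_top, h2 0, by simp [h1.finrank_eq, hm]⟩, by_contra fun h4 => ?_, D, h1,
      h2, hR _ h3 (hb.not_pair (σ := ρ) (G := G) h1 (by omega) (h2 0) fun x hx y hy h4 => by
        simp [h.add, h2 0 x hx, h2 1 y hy, h.symm x y, h4])⟩
    exact (hI _ fun g hg x hx => mulVec_mem_of_stab (stab_of_pair h.1 (by omega) h1 (h2 0)
      (Nat.not_even_iff_odd.1 h4) ⟨h3 hg, hH hg⟩) hx).elim (mdec_ne_bot h1 0) (h.ts_ne_top (h2 0))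
  · left
    iterate 8 right
    exact .inl ⟨F₀, r, P, c, fun e => h.plus_of_sub (e ▸ h2) h4 h5 h6 hm, h1, h2, h4, h6,
      hR _ h3 (hb.not_sub (ne_top_of_card h1 h2) _)⟩
  · left
    iterate 9 right
    exact .inl ⟨r, K, hr, hm ▸ field_dvd h1.1, by omega, fun e => Nat.dvd_of_mul_dvd_mul_left
      two_pos (hm ▸ h4 e), h1.1, h.2.1 ▸ (selfAdj_iff h.hf).2 h2,
      hR _ (le_subalgebraNormalizer h1.2.1) (hb.not_field h1.1 hr.one_lt)⟩
  · left
    iterate 10 right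
    exact .inl ⟨fun hp => even_iff_two_dvd.2 (Nat.dvd_of_mul_dvd_mul_left two_pos
      (hm ▸ h.dvd_of_plus h1.1 h1.2.2 h3 hp)), K, h1.1, h.2.1 ▸ h1.adjClosed h.hf,
      h.2.1 ▸ h1.not_selfAdj h.hf one_lt_two h2, h3,
      hR _ (le_subalgebraNormalizer h1.2.1) (hb.not_field h1.1 one_lt_two)⟩
  · exact .inl (oeL_sp h hm hm' hH hR h1 h2 h3 h4 h5 h6)
  · have h5 := two_ne_zero_of_odd ho
    by_cases h6 : a = 3 ∧ b = 4 ∧ sqSign G₂.det = 1
    · obtain ⟨rfl, rfl, h6⟩ := h6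
      obtain ⟨T, G₂, h7⟩ := h4.sp26 h.iso (hH.trans omegaGL_le_SL) h5 h6
      refine .inl (oeL_sp h hm hm' hH hR le_rfl (by omega) (h7.h1.symp (h7.h1.alt h5))
        (h7.h2.symp (h7.h2.alt h5)) h7 fun u v => (mul_eq_zero.1 ?_).resolve_left h5)
      rw [← h.self, ← fm_gT, h7.gram, fm_kron, h7.h1.alt h5, zero_mul]
    obtain ⟨e, P, rfl⟩ := exists_coordT T
    left
    iterate 13 right
    refine .inl ⟨ho, a, b, e, P, _, _, by simpa [hm] using (Fintype.card_congr e).symm, h1, h2,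
      fun e => five_le ho fun e' => h3 ⟨e', e⟩, ?_, h4.h1.symmetric, h4.h2.symmetric,
      h.2.1 ▸ tensorForm h4.gram, hR _ h4.kr.le fun h => hb.not_kr (by omega) (by omega)
        (by nlinarith) fun g hg => kr_self e P g (h hg)⟩
    rintro rfl rfl
    rw [h4.plus34 h h5, plus_iff_sq h5 h4.h2 (m := 2) rfl, Int.units_sq]
    simpa using h6
  · left
    iterate 14 right
    exact ⟨k, t, h2, by simpa [hm] using KrF.card T, by omega⟩
  · left
    iterate 14 right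
    exact ⟨k, t, h1, hm ▸ h2, h3⟩
  · exact .inr h1

end

theorem oe_max (hQ : IsNondegenerateQuadraticForm Q) (hm : Fintype.card ι = 2 * m) (hm' : 4 ≤ m)
    (hH : IsMaximalIn (omegaGL Q) H) :
    OeL Q m (fun X => H = X ⊓ omegaGL Q) ∨ InOrthogonalResidualClass H :=
  let ⟨_, h⟩ := exists_qInv hQ
  oe_list (h.mono (hH.1.le.trans omegaGL_le)) hm hm' hH.1.le fun _ => eq_of_max hH

end H29
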