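import Cfsg.Agent.H29.ExtO

/-! Overgroups of `Ω(K)` in orthogonal groups over a subfield `F` of prime index, part 2: the
maximal intersection argument for the images of singular `K`-lines, `orth_extO`, `oo_fld_max`. -/

set_option autoImplicit false
set_option linter.unusedSectionVars false

namespace H29

open Module H11 H11.PForm

variable {F K V : Type*} [Field F] [Field K] [Algebra F K] [AddCommGroup V] [Module F V]
  [Module K V] [IsScalarTower F K V] [FiniteDimensional F V] {S : PForm (orthP F) V}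
  {H : Subgroup S.Isom} {φ : Dual F K} {U : PForm (orthP K) V} {X Y D : Submodule F V} {u x : V}
  {d : ℕ} {g : S.Isom}

/-- images of singular `K`-lines -/
def KM (U : PForm (orthP K) V) (H : Subgroup S.Isom) (X : Submodule F V) : Prop :=
  ∃ g ∈ H, ∃ u, u ≠ 0 ∧ U.Sing u ∧ X = (KL F K u).map (g.1 : V →ₗ[F] V)

/-- distinct members meet in dimension at most `d` -/
def OM (U : PForm (orthP K) V) (H : Subgroup S.Isom) (d : ℕ) : Prop :=
  ∀ X Y, KM U H X → KM U H Y → d < finrank F (X ⊓ Y : Submodule F V) → X = Y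

theorem om_kl (hu : U.Sing u) (hu0 : u ≠ 0) : KM U H (KL F K u) :=
  ⟨1, H.one_mem, u, hu0, hu, (Submodule.map_id _).symm⟩

theorem KM.map (h : KM U H X) (hg : g ∈ H) : KM U H (X.map (g.1 : V →ₗ[F] V)) := by
  obtain ⟨k, hk, w, hw, hs, rfl⟩ := h
  exact ⟨g * k, H.mul_mem hg hk, w, hw, hs, (Submodule.map_comp _ _ _).symm⟩

theorem KM.finrank (h : KM U H X) : finrank F X = finrank F K := by
  obtain ⟨g, -, w, hw, -, rfl⟩ := h
  rw [LinearEquiv.finrank_map_eq, finrank_KL hw]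

theorem OM.nml (hM : OM U H d) (hX : KM U H X) (hD : D ≤ X) (hd : d ≤ finrank F D) (hg : g ∈ H)
    (h1 : ∀ y ∈ D, g.1 y = y) (hx : x ∈ X) (hx' : g.1 x ∈ X) (hxD : x ∉ D) : ∀ z ∈ X, g.1 z ∈ X :=
  fun z hz => by
  rw [hM X _ hX (hX.map hg) (hd.trans_lt (Submodule.finrank_lt_finrank_of_lt (lt_of_le_of_ne
    (le_inf hD fun y hy => ⟨y, hD hy, h1 y hy⟩) fun e' => hxD (by
      have a : g.1 x ∈ D := e' ▸ ⟨hx', x, hx, rfl⟩
      exact g.1.injective (h1 _ a) ▸ a))))]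
  exact ⟨z, hz, rfl⟩

theorem KM.tr (hX : KM U H X) (hY : KM U H Y) (hd : d < Module.finrank F (X ⊓ Y : Submodule F V)) :
    ∃ g ∈ H, ∃ u, u ≠ 0 ∧ U.Sing u ∧ (∀ x, g.1 x ∈ X ↔ x ∈ KL F K u) ∧ ∃ Y', KM U H Y' ∧
      (∀ x, g.1 x ∈ Y ↔ x ∈ Y') ∧ u ∈ Y' ∧ d < Module.finrank F (KL F K u ⊓ Y' : Submodule F V) := by
  obtain ⟨z, ⟨z1, z2⟩, z0⟩ := Submodule.exists_mem_ne_zero_of_ne_bot (p := X ⊓ Y) fun e => by
    rw [e, finrank_bot] at hd; omega
  obtain ⟨g, hg, u, -, hu, rfl⟩ := hX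
  obtain ⟨_, ⟨a, rfl⟩, rfl⟩ := z1
  have a0 : a • u ≠ 0 := fun e => z0 (by simp [e])
  have e : KL F K (a • u) = KL F K u := Submodule.ext fun x => by
    rw [mem_KL', mem_KL', Submodule.span_singleton_smul_eq (left_ne_zero_of_smul a0).isUnit]
  have e2 : ∀ x, g.1 x ∈ Y ↔ x ∈ Y.map (g⁻¹.1 : V →ₗ[F] V) := fun x =>
    ⟨fun h => ⟨_, h, by simp⟩, by rintro ⟨y, hy, rfl⟩; simpa⟩
  refine ⟨g, hg, a • u, a0, hu.smul a, fun x => by simp [e, Submodule.mem_map_equiv], _,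
    hY.map (H.inv_mem hg), e2, (e2 _).1 z2, hd.trans_le ?_⟩
  rw [e, ← g.1.finrank_map_eq (KL F K u ⊓ _)]
  refine Submodule.finrank_mono ?_
  rintro _ ⟨h1, h⟩
  obtain ⟨y, hy, rfl⟩ := Submodule.mem_map.1 h1
  exact Submodule.mem_map.2 ⟨y, ⟨hy, (e2 y).1 h⟩, rfl⟩

namespace OX
variable [Finite K] (h : OX φ U H)
include h

theorem ts (hX : KM U H X) {y : V} (hx : x ∈ X) (hy : y ∈ X) : S.h x y = 0 := by
  obtain ⟨g, -, w, -, hs, rfl⟩ := hX
  obtain ⟨_, ⟨a, rfl⟩, rfl⟩ := hx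
  obtain ⟨_, ⟨b, rfl⟩, rfl⟩ := hy
  exact (isom_h g _ _).trans (h.hz (by simp [hs.h_self]))

theorem clA (h4 : 4 ≤ finrank K V) (hM : OM U H (d + 1)) (hX : KM U H X) (hY : KM U H Y)
    (hd : d < finrank F (X ⊓ Y : Submodule F V)) (hx : x ∈ Y) (hp : ∀ z ∈ X, S.h z x = 0) : x ∈ X := by
  haveI := h.fd
  obtain ⟨g, hg, u, hu0, hu, e1, Y, hY, e2, huY, hd⟩ := hX.tr hY hd
  obtain ⟨x, rfl⟩ := g.1.surjective x
  rw [e2] at hx
  rw [e1]
  have hux : U.h u x = 0 := h.perpK fun k => by rw [← isom_h g, hp _ ((e1 _).2 (smul_mem_KL k u))]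
  by_contra hx'
  have st : ∀ y, U.h u y = 0 → U.h y x • u ∈ Y → ∃ t ∈ H, ∀ z ∈ Y, t.1 z ∈ Y ∧
      t.1 z = z + U.h u z • y - (U.h y z + U.q y * U.h u z) • u := fun y hy h1 => by
    obtain ⟨t, ht, e⟩ := h.hH _ (U.eich_mem_E u y (U.q y))
    refine ⟨t, ht, fun z hz => ⟨hM.nml hY inf_le_right hd ht ?_ hx ?_ (fun a => hx' a.1) z hz,
      by simp [e, eich_apply (.of_q hu hy)]⟩⟩
    · rintro _ ⟨⟨a, rfl⟩, -⟩
      simp [e, eich_apply_self]
    · simpa [e, eich_apply_of_perp (.of_q hu hy) hux] using Y.sub_mem hx h1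
  have A2 : ∀ z ∈ Y, U.h u z = 0 := fun z hz => by_contra fun c => by
    obtain ⟨y, y1, y2⟩ : ∃ y ∈ U.perp (Submodule.span K {u, x}), y ∉ K ∙ u := by
      by_contra! a
      have := Submodule.finrank_mono a
      have := h.ndK.finrank_perp (Submodule.span K {u, x})
      have := finrank_span_two_le (F := K) u x
      have := finrank_span_one_le (F := K) u
      omega
    rw [mem_perp_pair] at y1
    have a1 := Submodule.finrank_mono (show KL F K y ⊔ KL F K u ≤ KL F K u ⊔ Y from sup_le (by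
      rintro _ ⟨k, rfl⟩
      obtain ⟨t, -, a⟩ := st ((k / U.h u z) • y) (by simp [y1.1]) (by simp [U.h_swap_zero y1.2])
      obtain ⟨a1, a2⟩ := a z hz
      rw [a2, smul_smul, mul_div_cancel₀ _ c, add_sub_assoc, Y.add_mem_iff_right hz] at a1
      simpa using add_mem (Submodule.mem_sup_right a1) (Submodule.mem_sup_left (smul_mem_KL
        (U.h ((k / U.h u z) • y) z + U.q ((k / U.h u z) • y) * U.h u z) u)))
      le_sup_left)
    have a2 := Submodule.finrank_sup_add_finrank_inf_eq (KL F K y) (KL F K u)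
    have a3 := Submodule.finrank_sup_add_finrank_inf_eq (KL F K u) Y
    rw [show KL F K y ⊓ KL F K u = ⊥ from eq_bot_iff.2 (by
      rintro _ ⟨⟨a, rfl⟩, b⟩
      by_contra a0
      exact y2 ((Submodule.smul_mem_iff _ (left_ne_zero_of_smul a0)).1 (mem_KL'.1 b))), finrank_bot,
      finrank_KL (u := y) (by rintro rfl; simp at y2)] at a2
    rw [hY.finrank] at a3
    omega
  obtain ⟨y, y1, y2⟩ := h.ndK.exists_perp_of_notMem (mt mem_KL'.2 hx') 1
  rw [mem_perp_singleton] at y1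
  have A3 : ∀ z ∈ Y, ∃ c : F, algebraMap F K c = U.h y z := fun z hz =>
    mem_range_of_mul h.pr (Y.comap ((LinearMap.toSpanSingleton K V u).restrictScalars F))
      (by simpa) (fun e => hx' ((Submodule.eq_of_le_of_finrank_eq (S₁ := KL F K u) (S₂ := Y)
        (by rintro _ ⟨k, rfl⟩; exact Submodule.eq_top_iff'.1 e k)
        (by rw [finrank_KL hu0, hY.finrank])).ge hx)) fun k hk => by
      obtain ⟨t, -, a⟩ := st (k • y) (by simp [y1]) (by simpa [y2] using hk)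
      obtain ⟨a1, a2⟩ := a z hz
      simpa [a2, A2 z hz, Y.sub_mem_iff_right hz, mul_comm] using a1
  obtain ⟨t, ht, a⟩ := st y y1 (by rwa [y2, one_smul])
  obtain ⟨k, hk, v, v0, hv, rfl⟩ := hY
  obtain ⟨_, ⟨b, rfl⟩, hb⟩ := huY
  obtain ⟨_, ⟨c, rfl⟩, hc⟩ := hx
  obtain ⟨θ, hθ⟩ := ex_one' (F := F) (one_ne_zero (α := K))
  replace hb : k.1 (b • v) = u := hb
  replace hc : k.1 (c • v) = x := hc
  let ψ : Dual F K := -θ ∘ₗ (U.h y).restrictScalars F ∘ₗ (k.1 : V →ₗ[F] V) ∘ₗ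
    (LinearMap.toSpanSingleton K V v).restrictScalars F
  have hψ : ∀ s, ψ s = -θ (U.h y (k.1 (s • v))) := fun _ => rfl
  refine h.not_tv hv v0 (H.mul_mem (H.mul_mem (H.inv_mem hk) ht) hk) (ψ := ψ) (d := b)
    (fun s => k.1.injective ?_) (by rintro rfl; simp [← hb] at hu0)
    (by simp [hψ, hb, U.h_swap_zero y1]) fun e => by simpa [hψ, hc, y2, hθ] using LinearMap.congr_fun e c
  have m : k.1 (s • v) ∈ (KL F K v).map (k.1 : V →ₗ[F] V) := ⟨_, smul_mem_KL s v, rfl⟩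
  obtain ⟨r, hr⟩ := A3 _ m
  rw [isom_mul_apply, isom_mul_apply, isom_apply_inv_self, (a _ m).2, A2 _ m, add_smul s, map_add,
    smul_assoc, k.1.map_smul, hb, hψ, ← hr, Algebra.algebraMap_eq_smul_one r, θ.map_smul, hθ]
  simp [sub_eq_add_neg]

theorem step [Finite F] (h4 : 4 ≤ finrank K V) (hM : OM U H (d + 1)) : OM U H d := by
  haveI := h.fd
  haveI : FiniteDimensional F K := finite_of_finrank_pos h.pr.pos
  intro X Y hX hY hd
  obtain ⟨g, hg, u, hu0, hu, e1, Y', hY', e2, huY, hd⟩ := hX.tr hY hd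
  suffices a : Y' ≤ KL F K u from (Submodule.eq_of_le_of_finrank_eq (fun y hy => by
    obtain ⟨y, rfl⟩ := g.1.surjective y
    exact (e1 _).2 (a ((e2 _).1 hy))) (hY.finrank.trans hX.finrank.symm)).symm
  clear hY e2
  intro x hx
  have A : ∀ z ∈ Y', U.h u z = 0 → z ∈ KL F K u := fun z hz a => h.clA h4 hM (om_kl hu hu0) hY' hd hz
    (by rintro _ ⟨k, rfl⟩; exact h.hz (by simp [a]))
  refine A x hx (by_contra fun c => ?_)
  obtain ⟨θ, hθ⟩ := ex_one' (F := F) hu0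
  let P := U.perp (Submodule.span K {u, x})
  haveI : FiniteDimensional F P := Module.Finite.trans K P
  let Y₁ := Y' ⊓ LinearMap.ker θ
  let s : P →ₗ[F] V := P.subtype.restrictScalars F
  let b : V →ₗ[F] V →ₗ[F] K := U.h.restrictScalars₁₂ F F
  obtain ⟨w, w0, hw⟩ := cw2 (V := P) (W := Dual F Y₁)
    ((b.compl₁₂ s s).compr₂ (((LinearMap.mul F K).compr₂ φ).flip.flip.compl₂
      ((-(U.h u x / 2) • b u) ∘ₗ Y₁.subtype))) ((S.h.compl₁₂ ((U.h u x • LinearMap.id) ∘ₗ s) Y₁.subtype)) (by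
      have a1 := h.ndK.finrank_perp (Submodule.span K {u, x})
      have a2 := finrank_span_two_le (F := K) u x
      have a3 : finrank F Y₁ < finrank F K := hY'.finrank ▸ Submodule.finrank_lt_finrank_of_lt
        (lt_of_le_of_ne inf_le_left fun e => by simpa [hθ] using (e.ge huY).2)
      rw [Subspace.dual_finrank_eq, ← Module.finrank_mul_finrank F K P]
      nlinarith [show 2 ≤ finrank K P by simp only [P]; omega])
  obtain ⟨w1, w2⟩ := U.mem_perp_pair.1 w.2
  obtain ⟨t, ht, e⟩ := h.hH _ (U.eich_mem_E u w (U.q w))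
  have e3 : t.1 x = x + U.h u x • w.1 - (U.q w * U.h u x) • u := by
    simp [e, eich_apply (.of_q hu w1), U.h_swap_zero w2]
  have e4 : ∀ z ∈ Y₁, S.h z (t.1 x) = 0 := fun z hz => by
    have := LinearMap.congr_fun hw ⟨z, hz⟩
    have h2 := h.twoK
    rw [e3, map_sub, map_add, h.ts hY' hz.1 hx, S.orth_symm, ← h.hU z, zero_add,
      sub_eq_add_neg, add_comm, ← map_neg]
    refine Eq.trans (congrArg₂ _ (congrArg φ ?_) rfl) this
    simp [b, s, U.orth_h_self, U.orth_symm z]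
    field_simp
  have := h.clA h4 hM hY' (hY'.map ht) (hd.trans_le (Submodule.finrank_mono fun y hy => ⟨hy.2, y, hy.2, by
    obtain ⟨a, rfl⟩ := hy.1
    simp [e, eich_apply_self]⟩)) ⟨x, hx, rfl⟩ fun z hz => by
      have := e4 (z - θ z • u) ⟨Y'.sub_mem hz (Y'.smul_mem _ huY), by simp [hθ]⟩
      have e5 : S.h u (t.1 x) = 0 := by
        rw [← eich_apply_self u w.1 (U.q w), ← e, isom_h, h.ts hY' huY hx]
      simpa [e5] using this
  replace this : t.1 x ∈ Y' := this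
  rw [e3, add_sub_assoc, Y'.add_mem_iff_right hx] at this
  obtain ⟨a, ha⟩ := mem_KL.1 (A _ this (by simp [w1, hu.h_self]))
  have e6 := congrArg (U.h x) ha
  simp only [map_smul, map_sub, w2, smul_eq_mul, mul_zero, zero_sub, U.orth_symm u x] at e6
  rw [show a = -(U.q w * U.h u x) from mul_right_cancel₀ c (by linear_combination e6), neg_smul] at ha
  exact w0 (Subtype.ext ((smul_eq_zero_iff_right c).1 (by linear_combination (norm := module) -ha)))

theorem pure [Finite F] (h4 : 4 ≤ finrank K V) (hX : KM U H X) (hx : x ∈ X) (hx0 : x ≠ 0) :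
    U.Sing x ∧ X ≤ KL F K x := by
  haveI := h.fd
  have hM : OM U H 0 := Nat.decreasingInduction' (P := OM U H) (fun _ _ _ => h.step h4)
    (Nat.zero_le (finrank F V)) fun X Y _ _ hd => (hd.not_ge (Submodule.finrank_le _)).elim
  have A : ∀ z, U.Sing z → ∀ a : K, a • z ≠ 0 → a • z ∈ X → X = KL F K z := fun z hz a a0 ha =>
    hM _ _ hX (om_kl hz (right_ne_zero_of_smul a0)) (finrank_pos_iff_exists_ne_zero.2
      ⟨⟨a • z, ha, a, rfl⟩, fun e => a0 (congrArg Subtype.val e)⟩)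
  by_cases hs : U.Sing x
  · exact ⟨hs, (A x hs 1 (by simpa) (by simpa)).le⟩
  have xx : U.h x x ≠ 0 := by simpa [U.orth_h_self, h.twoK, orth_sing] using hs
  have nd := h.ndK.restrict_perp (nondeg_singleton xx)
  have f3 := U.le_finrank_ker_h x
  have B : X ≤ KL F K x := fun x' hx' => by
    obtain ⟨e, e1, e2, e3⟩ := iso3_orth U (U.perp (K ∙ x)) (by omega)
    obtain ⟨f, f1⟩ := nd.exists_h_ne_zero (x := ⟨e, e1⟩) (by simpa)
    refine mem_KL'.2 (h.ndK.perp_perp (K ∙ x) ▸ U.mem_perp.2 (span_sing _ e1 f.2 e3 f1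
      (U.h.flip x').toAddMonoidHom.ker fun z z1 z2 => by_contra fun c => ?_))
    replace c : U.h z x' ≠ 0 := c
    have z0 : z ≠ 0 := by rintro rfl; simp at c
    obtain ⟨z', Hy⟩ := nd.exists_isHyp (e := ⟨z, z1⟩) z2 (by simpa)
    have := Hy.finrank_perp
    obtain ⟨y, y1, y2⟩ := orth_exists_q_ne_mem (nd.restrict_perp Hy.nondeg) (by omega)
    replace y1 : U.h z y = 0 := ((U.restrict _).mem_perp_pair.1 y1).1
    replace y2 : U.q y ≠ 0 := y2
    obtain ⟨t, ht, e⟩ := h.hH _ (U.eich_mem_E z y (U.q y))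
    have a := hM.nml hX bot_le (Nat.zero_le _) ht (by simp) hx (by
      rwa [e, eich_apply_of_perp_perp (U.h_swap_zero (U.mem_perp_singleton.1 z1))
        (U.h_swap_zero (U.mem_perp_singleton.1 y.2))]) (by simpa)
    have a1 := X.sub_mem (a _ hx') hx'
    have a2 := X.sub_mem (a _ a1) a1
    rw [e, e, show _ - _ = -(2 * U.h z x' * U.q y) • z by
      simp only [eich_apply (.of_q z2 y1), map_sub, map_add, map_smul, y1, z2.h_self, U.h_swap_zero y1,
        U.orth_h_self y.1, orthP_ε, smul_eq_mul]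
      module] at a2
    rw [A z z2 _ (by simp [h.twoK, c, y2, z0]) a2] at hx
    obtain ⟨k, rfl⟩ := hx
    exact hs (z2.smul k)
  refine absurd (h.perpK fun k => h.ts hX ?_ hx) xx
  exact (Submodule.eq_of_le_of_finrank_eq B (by rw [finrank_KL hx0, hX.finrank])).ge (smul_mem_KL k x)

theorem semi [Finite F] (h4 : 4 ≤ finrank K V) (hg : g ∈ H) (k : K) :
    ∃ l : K, ∀ x, g.1 (k • x) = l • g.1 x := by
  haveI := h.fd
  let A : V →+ V := (g.1 : V →+ V).comp ((DistribSMul.toAddMonoidHom V k).comp (g⁻¹.1 : V →+ V))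
  have p : ∀ g ∈ H, ∀ u, U.Sing u → u ≠ 0 → U.Sing (g.1 u) ∧ ∃ l : K, l • g.1 u = g.1 (k • u) :=
    fun g hg u hu h0 => (h.pure h4 ((om_kl hu h0).map hg) ⟨u, ⟨1, one_smul _ _⟩, rfl⟩ (by simpa)).imp_right
      fun a => a ⟨_, smul_mem_KL k u, rfl⟩
  have hA : ∀ u, U.Sing u → ∃ l : K, l • u = A u := fun u hu => by
    obtain rfl | h0 := eq_or_ne u 0
    · exact ⟨0, by simp⟩
    simpa [A] using (p g hg _ (p _ (H.inv_mem hg) u hu h0).1 (by simpa)).2
  have B : ∀ e f y (a : K), U.IsHyp e f → U.h e y = 0 → U.h f y = 0 → A f = a • f → A y = a • y := by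
    intro e f y a Hy y1 y2 ha
    have s : ∀ y, U.h e y = 0 → U.h f y = 0 → U.Sing ((-U.q y) • e + (1 : K) • f + y) := fun y y1 y2 => by
      simpa [orth_sing] using Hy.q_comb (-U.q y) 1 (U.mem_perp_pair.2 ⟨y1, y2⟩)
    obtain ⟨b, hb⟩ := hA _ (s y y1 y2)
    obtain ⟨b', hb'⟩ := hA _ (s (-y) (by simp [y1]) (by simp [y2]))
    obtain ⟨c, hc⟩ := hA _ (Hy.sing_e.smul (-U.q y))
    simp only [U.orth_q_neg, map_add, map_neg, one_smul, ha, ← hc] at hb hb'
    have e0 := congrArg₂ (· + ·) hb hb'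
    have e1 := congrArg (U.h e) e0
    have e2 := congrArg (U.h f) e0
    simp only [map_add, map_smul, map_neg, Hy.h_ee, Hy.h_ff, Hy.h_ef, Hy.h_fe, y1, y2, smul_eq_mul,
      orthP_ε] at e1 e2
    obtain rfl | e3 := smul_eq_zero.1 (show (b - b') • y = 0 by
      linear_combination (norm := module) e0 - e1 • f - e2 • e) |>.symm
    · simp
    refine smul_right_injective V h.twoK ?_
    linear_combination (norm := module) hb' - hb + e1 • y + e3 • (-U.q y • e + f)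
  obtain ⟨e, f, Hy⟩ := h.ndK.orth_exists_hyp h.three
  obtain ⟨y, -, y1, y2, -, -, -, y0⟩ := h.ex_pair Hy.sing_e Hy.sing_f (by simp [Hy.h_ef])
  replace y0 : y ≠ 0 := by rintro rfl; exact y0 U.orth_q_zero
  obtain ⟨a, ha⟩ := hA f Hy.sing_f
  have C : ∀ e f, U.IsHyp e f → U.h e y = 0 → U.h f y = 0 → ∀ c : K, A (c • f) = a • c • f := by
    intro e' f' Hy' y3 y4 c
    obtain rfl | c0 := eq_or_ne c 0
    · simp
    obtain ⟨b, hb⟩ := hA _ (Hy'.sing_f.smul c)
    rw [← hb, smul_left_injective K y0 ((B (c⁻¹ • e') _ y b ⟨Hy'.sing_e.smul _, Hy'.sing_f.smul _, by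
      simp [Hy'.h_ef, c0]⟩ (by simp [y3]) (by simp [y4]) hb.symm).symm.trans (B e f y a Hy y1 y2 ha.symm))]
  refine ⟨a, fun x => ?_⟩
  obtain ⟨w, hw, hx⟩ := Hy.exists_decomp (g.1 x)
  rw [mem_perp_pair] at hw
  have := C f e (by simpa using Hy.swap) y2 y1
  rw [show g.1 (k • x) = A (g.1 x) by simp [A], hx, map_add, map_add, this, C e f Hy y1 y2,
    B e f w a Hy hw.1 hw.2 ha.symm, smul_add, smul_add]

end OX

open Matrix Cfsg.Geo

theorem oo_fld_max {F : Type*} [Field F] [Fintype F] {ι : Type} [Fintype ι] [DecidableEq ι]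
    (h2 : (2 : F) ≠ 0) (hn : 7 ≤ Fintype.card ι) {Q : (ι → F) → F} (hQ : IsNondegenerateQuadraticForm Q)
    {r : ℕ} (hr : r.Prime) (h4 : 3 * r < Fintype.card ι) {K : Subalgebra F (Matrix ι ι F)}
    (hK : IsFieldSubalgebra r K) (hsa : IsSelfAdjointFor (QuadraticMap.polar Q) K) :
    IsMaximalIn (omegaGL Q) (subalgebraNormalizer K ⊓ omegaGL Q) := by
  have hb := big_omega hQ hn
  haveI := hb.nonempty
  have h1 := hb.not_field hK hr.one_lt
  have hS := quadOf_nondeg hQ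
  have e := omegaGL_eq _ hS hn
  rw [coe_quadOf] at e
  rw [e] at h1 ⊢
  letI := (isField_of hK).toField
  haveI : Finite K := Subtype.finite
  obtain ⟨φ, hφ⟩ := ex_one' (F := F) (one_ne_zero (α := K))
  replace hφ : φ ≠ 0 := by rintro rfl; simp at hφ
  haveI : FiniteDimensional F K := finite_of_finrank_pos (hK.finrank_eq ▸ hr.pos)
  set S := orthS (quadOf hQ)
  obtain ⟨B, hB⟩ := exists_lift_form hφ S.h (RingHom.id K) fun k x y => hsa k k.2 x y
  have h2' : (2 : K) ≠ 0 := fun e => h2 ((algebraMap F K).injective (by rw [map_ofNat, e, map_zero]))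
  let U := symmS h2' B ⟨fun x y => eq_of_dual hφ fun k => by
    have : ∀ x y, φ (k * B x y) = S.h x (k • y) := fun x y => by rw [← hB, map_smul, smul_eq_mul]
    rw [this, this, S.orth_symm]
    exact hsa k k.2 _ _⟩
  have hq : ∀ x, S.q x = φ (U.q x) := fun x => mul_left_cancel₀ h2 (by
    rw [← S.orth_h_self, ← hB, ← smul_eq_mul, ← map_smul, Algebra.smul_def, map_ofNat, ← U.orth_h_self]; rfl)
  let ρ : U.Isom →* S.Isom :=
    { toFun := fun g => ⟨g.1.restrictScalars F, orth_isIsom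
        (f := (g.1.restrictScalars F).toLinearMap) fun x => by rw [hq, hq]; exact congrArg φ (orth_isom_q g x)⟩
      map_one' := rfl
      map_mul' := fun _ _ => rfl }
  have h3 := Module.finrank_mul_finrank F K (ι → F)
  rw [hK.finrank_eq, finrank_fintype_fun_eq_card] at h3
  have h5 : 4 ≤ finrank K (ι → F) := by nlinarith
  obtain ⟨a, b, Hy⟩ := hS.orth_exists_hyp (by simp; omega)
  refine isMaximalIn_of_not_le _ h1 fun H hH => or_iff_not_imp_left.2 fun hE => le_nml ?_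
  rintro _ ⟨g, hg, rfl⟩
  simp only [toGL_mulVec]
  refine OX.semi ⟨hφ, hS, h2, hK.finrank_eq ▸ hr, hB, by omega, fun g hg => ⟨ρ g, hH _ ?_
    (mem_nml_of_comm fun k x => ?_), fun _ => rfl⟩, hE⟩ h5 hg
  · refine (U.E_le_iff (K := S.E.comap ρ)).2 (fun u v a c => ?_) hg
    have c' := c.smul_right 2⁻¹
    have := eich_mul c' c'
    rw [← two_smul K, smul_smul, mul_inv_cancel₀ h2', one_smul,
      ((c'.add c').orth_eq.trans (by rw [← two_smul K, smul_smul, mul_inv_cancel₀ h2', one_smul])).trans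
        c.orth_eq.symm] at this
    rw [Subgroup.mem_comap, hS.mem_E_iff (by simp; omega) Hy, ← this]
    simp
  · rw [toGL_mulVec, toGL_mulVec]; exact map_smul g.1 k x

end H29
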