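import Cfsg.Agent.H29.LGen

/-! Low-dimensional versions (`n ≥ 5`) of the irreducibility lemma (`irr5`) and of the maximality
of similarity groups in `SL_n` (`isMaximalIn_sim5`), and the vector `zs_six`. -/

set_option autoImplicit false
set_option linter.unusedSectionVars false

namespace H29

open Module H11 H11.PForm Matrix Cfsg.Geo

section
variable {F : Type*} [Field F] {σ : F →+* F} {P : FParam σ} {V : Type*} [AddCommGroup V]
  [Module F V] {S : PForm P V} [FiniteDimensional F V]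

theorem ex_perp2 (hS : S.Nondeg) (hn : 5 ≤ finrank F V) (a b c d : V) :
    ∃ v, S.h a v = 0 ∧ S.h b v = 0 ∧ v ∉ Submodule.span F {c, d} := by
  by_contra! h
  have h1 := hS.finrank_perp (Submodule.span F {a, b})
  have h2 := finrank_span_two_le (F := F) a b
  have h3 := finrank_span_two_le (F := F) c d
  have := Submodule.finrank_mono (show S.perp (Submodule.span F {a, b}) ≤ Submodule.span F {c, d}
    from fun v hv => h v (S.mem_perp_pair.1 hv).1 (S.mem_perp_pair.1 hv).2)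
  omega

theorem irr5 (hS : S.Nondeg) (h3 : Iso3 S) (hn : 5 ≤ finrank F V) {u : V}
    (T : AddSubgroup V)
    (hT : ∀ w v a, S.ECond w v a → S.h u w = 0 → S.h u v = 0 → ∀ z ∈ T, (S.eich w v a).1 z ∈ T)
    {z : V} (hz : z ∈ T) (huz : S.h u z = 0) (hzu : z ∉ F ∙ u) {y : V} (hy : S.h u y = 0) : y ∈ T := by
  have step1 : ∀ z ∈ T, ∀ w, S.Sing w → S.h u w = 0 → S.h w z ≠ 0 → ∀ c : F, c • w ∈ T := by
    intro z hz w hw huw hzw c
    obtain ⟨v, a1, a2, a3⟩ := ex_perp2 hS hn u w u w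
    have hc : S.ECond w v (S.q v) := ECond.of_q hw a2
    have h1 := T.sub_mem (hT w v _ hc huw a1 z hz) hz
    rw [eich_apply hc, add_sub_assoc, add_sub_cancel_left] at h1
    obtain ⟨v', hv, hvz⟩ := hS.exists_perp_of_notMem a3 (-(P.ε * c / S.h w z))
    rw [mem_perp_pair] at hv
    have hc' : S.ECond w v' (S.q v') := ECond.of_q hw hv.2
    have h2 := T.sub_mem (hT w v' _ hc' huw hv.1 _ h1) h1
    rw [eich_apply_of_perp hc' (by simp [a2, hw.h_self]), sub_sub_cancel_left] at h2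
    convert h2 using 1
    simp only [map_sub, map_smul, S.h_swap_zero hv.2, hvz, smul_eq_mul, ← neg_smul]
    congr 1
    field_simp
    linear_combination -c * P.εε
  have := finrank_span_one_le (F := F) u
  obtain ⟨w1, hp1, hw1, h1z⟩ := exists_sing_perp_not_perp hS h3 _ (by omega) hzu
  have m1 := step1 z hz w1 hw1 (S.mem_perp_singleton.1 hp1) h1z
  have hw : w1 ∉ F ∙ u := fun hw => by
    obtain ⟨c, rfl⟩ := Submodule.mem_span_singleton.1 hw
    simp [huz] at h1z
  obtain ⟨w2, hp2, hw2, h12⟩ := hS.exists_partner _ hw1 hw hp1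
  rw [mem_perp_singleton] at hp1 hp2
  have m2 := step1 w1 (by simpa using m1 1) w2 hw2 hp2 fun e => by
    simp [S.h_swap_zero e] at h12
  have step2 : ∀ v, S.h u v = 0 → S.h w1 v = 0 → v ∈ T := by
    intro v h1 h2
    have hc : S.ECond w1 v (S.q v) := ECond.of_q hw1 h2
    have h4 := hT w1 v _ hc hp1 h1 w2 (by simpa using m2 1)
    rw [eich_apply hc, h12, one_smul] at h4
    have := T.sub_mem (T.add_mem h4 (m1 (P.ε * (S.h v w2 + S.q v * 1)))) (m2 1)
    simpa using this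
  have := T.add_mem (step2 (y - S.h w1 y • w2) (by simp [hy, hp2]) (by simp [h12]))
    (m2 (S.h w1 y))
  simpa using this

theorem lfull_of_tv5 (hS : S.Nondeg) (h3 : Iso3 S) (hn : 5 ≤ finrank F V)
    (H : Subgroup (V ≃ₗ[F] V)) (hE : ∀ u v a, (S.eich u v a).1 ∈ H) {u z : V} (hu : S.Sing u)
    (hu0 : u ≠ 0) (huz : S.h u z = 0) (hzu : z ∉ F ∙ u) (hz : HasTv H (S.h z) u) (x : V) :
    LFull H x := by
  let T : AddSubgroup V :=
    { carrier := {y | S.h u y = 0 ∧ HasTv H (S.h y) u}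
      add_mem' := fun {a b} ha hb => ⟨by simp [ha.1, hb.1], by
        rw [map_add]; exact ha.2.add hb.2 (S.h_swap_zero ha.1)⟩
      zero_mem' := ⟨by simp, by rw [map_zero]; exact hasTv_zero H u⟩
      neg_mem' := fun {a} ha => ⟨by simp [ha.1], by
        rw [map_neg]; exact ha.2.neg (S.h_swap_zero ha.1)⟩ }
  have hT : ∀ y, S.h u y = 0 → y ∈ T := fun y hy =>
    irr5 hS h3 hn T (fun w v a hc h1 h2 z hz => by
      have hf : (S.eich w v a).1 u = u :=
        eich_apply_of_perp_perp (S.h_swap_zero h1) (S.h_swap_zero h2)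
      refine ⟨by rw [← hf, isom_h]; exact hz.1, ?_⟩
      have := hz.2.conj (hE w v a)
      rw [hf] at this
      convert this using 1
      ext y
      rw [isom_h_left]; rfl) ⟨huz, hz⟩ huz hzu hy
  have hfull : LFull H u := by
    intro φ hφ
    obtain ⟨y, rfl⟩ := hS.exists_h_eq φ
    exact (hT y (S.h_swap_zero hφ)).2
  refine span_sing_top hS h3 (by omega) (lfullSub H).toAddSubgroup (fun y hy => ?_) x
  by_cases hy0 : y = 0
  · rw [hy0]; exact Submodule.zero_mem _
  obtain ⟨g, hg, rfl⟩ := exists_E_vec hS h3 (by omega) hu0 hy0 (P.Λ.sub_mem hy hu)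
  have : S.E ≤ H.comap S.Isom.subtype := S.E_le_iff.2 fun u v a _ => hE u v a
  exact hfull.map (this hg)

theorem lin_dichotomy5 (hS : S.Nondeg) (h3 : Iso3 S) (hn : 5 ≤ finrank F V)
    (H : Subgroup (V ≃ₗ[F] V)) (hE : ∀ u v a, (S.eich u v a).1 ∈ H) :
    (∀ x, LFull H x) ∨ ∀ g ∈ H, ∃ c : F, c ≠ 0 ∧ ∀ x y, S.h (g x) (g y) = c * S.h x y := by
  by_cases hB : ∀ u, S.Sing u → u ≠ 0 → ∀ z, S.h u z = 0 → HasTv H (S.h z) u → z ∈ F ∙ u
  swap
  · push Not at hB
    obtain ⟨u, hu, hu0, z, huz, hz, hzu⟩ := hB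
    exact Or.inl (lfull_of_tv5 hS h3 hn H hE hu hu0 huz hzu hz)
  have A : ∀ g ∈ H, ∀ u, S.Sing u → u ≠ 0 → g u = u → ∀ x, S.h u x = 0 → S.h u (g x) = 0 := by
    intro g hg u hu hu0 e x hx
    obtain ⟨z, hz⟩ := hS.exists_h_eq (S.h u ∘ₗ (g.symm : V →ₗ[F] V))
    have hz' : ∀ x, S.h u (g.symm x) = S.h z x := fun x => by rw [hz]; rfl
    have e' : g.symm u = u := g.symm_apply_eq.2 e.symm
    have a0 : S.h z u = 0 := by rw [← hz', e', hu.h_self]
    by_cases h1 : z ∈ F ∙ u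
    · obtain ⟨c, rfl⟩ := Submodule.mem_span_singleton.1 h1
      have h2 : c ≠ 0 := by
        rintro rfl
        exact hu0 (hS _ fun y => by simpa using hz' (g y))
      simpa [hx, h2] using (hz' (g x)).symm
    obtain ⟨v, a1, a2, a3⟩ := ex_perp2 hS hn u z u z
    have hc := ECond.of_q hu ((hz' v).trans a2)
    obtain ⟨y, b1, b2⟩ := hS.exists_perp_of_notMem' a3 1
    obtain ⟨w, b3, b4⟩ := hS.exists_perp_of_notMem' h1 1
    rw [mem_perp_pair] at b1
    rw [mem_perp_singleton] at b3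
    have := lin_key hS H hE hu (hB u hu hu0) (k := g * (S.eich u (g.symm v) (S.q (g.symm v))).1 * g⁻¹)
      (H.mul_mem (H.mul_mem hg (hE _ _ _)) (H.inv_mem hg))
      (by simp [LinearEquiv.mul_apply, e', e, eich_apply_self])
      (fun x => by simp [LinearEquiv.mul_apply, eich_apply hc, e, a1, hu.h_self]) b3 b1.1
    simp [LinearEquiv.mul_apply, eich_apply hc, e, hz', b1.1, b1.2, b2, b4, hu.h_self,
      S.h_swap_zero b3, S.h_swap_zero a1] at this
  refine Or.inr fun g hg => ?_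
  obtain ⟨B, hA⟩ := exists_gram hS (g : V →ₗ[F] V)
  obtain ⟨c, hc⟩ := scalar_of_sing_eigen hS h3 hn B (fun u hu => by
    by_cases hu0 : u = 0
    · simp [hu0]
    obtain ⟨z, hz⟩ := hS.exists_h_eq (S.h u ∘ₗ (g.symm : V →ₗ[F] V))
    have hz' : ∀ x, S.h u (g.symm x) = S.h z x := fun x => by rw [hz]; rfl
    by_cases h1 : z ∈ F ∙ g u
    · obtain ⟨c, rfl⟩ := Submodule.mem_span_singleton.1 h1
      have h2 : c ≠ 0 := by
        rintro rfl
        exact hu0 (hS _ fun y => by simpa using hz' (g y))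
      refine (Submodule.smul_mem_iff _ h2).1 (Submodule.mem_span_singleton.2 ⟨1, ?_⟩)
      refine hS.ext_left fun y => ?_
      simpa [hA] using hz' (g y)
    have := finrank_span_one_le (F := F) (g u)
    obtain ⟨w, a1, a2, a3⟩ := exists_sing_perp_not_perp hS h3 _ (by omega) h1
    rw [mem_perp_singleton] at a1
    obtain ⟨v, a4, a5, a6⟩ := ex_perp2 hS hn (g u) w z w
    obtain ⟨x, a7, a8⟩ := hS.exists_perp_of_notMem' a6 1
    rw [mem_perp_pair] at a7
    have hc := ECond.of_q a2 a5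
    have := A (g⁻¹ * (S.eich w v (S.q v)).1 * g) (H.mul_mem (H.mul_mem (H.inv_mem hg) (hE _ _ _)) hg)
      u hu hu0 (by simp [LinearEquiv.mul_apply,
        eich_apply_of_perp_perp (S.h_swap_zero a1) (S.h_swap_zero a4)]) (g.symm x)
      ((hz' x).trans a7.1)
    simp [LinearEquiv.mul_apply, eich_apply_of_perp hc a7.2, hz', a7.1, a8, P.ε_ne_zero] at this
    exact (a3 (S.h_swap_zero this)).elim)
  have h1 : ∀ x y, S.h (g x) (g y) = σ c * S.h x y := fun x y => by
    have := hA x y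
    rw [hc] at this
    simpa using this.symm
  refine ⟨σ c, fun h0 => ?_, h1⟩
  obtain ⟨e, -, he0, -⟩ := h3 ⊤ (by rw [finrank_top]; omega)
  apply he0
  have : g e = 0 := hS _ fun y => by
    obtain ⟨y, rfl⟩ := g.surjective y
    rw [h1, h0, zero_mul]
  simpa using this

variable {ι : Type} [Fintype ι] [DecidableEq ι]

theorem isMaximalIn_sim5 {S : PForm P (ι → F)} (hS : S.Nondeg) (h3 : Iso3 S)
    (hn : 5 ≤ Fintype.card ι) (M : Subgroup (GL ι F)) (h1 : ∀ u v a, toGL S (S.eich u v a) ∈ M)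
    (h2 : ∀ g : GL ι F, g ∈ M ↔ ∃ c : F, c ≠ 0 ∧
      ∀ x y, S.h ((g : Matrix ι ι F) *ᵥ x) ((g : Matrix ι ι F) *ᵥ y) = c * S.h x y) :
    Cfsg.Geo.IsMaximalIn (Cfsg.Geo.specialLinear ι F) (M ⊓ Cfsg.Geo.specialLinear ι F) := by
  have : Nontrivial ι := Fintype.one_lt_card_iff_nontrivial.1 (by omega)
  apply isMaximalIn_SL
  · obtain ⟨u, hu, -, hu0⟩ := exists_sing_top hS h3 [] [] (by simp; omega)
    obtain ⟨w, hw, hp, hwu⟩ := exists_sing_top hS h3 [u] [u] (by simp; omega)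
    simp only [List.mem_cons, List.not_mem_nil, or_false, forall_eq,
      Set.setOf_false, Submodule.span_empty, Submodule.mem_bot] at hp hu0
    rw [list_set_one] at hwu
    obtain ⟨g, hg, h⟩ := exists_tv_SL (S.h w) u (S.h_swap_zero hp)
    refine ⟨g, hg, fun hM => ?_⟩
    obtain ⟨c, hc0, hc⟩ := (h2 g).1 hM
    obtain ⟨x, hx, hxw⟩ := hS.exists_perp_of_notMem' hwu 1
    obtain ⟨y, hy, hyu⟩ := hS.exists_perp_of_notMem' (U := Submodule.span F {w, x}) (u := u) (by
      intro hm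
      obtain ⟨a, b, hab⟩ := Submodule.mem_span_pair.1 hm
      have h4 := congrArg (S.h w) hab
      rw [map_add, map_smul, map_smul, hw.h_self, hxw, S.h_swap_zero hp] at h4
      have hb : b = 0 := by simpa using h4
      rw [hb, zero_smul, add_zero] at hab
      have ha : a ≠ 0 := by rintro rfl; exact hu0 (by simpa using hab.symm)
      apply hwu
      rw [Submodule.mem_span_singleton]
      exact ⟨a⁻¹, by rw [← hab, smul_smul, inv_mul_cancel₀ ha, one_smul]⟩) 1
    rw [mem_perp_pair] at hy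
    have := hc x y
    rw [h, h, hxw, hy.1] at this
    simp [hy.2, hyu] at this
  · intro L hL _
    rcases lin_dichotomy5 hS h3 (by simpa using hn) (L.map glEquiv.toMonoidHom) (fun u v a =>
      ⟨toGL S (S.eich u v a), hL ⟨h1 u v a, toGL_eich_mem_SL S u v a⟩, by simp [toGL]⟩) with h | h
    · exact Or.inl (sl_le_of_lfull L h)
    · exact Or.inr fun g hg => (h2 g).2 (h _ ⟨g, hg, rfl⟩)

end

variable {F : Type*} [Field F] [Fintype F] {n : ℕ}

theorem simS_max5 (hn : 5 ≤ n) (f : (Fin n → F) → (Fin n → F) → F) (hf : IsSymplecticForm f) :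
    IsMaximalIn (specialLinear (Fin n) F) (similarityGroup f ⊓ specialLinear (Fin n) F) := by
  have hA : (bilinOf hf.bilinear).IsAlt := fun x => hf.alternating x
  have hS : (sympS _ hA).Nondeg := fun x hx => by
    by_contra h0
    obtain ⟨y, hy⟩ := (hf.nondegenerate x h0).2
    exact hy (hx y)
  refine isMaximalIn_sim5 hS (iso3_symp _) (by simp; omega) _ (fun u v a => ⟨1, fun x y => ?_⟩)
    (fun g => ⟨?_, ?_⟩)
  · simpa using isom_h ((sympS _ hA).eich u v a) x y
  · rintro ⟨c, hc⟩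
    exact ⟨c, c.ne_zero, hc⟩
  · rintro ⟨c, hc0, hc⟩
    exact ⟨Units.mk0 c hc0, hc⟩

theorem simU_max5 (hn : 5 ≤ n) (σ : F ≃+* F) (f : (Fin n → F) → (Fin n → F) → F)
    (hf : IsUnitaryForm σ f) :
    IsMaximalIn (specialLinear (Fin n) F) (similarityGroup f ⊓ specialLinear (Fin n) F) := by
  have hσ : ∀ a, (σ : F →+* F) ((σ : F →+* F) a) = a := hf.involutive
  have hne : (σ : F →+* F) ≠ RingHom.id F := fun h => hf.ne_refl (RingEquiv.ext fun a => by
    simpa using DFunLike.congr_fun h a)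
  let B : (Fin n → F) →ₛₗ[(σ : F →+* F)] (Fin n → F) →ₗ[F] F :=
    LinearMap.mk₂'ₛₗ (σ : F →+* F) (RingHom.id F) (fun x y => f y x)
      (fun x y v => by rw [hf.herm v, hf.add_left, map_add, ← hf.herm, ← hf.herm])
      (fun c x v => by rw [hf.herm v, hf.smul_left, map_mul, ← hf.herm]; rfl)
      (fun v x y => hf.add_left x y v) (fun c v x => hf.smul_left c x v)
  have hB : ∀ x y, B x y = f y x := fun _ _ => rfl
  have hsym : B.IsSymm := ⟨fun x y => by rw [hB, hB]; exact (hf.herm x y).symm⟩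
  have hS : (unitS hσ hne B hsym).Nondeg := fun x hx => by
    by_contra h0
    obtain ⟨y, hy⟩ := (hf.nondegenerate x h0).1
    exact hy (hx y)
  refine isMaximalIn_sim5 hS (iso3_unit hne _) (by simp; omega) _ (fun u v a => ⟨1, fun x y => ?_⟩)
    (fun g => ⟨?_, ?_⟩)
  · simpa [hB] using isom_h ((unitS hσ hne B hsym).eich u v a) y x
  · rintro ⟨c, hc⟩
    exact ⟨c, c.ne_zero, fun x y => hc y x⟩
  · rintro ⟨c, hc0, hc⟩
    exact ⟨Units.mk0 c hc0, fun x y => hc y x⟩

theorem simQ_max5 (hn : 5 ≤ n) (hodd : Odd (Fintype.card F)) (Q : (Fin n → F) → F)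
    (hQ : IsNondegenerateQuadraticForm Q) :
    IsMaximalIn (specialLinear (Fin n) F) (quadSimilarityGroup Q ⊓ specialLinear (Fin n) F) := by
  have h2 := two_ne_zero_of_odd hodd
  refine isMaximalIn_sim5 (quadOf_nondeg hQ) (iso3_orth _) (by simp; omega) _
    (fun u v a => ⟨1, fun x => ?_⟩) (fun g => ⟨?_, ?_⟩)
  · rw [toGL_mulVec, Units.val_one, one_mul]
    exact orth_isom_q ((orthS (quadOf hQ)).eich u v a) x
  · rintro ⟨c, hc⟩
    refine ⟨c, c.ne_zero, fun x y => ?_⟩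
    simp only [orthS_h, QuadraticMap.polar, coe_quadOf, ← Matrix.mulVec_add, hc]
    ring
  · rintro ⟨c, hc0, hc⟩
    refine ⟨Units.mk0 c hc0, fun x => ?_⟩
    have := hc x x
    rw [orth_h_self, orth_h_self] at this
    apply mul_left_cancel₀ h2
    simp only [orthS_q, coe_quadOf] at this
    rw [this]; simp; ring

theorem zs_six (hq : 5 ≤ Fintype.card F) : Zs 6 (1 : F) := by
  by_cases h5 : Fintype.card F = 5
  · have h : (5 : F) = 0 := by simpa [h5] using FiniteField.cast_card_eq_zero F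
    have h2 : (2 : F) ≠ 0 := fun e => one_ne_zero (α := F) (by linear_combination h - 2 * e)
    refine ⟨![2, 2, 1, 2, 2, 1], fun j => by fin_cases j <;> simp [h2], ?_, ?_, fun e => ?_⟩
    · simp [Fin.prod_univ_succ]; linear_combination 3 * h
    · simp [Fin.sum_univ_succ]; linear_combination 2 * h
    · simp [Fin.sum_univ_succ] at e
      field_simp at e
      exact h2 (by linear_combination 4 * e - 6 * h)
  obtain ⟨s, r, a1, a2, a3, a4, a5, a6⟩ : ∃ s r : F, s ≠ 0 ∧ 1 + s ^ 2 ≠ 0 ∧ r ≠ 0 ∧ r ^ 2 - 1 ≠ 0 ∧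
      r ^ 2 + s ^ 2 ≠ 0 ∧ s ^ 2 * r ^ 2 + 1 ≠ 0 := by
    by_cases h2 : (2 : F) = 0
    · obtain ⟨s, b1, b2⟩ := ex_idx2 (by omega) (0 : F) 1
      obtain ⟨r, hr⟩ := ex_idx [0, 1, s, s⁻¹] (by simp; omega)
      simp only [List.mem_cons, List.not_mem_nil, or_false, not_or] at hr
      refine ⟨s, r, b1, fun e => pow_ne_zero 2 (sub_ne_zero.2 b2) ?_, hr.1,
        fun e => pow_ne_zero 2 (sub_ne_zero.2 hr.2.1) ?_,
        fun e => pow_ne_zero 2 (sub_ne_zero.2 hr.2.2.1) ?_, fun e => hr.2.2.2 ?_⟩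
      · linear_combination e - s * h2
      · linear_combination e + (1 - r) * h2
      · linear_combination e - r * s * h2
      · exact eq_inv_of_mul_eq_one_right (sub_eq_zero.1 (pow_eq_zero_iff two_ne_zero |>.1 (by
          linear_combination e - s * r * h2)))
    obtain ⟨i, hi⟩ : ∃ i : F, ∀ r, r ^ 2 + 1 = 0 → r = i ∨ r = -i := by
      by_cases h : ∃ i : F, i ^ 2 + 1 = 0
      · exact h.imp fun i hi r hr => sq_eq_sq_iff_eq_or_eq_neg.1 (by linear_combination hr - hi)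
      · exact ⟨0, fun r hr => (h ⟨r, hr⟩).elim⟩
    obtain ⟨r, hr⟩ := ex_idx [0, 1, -1, i, -i] (by simp; omega)
    simp only [List.mem_cons, List.not_mem_nil, or_false, not_or] at hr
    have b1 : r ^ 2 + 1 ≠ 0 := fun e => (hi r e).elim hr.2.2.2.1 hr.2.2.2.2
    exact ⟨1, r, one_ne_zero, fun e => h2 (by linear_combination e), hr.1,
      fun e => (sq_eq_sq_iff_eq_or_eq_neg.1 (show r ^ 2 = 1 ^ 2 by linear_combination e)).elim hr.2.1 hr.2.2.1,
      by simpa using b1, by simpa using b1⟩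
  obtain ⟨y, hy⟩ : ∃ y, y * (1 + s ^ 2) = r ^ 2 - 1 := ⟨_, div_mul_cancel₀ _ a2⟩
  have b1 : y ≠ 0 := fun e => a4 (by simp [← hy, e])
  refine ⟨![1, y, y * s ^ 2, -r ^ 2, (y * s * r)⁻¹, -(y * s * r)⁻¹],
    fun j => by fin_cases j <;> simp [*], ?_, ?_, fun e => mul_ne_zero a5 (mul_ne_zero a6 b1) ?_⟩
  · simp [Fin.prod_univ_succ]; field_simp
  · simp [Fin.sum_univ_succ]; linear_combination hy
  · simp [Fin.sum_univ_succ, inv_neg] at e
    field_simp at e
    linear_combination (1 + s ^ 2) * y * e - y * s ^ 2 * (r ^ 2 - 1) * hy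

end H29
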