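import Cfsg.Agent.H29.NM

/-! More tools for non-maximality: the element of order three of `GL₂(2)` on a tensor product
(`Big.between_om`), hermitian forms given by powers. -/

set_option autoImplicit false
set_option linter.unusedSectionVars false

namespace H29

open Matrix Cfsg.Geo Module H11 H11.PForm
open scoped Kronecker commutatorElement

variable {F : Type*} [Field F] [Fintype F] {ι κ μ : Type} [Fintype ι] [DecidableEq ι]
  [Fintype κ] [DecidableEq κ] [Fintype μ] [DecidableEq μ]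
  {H : Subgroup (GL ι F)} {G : Matrix ι ι F} {Q : (ι → F) → F} {t k m : ℕ}
  {W : Submodule F (ι → F)} {σ : F →+* F} {ε : F}

local notation "ρ" => RingHom.id _

theorem hf_of_unitPow {q : ℕ} (hq : ∀ x, σ x = x ^ q) (hσ : ∀ a, σ (σ a) = a)
    {f : (ι → F) → (ι → F) → F} (h : IsUnitaryFormPow q f) : ∃ G, f = fm σ G ∧ HF σ 1 G := by
  have h1 : ∀ v w, f v w = σ (f w v) := fun v w => by rw [hq, h.herm]
  have e : f = fm σ (gramMatrix f) := eq_fm h.add_left h.smul_left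
    (fun v x y => by rw [h1, h.add_left, map_add, ← h1, ← h1])
    fun c v x => by rw [h1, h.smul_left, map_mul, ← h1]
  exact ⟨_, e, .of_swap hσ (isUnit_of_nondegForm (e ▸ h.nondegenerate))
    fun x y => by rw [← e, one_mul, ← h1]⟩

theorem Big.between_pow {Ω M : Subgroup (GL ι F)} {Sg : (ι → F) → Prop} {d : ℕ} (hΩ : Big Ω Sg d)
    {w : Matrix ι ι F} (hw : ¬ Sc w) (h1 : ∀ g ∈ M, ∃ e : ℕ, cjA g w = w ^ e) {g : GL ι F}
    (h2 : g ∈ Ω) (h3 : g * w = w * g) (h4 : g ∉ M) : ∃ K, M ⊓ Ω < K ∧ K < Ω := by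
  refine between_pred (fun g => ∃ e : ℕ, cjA g w = w ^ e) ⟨1, by simp⟩
    (fun a b ⟨e, ha⟩ ⟨f, hb⟩ => ⟨e * f, by rw [cjA_mul, hb, map_pow, ha, pow_mul]⟩)
    (fun g hg _ => h1 g hg) ?_ ⟨g, h2, ⟨1, by rw [pow_one, cjA_eq_iff, h3]⟩, h4⟩
  by_contra! h5
  let C : Subgroup (GL ι F) :=
    { carrier := {g | cjA g w = w}
      mul_mem' := fun ha hb => by rw [Set.mem_setOf, cjA_mul, hb, ha]
      one_mem' := cjA_one w
      inv_mem' := fun {g} hg => by
        rw [Set.mem_setOf]; conv_lhs => rw [← show cjA g w = w from hg, cjA_inv_cjA] }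
  have h6 : Ω ≤ C := hΩ.perf ▸ Subgroup.commutator_le.2 fun a ha b hb => by
    obtain ⟨l, hl⟩ := h5 _ (Ω.inv_mem (Ω.mul_mem hb ha))
    obtain ⟨n, hn⟩ := h5 a ha
    obtain ⟨m, hm⟩ := h5 b hb
    have h7 : cjA (b * a) (w ^ l) = w := by rw [← hl, cjA_cjA_inv]
    change cjA _ w = w
    conv_lhs => rw [← h7, ← cjA_mul, show ⁅a, b⁆ * (b * a) = a * b by group]
    conv_rhs => rw [← h7]
    simp only [cjA_mul, map_pow, hm, hn, pow_right_comm w n m]
  exact hw (hΩ.sc w fun g hg => (cjA_eq_iff.1 (h6 hg)).symm)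

/-- an element of order three in characteristic two -/
def om2 (h2 : (2 : F) = 0) : GL (Fin 2) F :=
  ⟨!![0, 1; 1, 1], !![1, 1; 1, 0], by simp [one_add_one_eq_two, h2, one_fin_two],
    by simp [one_add_one_eq_two, h2, one_fin_two]⟩

variable {T : (Fin 2 × μ → F) ≃ₗ[F] (ι → F)}

theorem om2_kr (h : Fintype.card F = 2) (h2 : (2 : F) = 0) (hk : Kr H T) : ∀ g ∈ H, ∃ e : ℕ,
    cjA g (ΦU T (kronU (om2 h2) 1)).1 = (ΦU T (kronU (om2 h2) 1)).1 ^ e := fun g hg => by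
  obtain ⟨a, b, rfl⟩ := hk g hg
  have h0 : ∀ c : F, c = 0 ∨ c = 1 := fun c => (eq_or_ne c 0).imp_right (eq_one_of_card_two h)
  have h3 : (1 : F) + 1 = 0 := one_add_one_eq_two.trans h2
  have h4 : ∀ X : Matrix (Fin 2) (Fin 2) F, X * X = X + 1 → X = om2 h2 ∨
      X = (om2 h2).1 * om2 h2 := fun X => by
    simp only [← Matrix.ext_iff, Fin.forall_fin_two, Matrix.mul_apply, Fin.sum_univ_two,
      Matrix.add_apply, om2]
    rcases h0 (X 0 0) with e | e <;> rcases h0 (X 0 1) with e' | e' <;>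
      rcases h0 (X 1 0) with e'' | e'' <;> rcases h0 (X 1 1) with e''' | e''' <;>
      simp [e, e', e'', e''', h3]
  have h5 : cjA (ΦU T (kronU a b)) (ΦU T (kronU (om2 h2) 1)).1 =
      Φ T (cjA a (om2 h2).1 ⊗ₖ (1 : Matrix μ μ F)) := by
    rw [coe_ΦU, ← Φ_cjA]
    exact congrArg _ ((cjA_kron a b _ _).trans (by rw [Units.val_one, map_one]))
  rw [h5]
  rcases h4 (cjA a (om2 h2).1) (by
    rw [← map_mul, ← map_one (cjA a), ← map_add]
    congr 1
    simp [om2, one_fin_two, h3]) with e | e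
  · exact ⟨1, by rw [e, pow_one]; rfl⟩
  · refine ⟨2, ?_⟩
    rw [e, sq, coe_ΦU, ← map_mul]
    exact congrArg _ (by rw [← mul_one (1 : Matrix μ μ F), mul_kronecker_mul]; rfl)

theorem mem_of_pt' {T : (κ × μ → F) ≃ₗ[F] (ι → F)} {w w' : κ → F} {u u' : μ → F}
    (h : pt T w u = pt T w' u') (h0 : u' ≠ 0) : w' ∈ F ∙ w := by
  obtain ⟨i, hi⟩ := Function.ne_iff.1 h0
  refine Submodule.mem_span_singleton.2 ⟨u i / u' i, funext fun j => ?_⟩
  have := congrFun (T.injective h) (j, i)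
  simp only [Pi.zero_apply] at hi
  simp only [Pi.smul_apply, smul_eq_mul]
  field_simp
  exact (mul_comm _ _).trans (this.trans (mul_comm _ _))

theorem kron_pure {T : (κ × μ → F) ≃ₗ[F] (ι → F)} {g : GL ι F} {u : μ → F} (h0 : u ≠ 0)
    (h1 : ∀ w, g.1 *ᵥ pt T w u = pt T w u) {a : GL κ F} {b : GL μ F} (e : g = ΦU T (kronU a b))
    (w : κ → F) (x : μ → F) : ∃ y, g.1 *ᵥ pt T w x = pt T w y := by
  subst e
  obtain ⟨c, hc⟩ := Submodule.mem_span_singleton.1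
    (mem_of_pt' ((h1 w).symm.trans (pt_kron _ _ _ _)) (mulVec_ne_zero b h0))
  exact ⟨_, by rw [pt_kron, ← hc, pt_smul_left, pt_smul_right]⟩

theorem om2_not_sc [Nonempty μ] (h2 : (2 : F) = 0) : ¬ Sc (ΦU T (kronU (om2 h2) 1)).1 := fun h => by
  obtain ⟨c, hc⟩ := sc_Φ h
  obtain ⟨i⟩ := ‹Nonempty μ›
  simpa [kronU, om2] using congrFun₂ hc (0, i) (1, i)

end H29
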