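import Cfsg.Agent.H29.ExtU
import Cfsg.Agent.H29.Lin5
import Cfsg.Agent.H29.NM2
import Cfsg.Agent.H29.NDOrth

/-! Small-dimensional versions for orthogonal groups: `GU_m` in `Ω_2m` for `m ≥ 5` (`oo_gu_max`),
non-singular points in characteristic two (`oo_nsv_max`), non-degenerate subspaces (`oo_nd_max`),
non-isometric halves (`oo_noniso_max`). -/

set_option autoImplicit false
set_option linter.unusedSectionVars false

namespace H29

open Module H11 H11.PForm Matrix

section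
variable {F K V : Type*} [Field F] [Field K] [Algebra F K] [AddCommGroup V] [Module F V]
  [Module K V] [IsScalarTower F K V]

variable [FiniteDimensional F V] [Finite K] {τ : K →+* K} {hτ : ∀ k, τ (τ k) = k}
  {U : PForm (unitP τ hτ) V}

theorem semi_of_sing5 [FiniteDimensional K V] (hU : U.Nondeg) (hne : τ ≠ RingHom.id K)
    (hn : 5 ≤ finrank K V) {g : V ≃ₗ[F] V}
    (hg : ∀ u, U.Sing u → ∀ k : K, g.symm (k • u) ∈ K ∙ g.symm u) (k : K) :
    ∃ l : K, ∀ x, g (k • x) = l • g x := by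
  have h3 := iso3_unit hne U
  let A : V →+ V := (g : V →+ V).comp ((DistribSMul.toAddMonoidHom V k).comp (g.symm : V →+ V))
  have hA : ∀ u, U.Sing u → ∃ l : K, l • u = A u := fun u hu => by
    obtain rfl | h0 := eq_or_ne u 0
    · exact ⟨0, by simp⟩
    obtain ⟨_, ⟨l, rfl⟩, h⟩ : k • g.symm u ∈ (KL F K u).map (g.symm : V →ₗ[F] V) :=
      Submodule.eq_of_le_of_finrank_eq (S₁ := (KL F K u).map (g.symm : V →ₗ[F] V))
        (by rintro _ ⟨_, ⟨l, rfl⟩, rfl⟩; exact mem_KL'.2 (hg u hu l)) (by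
        rw [LinearEquiv.finrank_map_eq, finrank_KL h0, finrank_KL (by simpa)]) ▸ smul_mem_KL k _
    exact ⟨l, by simp [A, ← h]⟩
  have K2 : ∀ x y (a b : K), U.Sing x → U.Sing y → U.h x y ≠ 0 → a • x = A x → b • y = A y → a = b :=
    fun x y a b hx hy xy ha hb => by
      obtain ⟨w, hw, hp, hw0⟩ := exists_sing_top hU h3 [x, y] [] (by simpa using hn)
      simp only [List.mem_cons, List.not_mem_nil, or_false, forall_eq_or_imp, forall_eq] at hp
      have n : ∀ x y, U.h y x ≠ 0 → U.h y w = 0 → w ∉ K ∙ x := fun x y h1 h2 m => by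
        obtain ⟨c, rfl⟩ := Submodule.mem_span_singleton.1 m
        simp [h1] at h2
        simp [h2] at hw0
      obtain ⟨c, hc⟩ := hA w hw
      obtain ⟨a', ha'⟩ := hA _ (hx.add hw hp.1)
      obtain ⟨b', hb'⟩ := hA _ (hy.add hw hp.2)
      exact (eq_of_eigen A (by rintro rfl; simp at xy) (n x y (fun e => xy (U.h_swap_zero e)) hp.2)
        ha.symm hc.symm ha'.symm).trans (eq_of_eigen A (by rintro rfl; simp at xy) (n y x xy hp.1)
        hb.symm hc.symm hb'.symm).symm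
  obtain ⟨e, -, he0, he⟩ := h3 ⊤ (by rw [finrank_top]; omega)
  obtain ⟨c, hc⟩ := hA e he
  suffices h : ∀ x, A x = c • x from ⟨c, fun x => by simpa [A] using h (g x)⟩
  intro x
  have := span_sing_top hU h3 (by omega) (A - DistribSMul.toAddMonoidHom V c).ker (fun y hy => by
    obtain rfl | hy0 := eq_or_ne y 0
    · exact AddSubgroup.zero_mem _
    obtain ⟨z, hz, z1, z2⟩ := hU.exists_common (unit_rich hne U 3) he he0 hy hy0
    obtain ⟨a, ha⟩ := hA z hz
    obtain ⟨b, hb⟩ := hA y hy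
    simp [← hb, ← K2 z e a c hz he z1 ha hc, K2 z y a b hz hy z2 ha hb]) x
  simpa [sub_eq_zero] using this

theorem orth_ext5 {S : PForm (orthP F) V} (hS : S.Nondeg) (hne : τ ≠ RingHom.id K)
    (hfix : ∀ k, τ k = k ↔ ∃ c, algebraMap F K c = k)
    (hU : ∀ x y, algebraMap F K (S.h x y) = U.h x y + τ (U.h x y))
    (hq : ∀ x, algebraMap F K (S.q x) = U.h x x) (hn : 5 ≤ finrank K V) (H : Subgroup S.Isom)
    (hH : ∀ g ∈ U.E, ∃ g' ∈ H, ∀ x, g'.1 x = g.1 x) :
    S.E ≤ H ∨ ∀ g ∈ H, ∀ k : K, ∃ l : K, ∀ x, g.1 (k • x) = l • g.1 x := by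
  haveI : FiniteDimensional K V := Module.Finite.of_restrictScalars_finite F K V
  have h0 : ∀ x y, U.h x y = 0 → S.h x y = 0 := fun x y h => by simpa [h] using hU x y
  have hU' : U.Nondeg := fun x hx => hS x fun y => h0 _ _ (hx y)
  have h3 := iso3_unit hne U
  have hs : ∀ x, S.Sing x ↔ U.Sing x := fun x => by rw [orth_sing, unit_sing, ← hq, map_eq_zero]
  by_cases hc : ∀ g ∈ H, ∀ u, U.Sing u → ∀ k : K, g.1 (k • u) ∈ K ∙ g.1 u
  · exact .inr fun g hg => semi_of_sing5 hU' hne hn (g := g.1) (hc g⁻¹ (H.inv_mem hg))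
  left
  have tr : ∀ u u', u ≠ 0 → u' ≠ 0 → U.Sing u → U.Sing u' →
      ∃ n ∈ U.E, n.1 u = u' := fun u u' h h' h1 h2 =>
    exists_E_vec hU' h3 (by omega) h h' ((unitP τ hτ).Λ.sub_mem h2 h1)
  obtain ⟨h, hh, u, hu, k, h1, h2⟩ : ∃ h ∈ H, ∃ u, U.Sing u ∧ ∃ k : K, h.1 (k • u) ∉ K ∙ u ∧
      h.1 u = u := by
    push Not at hc
    obtain ⟨g, hg, u, hu, k, h1⟩ := hc
    have hu0 : u ≠ 0 := by rintro rfl; simp at h1
    obtain ⟨n, h2, h4⟩ := tr (g.1 u) u (by simpa) hu0 (by rwa [← hs, isom_sing, hs]) hu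
    obtain ⟨n', h5, h6⟩ := hH n h2
    refine ⟨n' * g, H.mul_mem h5 hg, u, hu, k, fun h7 => h1 ?_, by rw [isom_mul_apply, h6, h4]⟩
    obtain ⟨l, hl⟩ := Submodule.mem_span_singleton.1 h7
    rw [isom_mul_apply, h6, ← h4, ← map_smul, h4, n.1.injective.eq_iff] at hl
    exact hl ▸ Submodule.smul_mem _ _ (Submodule.mem_span_singleton_self _)
  have hu0 : u ≠ 0 := by rintro rfl; simp at h1
  have hu' := (hs u).2 hu
  let B : Submodule F V :=
    { carrier := {v | ∀ c : F, c • v ∈ BSet H hu'}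
      add_mem' := fun h1 h2 c => by rw [smul_add]; exact AddSubgroup.add_mem _ (h1 c) (h2 c)
      zero_mem' := fun c => by simp
      smul_mem' := fun a v h c => by rw [smul_smul]; exact h _ }
  have b1 : ∀ l : K, l • u ∈ B := fun l c => by
    rw [← smul_assoc]
    generalize c • l = l
    have e : S.ECond u (l • u) 0 := ⟨hu', h0 _ _ (by simp [hu.h_self]), by
      simpa [orth_sing] using (hs _).2 (hu.smul l)⟩
    obtain ⟨g, hg, h4⟩ := hH _ (U.eich_mem_E u 0 (τ l - l))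
    refine ⟨0, e, (isom_ext fun x => ?_ : g = S.eich u (l • u) 0) ▸ hg⟩
    rw [h4, transv_apply hu (by simp [mem_unitP_Λ, hτ]), eich_apply e, ← algebraMap_smul K (S.h u x),
      ← algebraMap_smul K (_ * _ : F)]
    simp only [map_mul, map_add, hU, h_smul_left, hτ, orthP_ε, unitP_ε, map_zero, map_one]
    module
  have b2 : ∀ g ∈ H, g.1 u = u → ∀ v ∈ B, g.1 v ∈ B := fun g hg e v hv c =>
    map_smul g.1 c v ▸ BSet_map (hv c) hg e
  have b3 : ∀ w v a, U.h u w = 0 → U.h u v = 0 ∨ w = u → ∀ z ∈ B, (U.eich w v a).1 z ∈ B :=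
    fun w v a h4 h5 z hz => by
      obtain ⟨g, hg, h6⟩ := hH _ (U.eich_mem_E w v a)
      refine h6 z ▸ b2 g hg ?_ z hz
      rw [h6]
      rcases h5 with h5 | rfl
      exacts [eich_apply_of_perp_perp (U.h_swap_zero h4) (U.h_swap_zero h5), eich_apply_self _ _ _]
  have b4 := b2 h hh h2 _ (b1 k)
  obtain ⟨z, z1, z2, z3⟩ : ∃ z ∈ B, U.h u z = 0 ∧ z ∉ K ∙ u := by
    by_cases h4 : U.h u (h.1 (k • u)) = 0
    · exact ⟨_, b4, h4, h1⟩
    obtain ⟨y, -, hy, hy'⟩ := exists_sing_top hU' h3 [u] [u] (by simp; omega)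
    rw [list_set_one] at hy'
    have h5 := hy u (by simp)
    have := b3 u y (U.q y) hu.h_self (.inr rfl) _ b4
    rw [eich_apply (.of_q hu h5), Submodule.sub_mem_iff_left _ (b1 _), B.add_mem_iff_right b4] at this
    exact ⟨_, this, by simp [h5], by rwa [Submodule.smul_mem_iff _ h4]⟩
  have b5 : ∀ y, U.h u y = 0 → y ∈ B := fun y hy =>
    irr5 hU' h3 hn B.toAddSubgroup (fun w v a _ h4 h5 => b3 w v a h4 (.inl h5)) z1 z2 z3 hy
  obtain ⟨v, v1, v2⟩ : ∃ v ∈ B, U.h u v ≠ 0 := by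
    obtain ⟨s, hs⟩ := exists_trace_one hτ hne
    obtain ⟨y, h4, h5⟩ := hU'.exists_perp_of_notMem' h1 s
    refine ⟨_, b2 _ (H.inv_mem hh) (by rw [← h2, isom_inv_apply_self, h2]) y
      (b5 y (U.mem_perp_singleton.1 h4)), fun e => ?_⟩
    have := hU (h.1 (k • u)) y
    rw [h5, hs, isom_h_left, h0 _ _ (by rw [h_smul_left, e, mul_zero])] at this
    simp at this
  have full : Full H u := full_of_BSet hu' (fun x hx => by
    have h4 := hU u x
    have h5 := hU u v
    rw [BSet_perp (by simpa using v1 1), map_zero] at h5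
    rw [hx, map_zero] at h4
    obtain ⟨c, hc⟩ := (hfix (U.h u x / U.h u v)).1 (by
      rw [map_div₀, eq_neg_of_add_eq_zero_right h4.symm, eq_neg_of_add_eq_zero_right h5.symm, neg_div_neg_eq])
    have := B.add_mem (b5 (x - c • v) (by
      rw [← algebraMap_smul K, map_sub, map_smul, hc, smul_eq_mul, div_mul_cancel₀ _ v2, sub_self]))
      (B.smul_mem c v1) 1
    simpa using this) fun a ha => by simp [show a = 0 from ha, eich_zero]
  refine S.E_le_iff.2 fun x y a e => ?_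
  obtain rfl | hx := eq_or_ne x 0
  · exact full_zero H y a
  obtain ⟨n, h4, rfl⟩ := tr u x hu0 hx hu ((hs x).1 e.sing)
  obtain ⟨n', h5, h6⟩ := hH n h4
  exact h6 u ▸ full.map h5 y a

theorem unit_E_le [FiniteDimensional K V] (hne : τ ≠ RingHom.id K) (hU : U.Nondeg)
    (hn : 4 ≤ finrank K V) : U.E ≤ commutator U.Isom := by
  have := hU.unit_commutator_eq_top hne (by omega) rfl (hU.unit_T_eq_E_of_dim hne (by omega))
  rw [← U.E.range_subtype, MonoidHom.range_eq_map, ← this, Subgroup.map_subtype_commutator]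
  exact Subgroup.commutator_mono le_top le_top

end

theorem oo_gu_max {F : Type*} [Field F] [Fintype F] {n : ℕ} (hn : 10 ≤ n) (Q : (Fin n → F) → F) (hQ : Cfsg.Geo.IsNondegenerateQuadraticForm Q) (K : Subalgebra F (Matrix (Fin n) (Fin n) F)) (hK : Cfsg.Geo.IsFieldSubalgebra 2 K) (hac : Cfsg.Geo.IsAdjointClosedFor (QuadraticMap.polar Q) K) (hnsa : ¬ Cfsg.Geo.IsSelfAdjointFor (QuadraticMap.polar Q) K) (hsc : ∀ k ∈ K, ∃ c : F, ∀ v : (Fin n → F), Q (Matrix.mulVec k v) = c * Q v) : Cfsg.Geo.IsMaximalIn (Cfsg.Geo.omegaGL Q) (Cfsg.Geo.subalgebraNormalizer K ⊓ Cfsg.Geo.omegaGL Q) := by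
  have hb := big_omega hQ (by simp; omega)
  haveI := hb.nonempty
  have h1 := hb.not_field hK one_lt_two
  have hS := quadOf_nondeg hQ
  have e := omegaGL_eq _ hS (by simp; omega)
  rw [coe_quadOf] at e
  rw [e] at h1 ⊢
  letI := (isField_of hK).toField
  haveI : Finite K := Subtype.finite
  obtain ⟨τ, hτ, θ, U, hne, hfix, h0, -, hθ, hU⟩ := exists_unit_form (K := K) hS hK.finrank_eq
    (fun k => let ⟨k', h, e⟩ := hac k k.2; ⟨⟨k', h⟩, e⟩) fun h => hnsa fun k hk => h ⟨k, hk⟩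
  obtain rfl := hθ rfl
  simp only [one_mul] at hU
  have inj := (algebraMap F K).injective
  have hq : ∀ x, algebraMap F K ((orthS (quadOf hQ)).q x) = U.h x x := by
    obtain ⟨s, hs⟩ := exists_trace_one hτ hne
    obtain ⟨c, hc⟩ := hsc _ s.2
    obtain ⟨d, hd⟩ := hsc _ (1 + s).2
    have h2 : ∀ x, algebraMap F K ((d - 1 - c) * Q x) = U.h x x := fun x => by
      have h3 := hU x (s • x)
      have h4 : Q (x + s • x) = d * Q x := by rw [← hd, ← one_smul K x, smul_smul, ← add_smul]; simp; rfl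
      rw [orthS_h, QuadraticMap.polar, coe_quadOf, h4, show Q (s • x) = c * Q x from hc x, map_smul,
        smul_eq_mul, map_mul, unit_h_self_fixed, ← add_mul, hs, one_mul] at h3
      rw [← h3]
      congr 1
      ring
    obtain ⟨x, hx⟩ := exists_ne (0 : Fin n → F)
    obtain ⟨y, hy⟩ := hS.exists_h_eq_one hx
    have h3 := h2 (x + y)
    simp only [map_add, LinearMap.add_apply, ← h2, U.unit_symm x y] at h3
    have h4 : Q (x + y) - Q x - Q y = 1 := hy
    have h6 : (d - 1 - c) * Q (x + y) = (d - 1 - c) * Q x + (d - 1 - c) * Q y + 1 := inj (by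
      rw [map_add, map_add, h3, ← hy, hU]; ring)
    have h5 : d - 1 - c = 1 := by linear_combination h6 - (d - 1 - c) * h4
    simp only [h5, one_mul] at h2
    exact h2
  have h2 := Module.finrank_mul_finrank F K (Fin n → F)
  rw [hK.finrank_eq, finrank_fintype_fun_eq_card, Fintype.card_fin] at h2
  let ρ : U.Isom →* (orthS (quadOf hQ)).Isom :=
    { toFun := fun g => ⟨g.1.restrictScalars F, orth_isIsom
        (f := (g.1.restrictScalars F).toLinearMap) fun x => inj (by rw [hq, hq]; exact isom_h g x x)⟩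
      map_one' := rfl
      map_mul' := fun _ _ => rfl }
  haveI : FiniteDimensional K (Fin n → F) := Module.Finite.of_restrictScalars_finite F K _
  have hU' : U.Nondeg := fun x hx => hS x fun y => by simpa [hx y] using hU x y
  refine isMaximalIn_of_not_le _ h1 fun H hH => (orth_ext5 hS hne hfix hU hq (by omega) H fun g hg =>
    ⟨ρ g, hH _ ?_ (mem_nml_of_comm fun k x => ?_), fun _ => rfl⟩).imp_right fun h => le_nml ?_
  · rw [orth_E_eq hS (by simp; omega)]
    exact Subgroup.map_commutator _ _ ρ ▸ Subgroup.mem_map_of_mem ρ (unit_E_le hne hU' (by omega) hg) |> Subgroup.commutator_mono le_top le_top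
  · rw [toGL_mulVec, toGL_mulVec]; exact map_smul g.1 k x
  · rintro _ ⟨g, hg, rfl⟩
    simp only [toGL_mulVec]
    exact h g hg

theorem oo_nsv_max {F : Type*} [Field F] [Fintype F] {n : ℕ} (hn : 7 ≤ n) (Q : (Fin n → F) → F) (hQ : Cfsg.Geo.IsNondegenerateQuadraticForm Q) (hchar : ¬ Odd (Fintype.card F)) (v : (Fin n → F)) (hv : Q v ≠ 0) : Cfsg.Geo.IsMaximalIn (Cfsg.Geo.omegaGL Q) (Cfsg.Geo.subspaceStabilizer (Submodule.span F {v}) ⊓ Cfsg.Geo.omegaGL Q) := by
  obtain ⟨G, h⟩ := exists_qInv hQ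
  have h2 := two_eq_of_not_odd hchar
  have hS := h.nondeg
  have h3 := iso3_orth h.S
  have hv0 : v ≠ 0 := by rintro rfl; exact hv h.zero
  have hd : finrank F (Fin n → F) = n := by simp
  rw [h.omega_eq (by simp; omega)]
  refine isMaximalIn_EGL h.S _ ?_ fun H hH _ => ?_
  · obtain ⟨g, g1, g2⟩ := exists_E_indep hS h3 (by omega) hv0
    exact ⟨g, g1, fun e => g2 ((((mem_subspaceStabilizer_toGL _ _ _).1 e) v).1
      (Submodule.mem_span_singleton_self v))⟩
  rw [comap_subspaceStabilizer] at hH ⊢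
  have hE : ∀ u w a, h.S.h u v = 0 → h.S.h w v = 0 → h.S.eich u w a ∈ H := fun u w a b c =>
    hH ⟨mem_stab_of_le fun x hx => by
      obtain ⟨c, rfl⟩ := Submodule.mem_span_singleton.1 hx
      rw [map_smul, eich_apply_of_perp_perp b ‹_›]
      exact hx, eich_mem_E _ _ _ _⟩
  have hB : ∀ u (hu : h.S.Sing u) y, h.S.h u v = 0 → h.S.h y v = 0 → h.S.h u y = 0 →
      y ∈ BSet H hu := fun u hu y a b c => ⟨_, ⟨hu, c, by rw [sub_self]; exact zero_mem _⟩,
        hE u y (h.S.q y) a b⟩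
  by_cases hc : ∀ u (hu : h.S.Sing u), u ≠ 0 → h.S.h u v = 0 → ∀ z ∈ BSet H hu, h.S.h z v = 0
  · refine .inr fun g hg => mem_stab_of_le fun x hx => ?_
    obtain ⟨c, rfl⟩ := Submodule.mem_span_singleton.1 hx
    rw [map_smul]
    refine Submodule.smul_mem _ _ ?_
    obtain ⟨u, u1, u2, u3⟩ := exists_sing_top hS h3 [v, g.1 v] [v, g.1 v] (by simp; omega)
    rw [list_set_two] at u3
    have u4 := h.S.h_swap_zero (u2 v (by simp))
    have u5 := h.S.h_swap_zero (u2 (g.1 v) (by simp))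
    have : v ∈ Submodule.span F {u, g.1 v} := by_contra fun e => by
      obtain ⟨y, y1, y2, y3⟩ := h.hf.exists_sep2 e
      rw [← h.S_h] at y1 y2 y3
      refine y3 (hc u u1 (by rintro rfl; simp at u3) u4 y ?_)
      have := BSet_map (hu' := u1) (hB _ ((isom_sing g⁻¹ _).2 u1) ((g⁻¹).1 y) (by rwa [← isom_h_right])
        (by rwa [← isom_h_right]) (by rw [isom_h]; exact h.S.h_swap_zero y1)) hg
        (isom_apply_inv_self _ _)
      rwa [isom_apply_inv_self] at this
    obtain ⟨a, b, e⟩ := Submodule.mem_span_pair.1 this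
    obtain rfl : a = 0 := by_contra fun ha => u3 ((Submodule.smul_mem_iff _ ha).1 (by
      rw [eq_sub_of_add_eq e]
      exact sub_mem (Submodule.subset_span (by simp))
        (Submodule.smul_mem _ _ (Submodule.subset_span (by simp)))))
    rw [zero_smul, zero_add] at e
    exact Submodule.mem_span_singleton.2 ⟨b⁻¹, (inv_smul_eq_iff₀
      (left_ne_zero_of_smul (e ▸ hv0))).2 e.symm⟩
  push Not at hc
  obtain ⟨u, hu, u0, u1, z, hz, z1⟩ := hc
  obtain ⟨f, f1, f2⟩ := h.hf.exists_sep1 (u := u) (w := v) fun e => by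
    obtain ⟨c, rfl⟩ := Submodule.mem_span_singleton.1 e
    exact hv (by rw [h.smul, show Q u = 0 from (orth_sing _ u).1 hu, mul_zero])
  obtain ⟨a1, a2⟩ := h.nd_pair h2 (x := (fm (RingHom.id F) G f v)⁻¹ • f) (y := v)
    (by rw [fm_smul_left, inv_mul_cancel₀ f2])
  set A := Submodule.span F {(fm (RingHom.id F) G f v)⁻¹ • f, v}
  have hW := hS.restrict_perp (h.nd a1)
  have a3 := hS.finrank_perp A
  have a4 : ∀ x ∈ h.S.perp A, h.S.h x v = 0 := fun x hx =>
    h.S.h_swap_zero (hx v (Submodule.subset_span (by simp)))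
  have a5 : u ∈ h.S.perp A := (mem_perp_pair _).2 ⟨by simp [h.S_h, fm_smul_left, f1],
    h.S.h_swap_zero u1⟩
  have key := fun x y => exists_EW (H := H) (x := x) (y := y) h3 hW (by omega)
    fun u hu w hw a => hE u w a (a4 u hu) (a4 w hw)
  have hF : Full H u := full_of_BSet hu (fun y hy => by
    obtain e | e := eq_or_ne (h.S.h y v) 0
    · exact hB u hu y u1 e hy
    have hc := div_ne_zero e z1
    obtain ⟨g, g1, g2, g3, -⟩ := key u _ a5 (Submodule.smul_mem _ (h.S.h y v / h.S.h z v) a5) u0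
      (smul_ne_zero hc u0) (sub_mem (hu.smul _) hu)
    have b1 := BSet_smul (hu := hu) hc (BSet_map (hu' := hu.smul _) hz g1 g2)
    have g4 := g3 v (h.S.le_perp_perp A (Submodule.subset_span (by simp)))
    have g5 : h.S.h (g.1 z) v = h.S.h z v := by conv_lhs => rw [← g4, isom_h]
    rw [← sub_add_cancel y ((RingHom.id F) (h.S.h y v / h.S.h z v) • g.1 z)]
    exact add_mem (hB u hu _ u1 (by
      rw [map_sub, LinearMap.sub_apply, h_smul_left, g5]; simp only [RingHom.id_apply, div_mul_cancel₀ _ z1, sub_self])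
      (by rw [map_sub, hy, BSet_perp b1, sub_zero])) b1) fun a _ => hE u 0 a u1 (by simp)
  obtain ⟨w, w1, w2⟩ := exists_partner_mem hW a5 u0 hu
  obtain ⟨g, g1, g2, -⟩ := key u w a5 w1 u0 (by rintro rfl; simpa using w2.h_ef) (sub_mem w2.sing_f hu)
  exact .inl (h.S.E_le_iff.2 fun x y a _ => full_all_of_pair hS hu w2.sing_f hF (g2 ▸ hF.map g1)
    (by rw [w2.h_ef]; exact one_ne_zero) x y a)

theorem oo_nd_max {F : Type*} [Field F] [Fintype F] {n : ℕ} (hn : 9 ≤ n) {Q : (Fin n → F) → F}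
    (hQ : Cfsg.Geo.IsNondegenerateQuadraticForm Q) (W : Submodule F (Fin n → F)) (hW0 : W ≠ ⊥)
    (hW1 : W ≠ ⊤) (hW : Cfsg.Geo.IsNondegenerateOn (QuadraticMap.polar Q) W)
    (hdim : 2 * finrank F W = n → ∀ g : (orthS (quadOf hQ)).Isom,
      ¬ ∀ x ∈ W, g.1 x ∈ (orthS (quadOf hQ)).perp W)
    (hex : ¬ (Fintype.card F ≤ 3 ∧ (∃ U : Submodule F (Fin n → F), finrank F U = 2 ∧
      Cfsg.Geo.IsNondegenerateOn (QuadraticMap.polar Q) U ∧ Cfsg.Geo.IsPlusTypeOn Q U ∧
      (U = W ∨ (Cfsg.Geo.AreOrthogonalFor (QuadraticMap.polar Q) U W ∧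
        finrank F U + finrank F W = n))))) (M : Subgroup (GL (Fin n) F))
    (hM : M.comap (toGL (orthS (quadOf hQ))) = (orthS (quadOf hQ)).stab W) :
    Cfsg.Geo.IsMaximalIn (Cfsg.Geo.omegaGL Q) (M ⊓ Cfsg.Geo.omegaGL Q) := by
  have hS := quadOf_nondeg hQ
  have hW' := restrict_nondeg_of_on (orthS (quadOf hQ)) (fun x y h => h) hW
  rw [← coe_quadOf hQ, omegaGL_eq _ hS (by simp; omega)]
  have h1 := hS.finrank_perp W
  simp only [Module.finrank_fintype_fun_eq_card, Fintype.card_fin] at h1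
  have i1 := orth_irr_of_hex hQ hW' (fun h => hex ⟨h.1, W, h.2.1, h.2.2.1, h.2.2.2, Or.inl rfl⟩)
  have i2 := orth_irr_of_hex hQ (hS.restrict_perp hW') (fun h => hex ⟨h.1, _, h.2.1, h.2.2.1,
    h.2.2.2, Or.inr ⟨fun u hu v hv => (orthS (quadOf hQ)).h_swap_zero (hu v hv), by omega⟩⟩)
  have hp0 : (orthS (quadOf hQ)).perp W ≠ ⊥ := fun h => hW1 (by rw [← hS.perp_perp W, h, perp_bot])
  rcases lt_trichotomy (2 * finrank F W) n with h | h | h
  · refine isMaximalIn_nd hS (iso3_orth _) (hS.restrict_perp hW') (by omega)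
      (by rwa [hS.perp_perp]) (by rwa [hS.perp_perp])
      (hside_of_lt (by rw [hS.perp_perp]; omega)) _ ?_
    rw [hM, stab_perp hS]
  · exact isMaximalIn_nd hS (iso3_orth _) hW' (by omega) hp0 i2 (hdim h) _ hM
  · exact isMaximalIn_nd hS (iso3_orth _) hW' (by omega) hp0 i2 (hside_of_lt (by omega)) _ hM

theorem oo_noniso_max {F : Type*} [Field F] [Fintype F] {n : ℕ} (hn : 9 ≤ n) (Q : (Fin n → F) → F) (hQ : Cfsg.Geo.IsNondegenerateQuadraticForm Q) (k : ℕ) (hk : 2 * k = n) (D : Fin 2 → Submodule F (Fin n → F)) (hD : Cfsg.Geo.IsNondegenerateMDecomposition (QuadraticMap.polar Q) k D) (hni : ¬ Cfsg.Geo.AreIsometricFor Q (D 0) (D 1)) : Cfsg.Geo.IsMaximalIn (Cfsg.Geo.omegaGL Q) (Cfsg.Geo.decompositionStabilizer D ⊓ Cfsg.Geo.omegaGL Q) := by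
  have hS := quadOf_nondeg hQ
  have h0 := hD.decomp.finrank_eq 0
  have h1 := hD.decomp.finrank_eq 1
  have hp := hS.finrank_perp (D 0)
  simp only [Module.finrank_fintype_fun_eq_card, Fintype.card_fin] at hp
  have hD1 : D 1 = (orthS (quadOf hQ)).perp (D 0) :=
    Submodule.eq_of_le_of_finrank_eq (fun y hy x hx => hD.orthogonal 0 1 (by decide) x hx y hy)
      (by omega)
  have hside : ∀ g : (orthS (quadOf hQ)).Isom,
      ¬ ∀ x ∈ D 0, g.1 x ∈ (orthS (quadOf hQ)).perp (D 0) := by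
    intro g hg
    rw [← hD1] at hg
    have := map_eq_of_le g.1 hg (by omega)
    exact hni ⟨(g.1.submoduleMap (D 0)).trans (LinearEquiv.ofEq _ _ this),
      fun w => orth_isom_q g w⟩
  refine oo_nd_max hn hQ (D 0) (fun h => ?_) (fun h => ?_) (hD.nondegenerate 0)
    (fun _ => hside) ?_ _ ?_
  · rw [h, finrank_bot] at h0; omega
  · rw [h, finrank_top, Module.finrank_fin_fun] at h0; omega
  · rintro ⟨-, U, h2, -, -, rfl | h⟩
    · omega
    · omega
  · ext g
    rw [Subgroup.mem_comap, mem_decompositionStabilizer_toGL]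
    constructor
    · rintro ⟨τ, hτ⟩
      have := hτ 0
      rcases Fin.exists_fin_two.1 ⟨τ 0, rfl⟩ with h | h
      · rw [h] at this
        exact mem_stab_iff_map.2 this
      · rw [h] at this
        exact absurd (fun x hx => by rw [← hD1, ← this]; exact ⟨x, hx, rfl⟩) (hside g)
    · intro hg
      refine ⟨1, Fin.forall_fin_two.2 ⟨mem_stab_iff_map.1 hg, ?_⟩⟩
      rw [Equiv.Perm.one_apply, hD1]
      exact mem_stab_iff_map.1 (stab_le_stab_perp _ hg)

end H29
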