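import Cfsg.Agent.H29.Fq

/-! Field subalgebras of full degree (Singer cycles): determinants, adjoints, normalisers
(`fld_pow`, `fld_adj`, `fld_aut`) and a Sylow argument for non-maximality (`fld_not_max`). -/

set_option autoImplicit false
set_option linter.unusedSectionVars false

namespace H29

open Matrix Cfsg.Geo Module

theorem exists_conj_pow {G : Type*} [Group G] [Finite G] {r : ℕ} (hr : r.Prime)
    (h : ¬ r ^ 2 ∣ Nat.card G) {a b : G} (ha : orderOf a = r) (hb : orderOf b = r) :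
    ∃ (g : G) (j : ℕ), g * b * g⁻¹ = a ^ j := by
  haveI := Fact.mk hr
  have h1 : (Nat.card G).factorization r = 1 := le_antisymm
    (not_lt.1 fun e => h ((hr.pow_dvd_iff_le_factorization Nat.card_pos.ne').2 e))
    ((hr.dvd_iff_one_le_factorization Nat.card_pos.ne').1 (ha ▸ orderOf_dvd_natCard a))
  obtain ⟨g, hg⟩ := MulAction.exists_smul_eq G
    (Sylow.ofCard (p := r) (Subgroup.zpowers b) (by rw [Nat.card_zpowers, hb, h1, pow_one]))
    (Sylow.ofCard (p := r) (Subgroup.zpowers a) (by rw [Nat.card_zpowers, ha, h1, pow_one]))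
  have h2 : g * b * g⁻¹ ∈ Subgroup.zpowers a := by
    have := congrArg Sylow.toSubgroup hg
    rw [Sylow.coe_ofCard] at this
    rw [← this]
    exact ⟨b, Subgroup.mem_zpowers b, rfl⟩
  obtain ⟨j, hj⟩ := mem_powers_iff_mem_zpowers.2 h2
  exact ⟨g, j, hj.symm⟩

variable {F : Type*} [Field F] [Fintype F] {ι κ : Type} [Fintype ι] [DecidableEq ι] [Nonempty ι]
  [Fintype κ] [DecidableEq κ] {M : Type} [Field M] {σ : F →+* F} {G : Matrix ι ι F} {ε : F}
  {K : Subalgebra F (Matrix ι ι F)} {n : ℕ}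

theorem fld_equiv (hK : IsFieldSubalgebra (Fintype.card ι) K) :
    ∃ (v : ι → F) (L : K ≃ₗ[F] (ι → F)), ∀ k, L k = k.1 *ᵥ v := by
  obtain ⟨v, hv⟩ := exists_ne (0 : ι → F)
  let L : K →ₗ[F] (ι → F) :=
    ⟨⟨fun k => k.1 *ᵥ v, fun _ _ => add_mulVec _ _ _⟩, fun c k => smul_mulVec c k.1 v⟩
  have h : Function.Injective L := (injective_iff_map_eq_zero L).2 fun k hk => by_contra fun h0 => by
    obtain ⟨y, hy, e⟩ := hK.inv _ k.2 fun e => h0 (Subtype.ext e)
    refine hv ?_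
    rw [← one_mulVec v, ← e, hK.comm _ k.2 _ hy, ← mulVec_mulVec, show k.1 *ᵥ v = 0 from hk,
      mulVec_zero]
  exact ⟨v, .ofBijective L ⟨h, (LinearMap.injective_iff_surjective_of_finrank_eq_finrank
    (by simp [hK.finrank_eq])).1 h⟩, fun _ => rfl⟩

theorem fld_cent (hK : IsFieldSubalgebra (Fintype.card ι) K) {c : Matrix ι ι F}
    (h : ∀ k ∈ K, c * k = k * c) : c ∈ K := by
  obtain ⟨v, L, hL⟩ := fld_equiv hK
  obtain ⟨k, hk⟩ := L.surjective (c *ᵥ v)
  have : c = k := toLin'.injective (LinearMap.ext fun x => by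
    obtain ⟨l, rfl⟩ := L.surjective x
    rw [toLin'_apply, toLin'_apply, hL, mulVec_mulVec, h _ l.2, ← mulVec_mulVec, ← hk, hL,
      mulVec_mulVec, mulVec_mulVec, hK.comm _ l.2 _ k.2])
  exact this ▸ k.2

theorem fld_card (hK : IsFieldSubalgebra n K) : Nat.card K = Fintype.card F ^ n := by
  rw [Module.natCard_eq_pow_finrank (K := F), hK.finrank_eq, Nat.card_eq_fintype_card]

theorem fld_pow (hK : IsFieldSubalgebra (Fintype.card ι) K) {k : Matrix ι ι F} (hk : k ∈ K)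
    (h : k.det = 1) : k ^ ((Fintype.card F ^ Fintype.card ι - 1) / (Fintype.card F - 1)) = 1 := by
  obtain ⟨v, L, hL⟩ := fld_equiv hK
  letI := (isField_of hK).toField
  haveI : Finite K := Subtype.finite
  have h1 := FiniteField.algebraMap_norm_eq_pow (K := F) (x := (⟨k, hk⟩ : K))
  rw [Algebra.norm_apply, ← LinearMap.det_conj _ L, show (L : K →ₗ[F] _) ∘ₗ _ ∘ₗ _ = toLin' k from
    LinearMap.ext fun x => by
      obtain ⟨l, rfl⟩ := L.surjective x
      rw [LinearMap.comp_apply, LinearMap.comp_apply, LinearEquiv.coe_coe, LinearEquiv.coe_coe,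
        L.symm_apply_apply, hL, hL, toLin'_apply, mulVec_mulVec]; rfl, LinearMap.det_toLin', h, map_one, fld_card hK,
    Nat.card_eq_fintype_card] at h1
  exact (congrArg Subtype.val h1).symm

theorem fld_adj (h : HF σ ε G) (hne : σ ≠ RingHom.id F) {q : ℕ} (hF : Fintype.card F = q ^ 2)
    (hK : IsFieldSubalgebra n K) (h1 : IsAdjointClosedFor (fm σ G) K) {k : Matrix ι ι F}
    (hk : k ∈ K) : adj σ G k = k ^ q ^ n := by
  have h2 : ∀ x ∈ K, adj σ G x ∈ K := fun x hx => by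
    obtain ⟨y, hy, e⟩ := h1 x hx
    rwa [h.adj_eq e]
  letI := (isField_of hK).toField
  haveI : Finite K := Subtype.finite
  let τ : K →+* K :=
    { toFun := fun x => ⟨_, h2 x x.2⟩
      map_one' := Subtype.ext h.adj_one
      map_mul' := fun x y => Subtype.ext ((h.adj_mul _ _).trans (hK.comm _ (h2 _ y.2) _ (h2 _ x.2)))
      map_zero' := Subtype.ext adj_zero
      map_add' := fun x y => Subtype.ext (adj_add _ _) }
  have h3 : ∀ c : F, τ (algebraMap F K c) = algebraMap F K (σ c) := fun c => Subtype.ext (by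
    change adj σ G (algebraMap F _ c) = algebraMap F _ (σ c)
    rw [Algebra.algebraMap_eq_smul_one, adj_smul, h.adj_one, Algebra.algebraMap_eq_smul_one])
  exact congrArg Subtype.val (H11.unit_σ_eq (σ := τ) (fun x => Subtype.ext (h.adj_adj _))
    (fun e => hne (RingHom.ext fun c => (algebraMap F K).injective (by rw [← h3, e]; rfl)))
    (by rw [fld_card hK, hF, pow_right_comm]) ⟨k, hk⟩)

theorem fld_sc (hK : IsFieldSubalgebra n K) {k : Matrix ι ι F} (hk : k ∈ K)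
    (h : k ^ Fintype.card F = k) : Sc k := by
  letI := (isField_of hK).toField
  haveI : Finite K := Subtype.finite
  obtain ⟨c, hc⟩ := (IsGalois.mem_range_algebraMap_iff_fixed (F := F) (⟨k, hk⟩ : K)).2 fun f => by
    obtain ⟨i, rfl⟩ := (FiniteField.bijective_frobeniusAlgEquivOfAlgebraic_pow F K).2 f
    rw [AlgEquiv.coe_pow]
    exact Function.iterate_fixed (Subtype.ext h) _
  exact ⟨c, (congrArg Subtype.val hc).symm.trans (Algebra.algebraMap_eq_smul_one c)⟩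

theorem fld_root (hK : IsFieldSubalgebra n K) {a k : GL ι F} (ha : a.1 ∈ K) (hk : k.1 ∈ K)
    (h : k ^ orderOf a = 1) : k ∈ Subgroup.zpowers a := by
  letI := (isField_of hK).toField
  haveI : NeZero (orderOf a) := ⟨(orderOf_pos a).ne'⟩
  have h1 : orderOf (⟨a, ha⟩ : K) = orderOf a :=
    (orderOf_injective K.val.toRingHom.toMonoidHom Subtype.val_injective _).symm.trans orderOf_units
  have h2 : IsPrimitiveRoot (⟨a, ha⟩ : K) (orderOf a) := h1 ▸ IsPrimitiveRoot.orderOf _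
  obtain ⟨i, -, e⟩ := h2.eq_pow_of_pow_eq_one (ξ := ⟨k, hk⟩) (Subtype.ext (congrArg Units.val h))
  exact ⟨i, (zpow_natCast a i).trans (Units.ext (congrArg Subtype.val e))⟩

theorem fld_elt (hK : IsFieldSubalgebra n K) {r : ℕ} (hr : r.Prime)
    (h : r ∣ Fintype.card F ^ n - 1) : ∃ a : GL ι F, a.1 ∈ K ∧ orderOf a = r := by
  letI := (isField_of hK).toField
  haveI := Fact.mk hr
  haveI : Finite K := Subtype.finite
  obtain ⟨a, ha⟩ := exists_prime_orderOf_dvd_card' (G := Kˣ) r (by rwa [Nat.card_units, fld_card hK])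
  exact ⟨Units.map K.val.toRingHom.toMonoidHom a, a.1.2,
    (orderOf_injective _ (Units.map_injective Subtype.val_injective) _).trans ha⟩

/-- conjugation restricted to a normalised subalgebra -/
def resA {g : GL ι F} (h : g ∈ subalgebraNormalizer K) : K ≃ₐ[F] K :=
  .ofAlgHom (((cjA g).toAlgHom.comp K.val).codRestrict K fun k => nmlA_normalizer K g h k k.2)
    (((cjA g⁻¹).toAlgHom.comp K.val).codRestrict K fun k =>
      nmlA_normalizer K _ (inv_mem h) k k.2)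
    (AlgHom.ext fun k => Subtype.ext (cjA_cjA_inv g k.1))
    (AlgHom.ext fun k => Subtype.ext (cjA_inv_cjA g k.1))

theorem fld_aut (hK : IsFieldSubalgebra (Fintype.card ι) K) (hn : (Fintype.card ι).Prime)
    {g b : GL ι F} (hg : g ∈ subalgebraNormalizer K) (hb : b ∈ subalgebraNormalizer K)
    {a : Matrix ι ι F} (ha : a ∈ K) (h : b * a ≠ a * b) : ∃ i : ℕ, (g * (b ^ i)⁻¹).1 ∈ K := by
  letI := (isField_of hK).toField
  haveI : Finite K := Subtype.finite
  haveI := Fact.mk hn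
  obtain ⟨i, hi⟩ := mem_powers_of_prime_card (g := resA hb) (g' := resA hg)
    ((IsGalois.card_aut_eq_finrank F K).trans hK.finrank_eq) fun e =>
      h (cjA_eq_iff.1 (congrArg Subtype.val (AlgEquiv.congr_fun e ⟨a, ha⟩)))
  have h1 : ∀ (i : ℕ) (k : K), ((resA hb ^ i) k).1 = cjA (b ^ i) k := fun i => by
    induction i with
    | zero => simp
    | succ i ih => intro k; rw [pow_succ, pow_succ, AlgEquiv.mul_apply, ih, cjA_mul]; rfl
  refine ⟨i, fld_cent hK fun k hk => cjA_eq_iff.1 ?_⟩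
  have h2 := h1 i ⟨_, nmlA_normalizer K _ (inv_mem (pow_mem hb i)) k hk⟩
  rw [show resA hb ^ i = resA hg from hi, cjA_cjA_inv] at h2
  rw [cjA_mul]
  exact h2

theorem fld_not_max' {Ω H X : Subgroup (GL ι F)} (hH : IsMaximalIn Ω H)
    (hK : IsFieldSubalgebra (Fintype.card ι) K) (hn : (Fintype.card ι).Prime)
    (e : H = subalgebraNormalizer K ⊓ Ω) {s : ℕ} {a b c : GL ι F} (hs : s ∣ Fintype.card F - 1)
    (hrs : (orderOf a).Coprime s) (hk : ∀ k ∈ Ω, k.1 ∈ K → k ^ (orderOf a * s) = 1) (ha : a.1 ∈ K)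
    (h1 : a ∈ X) (h2 : b ∈ X ⊓ Ω) (h3 : c ∈ X ⊓ Ω) (h4 : b * a * b⁻¹ ∈ Subgroup.zpowers a)
    (h5 : b * a ≠ a * b) (h6 : ¬ Commute (c * a * c⁻¹) a) (h7 : scalars ι F ≤ X) (h8 : ¬ Ω ≤ X) :
    False := by
  have h9 : ∀ g : GL ι F, g * a * g⁻¹ ∈ Subgroup.zpowers a →
      g ∈ Subgroup.normalizer (Subgroup.zpowers a : Set (GL ι F)) := fun g hg =>
    Subgroup.mem_normalizer_fintype (by
      rintro _ ⟨j, rfl⟩
      rw [← conj_zpow]
      exact zpow_mem hg j)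
  have h10 : c ∉ Subgroup.normalizer (Subgroup.zpowers a : Set (GL ι F)) := fun h => by
    obtain ⟨j, hj⟩ := (h a).1 (Subgroup.mem_zpowers a)
    exact h6 (hj ▸ Commute.zpow_self a j)
  have h11 := eq_of_max hH (M := Subgroup.normalizer (Subgroup.zpowers a : Set (GL ι F)))
    (fun g hg => h9 g (fld_root hK ha (nmlA_normalizer K g (e ▸ hg).1 _ ha)
      (by rw [conj_pow, pow_orderOf_eq_one, mul_one, mul_inv_cancel]))) fun h => h10 (h h3.2)
  have h12 : b ∈ subalgebraNormalizer K ⊓ Ω := by rw [← e, h11]; exact ⟨h9 b h4, h2.2⟩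
  rw [Subgroup.mem_inf] at h2
  refine not_between hH e (between (fun g hg => ?_) h8 fun h => h10 ?_)
  · rw [Subgroup.mem_inf] at hg
    obtain ⟨i, hi⟩ := fld_aut hK hn hg.1 h12.1 ha fun e => h5 (Units.ext e)
    have h13 := hk _ (mul_mem hg.2 (inv_mem (pow_mem h2.2 i))) hi
    refine (mul_mem_cancel_right (inv_mem (pow_mem h2.1 i))).1 ?_
    generalize g * (b ^ i)⁻¹ = k at hi h13
    have h14 : k ^ s ∈ X := (Subgroup.zpowers_le.2 h1) (fld_root hK ha
      (by rw [Units.val_pow_eq_pow_val]; exact pow_mem hi s) (by rw [← pow_mul, mul_comm, h13]))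
    have h15 : k ^ orderOf a ∈ X := h7 (mem_scalars.2 (fld_sc hK
      (by rw [Units.val_pow_eq_pow_val]; exact pow_mem hi _) (by
        obtain ⟨u, hu⟩ := hs
        rw [← Units.val_pow_eq_pow_val, ← Nat.sub_add_cancel (Fintype.card_pos (α := F)), hu,
          pow_succ, ← pow_mul, ← mul_assoc, pow_mul, h13, one_pow, one_mul])))
    have h16 := congrArg (k ^ ·) (Nat.gcd_eq_gcd_ab (orderOf a) s)
    simp only [hrs.gcd_eq_one, Nat.cast_one, zpow_one, _root_.zpow_add, _root_.zpow_mul,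
      zpow_natCast] at h16
    exact h16 ▸ mul_mem (zpow_mem h15 _) (zpow_mem h14 _)
  · have : c ∈ H := e ▸ ⟨h h3, h3.2⟩
    exact (h11 ▸ this).1

theorem fld_not_max {Ω H X : Subgroup (GL ι F)} (hH : IsMaximalIn Ω H)
    (hK : IsFieldSubalgebra (Fintype.card ι) K) (hn : (Fintype.card ι).Prime)
    (e : H = subalgebraNormalizer K ⊓ Ω) {r s j : ℕ} (hr : r.Prime) (hr2 : ¬ r ^ 2 ∣ Nat.card (GL ι F))
    (hs : s ∣ Fintype.card F - 1) (hrs : r.Coprime s) (hk : ∀ k ∈ Ω, k.1 ∈ K → k ^ (r * s) = 1)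
    (hd : r ∣ Fintype.card F ^ Fintype.card ι - 1) (h0 : ∀ a : GL ι F, a.1 ∈ K → a ^ r = 1 → a ∈ Ω)
    {a b c : GL ι F} (ha : orderOf a = r) (h1 : a ∈ X ⊓ Ω) (h2 : b ∈ X ⊓ Ω) (h3 : c ∈ X ⊓ Ω)
    (h4 : b * a = a ^ j * b) (h5 : b * a ≠ a * b) (h6 : ¬ Commute (c * a * c⁻¹) a)
    (h7 : scalars ι F ≤ X) (h8 : ¬ Ω ≤ X) : False := by
  obtain ⟨z, hz, hz'⟩ := fld_elt hK hr hd
  obtain ⟨⟨g, hg⟩, i, hi⟩ := exists_conj_pow (G := Ω) hr
    (fun h => hr2 (h.trans Ω.card_subgroup_dvd_card))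
    (a := ⟨z, h0 z hz (hz' ▸ pow_orderOf_eq_one z)⟩) (b := ⟨a, h1.2⟩)
    ((Subgroup.orderOf_mk _ _).trans hz') ((Subgroup.orderOf_mk _ _).trans ha)
  have h9 : MulAut.conj g a = z ^ i := congrArg Subtype.val hi
  have h10 : orderOf (MulAut.conj g a) = r := ((MulAut.conj g).orderOf_eq a).trans ha
  have h11 : ∀ x ∈ X ⊓ Ω, MulAut.conj g x ∈ X.map (MulAut.conj g).toMonoidHom ⊓ Ω := fun x hx =>
    ⟨⟨x, hx.1, rfl⟩, Ω.mul_mem (Ω.mul_mem hg hx.2) (Ω.inv_mem hg)⟩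
  refine fld_not_max' hH hK hn e hs (h10 ▸ hrs) (h10 ▸ hk)
    (by rw [h9, Units.val_pow_eq_pow_val]; exact pow_mem hz i) (h11 a h1).1 (h11 b h2) (h11 c h3)
    ⟨j, ?_⟩ (fun h => h5 ((MulAut.conj g).injective (by rwa [map_mul, map_mul])))
    (fun h => h6 ((MulAut.conj g).injective ?_)) (fun x hx => ⟨x, h7 hx, ?_⟩) fun h => h8 ?_
  · simp only [zpow_natCast]
    rw [← map_pow, ← map_mul, h4, map_mul, mul_inv_cancel_right]
  · simpa only [map_mul, map_inv] using h.eq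
  · change g * x * g⁻¹ = x
    rw [← scalars_comm hx g, mul_inv_cancel_right]
  · intro y hy
    obtain ⟨w, hw, e⟩ := h (mul_mem (mul_mem hg hy) (inv_mem hg))
    exact (MulAut.conj g).injective e ▸ hw

theorem gT_refl : gT σ G (LinearEquiv.refl F _) = G := fm_ext (σ := σ) fun x y => by simp [fm_gT]

/-- the ring homomorphism attached to a model and coordinates -/
noncomputable def Ψ (e : M ≃+* F) (T : (κ → F) ≃ₗ[F] (ι → F)) : Matrix κ κ M ≃+* Matrix ι ι F :=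
  e.mapMatrix.trans (Φ T).toRingEquiv

theorem Ψ_apply (e : M ≃+* F) (T : (κ → F) ≃ₗ[F] (ι → F)) (A : Matrix κ κ M) :
    Φ T (A.map e) = Ψ e T A := rfl

theorem scalars_le_PS {e : M ≃+* F} {T : (κ → F) ≃ₗ[F] (ι → F)} {P : (κ → M) → Prop}
    (h : ∀ v, P v → ∀ c : M, c ≠ 0 → P (c • v)) : scalars ι F ≤ setStab (PS e T P) := fun g hg => by
  obtain ⟨c, hc⟩ := (mem_scalars_iff g).1 hg
  refine (mem_PS (A := e.symm c • 1) ?_).2 fun v hv => ?_
  · rw [hc, ← map_one (Φ T), ← map_smul]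
    congr 1
    ext i j
    simp [one_apply, apply_ite e]
  · rw [smul_mulVec, one_mulVec]
    exact h v hv _ (by simp)

theorem fld_model (e : M ≃+* F) (T : (κ → F) ≃ₗ[F] (ι → F)) {Ω H : Subgroup (GL ι F)}
    (hH : IsMaximalIn Ω H) (hK : IsFieldSubalgebra (Fintype.card ι) K) (hn : (Fintype.card ι).Prime)
    (eH : H = subalgebraNormalizer K ⊓ Ω) {r s j : ℕ} (hr : r.Prime)
    (hr2 : ¬ r ^ 2 ∣ Nat.card (GL ι F)) (hs : s ∣ Fintype.card F - 1) (hrs : r.Coprime s)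
    (hk : ∀ k ∈ Ω, k.1 ∈ K → k ^ (r * s) = 1) (hd : r ∣ Fintype.card F ^ Fintype.card ι - 1)
    (h0 : ∀ a : GL ι F, a.1 ∈ K → a ^ r = 1 → a ∈ Ω) (P : (κ → M) → Prop)
    {A B C D Y : Matrix κ κ M} (hl : ∀ X ∈ [A, B, C, D], ∃ g ∈ Ω, g.1 = Φ T (X.map e))
    (hP : ∀ v, P v → (P (A *ᵥ v) ∧ P (B *ᵥ v) ∧ P (C *ᵥ v)) ∧ ∀ c : M, c ≠ 0 → P (c • v))
    (hD : ∃ v, P v ∧ ¬ P (D *ᵥ v)) (h1 : A ^ r = 1) (h2 : A ≠ 1) (h3 : B * A = A ^ j * B)
    (h4 : B * A ≠ A * B) (h5 : C * A = Y * C) (h6 : Y * A ≠ A * Y) : False := by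
  obtain ⟨a, ha, ea⟩ := hl A (by simp)
  obtain ⟨b, hb, eb⟩ := hl B (by simp)
  obtain ⟨c, hc, ec⟩ := hl C (by simp)
  obtain ⟨d, hd', ed⟩ := hl D (by simp)
  obtain ⟨v, h7, h8⟩ := hD
  haveI := Fact.mk hr
  refine fld_not_max (j := j) hH hK hn eH hr hr2 hs hrs hk hd h0 (orderOf_eq_prime (Units.ext ?_) ?_)
    ⟨(mem_PS ea).2 fun v h => (hP v h).1.1, ha⟩ ⟨(mem_PS eb).2 fun v h => (hP v h).1.2.1, hb⟩
    ⟨(mem_PS ec).2 fun v h => (hP v h).1.2.2, hc⟩ (Units.ext ?_) (fun h => h4 ?_) (fun h => h6 ?_)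
    (scalars_le_PS fun v h => (hP v h).2) fun h => h8 ((mem_PS ed).1 (h hd') v h7)
  all_goals rw [Ψ_apply] at ea eb ec
  · rw [Units.val_pow_eq_pow_val, ea, ← map_pow, h1, map_one, Units.val_one]
  · rintro rfl
    exact h2 ((Ψ e T).injective (by rw [← ea, map_one, Units.val_one]))
  · rw [Units.val_mul, Units.val_mul, Units.val_pow_eq_pow_val, ea, eb, ← map_pow, ← map_mul,
      ← map_mul, h3]
  · refine (Ψ e T).injective ?_
    rw [map_mul, map_mul, ← ea, ← eb, ← Units.val_mul, h, Units.val_mul]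
  · have : Ψ e T Y = (c * a * c⁻¹ : GL ι F) := (cjA_eq_iff.2 (by
      rw [ea, ec, ← map_mul, ← map_mul, h5])).symm
    refine (Ψ e T).injective ?_
    rw [map_mul, map_mul, ← ea, this, ← Units.val_mul, h.eq, Units.val_mul]

theorem mem_SL_of_pow {a : GL ι F} {r : ℕ} (h : a ^ r = 1) (hr : r.Coprime (Fintype.card F - 1)) :
    a ∈ specialLinear ι F := by
  refine orderOf_eq_one_iff.1 (Nat.eq_one_of_dvd_coprimes hr (orderOf_dvd_of_pow_eq_one ?_) ?_)
  · rw [← map_pow, h, map_one]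
  · rw [← Nat.card_eq_fintype_card, ← Nat.card_units]
    exact orderOf_dvd_natCard _

theorem fld_unit (h : HF σ ε G) (hne : σ ≠ RingHom.id F) {q : ℕ} (hF : Fintype.card F = q ^ 2)
    (hK : IsFieldSubalgebra n K) (h1 : IsAdjointClosedFor (fm σ G) K) {k : GL ι F}
    (hk : k.1 ∈ K) : k ∈ Iso σ G ↔ k ^ (q ^ n + 1) = 1 := by
  have h2 := fld_adj h hne hF hK h1 hk
  refine ⟨fun h3 => Units.ext ?_, fun h3 => h.mem_Iso ?_⟩
  · rw [pow_succ, Units.val_mul, Units.val_pow_eq_pow_val, ← h2, h.adj_iso h3, Units.inv_mul,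
      Units.val_one]
  · rw [h2, ← pow_succ, ← Units.val_pow_eq_pow_val, h3, Units.val_one]

end H29
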