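import Cfsg.Agent.H29.NM
import Mathlib.Algebra.QuadraticAlgebra.Basic

/-! Concrete models `F4`, `F9`, `F25` of small fields, transfer of explicit matrices along a field
isomorphism (`exists_lift`, `mem_PS`), monomial matrices (`mono`, `exists_monoT`, `mono_between`). -/

set_option autoImplicit false
set_option linter.unusedSectionVars false

namespace H29

open Matrix Cfsg.Geo Module

instance instFintypeQA {R : Type} [Fintype R] (a b : R) : Fintype (QuadraticAlgebra R a b) :=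
  Fintype.ofEquiv _ (QuadraticAlgebra.equivProd a b).symm

instance instFact3 : Fact (Nat.Prime 3) := ⟨Nat.prime_three⟩
instance instFact5 : Fact (Nat.Prime 5) := ⟨Nat.prime_five⟩
instance instIrr4 : Fact (∀ r : ZMod 2, r ^ 2 ≠ 1 + 1 * r) := ⟨by decide⟩
instance instIrr9 : Fact (∀ r : ZMod 3, r ^ 2 ≠ 2 + 0 * r) := ⟨by decide⟩
instance instIrr25 : Fact (∀ r : ZMod 5, r ^ 2 ≠ 2 + 0 * r) := ⟨by decide⟩

abbrev F4 := QuadraticAlgebra (ZMod 2) 1 1
abbrev F9 := QuadraticAlgebra (ZMod 3) 2 0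
abbrev F25 := QuadraticAlgebra (ZMod 5) 2 0

variable {F : Type*} [Field F] [Fintype F] {ι κ : Type} [Fintype ι] [DecidableEq ι]
  [Fintype κ] [DecidableEq κ] {M : Type} [Field M] {t : ℕ} {σ : F →+* F} {G : Matrix ι ι F}

theorem equiv_of_card [Fintype M] {n : ℕ} (h : Fintype.card F = n) (h' : Fintype.card M = n) :
    Nonempty (M ≃+* F) := ⟨FiniteField.ringEquivOfCardEq (h'.trans h.symm)⟩

theorem card_QA {R : Type} [Fintype R] (a b : R) :
    Fintype.card (QuadraticAlgebra R a b) = Fintype.card R * Fintype.card R := by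
  rw [Fintype.ofEquiv_card, Fintype.card_prod]

theorem exists_lift (e : M ≃+* F) (T : (κ → F) ≃ₗ[F] (ι → F)) {A : Matrix κ κ M} (h : A.det = 1) :
    ∃ g ∈ specialLinear ι F, (g : Matrix ι ι F) = Φ T (A.map e) := by
  have h1 : (Φ T (A.map e)).det = 1 := by
    rw [det_Φ, show A.map e = e.toRingHom.mapMatrix A from rfl, ← RingHom.map_det, h, map_one]
  exact ⟨GeneralLinearGroup.mkOfDetNeZero _ (h1 ▸ one_ne_zero), Units.ext h1, rfl⟩

theorem lift_iso {e : M ≃+* F} {T : (κ → F) ≃ₗ[F] (ι → F)} {A G₀ : Matrix κ κ M} {s : M → M}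
    (hs : ∀ x, σ (e x) = e (s x)) (hG : gT σ G T = G₀.map e) (h : Aᵀ * G₀ * A.map s = G₀)
    {g : GL ι F} (hg : (g : Matrix ι ι F) = Φ T (A.map e)) : g ∈ Iso σ G := by
  obtain ⟨g, rfl⟩ := (ΦU T).surjective g
  have h1 := (Φ T).injective hg
  rw [ΦU_mem_Iso, mem_Iso, h1, hG, ← transpose_map, map_map,
    show (σ ∘ e) = e ∘ s from funext hs, ← map_map, ← Matrix.map_mul, ← Matrix.map_mul, h]

/-- the set of vectors whose coordinates satisfy `P` -/
def PS (e : M ≃+* F) (T : (κ → F) ≃ₗ[F] (ι → F)) (P : (κ → M) → Prop) : Set (ι → F) :=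
  {x | P fun i => e.symm (T.symm x i)}

theorem mem_PS {e : M ≃+* F} {T : (κ → F) ≃ₗ[F] (ι → F)} {P : (κ → M) → Prop}
    {A : Matrix κ κ M} {g : GL ι F} (hg : (g : Matrix ι ι F) = Φ T (A.map e)) :
    g ∈ setStab (PS e T P) ↔ ∀ v, P v → P (A *ᵥ v) := by
  have h1 : ∀ v : κ → M, (fun i => e.symm (T.symm ((g : Matrix ι ι F) *ᵥ T (e ∘ v)) i)) = A *ᵥ v :=
    fun v => funext fun i => by
      rw [hg, Φ_mulVec, T.symm_apply_apply, RingEquiv.symm_apply_eq]
      exact (e.toRingHom.map_mulVec A v i).symm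
  refine ⟨fun h v hv => h1 v ▸ h _ (by simpa [PS] using hv), fun h x hx => ?_⟩
  have h2 : x = T (e ∘ fun i => e.symm (T.symm x i)) := by
    rw [show (e ∘ fun i => e.symm (T.symm x i)) = T.symm x from funext fun i => by simp]; simp
  rw [h2]
  change P _
  rw [h1]
  exact h _ hx

theorem exists_unlift (e : M ≃+* F) (X : Matrix κ κ F) : ∃ A : Matrix κ κ M, X = A.map e :=
  ⟨X.map e.symm, by ext; simp⟩

/-- monomial matrix -/
def mono {R : Type*} [Zero R] (τ : Equiv.Perm (Fin t)) (d : Fin t → R) : Matrix (Fin t) (Fin t) R :=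
  of fun i j => if i = τ j then d j else 0

theorem mono_mulVec {R : Type*} [CommRing R] (τ : Equiv.Perm (Fin t)) (d v : Fin t → R) :
    mono τ d *ᵥ v = (d * v) ∘ τ.symm := by
  ext i
  simp [mono, mulVec, dotProduct, ← Equiv.symm_apply_eq]

theorem det_mono {R : Type*} [CommRing R] (τ : Equiv.Perm (Fin t)) (d : Fin t → R) :
    (mono τ d).det = (Equiv.Perm.sign τ : ℤ) * ∏ i, d i := by
  have : mono τ d = (diagonal d).submatrix τ.symm id := by
    ext i j
    simp only [mono, of_apply, submatrix_apply, id, diagonal_apply, Equiv.symm_apply_eq]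
    split_ifs with h
    · simp [h]
    · rfl
  rw [this, det_permute, det_diagonal, Equiv.Perm.sign_symm]

theorem exists_monoT {D : Fin t → Submodule F (ι → F)} (hD : IsMDecomposition 1 D)
    {b : Fin t → ι → F} (h1 : ∀ i, b i ∈ D i) (h0 : ∀ i, b i ≠ 0) :
    ∃ T : (Fin t → F) ≃ₗ[F] (ι → F), (∀ i, T (Pi.single i 1) = b i) ∧
      ∀ g ∈ decompositionStabilizer D, ∃ τ d, (g : Matrix ι ι F) = Φ T (mono τ d) := by
  have h2 : ∀ i, ∀ x ∈ D i, ∃ c : F, x = c • b i := fun i x hx => by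
    obtain ⟨c, hc⟩ := (finrank_eq_one_iff_of_nonzero' (⟨b i, h1 i⟩ : D i)
      fun e => h0 i (congrArg Subtype.val e)).1 (hD.finrank_eq i) ⟨x, hx⟩
    exact ⟨c, (congrArg Subtype.val hc).symm⟩
  let L := Fintype.linearCombination F b
  have hL : ∀ i, L (Pi.single i 1) = b i := fun i => by simp [L]
  have h3 : Function.Surjective L := by
    rw [← LinearMap.range_eq_top, eq_top_iff, ← hD.iSup_eq_top]
    refine iSup_le fun i v hv => ?_
    obtain ⟨c, rfl⟩ := h2 i v hv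
    exact Submodule.smul_mem _ _ ⟨_, hL i⟩
  let T := LinearEquiv.ofBijective L ⟨(LinearMap.injective_iff_surjective_of_finrank_eq_finrank
    (by simp [← mdec_card hD])).2 h3, h3⟩
  refine ⟨T, hL, fun g hg => ?_⟩
  obtain ⟨τ, hτ⟩ := of_mem_decStab hg
  choose d hd using fun j => h2 _ _ (hτ j _ (h1 j))
  refine ⟨τ, d, eq_Φ fun x => ?_⟩
  refine LinearMap.congr_fun (?_ : toLin' (g : Matrix ι ι F) ∘ₗ L = L ∘ₗ toLin' (mono τ d)) x
  refine (Pi.basisFun F _).ext fun j => ?_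
  simp [hL, L, Fintype.linearCombination_apply, mono, hd]

theorem exists_vecs {D : Fin t → Submodule F (ι → F)} (hD : IsMDecomposition 1 D) :
    ∃ b : Fin t → ι → F, (∀ i, b i ∈ D i) ∧ ∀ i, b i ≠ 0 := by
  choose b h1 h2 using fun i => Submodule.exists_mem_ne_zero_of_ne_bot
    (p := D i) (fun e => by have := hD.finrank_eq i; rw [e] at this; simp at this)
  exact ⟨b, h1, h2⟩

theorem exists_monoU (h : HF σ 1 G) (hne : σ ≠ RingHom.id F) {D : Fin t → Submodule F (ι → F)}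
    (hD : IsNondegenerateMDecomposition (fm σ G) 1 D) :
    ∃ T : (Fin t → F) ≃ₗ[F] (ι → F), gT σ G T = 1 ∧
      ∀ g ∈ decompositionStabilizer D, ∃ τ d, (g : Matrix ι ι F) = Φ T (mono τ d) := by
  choose B h1 h2 using fun i => exists_onb h hne (hD.decomp.finrank_eq i) (hD.nondegenerate i)
  have h3 : ∀ i, fm σ G (B i *ᵥ 1) (B i *ᵥ 1) = 1 := fun i => by simp [h2]
  have h4 : ∀ i, B i *ᵥ 1 ∈ D i := fun i => (h1 i _).2 ⟨_, rfl⟩
  obtain ⟨T, h5, h6⟩ := exists_monoT hD.decomp h4 fun i e => by simpa [e, fm_eq] using h3 i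
  refine ⟨T, ?_, h6⟩
  ext i j
  have := fm_gT (σ := σ) (G := G) T (Pi.single i 1) (Pi.single j 1)
  rw [h5, h5, fm_eq, show σ ∘ Pi.single j (1 : F) = Pi.single j 1 from funext fun l => by
    simp [Pi.single_apply]] at this
  simp only [mulVec_single, single_dotProduct, one_mul] at this
  simp only [MulOpposite.op_one, one_smul, col_apply] at this
  rw [this, one_apply]
  split_ifs with e
  · rw [e, h3]
  · exact hD.orthogonal i j e _ (h4 i) _ (h4 j)

/-- number of non-zero coordinates -/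
def wgt {R : Type*} [Zero R] [DecidableEq R] (v : Fin t → R) : ℕ :=
  (Finset.univ.filter fun i => v i ≠ 0).card

theorem wgt_mono [DecidableEq M] (τ : Equiv.Perm (Fin t)) {d : Fin t → M} (h : ∀ i, d i ≠ 0)
    (v : Fin t → M) : wgt (mono τ d *ᵥ v) = wgt v := by
  rw [mono_mulVec]
  exact Finset.card_bijective τ.symm τ.symm.bijective fun i => by simp [h]

theorem prod_mono (τ : Equiv.Perm (Fin t)) (d v : Fin t → M) :
    ∏ i, (mono τ d *ᵥ v) i = (∏ i, d i) * ∏ i, v i := by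
  rw [mono_mulVec, ← Finset.prod_mul_distrib]
  exact Equiv.prod_comp τ.symm (d * v)

theorem sum_mono (τ : Equiv.Perm (Fin t)) {d : Fin t → M} {k : ℕ} (h : ∀ i, d i ^ k = 1)
    (v : Fin t → M) : ∑ i, (mono τ d *ᵥ v) i ^ k = ∑ i, v i ^ k := by
  rw [mono_mulVec]
  refine (Equiv.sum_comp τ.symm fun i => (d * v) i ^ k).trans ?_
  simp [mul_pow, h]

theorem mono_between (e : M ≃+* F) {T : (Fin t → F) ≃ₗ[F] (ι → F)} {N Ω : Subgroup (GL ι F)}
    (hN : ∀ g ∈ N, ∃ τ d, (g : Matrix ι ι F) = Φ T (mono τ d)) (P : (Fin t → M) → Prop)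
    (h1 : ∀ τ d, ∀ g ∈ Ω, (g : Matrix ι ι F) = Φ T ((mono τ d).map e) → ∀ v, P v → P (mono τ d *ᵥ v))
    {A B : Matrix (Fin t) (Fin t) M} (hA : ∃ g ∈ Ω, (g : Matrix ι ι F) = Φ T (A.map e))
    (hB : ∃ g ∈ Ω, (g : Matrix ι ι F) = Φ T (B.map e)) (h2 : ∀ v, P v → P (A *ᵥ v))
    (h3 : ∃ v, P v ∧ ¬ P (B *ᵥ v)) (h4 : ∃ i j k, i ≠ j ∧ A i k ≠ 0 ∧ A j k ≠ 0) :
    ∃ K, N ⊓ Ω < K ∧ K < Ω := by
  obtain ⟨a, ha, ea⟩ := hA
  obtain ⟨b, hb, eb⟩ := hB
  obtain ⟨v, h5, h6⟩ := h3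
  obtain ⟨i, j, k, h7, h8, h9⟩ := h4
  refine between (X := setStab (PS e T P)) (fun g hg => ?_) (fun h => h6 ((mem_PS eb).1 (h hb) v h5))
    fun h => ?_
  · obtain ⟨τ, d, ed⟩ := hN g hg.1
    have : mono τ d = (mono τ (e.symm ∘ d)).map e := by
      ext i j; simp [mono, apply_ite e]
    rw [this] at ed
    exact (mem_PS ed).2 (h1 _ _ g hg.2 ed)
  · obtain ⟨τ, d, ed⟩ := hN a (h ⟨(mem_PS ea).2 h2, ha⟩)
    have h0 := (Φ T).injective (ea.symm.trans ed)
    have h10 : ∀ l, A l k ≠ 0 → l = τ k := fun l hl => by_contra fun h11 => hl (by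
      simpa [mono, h11] using congrFun (congrFun h0 l) k)
    exact h7 ((h10 i h8).trans (h10 j h9).symm)

theorem det_of_lift {e : M ≃+* F} {T : (κ → F) ≃ₗ[F] (ι → F)} {A : Matrix κ κ M} {g : GL ι F}
    (hg : g ∈ specialLinear ι F) (h : (g : Matrix ι ι F) = Φ T (A.map e)) : A.det = 1 := by
  have h1 : (g : Matrix ι ι F).det = 1 := congrArg Units.val hg
  rw [h, det_Φ, show A.map e = e.toRingHom.mapMatrix A from rfl, ← RingHom.map_det] at h1
  exact e.injective (h1.trans (map_one e).symm)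

theorem iso_of_lift {e : M ≃+* F} {T : (κ → F) ≃ₗ[F] (ι → F)} {A G₀ : Matrix κ κ M} {s : M → M}
    (hs : ∀ x, σ (e x) = e (s x)) (hG : gT σ G T = G₀.map e) {g : GL ι F} (hg : g ∈ Iso σ G)
    (h : (g : Matrix ι ι F) = Φ T (A.map e)) : Aᵀ * G₀ * A.map s = G₀ := by
  obtain ⟨g, rfl⟩ := (ΦU T).surjective g
  have h1 := (Φ T).injective h
  rw [ΦU_mem_Iso, mem_Iso, h1, hG, ← transpose_map, map_map,
    show (σ ∘ e) = e ∘ s from funext hs, ← map_map, ← Matrix.map_mul, ← Matrix.map_mul] at hg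
  exact map_injective e.injective hg

theorem mono_sq {τ : Equiv.Perm (Fin t)} {d : Fin t → M} (h : (mono τ d).det = 1) :
    (∏ i, d i) ^ 2 = 1 ∧ ∀ i, d i ≠ 0 := by
  rw [det_mono] at h
  refine ⟨?_, fun i e => by simp [Finset.prod_eq_zero (Finset.mem_univ i) e] at h⟩
  rcases Int.units_eq_one_or (Equiv.Perm.sign τ) with e | e <;> simp only [e] at h
  · simp at h; simp [h]
  · simp [neg_eq_iff_eq_neg] at h; simp [h]

theorem mono_norm {τ : Equiv.Perm (Fin t)} {d : Fin t → M} {q : ℕ} (hq : q ≠ 0)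
    (h : (mono τ d)ᵀ * 1 * (mono τ d).map (· ^ q) = 1) (i : Fin t) : d i ^ (q + 1) = 1 := by
  simpa [mono, Matrix.mul_apply, apply_ite (· ^ q), hq, pow_succ'] using congrFun (congrFun h i) i

theorem not_between {G : Type*} [Group G] {Ω H N : Subgroup G} (h : IsMaximalIn Ω H)
    (e : H = N ⊓ Ω) : ¬ ∃ K, N ⊓ Ω < K ∧ K < Ω := fun ⟨K, h1, h2⟩ =>
  (h.2 K (e ▸ h1.le) h2.le).elim (fun h3 => h1.ne' (h3.trans e)) h2.ne

end H29
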