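import Cfsg.Agent.H10.Dickson

/-! Three involutions `a, b, c` with `a b = b a` in a subgroup of `PGL(2,F)` without elements of
order `p`: the orders of the products are small (`dk_pgl`), in terms of traces (`dk_mat`). -/

set_option autoImplicit false

namespace H29

open H10 MulAction Matrix
open scoped MatrixGroups

/-- the alternative for the products of three involutions -/
def DKc {G : Type*} [Group G] (a b c : G) : Prop :=
  (a * c) ^ 2 = 1 ∨ (b * c) ^ 2 = 1 ∨ (a * b * c) ^ 2 = 1 ∨ (a * c) ^ 3 = 1 ∨ (b * c) ^ 3 = 1 ∨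
    ((a * b * c) ^ 3 = 1 ∧ (a * c) ^ 5 = 1)

instance {G : Type*} [Group G] [DecidableEq G] (a b c : G) : Decidable (DKc a b c) := by
  unfold DKc; infer_instance

theorem dk_S4 : ∀ a : Equiv.Perm (Fin 4), a * a = 1 → ∀ b, b * b = 1 → a * b = b * a →
    ∀ c, c * c = 1 → DKc a b c := by
  decide +kernel

set_option synthInstance.maxSize 2000 in
theorem dk_A5 : ∀ a : Equiv.Perm (Fin 5), a * a = 1 → Equiv.Perm.sign a = 1 → ∀ b, b * b = 1 →
    Equiv.Perm.sign b = 1 → a * b = b * a → ∀ c, c * c = 1 → Equiv.Perm.sign c = 1 → DKc a b c := by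
  decide +kernel

theorem DKc.of_map {G G' : Type*} [Group G] [Group G'] (f : G →* G') (hf : Function.Injective f)
    {a b c : G} (h : DKc (f a) (f b) (f c)) : DKc a b c := by
  simpa only [DKc, ← map_mul, ← map_pow, map_eq_one_iff f hf] using h

theorem DKc.map {G G' : Type*} [Group G] [Group G'] (f : G →* G')
    {a b c : G} (h : DKc a b c) : DKc (f a) (f b) (f c) := by
  simp only [DKc, ← map_mul, ← map_pow] at h ⊢
  rcases h with h | h | h | h | h | ⟨h, h'⟩ <;> simp [*]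

theorem dk_p1 {K G Ω : Type*} [Field K] [Group G] [MulAction G Ω] [Finite G] (h : P1Like K G Ω)
    (hU : ∀ x, h.Uni x = ⊥) {a b c : G} (ha : a * a = 1) (hb : b * b = 1) (hab : a * b = b * a)
    (hc : c * c = 1) : DKc a b c := by
  have hab2 : a * b * (a * b) = 1 := by rw [mul_assoc, ← mul_assoc b, ← hab, mul_assoc, hb, mul_one, ha]
  have key : ∀ {x : Ω} {d d' : G}, d • x = x → d' • x = x → d * d = 1 → d' * d' = 1 →
      d = 1 ∨ d' = 1 ∨ d * d' = 1 := by
    intro x d d' h1 h2 h3 h4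
    have k : ∀ g : stabilizer G x, h.mu x g = 1 → (g : G) = 1 := fun g hg => by
      simpa [hU] using (h.mu_eq_one_iff' g).1 hg
    have k2 : ∀ g : stabilizer G x, g * g = 1 → h.mu x g = 1 ∨ h.mu x g = -1 := fun g hg => by
      have := congrArg (fun u => ((h.mu x u : Kˣ) : K)) hg
      simp only [map_mul, map_one, Units.val_mul, Units.val_one, mul_self_eq_one_iff] at this
      exact this.imp (fun e => Units.ext e) fun e => Units.ext e
    rcases k2 ⟨d, h1⟩ (Subtype.ext h3) with e | e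
    · exact Or.inl (k _ e)
    rcases k2 ⟨d', h2⟩ (Subtype.ext h4) with e' | e'
    · exact Or.inr (Or.inl (k _ e'))
    exact Or.inr (Or.inr (k (⟨d, h1⟩ * ⟨d', h2⟩) (by rw [map_mul, e, e']; simp)))
  have fin : ∀ d, d = a ∨ d = b ∨ d = a * b → (d * c) ^ 2 = 1 → DKc a b c := by
    rintro d (rfl | rfl | rfl) h <;> simp [DKc, h]
  have f1 : ∀ {x : Ω}, a • x = x → b • x = x → DKc a b c := fun h1 h2 => by
    rcases key h1 h2 ha hb with e | e | e
    exacts [fin a (by simp) (by rw [e, one_mul, sq, hc]), fin b (by simp) (by rw [e, one_mul, sq, hc]),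
      fin (a * b) (by simp) (by rw [e, one_mul, sq, hc])]
  rcases h.dickson_ss hU with ⟨x, hx⟩ | ⟨x, hx⟩ | ⟨⟨e⟩⟩ | ⟨⟨e⟩⟩ | ⟨⟨e⟩⟩
  · exact f1 (hx a) (hx b)
  · obtain ⟨y, hy, hy'⟩ := (Nat.card_eq_two_iff' (⟨x, mem_orbit_self x⟩ : orbit G x)).1 hx
    have hyx : x ≠ y := fun e => hy (Subtype.ext e.symm)
    have k : ∀ z ∈ orbit G x, z = x ∨ z = y := fun z hz => by
      by_cases e : z = x
      exacts [Or.inl e, Or.inr (congrArg Subtype.val (hy' ⟨z, hz⟩ fun e' => e (congrArg Subtype.val e')))]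
    have k2 : ∀ g : G, (g • x = x ∧ g • y.1 = y) ∨ (g • x = y ∧ g • y.1 = x) := fun g => by
      have a1 := k _ (mem_orbit x g)
      have a2 := k _ (mem_orbit_of_mem_orbit g y.2)
      have a3 : g • x ≠ g • y.1 := fun e => hyx (smul_left_cancel g e)
      rcases a1 with a1 | a1 <;> rcases a2 with a2 | a2 <;> simp_all
    have f2 : ∀ d, d = a ∨ d = b ∨ d = a * b → d * d = 1 → d • x = x → d • y.1 = y → DKc a b c := by
      intro d h1 h2 h3 h4
      refine fin d h1 ?_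
      rcases k2 c with e | e
      · rcases key h3 e.1 h2 hc with e | e | e <;> simp [e, sq, h2, hc]
      · rw [sq]; exact h.swap hyx (by rw [mul_smul, e.1, h4]) (by rw [mul_smul, e.2, h3])
    rcases k2 a with e | e
    · exact f2 a (by simp) ha e.1 e.2
    rcases k2 b with e' | e'
    · exact f2 b (by simp) hb e'.1 e'.2
    exact f2 (a * b) (by simp) hab2 (by rw [mul_smul, e'.1, e.2]) (by rw [mul_smul, e'.2, e.1])
  · refine DKc.of_map ((alternatingGroup _).subtype.comp e.toMonoidHom)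
      (Subtype.val_injective.comp e.injective) (dk_S4 _ ?_ _ ?_ ?_ _ ?_) <;>
    simp only [← map_mul, *, map_one]
  · refine DKc.of_map e.toMonoidHom e.injective (dk_S4 _ ?_ _ ?_ ?_ _ ?_) <;>
    simp only [← map_mul, *, map_one]
  · refine DKc.of_map ((alternatingGroup _).subtype.comp e.toMonoidHom)
      (Subtype.val_injective.comp e.injective) (dk_A5 _ ?_ ?_ _ ?_ ?_ ?_ _ ?_ ?_) <;>
    first | exact (e _).2 | simp only [← map_mul, *, map_one]

theorem dk_pgl {F : Type*} [Field F] [Finite F] (p : ℕ) [CharP F p] (H : Subgroup PGL(2, F))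
    {a b c : PGL(2, F)} (haH : a ∈ H) (hbH : b ∈ H) (hcH : c ∈ H) (ha : a * a = 1) (hb : b * b = 1)
    (hab : a * b = b * a) (hc : c * c = 1) : (∃ g ∈ H, g ≠ 1 ∧ g ^ p = 1) ∨ DKc a b c := by
  by_cases hU : ∀ x, (p1Like_sub H).Uni x = ⊥
  · exact Or.inr ((dk_p1 (p1Like_sub H) hU (a := ⟨a, haH⟩) (b := ⟨b, hbH⟩) (c := ⟨c, hcH⟩)
      (Subtype.ext ha) (Subtype.ext hb) (Subtype.ext hab) (Subtype.ext hc)).map H.subtype)
  obtain ⟨x, hx⟩ := not_forall.1 hU
  obtain ⟨g, hg, h1⟩ := (Subgroup.bot_or_exists_ne_one _).resolve_left hx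
  haveI : CharP (AlgebraicClosure F) p := inferInstance
  exact Or.inl ⟨g, g.2, fun e => h1 (Subtype.ext e), congrArg Subtype.val
    (((p1Like_sub H).pow_eq_one_iff_of_mem_Uni hg h1 p).2 (CharP.cast_eq_zero _ p))⟩

section Mat
variable {F : Type*} [Field F]

/-- scalar two by two matrices -/
def Sc2 (M : Matrix (Fin 2) (Fin 2) F) : Prop := M 0 1 = 0 ∧ M 1 0 = 0 ∧ M 0 0 = M 1 1

theorem pgl_eq_one (g : GL (Fin 2) F) : ProjGenLinGroup.mk g = 1 ↔ Sc2 g.1 := by
  rw [← glMk_eta g]; exact mob_eq_one_iff _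

theorem sc2_comb {M : Matrix (Fin 2) (Fin 2) F} (h : ¬ Sc2 M) {a b : F}
    (h' : Sc2 (a • M + b • (1 : Matrix (Fin 2) (Fin 2) F))) : a = 0 := by
  by_contra ha
  simp [Sc2, ha] at h'
  exact h h'

theorem sq_two (M : Matrix (Fin 2) (Fin 2) F) : M * M = M.trace • M + (-M.det) • 1 := by
  ext i j; fin_cases i <;> fin_cases j <;> simp [mul_apply, trace_fin_two, det_fin_two] <;> ring

theorem sc2_pow {M : Matrix (Fin 2) (Fin 2) F} (h : ¬ Sc2 M) :
    (Sc2 (M ^ 2) → M.trace = 0) ∧ (Sc2 (M ^ 3) → M.trace ^ 2 - M.det = 0) ∧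
    (Sc2 (M ^ 5) → M.trace ^ 4 - 3 * M.trace ^ 2 * M.det + M.det ^ 2 = 0) := by
  have k : ∀ n a b, M ^ n = a • M + b • 1 → M ^ (n + 1) = (a * M.trace + b) • M + (-(a * M.det)) • 1 := by
    intro n a b e
    rw [pow_succ, e, add_mul, smul_mul_assoc, smul_mul_assoc, one_mul, sq_two]
    module
  have h2 : M ^ 2 = M.trace • M + (-M.det) • 1 := by rw [sq, sq_two]
  have h3 := k _ _ _ h2
  have h5 := k _ _ _ (k _ _ _ h3)
  refine ⟨fun e => sc2_comb h (h2 ▸ e), fun e => ?_, fun e => ?_⟩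
  · linear_combination sc2_comb h (h3 ▸ e)
  · linear_combination sc2_comb h (h5 ▸ e)

theorem dk_mat [Finite F] (p : ℕ) [CharP F p] (hp : Odd p) (h2 : (2 : F) ≠ 0)
    (Γ : Subgroup (GL (Fin 2) F)) {A B C : GL (Fin 2) F} (hA : A ∈ Γ) (hB : B ∈ Γ) (hC : C ∈ Γ)
    {l x y α β : F} (hl : l ≠ 0) (hxy : x ^ 2 - l * y ^ 2 = l) (hN : α ^ 2 + β ^ 2 - l = 1)
    (hα : α ≠ 0) (hβ : β ≠ 0) (eA : A.1 = !![0, 1; l, 0]) (eB : B.1 = !![x, y; -(l * y), -x])
    (eC : C.1 = α • A.1 + β • B.1 + A.1 * B.1) :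
    (∃ g ∈ Γ, ¬ Sc2 (g * g).1 ∧ Sc2 (g ^ p).1) ∨ (2 * α) ^ 2 = 1 ∨ (2 * β) ^ 2 = 1 ∨
      (4 * l = -1 ∧ (2 * α) ^ 4 - 3 * (2 * α) ^ 2 + 1 = 0) := by
  have eC' : C.1 = !![β * x - l * y, α + β * y - x; l * α - l * β * y + l * x, -(β * x) + l * y] := by
    rw [eC, eA, eB]; ext i j; fin_cases i <;> fin_cases j <;> simp <;> ring
  let m := ProjGenLinGroup.mk (n := Fin 2) (R := F)
  have dA : A.1.det = -l := by simp [eA]
  have dB : B.1.det = -l := by simp [eB]; linear_combination -hxy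
  have dC : C.1.det = -l := by simp [eC']; linear_combination (l - β ^ 2) * hxy - l * hN
  have tA : (A * C).1.trace = 2 * l * α := by simp [eA, eC']; ring
  have tB : (B * C).1.trace = 2 * l * β := by simp [eB, eC']; linear_combination 2 * β * hxy
  have tY : (A * B * C).1.trace = -2 * l ^ 2 := by
    simp [eA, eB, eC']; linear_combination (-2 * l) * hxy
  have nA : ¬ Sc2 (A * C).1 := fun ⟨a1, a2, a3⟩ => by
    simp [eA, eC', hl] at a1 a2 a3
    exact mul_ne_zero h2 (pow_ne_zero 2 hl) (by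
      linear_combination (-2 * l) * hxy - 2 * l * y * a1 + x * a3)
  have nB : ¬ Sc2 (B * C).1 := fun ⟨a1, a2, a3⟩ => by
    simp [eB, eC', hl] at a1 a2 a3
    exact mul_ne_zero h2 (pow_ne_zero 2 hl) (by
      linear_combination (-2 * l) * hxy - l * a1 - a2)
  have nY : ¬ Sc2 (A * B * C).1 := fun ⟨a1, a2, a3⟩ => by
    simp [eA, eB, eC', hl] at a1 a2 a3
    exact mul_ne_zero h2 (mul_ne_zero (pow_ne_zero 2 hl) hβ) (by
      linear_combination (-2 * l * β) * hxy + l * a1 + a2)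
  have l2 := pow_ne_zero 2 hl
  rcases dk_pgl p (Γ.map m) (a := m A) (b := m B) (c := m C) ⟨A, hA, rfl⟩ ⟨B, hB, rfl⟩ ⟨C, hC, rfl⟩
    (by rw [← map_mul, pgl_eq_one]; simp [Sc2, eA]) (by rw [← map_mul, pgl_eq_one]; simp [Sc2, eB]; grind)
    (by
      rw [← mul_inv_eq_one, ← map_mul, ← map_mul, ← map_inv, ← map_mul, pgl_eq_one]
      have : (A * B).1 = -(B * A).1 := by
        simp only [Units.val_mul, eA, eB]; ext i j; fin_cases i <;> fin_cases j <;> simp [mul_comm]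
      rw [Units.val_mul, this, neg_mul, ← Units.val_mul, mul_inv_cancel]
      simp [Sc2])
    (by rw [← map_mul, pgl_eq_one]; simp [Sc2, eC']; grind) with ⟨_, ⟨g, hg, rfl⟩, h1, h3⟩ | h
  · refine Or.inl ⟨g, hg, fun e => h1 ?_, by rwa [← pgl_eq_one, map_pow]⟩
    obtain ⟨k, rfl⟩ := hp
    rw [← pgl_eq_one, map_mul, ← sq] at e
    rwa [pow_succ, pow_mul, e, one_pow, one_mul] at h3
  simp only [DKc, ← map_mul, ← map_pow, m, pgl_eq_one, Units.val_pow_eq_pow_val] at h
  rcases h with h | h | h | h | h | ⟨h, h'⟩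
  · exact absurd (tA ▸ (sc2_pow nA).1 h) (by simp [*])
  · exact absurd (tB ▸ (sc2_pow nB).1 h) (by simp [*])
  · exact absurd (tY ▸ (sc2_pow nY).1 h) (by simp [*])
  · have := (sc2_pow nA).2.1 h
    rw [tA, Units.val_mul, det_mul, dA, dC] at this
    exact Or.inr (Or.inl (mul_left_cancel₀ l2 (by linear_combination this)))
  · have := (sc2_pow nB).2.1 h
    rw [tB, Units.val_mul, det_mul, dB, dC] at this
    exact Or.inr (Or.inr (Or.inl (mul_left_cancel₀ l2 (by linear_combination this))))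
  · have a1 := (sc2_pow nY).2.1 h
    have a2 := (sc2_pow nA).2.2 h'
    rw [tY, Units.val_mul, Units.val_mul, det_mul, det_mul, dA, dB, dC] at a1
    rw [tA, Units.val_mul, det_mul, dA, dC] at a2
    exact Or.inr (Or.inr (Or.inr ⟨mul_left_cancel₀ (pow_ne_zero 3 hl) (by linear_combination a1),
      mul_left_cancel₀ (pow_ne_zero 4 hl) (by linear_combination a2)⟩))

end Mat

end H29
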