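import Cfsg.Agent.H29.O3
import Cfsg.Agent.H11.Orth
import Cfsg.Agent.H29.Fr1

/-! Orthogonal groups over prime fields: `EK K W` (the group `K` contains the Eichler maps of the
subspace `W`), growth lemmas (`rel_full`, `pair_full`, `ek_four`), unipotent elements of a
3-space (`ek_of_unip`) and the group generated by three reflections (`three_refl`). -/

set_option autoImplicit false
set_option linter.unusedSectionVars false

namespace H29

open Module H11 H11.PForm

universe u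

variable {F : Type*} [Field F] {V : Type u} [AddCommGroup V] [Module F V] {S : PForm (orthP F) V}
  [FiniteDimensional F V] [Finite F] {K : Subgroup S.Isom}

/-- `K` contains the Eichler maps of `W` -/
def EK (K : Subgroup S.Isom) (W : Submodule F V) : Prop := ∀ u ∈ W, ∀ v ∈ W, ∀ a, S.eich u v a ∈ K

theorem EK.mono {W W' : Submodule F V} (h : EK K W) (h' : W' ≤ W) : EK K W' :=
  fun u hu v hv a => h u (h' hu) v (h' hv) a

theorem EK.map {W : Submodule F V} (h : EK K W) {g : S.Isom} (hg : g ∈ K) :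
    EK K (W.map (g.1 : V →ₗ[F] V)) := by
  rintro _ ⟨a, ha, rfl⟩ _ ⟨b, hb, rfl⟩ c
  simp only [LinearEquiv.coe_coe]
  rw [← conj_eich]
  exact K.mul_mem (K.mul_mem hg (h a ha b hb c)) (K.inv_mem hg)

theorem bset_eich {u v : V} {hu : S.Sing u} (h : v ∈ BSet K hu) (a : F) : S.eich u v a ∈ K := by
  by_cases hc : S.ECond u v a
  · obtain ⟨b, h1, h2⟩ := h
    rwa [hc.orth_eq, ← h1.orth_eq]
  · rw [eich_junk hc]; exact K.one_mem

theorem eich_self_eq {u : V} (c a : F) : S.eich u (c • u) a = 1 := by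
  by_cases hc : S.ECond u (c • u) a
  · ext x
    have : a = 0 := by rw [hc.orth_eq, orth_q_smul, (orth_sing S u).1 hc.sing, mul_zero]
    rw [eich_apply hc, this]
    simp [smul_smul, mul_comm]
  · exact eich_junk hc

theorem self_mem_bset {u : V} (hu : S.Sing u) (c : F) : c • u ∈ BSet K hu :=
  ⟨_, ECond.of_q hu (by simp [hu.h_self]), by rw [eich_self_eq]; exact K.one_mem⟩

theorem bset_smul (hF : ∀ c : F, ∃ n : ℕ, c = n) {u v : V} {hu : S.Sing u} (h : v ∈ BSet K hu)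
    (c : F) : c • v ∈ BSet K hu := by
  obtain ⟨n, rfl⟩ := hF c
  rw [Nat.cast_smul_eq_nsmul]
  exact AddSubgroup.nsmul_mem _ h n

theorem rel_full {W : Submodule F V} (hW : (S.restrict W).Nondeg) {u w : V} (hu : u ∈ W)
    (hw : w ∈ W) (su : S.Sing u) (sw : S.Sing w) (huw : S.h u w ≠ 0)
    (h1 : ∀ v ∈ W, S.h u v = 0 → v ∈ BSet K su) (h2 : ∀ v ∈ W, S.h w v = 0 → v ∈ BSet K sw) :
    EK K W := by
  have k : ∀ u (hu : u ∈ W) (su : S.Sing u), (∀ v ∈ W, S.h u v = 0 → v ∈ BSet K su) →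
      Full (K.comap (ext1 hW)) ⟨u, hu⟩ := fun u hu su h v a => by
    by_cases hc : (S.restrict W).ECond ⟨u, hu⟩ v a
    · rw [Subgroup.mem_comap, ext1_eich]; exact bset_eich (h v v.2 hc.perp) a
    · rw [eich_junk hc]; exact one_mem _
  intro x hx v hv a
  have := full_all_of_pair hW (u := ⟨u, hu⟩) (w := ⟨w, hw⟩) su sw (k u hu su h1) (k w hw sw h2) huw
    ⟨x, hx⟩ ⟨v, hv⟩ a
  rwa [Subgroup.mem_comap, ext1_eich] at this

theorem rel_full' {W : Submodule F V} (hW : (S.restrict W).Nondeg) {u : V} (hu : u ∈ W)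
    (su : S.Sing u) {g : S.Isom} (hg : g ∈ K) (hgW : g ∈ S.stab W) (huw : S.h u (g.1 u) ≠ 0)
    (h1 : ∀ v ∈ W, S.h u v = 0 → v ∈ BSet K su) : EK K W := by
  refine rel_full hW hu ((hgW u).1 hu) su ((isom_sing g u).2 su) huw h1 fun v hv h => ?_
  obtain ⟨v, rfl⟩ := g.1.surjective v
  exact BSet_map (h1 v ((hgW v).2 hv) (by simpa using h)) hg rfl

theorem pair_full {U : Submodule F V} (hU : (S.restrict U).Nondeg) {s s' : V} (hs : S.Sing s)
    (hs' : S.Sing s') (h : S.h s s' ≠ 0) (h1 : ∀ x ∈ U, x ∈ BSet K hs) (h2 : ∀ x ∈ U, x ∈ BSet K hs') :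
    EK K (Submodule.span F {s, s'} ⊔ U) := by
  have dec : ∀ x ∈ Submodule.span F {s, s'} ⊔ U, ∃ a b : F, ∃ y ∈ U, x = a • s + b • s' + y := by
    intro x hx
    obtain ⟨y, hy, z, hz, rfl⟩ := Submodule.mem_sup.1 hx
    obtain ⟨a, b, rfl⟩ := Submodule.mem_span_pair.1 hy
    exact ⟨a, b, z, hz, rfl⟩
  have m1 : s ∈ Submodule.span F {s, s'} ⊔ U := Submodule.mem_sup_left (Submodule.subset_span (by simp))
  have m2 : s' ∈ Submodule.span F {s, s'} ⊔ U := Submodule.mem_sup_left (Submodule.subset_span (by simp))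
  have h' : S.h s' s ≠ 0 := fun e => h (S.h_swap_zero e)
  have p1 := fun x hx => BSet_perp (h1 x hx)
  have p2 := fun x hx => BSet_perp (h2 x hx)
  refine rel_full ((S.restrict_nondeg_iff' _).2 fun x hx h0 => ?_) m1 m2 hs hs' h (fun v hv h0 => ?_)
    fun v hv h0 => ?_
  · obtain ⟨a, b, y, hy, rfl⟩ := dec x hx
    have a1 := S.h_swap_zero (h0 s m1)
    have a2 := S.h_swap_zero (h0 s' m2)
    simp [hs.h_self, hs'.h_self, p1 y hy, p2 y hy, h, h'] at a1 a2
    subst a1 a2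
    simpa using (S.restrict_nondeg_iff' _).1 hU y hy fun z hz => by
      simpa using h0 z (Submodule.mem_sup_right hz)
  · obtain ⟨a, b, y, hy, rfl⟩ := dec v hv
    simp [hs.h_self, p1 y hy, h] at h0
    simpa [h0] using AddSubgroup.add_mem _ (self_mem_bset hs a) (h1 y hy)
  · obtain ⟨a, b, y, hy, rfl⟩ := dec v hv
    simp [hs'.h_self, p2 y hy, h'] at h0
    simpa [h0] using AddSubgroup.add_mem _ (self_mem_bset hs' b) (h2 y hy)

theorem EK.refl {X : Submodule F V} (h : EK K X) (hX : (S.restrict X).Nondeg) (h3 : 3 ≤ finrank F X)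
    {a b : V} (ha : a ∈ X) (hb : b ∈ X) (h1 : S.q a ≠ 0) (h2 : S.q b ≠ 0)
    (h4 : sqSign (S.q a) = sqSign (S.q b)) : S.refl a * S.refl b ∈ K := by
  obtain ⟨e, f, Hy⟩ := hX.orth_exists_hyp h3
  have h1' : (S.restrict X).q ⟨a, ha⟩ ≠ 0 := h1
  have h2' : (S.restrict X).q ⟨b, hb⟩ ≠ 0 := h2
  have := ext1_E_mem hX h ((hX.mem_E_iff h3 Hy ((S.restrict X).refl ⟨a, ha⟩ *
    (S.restrict X).refl ⟨b, hb⟩)).2 ⟨by simp [hX.dick_refl h1', hX.dick_refl h2'], by
      rw [map_mul, hX.spin_refl h1', hX.spin_refl h2']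
      exact h4 ▸ Int.units_mul_self _⟩)
  rwa [map_mul, ext1_refl, ext1_refl] at this

theorem stab_of_fix_perp (hS : S.Nondeg) {Y : Submodule F V} {g : S.Isom}
    (hg : g ∈ S.fix (S.perp Y)) : g ∈ S.stab Y := by
  rw [← stab_perp hS]
  exact mem_stab_of_le fun x hx => by rwa [hg x hx]

theorem ek_four (hS : S.Nondeg) (h2 : (2 : F) ≠ 0) (hq : 5 ≤ Nat.card F)
    (hF : ∀ c : F, ∃ n : ℕ, c = n) {X X' Y : Submodule F V} (hX : (S.restrict X).Nondeg)
    (hX' : (S.restrict X').Nondeg) (hY : (S.restrict Y).Nondeg) (d : finrank F X = 3)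
    (d' : finrank F X' = 3) (dY : finrank F Y = 4) (l : X ≤ Y) (l' : X' ≤ Y) (hne : X ≠ X')
    (h : EK K X) (h' : EK K X') : EK K Y := by
  by_contra hc
  have k : ∀ X : Submodule F V, (S.restrict X).Nondeg → finrank F X = 3 → X ≤ Y → EK K X →
      P3 (K ⊓ S.fix (S.perp Y)) X := fun X hX d l h => by
    have e1 : ∀ u ∈ X, ∀ v ∈ X, ∀ a, S.eich u v a ∈ K ⊓ S.fix (S.perp Y) := fun u hu v hv a =>
      ⟨h u hu v hv a, fun x hx => eich_apply_of_perp_perp (hx u (l hu)) (hx v (l hv))⟩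
    refine ⟨hX, d, fun a ha b hb h1 h3 h4 => ⟨h.refl hX d.ge ha hb h1 h3 h4, fun x hx => by
      rw [isom_mul_apply, refl_apply_of_perp (hx b (l hb)), refl_apply_of_perp (hx a (l ha))]⟩,
      e1, fun u hu hu0 hs v ⟨a, c1, c2, c3⟩ => by_contra fun hv => hc ?_⟩
    obtain ⟨f, hf, w, hw, Hy, a1, a2, a3, a4⟩ := exists_basis3 hS hX d hu hu0 hs
    have hvY : v ∈ Y := by
      rw [← hS.perp_perp Y]
      refine S.mem_perp'.2 fun x hx => ?_
      have := c3 x hx
      rw [eich_apply_of_perp c1 (hx u (l hu))] at this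
      simpa [hu0] using this
    have e : X ⊔ F ∙ v = Y := Submodule.eq_of_le_of_finrank_eq
      (sup_le l ((Submodule.span_singleton_le_iff_mem _ _).2 hvY))
      (by rw [Submodule.finrank_sup_span_singleton hv, d, dY])
    have hc' : S.ECond f w (S.q w) := ECond.of_q Hy.sing_f a2
    refine rel_full' hY (l hu) hs (e1 f hf w hw (S.q w)).1 (stab_of_fix_perp hS (e1 f hf w hw _).2)
      ?_ fun z hz h0 => ?_
    · rw [eich_apply hc']
      simpa [hs.h_self, a1, Hy.h_ef, Hy.orth_h_fe, S.h_swap_zero a1] using q_ne_of_h a3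
    rw [← e] at hz
    obtain ⟨x, hx, y, hy, rfl⟩ := Submodule.mem_sup.1 hz
    obtain ⟨c, rfl⟩ := Submodule.mem_span_singleton.1 hy
    exact AddSubgroup.add_mem _ (mem_BSet_of_mem h hu hs hx (by simpa [c1.perp] using h0))
      (bset_smul hF ⟨a, c1, c2⟩ c)
  refine hne ((k X hX d l h).eq_of_plane hS h2 hq (k X' hX' d' l' h') ?_)
  have := Submodule.finrank_sup_add_finrank_inf_eq X X'
  have := Submodule.finrank_mono (sup_le l l')
  omega

theorem ek_of_unip (hS : S.Nondeg) (h2 : (2 : F) ≠ 0) (hF : ∀ c : F, ∃ n : ℕ, c = n) (p : ℕ)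
    [Fact p.Prime] [CharP F p] (hp : Odd p) {X : Submodule F V} (hX : (S.restrict X).Nondeg)
    (d : finrank F X = 3) {t : S.Isom} (ht : t ∈ K) (hf : t ∈ S.fix (S.perp X)) (h1 : t ≠ 1)
    (hp1 : t ^ p = 1)
    (hR : ∀ s ∈ X, s ≠ 0 → ∃ a ∈ X, S.q a ≠ 0 ∧ S.h a s ≠ 0 ∧ S.refl a ∈ K) : EK K X := by
  obtain ⟨s, z, hs0, e1, e2⟩ : ∃ s z, s ≠ 0 ∧ s = t.1 z - z ∧ t.1 s = s := by
    let D : Module.End F V := (t.1 : V →ₗ[F] V) - 1
    haveI : Nontrivial V := by
      by_contra hn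
      exact h1 (isom_ext fun x => (not_nontrivial_iff_subsingleton.1 hn).elim _ _)
    haveI : CharP (Module.End F V) p := charP_of_injective_algebraMap (algebraMap F _).injective p
    have hD : D ^ p = 0 := by
      rw [sub_pow_char_of_commute _ (Commute.one_right _), one_pow, sub_eq_zero]
      ext x
      have := congrArg (fun g : S.Isom => g.1 x) hp1
      simpa [LinearEquiv.pow_apply, Module.End.pow_apply] using this
    by_contra! hc
    have k : ∀ n x, (D ^ (n + 1)) x = 0 → D x = 0 := fun n => by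
      induction n with
      | zero => simp
      | succ n ih =>
        intro x hx
        by_contra h0
        exact hc (D x) x h0 rfl (sub_eq_zero.1 (ih (D x) (by rwa [pow_succ] at hx)))
    exact h1 (isom_ext fun x => sub_eq_zero.1 (k p x (by simp [pow_succ', hD])))
  have hst := stab_of_fix_perp hS hf
  have hsX : s ∈ X := by
    rw [← hS.perp_perp X]
    intro x hx
    rw [e1, map_sub, ← hf x hx, isom_h, hf x hx, sub_self]
  have hs : S.Sing s := (orth_sing S s).2 (by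
    have : S.h s s = 0 := by
      conv_lhs => rw [e1, map_sub, ← e1]
      conv_lhs => enter [1]; rw [← e2, isom_h]
      exact sub_self _
    simpa [orth_h_self, h2] using this)
  obtain ⟨f, hfX, w, hw, Hy, a1, a2, a3, a4⟩ := exists_basis3 hS hX d hsX hs0 hs
  have b1 : S.h s (t.1 f) = S.h s f := by conv_lhs => rw [← e2, isom_h]
  obtain ⟨a, c1, c2⟩ := eich_trans (x := f) (y := t.1 f) hs (by simp [Hy.h_ef]) b1 (by simp)
  rw [Hy.h_ef, inv_one, one_smul] at c1 c2
  have hx : t.1 f - f ∈ X := X.sub_mem ((hst f).1 hfX) hfX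
  generalize t.1 f - f = x at c1 c2 hx
  have hw0 := q_ne_of_h a3
  have e3 : t = S.eich s x a := by
    rcases (hS.orth_mem_fix_perp hw0 ((S.eich s x a)⁻¹ * t)).1 (fun z hz => by
      obtain ⟨y, hy, y', hy', rfl⟩ := exists_decomp hX z
      obtain ⟨c, hc⟩ := a4 y hy
      have hc0 : c = 0 := by
        rw [mem_perp_singleton, map_add, hy' w hw, hc] at hz
        simpa [S.h_swap_zero a1, S.h_swap_zero a2, a3] using hz
      have : t.1 (y + y') = (S.eich s x a).1 (y + y') := by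
        rw [hc, hc0]
        simp [e2, c2, hf y' hy', eich_apply_self, eich_apply_of_perp_perp (hy' s hsX) (hy' x hx)]
      rw [isom_mul_apply, this, isom_inv_apply_self])
      with e | e
    · exact (inv_mul_eq_one.1 e).symm
    · have := congrArg hS.dick hp1
      rw [inv_mul_eq_iff_eq_mul.1 e, map_pow, map_mul, hS.dick_eich, hS.dick_refl hw0, one_mul,
        hp.neg_one_pow, map_one] at this
      exact absurd this (by decide)
  obtain ⟨c, hc⟩ := a4 x hx
  rw [c1.perp, zero_smul, add_zero] at hc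
  have hc0 : c ≠ 0 := by
    rintro rfl
    exact h1 (by rw [e3, hc, zero_smul, add_zero, eich_self_eq])
  have hwB : w ∈ BSet K hs := by
    have := bset_smul hF ((BSet K hs).sub_mem ⟨a, c1, e3 ▸ ht⟩ (self_mem_bset hs (S.h f x))) c⁻¹
    rwa [show x - S.h f x • s = c • w by rw [sub_eq_iff_eq_add']; exact hc, smul_smul,
      inv_mul_cancel₀ hc0, one_smul] at this
  obtain ⟨r, r1, r2, r3, r4⟩ := hR s hsX hs0
  refine rel_full' hX hsX hs r4 (mem_stab_of_le fun x hx => refl_mem r1 hx) ?_ fun v hv h0 => ?_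
  · simpa [refl_apply, hs.h_self, r2, r3] using fun e => r3 (S.h_swap_zero e)
  obtain ⟨c, hc⟩ := a4 v hv
  rw [hc, h0, zero_smul, add_zero]
  exact AddSubgroup.add_mem _ (self_mem_bset hs _) (bset_smul hF hwB c)

theorem orthFam (h2 : (2 : F) ≠ 0) {n : ℕ} {b : Fin n → V} (hq : ∀ i, S.q (b i) ≠ 0)
    (ho : ∀ i j, i ≠ j → S.h (b i) (b j) = 0) :
    (S.restrict (Submodule.span F (Set.range b))).Nondeg ∧
      finrank F (Submodule.span F (Set.range b)) = n := by
  have k : ∀ (c : Fin n → F) j, S.h (b j) (∑ i, c i • b i) = 0 → c j = 0 := fun c j h => by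
    rw [map_sum, Finset.sum_eq_single j (fun i _ hi => by simp [ho j i hi.symm]) (by simp)] at h
    simpa [orth_h_self, h2, hq] using h
  refine ⟨(S.restrict_nondeg_iff' _).2 fun x hx h => ?_, ?_⟩
  · obtain ⟨c, rfl⟩ := Submodule.mem_span_range_iff_exists_fun F |>.1 hx
    simp [fun j => k c j (S.h_swap_zero (h _ (Submodule.subset_span ⟨j, rfl⟩)))]
  · rw [finrank_span_eq_card (Fintype.linearIndependent_iff.2 fun c hc j => k c j (by simp [hc])),
      Fintype.card_fin]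

theorem exists_xy (h2 : (2 : F) ≠ 0) {l : F} (hl : l ≠ 0) : ∃ x y : F, x ^ 2 - l * y ^ 2 = l := by
  cases nonempty_fintype F
  obtain ⟨x, y, h⟩ := FiniteField.exists_root_sum_quadratic (f := .X ^ 2 - .C l)
    (g := .C (-l) * .X ^ 2) (Polynomial.degree_X_pow_sub_C (by norm_num) l)
    (Polynomial.degree_C_mul_X_pow 2 (neg_ne_zero.2 hl))
    (FiniteField.odd_card_of_char_ne_two fun e => h2 (by simpa [e] using ringChar.Nat.cast_ringChar (R := F)))
  exact ⟨x, y, by simp at h; linear_combination h⟩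

open Matrix in
theorem three_refl (hS : S.Nondeg) (h2 : (2 : F) ≠ 0) (hF : ∀ c : F, ∃ n : ℕ, c = n) (p : ℕ)
    [Fact p.Prime] [CharP F p] (hp : Odd p) {a b y : V} {α β : F} (qa : S.q a = 1) (qb : S.q b = 1)
    (qy : S.q y ≠ 0) (ab : S.h a b = 0) (ay : S.h a y = 0) (by' : S.h b y = 0) (hα : α ≠ 0)
    (hβ : β ≠ 0) (qv : S.q (α • a + β • b + y) = 1) (ra : S.refl a ∈ K) (rb : S.refl b ∈ K)
    (rv : S.refl (α • a + β • b + y) ∈ K) :
    EK K (Submodule.span F (Set.range ![a, b, y])) ∨ (2 * α) ^ 2 = 1 ∨ (2 * β) ^ 2 = 1 ∨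
      ((2 * α) ^ 2 + (2 * β) ^ 2 = 3 ∧ (2 * α) ^ 4 - 3 * (2 * α) ^ 2 + 1 = 0) := by
  have ba := S.h_swap_zero ab
  have ya := S.h_swap_zero ay
  have yb := S.h_swap_zero by'
  obtain ⟨hX, dX⟩ := orthFam (S := S) h2 (b := ![a, b, y]) (fun i => by fin_cases i <;> simp [*])
    fun i j hij => by fin_cases i <;> fin_cases j <;> simp_all
  set X := Submodule.span F (Set.range ![a, b, y])
  have ma : a ∈ X := Submodule.subset_span ⟨0, rfl⟩
  have mb : b ∈ X := Submodule.subset_span ⟨1, rfl⟩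
  have my : y ∈ X := Submodule.subset_span ⟨2, rfl⟩
  have mv : α • a + β • b + y ∈ X := X.add_mem (X.add_mem (X.smul_mem _ ma) (X.smul_mem _ mb)) my
  have pX : ∀ x, S.h a x = 0 → S.h b x = 0 → S.h y x = 0 → x ∈ S.perp X := fun x a1 a2 a3 =>
    S.mem_perp_span.2 (by rintro _ ⟨i, rfl⟩; fin_cases i <;> assumption)
  obtain ⟨l, hl⟩ : ∃ l, S.q y = -l := ⟨_, (neg_neg _).symm⟩
  have l0 : l ≠ 0 := by rintro rfl; simp_all
  have hN : α ^ 2 + β ^ 2 - l = 1 := by
    simp [orth_q_add, orth_q_smul, *] at qv; linear_combination qv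
  obtain ⟨s, t, hxy⟩ := exists_xy h2 l0
  let A : GL (Fin 2) F := H10.glMk 0 1 l 0 (by simpa)
  let B : GL (Fin 2) F := H10.glMk s t (-(l * t)) (-s) fun e => l0 (by linear_combination -hxy - e)
  let ψ : F → F → F → Matrix (Fin 2) (Fin 2) F := fun c₁ c₂ c₃ => c₁ • A.1 + c₂ • B.1 + c₃ • (A.1 * B.1)
  have anti : ∀ c₁ c₂ c₃ d₁ d₂ d₃, ψ c₁ c₂ c₃ * ψ d₁ d₂ d₃ + ψ d₁ d₂ d₃ * ψ c₁ c₂ c₃ =
      (2 * l * (c₁ * d₁ + c₂ * d₂ - l * c₃ * d₃)) • (1 : Matrix (Fin 2) (Fin 2) F) := by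
    intro c₁ c₂ c₃ d₁ d₂ d₃
    ext i j; fin_cases i <;> fin_cases j <;> simp [ψ, A, B] <;> grind
  have sqv : ψ α β 1 * ψ α β 1 = l • (1 : Matrix (Fin 2) (Fin 2) F) :=
    smul_right_injective _ h2 (by simp only [two_smul, anti, ← add_smul]; congr 1; grind)
  let C : GL (Fin 2) F := ⟨ψ α β 1, l⁻¹ • ψ α β 1, by simp [sqv, smul_smul, l0], by simp [sqv, smul_smul, l0]⟩
  let φ : V → Matrix (Fin 2) (Fin 2) F := fun x => ψ (S.h a x / 2) (S.h b x / 2) (-S.h y x / (2 * l))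
  have φs : ∀ x x' (c : F), φ (x - c • x') = φ x - c • φ x' := fun x x' c => by
    simp only [φ, ψ, map_sub, map_smul, smul_eq_mul]; module
  have φ0 : ∀ x, φ x = 0 → x ∈ S.perp X := fun x h => by
    have k := fun d₁ d₂ d₃ => (anti (S.h a x / 2) (S.h b x / 2) (-S.h y x / (2 * l)) d₁ d₂ d₃).symm
    simp only [show ψ _ _ _ = 0 from h, zero_mul, mul_zero, add_zero] at k
    exact pX x (by simpa [h2, l0] using k 1 0 0) (by simpa [h2, l0] using k 0 1 0)
      (by simpa [h2, l0] using k 0 0 1)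
  let Δ : Subgroup (GL (Fin 2) F × S.Isom) :=
    { carrier := {g | g.2 ∈ K ⊓ S.fix (S.perp X) ∧ ∃ ε : F, ε * ε = 1 ∧
        ∀ x, φ (g.2.1 x) * g.1.1 = ε • (g.1.1 * φ x)}
      one_mem' := ⟨one_mem _, 1, by simp, fun x => by simp⟩
      mul_mem' := by
        rintro g g' ⟨a1, ε, a2, a3⟩ ⟨b1, ε', b2, b3⟩
        refine ⟨mul_mem a1 b1, ε * ε', by linear_combination ε' * ε' * a2 + b2, fun x => ?_⟩
        simp only [Prod.snd_mul, Prod.fst_mul, isom_mul_apply, Units.val_mul]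
        rw [← mul_assoc, a3, smul_mul_assoc, mul_assoc, b3, mul_smul_comm, smul_smul, mul_assoc]
      inv_mem' := by
        rintro g ⟨a1, ε, a2, a3⟩
        refine ⟨inv_mem a1, ε, a2, fun x => ?_⟩
        have := a3 ((g.2⁻¹).1 x)
        rw [isom_apply_inv_self, ← Units.eq_mul_inv_iff_mul_eq] at this
        simp only [Prod.snd_inv, Prod.fst_inv]
        rw [this, smul_mul_assoc, mul_smul_comm, smul_smul, a2, one_smul, mul_assoc,
          Units.inv_mul_cancel_left] }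
  have mem : ∀ (g : GL (Fin 2) F) (c₁ c₂ c₃ : F) (d : V), d = c₁ • a + c₂ • b + c₃ • y → S.q d = 1 →
      S.refl d ∈ K → g.1 = ψ c₁ c₂ c₃ → g ∈ Δ.map (MonoidHom.fst _ _) := by
    intro g c₁ c₂ c₃ d e1 e2 e3 e4
    have e5 : φ d = ψ c₁ c₂ c₃ := by
      simp only [φ]; congr 1 <;> simp [e1, orth_h_self, *] <;> field_simp
    have e6 : c₁ * c₁ + c₂ * c₂ - l * c₃ * c₃ = 1 := by
      simp [e1, orth_q_add, orth_q_smul, *] at e2; linear_combination e2
    have e7 : ψ c₁ c₂ c₃ * ψ c₁ c₂ c₃ = l • (1 : Matrix (Fin 2) (Fin 2) F) :=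
      smul_right_injective _ h2 (by simp only [two_smul, anti, ← add_smul]; congr 1; grind)
    refine ⟨(g, S.refl d), ⟨⟨e3, fun x hx => refl_apply_of_perp ?_⟩, -1, by simp, fun x => ?_⟩, rfl⟩
    · simp [e1, hx a ma, hx b mb, hx y my]
    simp only [refl_apply, e2, inv_one, one_mul, φs, e4, e5, sub_mul, smul_mul_assoc, e7, neg_smul,
      one_smul]
    rw [sub_eq_iff_eq_add, eq_neg_add_iff_add_eq, add_comm, anti, smul_smul]
    congr 1
    simp [e1]; field_simp; ring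
  have sq : ∀ g ∈ Δ, ∀ x, φ ((g.2 * g.2).1 x) * (g.1 * g.1).1 = (g.1 * g.1).1 * φ x := by
    rintro g ⟨-, ε, a2, a3⟩ x
    rw [isom_mul_apply, Units.val_mul, ← mul_assoc, a3, smul_mul_assoc, mul_assoc, a3, mul_smul_comm,
      smul_smul, a2, one_smul, mul_assoc]
  rcases dk_mat p hp h2 (Δ.map (MonoidHom.fst _ _)) (A := A) (B := B) (C := C)
    (mem A 1 0 0 a (by simp) qa ra (by simp [ψ])) (mem B 0 1 0 b (by simp) qb rb (by simp [ψ]))
    (mem C α β 1 _ (by simp) qv rv rfl) l0 hxy hN hα hβ rfl rfl (by simp [C, ψ]) with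
    ⟨_, ⟨g, hg, rfl⟩, h1, h3⟩ | h | h | h
  · refine Or.inl (ek_of_unip hS h2 hF p hp hX dX (t := g.2 * g.2) (mul_mem hg.1.1 hg.1.1)
      (mul_mem hg.1.2 hg.1.2) (fun e => h1 ?_) (isom_ext fun x => ?_) fun s hs hs0 => ?_)
    · have a1 := sq g hg a
      have a2 := sq g hg b
      rw [e] at a1 a2
      change Sc2 (g.1 * g.1).1
      generalize (g.1 * g.1).1 = G at a1 a2
      have b1 := congrFun (congrFun a1 0) 0
      have b2 := congrFun (congrFun a1 0) 1
      have b3 := congrFun (congrFun a2 0) 0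
      have b4 := congrFun (congrFun a2 0) 1
      simp [φ, ψ, A, B, orth_h_self, mul_apply, *] at b1 b2 b3 b4
      have : G 0 1 = 0 := mul_left_cancel₀ (mul_ne_zero h2 l0) (by grind)
      exact ⟨this, by simp [b1, this], b2.symm⟩
    · have a1 := sq _ (Δ.pow_mem hg p) x
      have a2 := (Δ.pow_mem hg p).1.2
      obtain ⟨c, hc⟩ : ∃ c : F, (g ^ p).1.1 = c • (1 : Matrix (Fin 2) (Fin 2) F) :=
        ⟨(g ^ p).1.1 0 0, by
          obtain ⟨b1, b2, b3⟩ : Sc2 (g ^ p).1.1 := h3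
          ext i j; fin_cases i <;> fin_cases j <;> simp_all⟩
      rw [show ((g ^ p).1 * (g ^ p).1).1 * φ x = φ x * ((g ^ p).1 * (g ^ p).1).1 by
        rw [Units.val_mul, hc]; simp,
        Units.mul_left_inj] at a1
      rw [(Commute.refl g.2).mul_pow]
      change ((g ^ p).2 * (g ^ p).2).1 x = x
      have a3 := mul_mem a2 a2
      generalize (g ^ p).2 * (g ^ p).2 = k at a1 a3
      refine sub_eq_zero.1 (Submodule.disjoint_def.1 ((S.restrict_nondeg_iff _).1 hX) _ ?_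
        (φ0 _ (by simpa [a1] using φs (k.1 x) x 1)))
      rw [← hS.perp_perp X]
      intro z hz
      rw [map_sub, ← a3 z hz, isom_h, a3 z hz, sub_self]
    · by_contra! hc
      have b1 : S.h a s = 0 := by_contra fun e => hc a ma (by simp [qa]) e ra
      have b2 : S.h b s = 0 := by_contra fun e => hc b mb (by simp [qb]) e rb
      have b3 : S.h (α • a + β • b + y) s = 0 := by_contra fun e => hc _ mv (by simp [qv]) e rv
      exact hs0 (Submodule.disjoint_def.1 ((S.restrict_nondeg_iff _).1 hX) _ hs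
        (pX s b1 b2 (by simpa [b1, b2] using b3)))
  · simp [h]
  · simp [h]
  · exact Or.inr (Or.inr (Or.inr ⟨by linear_combination 4 * hN + h.1, h.2⟩))

end H29
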