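import Cfsg.Agent.H29.Fr2

/-! Overgroups of the stabiliser of an orthonormal frame containing the reflections in the frame
vectors, over a prime field: `FK.dich`; odd dimension: `frame_dichotomy`. -/

set_option autoImplicit false
set_option linter.unusedSectionVars false

namespace H29

open Module H11 H11.PForm Finset

universe u

variable {F : Type*} [Field F] {V : Type u} [AddCommGroup V] [Module F V] {S : PForm (orthP F) V}
  [FiniteDimensional F V] [Finite F] {K : Subgroup S.Isom} {ι : Type} [Fintype ι] [DecidableEq ι]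
  {e : ι → V}

/-- a frame whose reflections and even permutations lie in `K` -/
structure FK (K : Subgroup S.Isom) (e : ι → V) : Prop where
  nd : S.Nondeg
  two : (2 : F) ≠ 0
  pr : ∀ c : F, ∃ n : ℕ, c = n
  card : 6 ≤ Fintype.card ι
  q1 : ∀ i, S.q (e i) = 1
  orth : ∀ i j, i ≠ j → S.h (e i) (e j) = 0
  span : ∀ x, (∀ i, S.h (e i) x = 0) → x = 0
  refl : ∀ i, S.refl (e i) ∈ K
  sw : ∀ i j k l, i ≠ j → k ≠ l → S.refl (e i - e j) * S.refl (e k - e l) ∈ K

theorem exists_two_notMem (J : Finset ι) (h : J.card + 2 ≤ Fintype.card ι) :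
    ∃ a b, a ≠ b ∧ a ∉ J ∧ b ∉ J := by
  obtain ⟨a, ha, b, hb, h⟩ := one_lt_card.1 (show 1 < Jᶜ.card by rw [card_compl]; omega)
  exact ⟨a, b, h, mem_compl.1 ha, mem_compl.1 hb⟩

theorem span_vec_le {n : ℕ} {b : Fin n → V} {W : Submodule F V} (h : ∀ i, b i ∈ W) :
    Submodule.span F (Set.range b) ≤ W := Submodule.span_le.2 (Set.range_subset_iff.2 h)

theorem mem_span_vec {n : ℕ} (b : Fin n → V) (i : Fin n) : b i ∈ Submodule.span F (Set.range b) :=
  Submodule.subset_span ⟨i, rfl⟩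

namespace FK
variable (h : FK K e)
include h

theorem hh (i j : ι) : S.h (e i) (e j) = if i = j then 2 else 0 := by
  split_ifs with hij
  · simp [hij, orth_h_self, h.q1]
  · exact h.orth i j hij

theorem co_r (i l : ι) (x : V) :
    S.h (e l) ((S.refl (e i)).1 x) = if l = i then -S.h (e l) x else S.h (e l) x := by
  simp only [refl_apply, h.q1, map_sub, map_smul, h.hh]
  split_ifs with a <;> simp [a] <;> ring

theorem q_sub {i j : ι} (hij : i ≠ j) : S.q (e i - e j) = 2 := by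
  rw [orth_q_sub, h.q1, h.q1, h.orth i j hij]; norm_num

theorem co_t {i j : ι} (hij : i ≠ j) (l : ι) (x : V) :
    S.h (e l) ((S.refl (e i - e j)).1 x) = S.h (e (Equiv.swap i j l)) x := by
  have := h.two
  simp only [refl_apply, h.q_sub hij, map_sub, map_smul, h.hh, Equiv.swap_apply_def]
  split_ifs with a b b
  · exact absurd (a.symm.trans b) hij
  all_goals simp [*]
  all_goals field_simp; ring

theorem ext {x y : V} (hxy : ∀ i, S.h (e i) x = S.h (e i) y) : x = y :=
  sub_eq_zero.1 (h.span _ fun i => by simp [hxy])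

theorem t_e {i j : ι} (hij : i ≠ j) (l : ι) : (S.refl (e i - e j)).1 (e l) = e (Equiv.swap i j l) :=
  h.ext fun m => by simp only [h.co_t hij, h.hh, Equiv.swap_apply_eq_iff]

theorem t_fix {i j : ι} {x : V} (h1 : S.h (e i) x = 0) (h2 : S.h (e j) x = 0) :
    (S.refl (e i - e j)).1 x = x := refl_apply_of_perp (by simp [h1, h2])

theorem expand (x : V) : x = ∑ i, (S.h (e i) x / 2) • e i := h.ext fun j => by
  have := h.two
  simp [h.hh]; field_simp

theorem q_sum {x : V} (J : Finset ι) (hJ : ∀ i ∉ J, S.h (e i) x = 0) :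
    4 * S.q x = ∑ i ∈ J, S.h (e i) x ^ 2 := by
  have := h.two
  have a : S.h x x = ∑ i, S.h (e i) x ^ 2 / 2 := by
    conv_lhs => enter [2]; rw [h.expand x]
    rw [map_sum]
    exact sum_congr rfl fun i _ => by rw [map_smul, S.orth_symm x, smul_eq_mul]; ring
  rw [sum_subset (subset_univ J) fun i _ hi => by simp [hJ i hi]]
  rw [orth_h_self, ← sum_div, eq_div_iff this] at a
  linear_combination a

theorem vec {n : ℕ} {L : Fin n → ι} (hL : Function.Injective L) :
    (S.restrict (Submodule.span F (Set.range (e ∘ L)))).Nondeg ∧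
      finrank F (Submodule.span F (Set.range (e ∘ L))) = n :=
  orthFam h.two (by simp [h.q1]) fun i j hij => h.orth _ _ (hL.ne hij)

theorem big4 {i j k l : ι} (hL : Function.Injective ![i, j, k, l])
    (hE : EK K (Submodule.span F (Set.range (e ∘ ![i, j, k, l])))) : S.E ≤ K := by
  have n := fun a b (hab : a ≠ b) => hL.ne hab
  have ⟨ij, ik, il, jk, jl, kl⟩ : i ≠ j ∧ i ≠ k ∧ i ≠ l ∧ j ≠ k ∧ j ≠ l ∧ k ≠ l :=
    ⟨n 0 1 (by simp), n 0 2 (by simp), n 0 3 (by simp), n 1 2 (by simp), n 1 3 (by simp), n 2 3 (by simp)⟩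
  have a1 : ∀ m, m ∉ ({i, j, k} : Finset ι) →
      EK K (Submodule.span F (Set.range (e ∘ ![i, j, k, m]))) := fun m hm => by
    by_cases hl : l = m
    · exact hl ▸ hE
    simp only [mem_insert, mem_singleton, not_or] at hm
    have := fun t => Submodule.mem_map_of_mem (f := ((S.refl (e l - e m) * S.refl (e i - e j)).1 :
      V →ₗ[F] V)) (mem_span_vec (F := F) (e ∘ ![i, j, k, l]) t)
    refine (hE.map (h.sw l m i j hl ij)).mono (span_vec_le fun t => ?_)
    fin_cases t
    · simpa [h.t_e, Equiv.swap_apply_def, *, Ne.symm] using this 1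
    · simpa [h.t_e, Equiv.swap_apply_def, *, Ne.symm] using this 0
    · simpa [h.t_e, Equiv.swap_apply_def, *, Ne.symm] using this 2
    · simpa [h.t_e, Equiv.swap_apply_def, *, Ne.symm] using this 3
  have l3 : ∀ m, Submodule.span F (Set.range (e ∘ ![i, j, k])) ≤
      Submodule.span F (Set.range (e ∘ ![i, j, k, m])) := fun m => span_vec_le fun t => by
    fin_cases t
    exacts [mem_span_vec _ 0, mem_span_vec _ 1, mem_span_vec _ 2]
  obtain ⟨u, hu, hu0, hs⟩ := iso3_orth S _ (h.vec (L := ![i, j, k]) fun a b => by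
    fin_cases a <;> fin_cases b <;> simp [*, Ne.symm]).2.ge
  have a2 : ∀ m, m ∉ ({i, j, k} : Finset ι) → S.h u (e m) = 0 := fun m hm =>
    S.mem_perp'.1 (span_vec_le (W := S.perp (F ∙ e m)) (fun t => S.mem_perp_singleton.2 (by
      simp only [mem_insert, mem_singleton, not_or] at hm
      fin_cases t <;> simp [h.hh, hm])) hu) _ (Submodule.mem_span_singleton_self _)
  have a3 : Full K u := full_of_BSet hs (fun v hv => by
    rw [h.expand v, ← sum_add_sum_compl {i, j, k}] at hv ⊢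
    refine AddSubgroup.add_mem _ (mem_BSet_of_mem hE (l3 l hu) hs (l3 l (Submodule.sum_mem _
      fun m hm => Submodule.smul_mem _ _ ?_)) ?_) (AddSubgroup.sum_mem _ fun m hm =>
        mem_BSet_of_mem (a1 m (mem_compl.1 hm)) (l3 m hu) hs
          (Submodule.smul_mem _ _ (mem_span_vec _ 3)) (by simp [a2 m (mem_compl.1 hm)]))
    · simp only [mem_insert, mem_singleton] at hm
      rcases hm with rfl | rfl | rfl
      exacts [mem_span_vec _ 0, mem_span_vec _ 1, mem_span_vec _ 2]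
    · rwa [map_add, map_sum _ _ _ᶜ, sum_eq_zero (s := _ᶜ) fun m hm => by simp [a2 m (mem_compl.1 hm)],
        add_zero] at hv) fun a _ => hE u (l3 l hu) 0 (zero_mem _) a
  obtain ⟨m, hm⟩ := not_forall.1 (mt (h.span u) hu0)
  exact S.E_le_iff.2 fun x v a _ => full_all_of_pair h.nd hs ((isom_sing _ u).2 hs) a3
    (a3.map (h.refl m)) (by simpa [refl_apply, hs.h_self, h.q1, hm] using fun e => hm (S.h_swap_zero e)) x v a

theorem big3' (hq : 5 ≤ Nat.card F) {i j k : ι} (ij : i ≠ j) (ik : i ≠ k) (jk : j ≠ k)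
    (hE : EK K (Submodule.span F (Set.range ![e i, e j, e k]))) : S.E ≤ K := by
  obtain ⟨l, -, -, hl, -⟩ := exists_two_notMem {i, j, k} (by have := h.card; have := card_le_three (a := i) (b := j) (c := k); omega)
  simp only [mem_insert, mem_singleton, not_or] at hl
  have hL : Function.Injective ![i, j, k, l] := fun a b => by
    fin_cases a <;> fin_cases b <;> simp [*, Ne.symm]
  have v3 := fun k (ik : i ≠ k) (jk : j ≠ k) => orthFam (S := S) h.two (b := ![e i, e j, e k])
    (fun t => by fin_cases t <;> simp [h.q1]) fun a b => by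
      fin_cases a <;> fin_cases b <;> simp [h.hh, *, Ne.symm]
  have := fun t => Submodule.mem_map_of_mem (f := ((S.refl (e k - e l) * S.refl (e i - e j)).1 :
      V →ₗ[F] V)) (mem_span_vec (F := F) ![e i, e j, e k] t)
  refine h.big4 hL (ek_four h.nd h.two hq h.pr (v3 k ik jk).1 (v3 l (Ne.symm hl.1) (Ne.symm hl.2.1)).1
    (h.vec hL).1 (v3 k ik jk).2 (v3 l (Ne.symm hl.1) (Ne.symm hl.2.1)).2 (h.vec hL).2
    (span_vec_le fun t => ?_) (span_vec_le fun t => ?_) (fun e' => ?_) hE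
    ((hE.map (h.sw k l i j (Ne.symm hl.2.2) ij)).mono (span_vec_le fun t => ?_)))
  · fin_cases t
    exacts [mem_span_vec _ 0, mem_span_vec _ 1, mem_span_vec _ 2]
  · fin_cases t
    exacts [mem_span_vec _ 0, mem_span_vec _ 1, mem_span_vec _ 3]
  · have := S.mem_perp_singleton.1 (span_vec_le (W := S.perp (F ∙ e l)) (b := ![e i, e j, e k])
      (fun t => S.mem_perp_singleton.2 (by fin_cases t <;> simp [h.hh, hl]))
      (e' ▸ mem_span_vec ![e i, e j, e l] 2))
    simp [h.hh, h.two] at this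
  · fin_cases t
    · simpa [h.t_e, Equiv.swap_apply_def, *, Ne.symm] using this 1
    · simpa [h.t_e, Equiv.swap_apply_def, *, Ne.symm] using this 0
    · simpa [h.t_e, Equiv.swap_apply_def, *, Ne.symm] using this 2

theorem split (hq : 5 ≤ Nat.card F) {i j : ι} (ij : i ≠ j) {y z : V} (iy : S.h (e i) y = 0)
    (jy : S.h (e j) y = 0) (iz : S.h (e i) z = 0) (jz : S.h (e j) z = 0) (yz : S.h y z = 0)
    (qy : S.q y ≠ 0) (qz : S.q z ≠ 0) (qs : S.q (y + z) ≠ 0) {r : S.Isom} (hr : r ∈ K)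
    (ri : r.1 (e i) = e i) (rj : r.1 (e j) = e j) (ry : r.1 y = -y) (rz : r.1 z = z)
    (hE : EK K (Submodule.span F (Set.range ![e i, e j, y + z]))) :
    EK K (Submodule.span F (Set.range ![e i, e j, y])) := by
  have := S.h_swap_zero iy
  have := S.h_swap_zero jy
  have := S.h_swap_zero iz
  have := S.h_swap_zero jz
  have := S.h_swap_zero yz
  have v4 := orthFam (S := S) h.two (b := ![e i, e j, y, z])
    (fun t => by fin_cases t <;> simp [h.q1, *]) fun a b => by
      fin_cases a <;> fin_cases b <;> simp [h.hh, *, Ne.symm]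
  have v3 := orthFam (S := S) h.two (b := ![e i, e j, y + z])
    (fun t => by fin_cases t <;> simp [h.q1, *]) fun a b => by
      fin_cases a <;> fin_cases b <;> simp [h.hh, *, Ne.symm]
  have m := mem_span_vec (F := F) ![e i, e j, y, z]
  have m3 := mem_span_vec (F := F) ![e i, e j, y + z]
  refine (ek_four h.nd h.two hq h.pr v3.1 ((eqv_map r.1 (isom_isIsom r) _).nondeg v3.1) v4.1 v3.2
    (by rw [LinearEquiv.finrank_map_eq, v3.2]) v4.2 (span_vec_le fun t => ?_)
    (Submodule.map_le_iff_le_comap.2 (span_vec_le fun t => ?_)) (fun e' => ?_) hE (hE.map hr)).mono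
    (span_vec_le fun t => ?_)
  · fin_cases t
    exacts [m 0, m 1, add_mem (m 2) (m 3)]
  · fin_cases t
    · simpa [ri] using m 0
    · simpa [rj] using m 1
    · simpa [ry, rz] using add_mem (neg_mem (m 2)) (m 3)
  · have a1 : -y + z ∈ Submodule.span F (Set.range ![e i, e j, y + z]) :=
      e' ▸ ⟨_, m3 2, by simp [ry, rz]⟩
    have a2 := Submodule.smul_mem _ (2⁻¹ : F) (sub_mem (m3 2) a1)
    have a3 := Submodule.smul_mem _ (2⁻¹ : F) (add_mem (m3 2) a1)
    have := h.two
    have := Submodule.finrank_mono (span_vec_le (b := ![e i, e j, y, z]) fun t => by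
      fin_cases t
      exacts [m3 0, m3 1, by convert a2 using 1; simp; match_scalars <;> field_simp <;> ring,
        by convert a3 using 1; simp; match_scalars <;> field_simp <;> ring])
    omega
  · fin_cases t
    exacts [m 0, m 1, m 2]

theorem q_rem (k : ι) (y : V) : S.q (y - (S.h (e k) y / 2) • e k) = S.q y - S.h (e k) y ^ 2 / 4 := by
  have := h.two
  have : (4 : F) ≠ 0 := by simpa [← two_mul, show (4 : F) = 2 * 2 by norm_num]
  simp [orth_q_sub, orth_q_smul, h.q1, S.orth_symm y]; field_simp; ring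

theorem red1 (hq : 5 ≤ Nat.card F) {i j k : ι} (ij : i ≠ j) {y : V} (iy : S.h (e i) y = 0)
    (jy : S.h (e j) y = 0) (qy : S.q y ≠ 0) (ky : S.h (e k) y ≠ 0)
    (hk : y - (S.h (e k) y / 2) • e k = 0 ∨ S.q (y - (S.h (e k) y / 2) • e k) ≠ 0)
    (hE : EK K (Submodule.span F (Set.range ![e i, e j, y]))) : S.E ≤ K := by
  have ik : i ≠ k := by rintro rfl; exact ky iy
  have jk : j ≠ k := by rintro rfl; exact ky jy
  have := h.two
  have a : EK K (Submodule.span F (Set.range ![e i, e j, (S.h (e k) y / 2) • e k])) := by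
    rcases hk with hk | hk
    · rwa [← sub_eq_zero.1 hk]
    refine h.split hq ij (z := y - (S.h (e k) y / 2) • e k) ?_ ?_ ?_ ?_ ?_ ?_ hk (by simpa)
      (h.refl k) ?_ ?_ ?_ (refl_apply_of_perp ?_) (by rwa [add_sub_cancel]) <;>
    simp [h.hh, orth_q_smul, h.q1, refl_apply_self, refl_apply_of_perp, Ne.symm, *]
  have m := mem_span_vec (F := F) ![e i, e j, (S.h (e k) y / 2) • e k]
  refine h.big3' hq ij ik jk (a.mono (span_vec_le fun t => ?_))
  fin_cases t
  exacts [m 0, m 1, (Submodule.smul_mem_iff _ (div_ne_zero ky this)).1 (m 2)]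

theorem big3 (hq : 5 ≤ Nat.card F) {i j : ι} (ij : i ≠ j) {y : V} (iy : S.h (e i) y = 0)
    (jy : S.h (e j) y = 0) (qy : S.q y ≠ 0)
    (hE : EK K (Submodule.span F (Set.range ![e i, e j, y]))) : S.E ≤ K := by
  have t2 := h.two
  have t4 : (4 : F) ≠ 0 := by simpa [← two_mul, show (4 : F) = 2 * 2 by norm_num]
  obtain ⟨k, hk⟩ := not_forall.1 (mt (h.span y) (by rintro rfl; exact qy S.orth_q_zero))
  by_contra hc
  have a := fun k hk => not_or.1 fun b => hc (h.red1 (k := k) hq ij iy jy qy hk b hE)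
  obtain ⟨l, hl⟩ := not_forall.1 (mt (h.span _) (a k hk).1)
  have kl : l ≠ k := by rintro rfl; simp [h.hh, t2] at hl
  simp [h.hh, kl] at hl
  have ik : i ≠ k := by rintro rfl; exact hk iy
  have jk : j ≠ k := by rintro rfl; exact hk jy
  have il : i ≠ l := by rintro rfl; exact hl iy
  have jl : j ≠ l := by rintro rfl; exact hl jy
  have b1 := not_not.1 (a k hk).2
  have b2 := not_not.1 (a l hl).2
  rw [h.q_rem] at b1 b2
  obtain ⟨α, hα⟩ : ∃ α, S.h (e k) y = 2 * α := ⟨_, (mul_div_cancel₀ _ t2).symm⟩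
  obtain ⟨β, hβ⟩ : ∃ β, S.h (e l) y = 2 * β := ⟨_, (mul_div_cancel₀ _ t2).symm⟩
  have c1 : S.q y = α ^ 2 := by rw [hα] at b1; field_simp at b1; grind
  have c2 : β ^ 2 = α ^ 2 := by rw [hβ, c1] at b2; field_simp at b2; grind
  have α0 : α ≠ 0 := by rintro rfl; simp_all
  have β0 : β ≠ 0 := by rintro rfl; simp_all
  have c3 : S.q (α • e k + β • e l) = 2 * α ^ 2 := by
    simp [orth_q_add, orth_q_smul, h.q1, h.hh, kl.symm, c2, two_mul]
  have c4 : S.q (y - (α • e k + β • e l)) = -α ^ 2 := by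
    rw [orth_q_sub, c3, c1]; simp [(S.orth_symm _ y).trans hα, (S.orth_symm _ y).trans hβ]
    linear_combination -2 * c2
  refine hc (h.red1 (k := k) (y := α • e k + β • e l) hq ij ?_ ?_ ?_ ?_ (Or.inr ?_)
    (h.split hq ij (z := y - (α • e k + β • e l)) ?_ ?_ ?_ ?_ ?_ ?_ ?_ (by simpa)
      (K.mul_mem (h.refl k) (h.refl l)) ?_ ?_ (h.ext fun m => ?_) (h.ext fun m => ?_)
      (by rwa [add_sub_cancel])))
  any_goals simp [h.hh, orth_q_smul, h.q1, refl_apply_of_perp, Ne.symm, *]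
  · ring
  all_goals
    simp only [h.co_r, h.hh]
    split_ifs <;> simp_all <;> ring

theorem nu_pair {s : V} (hs : S.Sing s) {i : ι} (hi : S.h (e i) s ≠ 0) {n : ℕ} {L : Fin n → ι}
    (hL : Function.Injective L) (hB : ∀ t, e (L t) ∈ BSet K hs) {m : ℕ} {b : Fin m → V}
    (hb : ∀ t, b t = e i ∨ b t = s - (S.h (e i) s / 2) • e i ∨ ∃ t', b t = e (L t')) :
    EK K (Submodule.span F (Set.range b)) := by
  have t2 := h.two
  have a1 : ∀ t, L t ≠ i := fun t e' => hi (S.h_swap_zero (e' ▸ BSet_perp (hB t)))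
  have k : ∀ {s} (hs : S.Sing s), (∀ t, e (L t) ∈ BSet K hs) →
      ∀ x ∈ Submodule.span F (Set.range (e ∘ L)), x ∈ BSet K hs := fun hs hB x hx =>
    Submodule.span_induction (by rintro _ ⟨t, rfl⟩; exact hB t) (zero_mem _)
      (fun _ _ _ _ => add_mem) (fun c _ _ h' => bset_smul h.pr h' c) hx
  have m1 : s ∈ Submodule.span F {s, (S.refl (e i)).1 s} := Submodule.subset_span (by simp)
  have m2 : (S.refl (e i)).1 s ∈ Submodule.span F {s, (S.refl (e i)).1 s} :=
    Submodule.subset_span (by simp)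
  refine (pair_full (h.vec hL).1 hs ((isom_sing (S.refl (e i)) s).2 hs) ?_ (k hs hB) (k _ fun t => ?_)).mono
    (span_vec_le fun t => ?_)
  · simpa [refl_apply, hs.h_self, h.q1, hi] using fun e => hi (S.h_swap_zero e)
  · simpa [refl_apply_of_perp (h.orth _ _ (a1 t).symm)] using BSet_map (hB t) (h.refl i) rfl
  rcases hb t with e' | e' | ⟨t', e'⟩ <;> rw [e']
  · refine Submodule.mem_sup_left ?_
    convert Submodule.smul_mem _ (S.h (e i) s)⁻¹ (sub_mem m1 m2) using 1
    simp [refl_apply, h.q1, smul_smul, hi]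
  · refine Submodule.mem_sup_left ?_
    convert Submodule.smul_mem _ (2 : F)⁻¹ (add_mem m1 m2) using 1
    simp only [refl_apply, h.q1]
    match_scalars <;> field_simp <;> ring
  · exact Submodule.mem_sup_right (mem_span_vec _ t')

end FK

/-- the orbit of the frame vectors -/
def FR (K : Subgroup S.Isom) (e : ι → V) (v : V) : Prop := ∃ g ∈ K, ∃ i, g.1 (e i) = v

theorem FR.map {v : V} (hv : FR K e v) {g : S.Isom} (hg : g ∈ K) : FR K e (g.1 v) := by
  obtain ⟨g', h1, i, rfl⟩ := hv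
  exact ⟨g * g', K.mul_mem hg h1, i, rfl⟩

/-- the support with respect to the frame -/
noncomputable def fsp (S : PForm (orthP F) V) (e : ι → V) (v : V) : Finset ι :=
  open Classical in univ.filter fun i => S.h (e i) v ≠ 0

@[simp] theorem mem_fsp {v : V} {i : ι} : i ∈ fsp S e v ↔ S.h (e i) v ≠ 0 := by simp [fsp]

namespace FK
variable (h : FK K e)
include h

theorem r_q {v : V} (hv : FR K e v) : S.q v = 1 := by
  obtain ⟨g, -, i, rfl⟩ := hv
  rw [orth_isom_q, h.q1]

theorem r_refl {v : V} (hv : FR K e v) : S.refl v ∈ K := by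
  obtain ⟨g, hg, i, rfl⟩ := hv
  rw [← conj_refl]
  exact K.mul_mem (K.mul_mem hg (h.refl i)) (K.inv_mem hg)

theorem r_neg {v : V} (hv : FR K e v) : FR K e (-v) := by
  simpa [refl_apply_self, h.r_q hv] using hv.map (h.r_refl hv)

theorem r_sub {v w : V} (hv : FR K e v) (hw : FR K e w) : FR K e (w - S.h v w • v) := by
  simpa [refl_apply, h.r_q hv] using hw.map (h.r_refl hv)

theorem r_sum {v : V} (hv : FR K e v) (J : Finset ι) (hJ : fsp S e v ⊆ J) :
    ∑ i ∈ J, S.h (e i) v ^ 2 = 4 := by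
  rw [← h.q_sum J fun i hi => by_contra fun a => hi (hJ (mem_fsp.2 a)), h.r_q hv, mul_one]

theorem r_sing {v : V} (hv : FR K e v) {i : ι} (hi : S.h (e i) v = 2) :
    ∃ hs : S.Sing (v - e i), e i ∈ BSet K hs := by
  have a1 : S.q (v - e i) = 0 := by
    rw [orth_q_sub, h.r_q hv, h.q1, S.orth_symm, hi]; norm_num
  have a2 : S.h (v - e i) (e i) = 0 := S.h_swap_zero (by simp [hi, h.hh])
  refine ⟨(orth_sing S _).2 a1, _, ECond.of_q ((orth_sing S _).2 a1) a2, ?_⟩
  rw [orth_eich_eq a1 a2 (by simp [h.q1]), h.q1, one_smul, add_sub_cancel]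
  exact K.mul_mem (h.refl i) (h.r_refl hv)

theorem r_move {v : V} (hv : FR K e v) (h4 : (fsp S e v).card ≤ 4) (i : ι) :
    ∃ l, S.h (e l) v = 0 ∧ ∀ _ : S.h (e i) v ≠ 0, ∃ w, FR K e w ∧ S.h v w = 2 - S.h (e i) v ^ 2 / 2 ∧
      ∀ m, S.h (e m) w = S.h (e (Equiv.swap i l m)) v := by
  obtain ⟨l, l', h1, h2, h3⟩ := exists_two_notMem (fsp S e v) (by have := h.card; omega)
  simp only [mem_fsp, not_not] at h2 h3
  refine ⟨l, h2, fun hi => ?_⟩
  have il : i ≠ l := by rintro rfl; exact hi h2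
  refine ⟨_, hv.map (h.sw i l l l' il h1), ?_, fun m => ?_⟩ <;> rw [isom_mul_apply, h.t_fix h2 h3]
  · simp [refl_apply, h.q_sub il, orth_h_self, h.r_q hv, h2, S.orth_symm (e _) v]; ring
  · exact h.co_t il m v

theorem r_three {v : V} (hv : FR K e v) {i j k : ι} (ij : i ≠ j) (ik : i ≠ k) (jk : j ≠ k)
    (a : S.h (e i) v ^ 2 = 1) (b : S.h (e j) v ^ 2 = 1) (c : S.h (e k) v ^ 2 = 1) :
    ∃ w, FR K e w ∧ ∀ m, S.h (e m) w = if m ∈ ({i, j, k} : Finset ι) then 0 else 2 * S.h (e m) v := by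
  have a1 := ((hv.map (h.refl k)).map (h.refl j)).map (h.refl i)
  have a2 : S.h v ((S.refl (e i)).1 ((S.refl (e j)).1 ((S.refl (e k)).1 v))) = -1 := by
    simp [refl_apply, h.q1, h.hh, orth_h_self, h.r_q hv, S.orth_symm (e _) v, *]
    linear_combination -a - b - c
  refine ⟨_, h.r_sub hv a1, fun m => ?_⟩
  simp only [a2, map_sub, map_smul, h.co_r, mem_insert, mem_singleton]
  split_ifs <;> simp_all [two_mul]

section big
variable (hq : 5 ≤ Nat.card F) (hE : ¬ S.E ≤ K)
include hq hE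

theorem nu {v : V} (hv : FR K e v) {i : ι} (hi : S.h (e i) v ^ 2 = 4) {j : ι} (ij : j ≠ i) :
    S.h (e j) v = 0 := by
  wlog h2 : S.h (e i) v = 2 generalizing v
  · simpa using this (h.r_neg hv) (by simpa) (by
      simpa [neg_eq_iff_eq_neg] using (sq_eq_sq_iff_eq_or_eq_neg.1
        (show S.h (e i) v ^ 2 = 2 ^ 2 by linear_combination hi)).resolve_left h2)
  obtain ⟨hs, hB⟩ := h.r_sing hv h2
  by_contra hc
  have t2 := h.two
  have t4 : (4 : F) ≠ 0 := by simpa [← two_mul, show (4 : F) = 2 * 2 by norm_num]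
  have a : S.h (e j) (v - e i) ≠ 0 := by simpa [h.hh, ij]
  refine hE (h.big3 hq ij.symm (y := v - e i - (S.h (e j) (v - e i) / 2) • e j) ?_ ?_ ?_
    (h.nu_pair hs a (L := ![i]) (Function.injective_of_subsingleton _) (fun t => by simpa) fun t => by
      fin_cases t <;> simp))
  · simp [h.hh, h2, ij.symm]
  · simp [h.hh, t2]
  · rw [h.q_rem, (orth_sing S _).1 hs, zero_sub, neg_ne_zero]
    exact div_ne_zero (pow_ne_zero 2 a) t4

theorem nu' {v w : V} (hv : FR K e v) (hw : FR K e w) (h2 : S.h v w = 2) : v = w := by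
  obtain ⟨g, hg, i, rfl⟩ := hv
  obtain ⟨w, rfl⟩ := g.1.surjective w
  rw [isom_h] at h2
  have := fun j => h.nu hq hE (by simpa using hw.map (K.inv_mem hg)) (i := i) (v := w) (j := j)
    (by rw [h2]; norm_num)
  congr 1
  exact h.ext fun j => by by_cases a : j = i <;> simp [h.hh, *]

theorem pc {v : V} (hv : FR K e v) {i j l : ι} (ij : i ≠ j) (li : l ≠ i) (lj : l ≠ j)
    (a : S.h (e i) v ≠ 0) (b : S.h (e j) v ≠ 0) (c : S.h (e l) v ≠ 0) :
    S.h (e i) v ^ 2 = 1 ∨ S.h (e j) v ^ 2 = 1 ∨ (S.h (e i) v ^ 2 + S.h (e j) v ^ 2 = 3 ∧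
      S.h (e i) v ^ 4 - 3 * S.h (e i) v ^ 2 + 1 = 0) := by
  have t2 := h.two
  obtain ⟨α, hα⟩ : ∃ α, S.h (e i) v = 2 * α := ⟨_, (mul_div_cancel₀ _ t2).symm⟩
  obtain ⟨β, hβ⟩ : ∃ β, S.h (e j) v = 2 * β := ⟨_, (mul_div_cancel₀ _ t2).symm⟩
  obtain ⟨y, rfl⟩ : ∃ y, v = α • e i + β • e j + y := ⟨_, (add_sub_cancel _ _).symm⟩
  have iy : S.h (e i) y = 0 := by simpa [h.hh, ij, mul_comm] using hα
  have jy : S.h (e j) y = 0 := by simpa [h.hh, ij.symm, mul_comm] using hβ
  by_cases qy : S.q y = 0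
  · have := h.nu' hq hE hv (h.r_neg ((hv.map (h.refl j)).map (h.refl i))) (by
      have := h.r_q hv
      simp [refl_apply, orth_q_add, orth_q_smul, orth_h_self, h.q1, h.hh, ij, ij.symm, iy, jy, qy,
        S.h_swap_zero iy, S.h_swap_zero jy] at this ⊢
      linear_combination 2 * this)
    have := congrArg (S.h (e l)) this
    rw [map_neg, h.co_r, h.co_r, if_neg li, if_neg lj, eq_neg_iff_add_eq_zero, ← two_mul] at this
    exact absurd this (mul_ne_zero t2 c)
  obtain ⟨p, hp⟩ := CharP.exists F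
  haveI := Fact.mk (CharP.char_is_prime F p)
  rw [hα] at a ⊢
  rw [hβ] at b ⊢
  exact (three_refl h.nd t2 h.pr p ((Fact.out : p.Prime).odd_of_ne_two (by
    rintro rfl; exact t2 (CharP.cast_eq_zero F 2))) (h.q1 i) (h.q1 j) qy (h.orth i j ij) iy jy
    (right_ne_zero_of_mul a) (right_ne_zero_of_mul b) (h.r_q hv) (h.refl i) (h.refl j)
    (h.r_refl hv)).resolve_left fun a => hE (h.big3 hq ij iy jy qy a)

theorem bad_le {v : V} (hv : FR K e v) (h3 : 3 ≤ (fsp S e v).card) {i j : ι} (ij : i ≠ j)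
    (a : i ∈ fsp S e v) (b : j ∈ fsp S e v) (a' : S.h (e i) v ^ 2 ≠ 1) (b' : S.h (e j) v ^ 2 ≠ 1) :
    S.h (e i) v ^ 2 + S.h (e j) v ^ 2 = 3 ∧ S.h (e i) v ^ 4 - 3 * S.h (e i) v ^ 2 + 1 = 0 := by
  obtain ⟨l, h1, h2⟩ := exists_mem_notMem_of_card_lt_card (s := {i, j}) (t := fsp S e v)
    (by have := card_le_two (a := i) (b := j); omega)
  simp only [mem_insert, mem_singleton, not_or] at h2
  exact ((h.pc hq hE hv ij h2.1 h2.2 (mem_fsp.1 a) (mem_fsp.1 b) (mem_fsp.1 h1)).resolve_left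
    a').resolve_left b'

open Classical in
theorem bad_card {v : V} (hv : FR K e v) (h3 : 3 ≤ (fsp S e v).card) :
    ((fsp S e v).filter fun i => ¬ S.h (e i) v ^ 2 = 1).card ≤ 2 := by
  by_contra! hc
  obtain ⟨i, j, k, a, b, c, ij, ik, jk⟩ := two_lt_card_iff.1 hc
  rw [mem_filter] at a b c
  have a1 := h.bad_le hq hE hv h3 ij a.1 b.1 a.2 b.2
  have a2 := (h.bad_le hq hE hv h3 ik a.1 c.1 a.2 c.2).1
  have a3 := (h.bad_le hq hE hv h3 jk b.1 c.1 b.2 c.2).1
  have a4 : 2 * S.h (e i) v ^ 2 = 3 := by linear_combination a1.1 + a2 - a3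
  have a5 : (5 : F) = 0 := by linear_combination -4 * a1.2 + (2 * S.h (e i) v ^ 2 - 3) * a4
  exact mem_fsp.1 b.1 (h.nu hq hE hv (i := i) (mul_left_cancel₀ h.two (by linear_combination a4 - a5))
    ij.symm)

open Classical in
theorem supp_cases {v : V} (hv : FR K e v) (h3 : 3 ≤ (fsp S e v).card) :
    ((fsp S e v).card = 3 ∧ ∃ i, S.h (e i) v ^ 2 = 1) ∨
      ((fsp S e v).card = 4 ∧ ∀ i ∈ fsp S e v, S.h (e i) v ^ 2 = 1) := by
  have hB := h.bad_card hq hE hv h3
  have hs := card_filter_add_card_filter_not (s := fsp S e v) fun i => S.h (e i) v ^ 2 = 1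
  have hz := h.r_sum hv _ Subset.rfl
  rw [← sum_filter_add_sum_filter_not _ fun i => S.h (e i) v ^ 2 = 1,
    sum_congr rfl fun i hi => (mem_filter.1 hi).2, sum_const, nsmul_one] at hz
  set A := (fsp S e v).filter fun i => S.h (e i) v ^ 2 = 1 with hA
  set B := (fsp S e v).filter fun i => ¬ S.h (e i) v ^ 2 = 1 with hB'
  have b2 : B.card = 2 → (A.card : F) = 1 := fun e' => by
    obtain ⟨i, j, ij, e'⟩ := card_eq_two.1 e'
    have a := mem_filter.1 (hB' ▸ e' ▸ mem_insert_self i {j})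
    have b := mem_filter.1 (hB' ▸ e' ▸ mem_insert_of_mem (mem_singleton_self j) : j ∈ filter _ _)
    rw [e', sum_pair ij, (h.bad_le hq hE hv h3 ij a.1 b.1 a.2 b.2).1] at hz
    linear_combination hz
  have b1 : B.card = 1 → (A.card : F) ≠ 3 := fun e' e2 => by
    obtain ⟨i, e'⟩ := card_eq_one.1 e'
    refine absurd ?_ (mem_filter.1 (hB' ▸ e' ▸ mem_singleton_self i : i ∈ filter _ _)).2
    rw [e', sum_singleton] at hz
    linear_combination hz - e2
  have a5 : 3 ≤ A.card → (fsp S e v).card ≤ 4 := fun h' => by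
    by_contra! hc
    obtain ⟨i, j, k, a, b, c, ij, ik, jk⟩ := two_lt_card_iff.1 h'
    obtain ⟨w, hw, e'⟩ := h.r_three hv ij ik jk (mem_filter.1 a).2 (mem_filter.1 b).2 (mem_filter.1 c).2
    have c3 : ({i, j, k} : Finset ι).card = 3 := card_eq_three.2 ⟨i, j, k, ij, ik, jk, rfl⟩
    by_cases h4 : A.card = 3
    · exact h.two (by simpa [h4, show (3 : F) = 2 + 1 by norm_num] using b2 (by omega))
    obtain ⟨l, l1, l2⟩ := exists_mem_notMem_of_card_lt_card (s := {i, j, k}) (t := A) (by omega)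
    obtain ⟨m, m1, m2⟩ := exists_mem_notMem_of_card_lt_card (s := insert l {i, j, k}) (t := fsp S e v)
      (by rw [card_insert_of_notMem l2]; omega)
    rw [mem_insert, not_or] at m2
    have := h.nu hq hE hw (i := l) (by rw [e', if_neg l2]; linear_combination 4 * (mem_filter.1 l1).2) m2.1
    rw [e', if_neg m2.2] at this
    exact mul_ne_zero h.two (mem_fsp.1 m1) this
  by_cases h4 : (fsp S e v).card = 3
  · obtain ⟨i, hi⟩ := card_pos.1 (show 0 < A.card by omega)
    exact Or.inl ⟨h4, i, (mem_filter.1 hi).2⟩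
  have h5 : (fsp S e v).card = 4 := by omega
  refine Or.inr ⟨h5, fun i hi => by_contra fun hc => ?_⟩
  have : 0 < B.card := card_pos.2 ⟨i, mem_filter.2 ⟨hi, hc⟩⟩
  by_cases h6 : B.card = 1
  · exact b1 h6 (by rw [show A.card = 3 by omega]; rfl)
  · have := b2 (by omega)
    rw [show A.card = 2 by omega] at this
    exact one_ne_zero (α := F) (by push_cast at this; linear_combination this)

theorem three_ne : (3 : F) ≠ 0 := fun h3 => by
  cases nonempty_fintype F
  have : Function.Surjective fun n : Fin 3 => ((n : ℕ) : F) := fun c => by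
    obtain ⟨n, rfl⟩ := h.pr c
    exact ⟨⟨n % 3, Nat.mod_lt _ (by norm_num)⟩, by
      conv_rhs => rw [← Nat.mod_add_div n 3]
      simp [h3]⟩
  have := Fintype.card_le_of_surjective _ this
  simp at this hq
  omega

theorem supp_le {v : V} (hv : FR K e v) : (fsp S e v).card ≤ 2 := by
  by_contra! h3
  have t2 := h.two
  have t3 := h.three_ne hq hE
  have a := h.supp_cases hq hE hv h3
  obtain ⟨i, hi⟩ : ∃ i, S.h (e i) v ^ 2 = 1 := a.elim And.right fun a =>
    (card_pos.1 (by omega)).imp a.2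
  have i0 : S.h (e i) v ≠ 0 := fun e' => by simp [e'] at hi
  obtain ⟨l, hl, a1⟩ := h.r_move hv (by omega) i
  obtain ⟨w, hw, a2, a3⟩ := a1 i0
  have il : i ≠ l := by rintro rfl; exact i0 hl
  have a4 := h.r_sub hv hw
  have a5 : ∀ m, m ≠ i → m ≠ l → S.h (e m) (w - S.h v w • v) = -S.h (e m) v / 2 := fun m b c => by
    simp [a2, a3, hi, Equiv.swap_apply_of_ne_of_ne b c]; field_simp; ring
  have a6 : fsp S e (w - S.h v w • v) = insert l (fsp S e v) := by
    ext m
    by_cases b : m = i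
    · have : (2 : F) - 2⁻¹ ≠ 0 := fun e' => t3 (by field_simp at e'; linear_combination e')
      simp [b, a2, a3, hi, hl, i0, this]
    by_cases c : m = l
    · simp [c, a3, hl, i0]
    rw [mem_fsp, a5 m b c]; simp [c, t2]
  have a7 := h.supp_cases hq hE a4 (by rw [a6, card_insert_of_notMem (by simpa)]; omega)
  rw [a6, card_insert_of_notMem (by simpa)] at a7
  obtain ⟨m, m1, m2⟩ := exists_mem_notMem_of_card_lt_card (s := {i}) (t := fsp S e v) (by simp; omega)
  rw [mem_singleton] at m2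
  have := (a7.resolve_left (by omega)).2 m (mem_insert_of_mem m1)
  rw [a5 m m2 (by rintro rfl; exact mem_fsp.1 m1 hl)] at this
  exact i0 (h.nu hq hE hv (i := m) (by field_simp at this; linear_combination this) (Ne.symm m2))

theorem supp_two {v : V} (hv : FR K e v) {i j : ι} (ij : i ≠ j) (a : S.h (e i) v ≠ 0)
    (b : S.h (e j) v ≠ 0) : S.h (e i) v ^ 2 = 2 ∧ ∃ w, FR K e w ∧ S.h v w = 1 := by
  have h2 := h.supp_le hq hE hv
  have t2 := h.two
  have a0 := h.r_sum hv {i, j} (eq_of_subset_of_card_le (s := {i, j})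
    (by simp [insert_subset_iff, a, b]) (by rwa [card_pair ij])).ge
  rw [sum_pair ij] at a0
  obtain ⟨l, hl, a1⟩ := h.r_move hv (by omega) j
  obtain ⟨w, hw, a2, a3⟩ := a1 b
  have il : i ≠ l := by rintro rfl; exact a hl
  have jl : j ≠ l := by rintro rfl; exact b hl
  have a4 : S.h v w = S.h (e i) v ^ 2 / 2 := by rw [a2]; field_simp; linear_combination -a0
  have a5 : S.h (e i) v ^ 2 = 2 := by
    by_contra hc
    have : 1 - S.h (e i) v ^ 2 / 2 ≠ 0 := fun e' => hc (by field_simp at e'; linear_combination -e')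
    have := card_le_card (show {i, j, l} ⊆ fsp S e (w - S.h v w • v) by
      simp [insert_subset_iff, a3, a4, Equiv.swap_apply_of_ne_of_ne ij il, *, ← one_sub_mul])
    rw [card_eq_three.2 ⟨i, j, l, ij, il, jl, rfl⟩] at this
    have := h.supp_le hq hE (h.r_sub hv hw)
    omega
  exact ⟨a5, w, hw, by rw [a4, a5, div_self t2]⟩

theorem supp_one {v : V} (hv : FR K e v) {i j : ι} (ij : i ≠ j) (a : S.h (e i) v ≠ 0) :
    S.h (e j) v = 0 := by
  by_contra b
  obtain ⟨w, hw, a1⟩ := (h.supp_two hq hE hv ij a b).2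
  obtain ⟨g, hg, m, rfl⟩ := hv
  obtain ⟨w, rfl⟩ := g.1.surjective w
  rw [isom_h] at a1
  have hw' : FR K e w := by simpa using hw.map (K.inv_mem hg)
  by_cases c : fsp S e w ⊆ {m}
  · have := h.r_sum hw' _ c
    rw [sum_singleton, a1] at this
    exact h.three_ne hq hE (by linear_combination -this)
  obtain ⟨k, k1, k2⟩ := not_subset.1 c
  have := (h.supp_two hq hE hw' (Ne.symm (mem_singleton.not.1 k2)) (by simp [a1]) (mem_fsp.1 k1)).1
  rw [a1] at this
  exact one_ne_zero (α := F) (by linear_combination -this)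

end big

theorem nu3 {v : V} (hv : FR K e v) (h4 : (fsp S e v).card ≤ 4) {l i : ι} (hl : S.h (e l) v ^ 2 = 4)
    (il : i ≠ l) (a : S.h (e i) v ≠ 0) : S.E ≤ K := by
  wlog h2 : S.h (e l) v = 2 generalizing v
  · exact this (h.r_neg hv) (by rwa [show fsp S e (-v) = fsp S e v by ext; simp]) (by simpa) (by simpa) (by
      simpa [neg_eq_iff_eq_neg] using (sq_eq_sq_iff_eq_or_eq_neg.1
        (show S.h (e l) v ^ 2 = 2 ^ 2 by linear_combination hl)).resolve_left h2)
  have t2 := h.two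
  obtain ⟨hs, hB⟩ := h.r_sing hv h2
  obtain ⟨x, y, xy, hx, hy⟩ := exists_two_notMem (fsp S e v) (by have := h.card; omega)
  simp only [mem_fsp, not_not] at hx hy
  have lx : l ≠ x := by rintro rfl; exact t2 (h2 ▸ hx)
  have ly : l ≠ y := by rintro rfl; exact t2 (h2 ▸ hy)
  have ix : i ≠ x := by rintro rfl; exact a hx
  have iy : i ≠ y := by rintro rfl; exact a hy
  have k : ∀ x y, x ≠ y → l ≠ x → l ≠ y → S.h (e x) v = 0 → S.h (e y) v = 0 → e x ∈ BSet K hs := by
    intro x y xy lx ly hx hy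
    simpa [h.t_e, xy, lx, Equiv.swap_apply_of_ne_of_ne lx ly] using BSet_map (hu' := hs) hB
      (h.sw l x x y lx xy) (by
        rw [isom_mul_apply, h.t_fix (i := x), h.t_fix] <;> simp [h.hh, Ne.symm, *])
  refine h.big4 (i := i) (j := l) (k := x) (l := y) (fun a b => ?_)
    (h.nu_pair hs (i := i) (by simpa [h.hh, il]) (L := ![l, x, y]) (fun a b => ?_)
      (fun t => ?_) fun t => ?_)
  · fin_cases a <;> fin_cases b <;> simp [*, Ne.symm]
  · fin_cases a <;> fin_cases b <;> simp [*, Ne.symm]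
  · fin_cases t
    exacts [hB, k x y xy lx ly hx hy, k y x xy.symm ly lx hy hx]
  · fin_cases t
    exacts [Or.inl rfl, Or.inr (Or.inr ⟨0, rfl⟩), Or.inr (Or.inr ⟨1, rfl⟩), Or.inr (Or.inr ⟨2, rfl⟩)]

theorem supp_one3 [Fintype F] (hq : Fintype.card F = 3) (hE : ¬ S.E ≤ K) {v : V} (hv : FR K e v) :
    (fsp S e v).card ≤ 1 := by
  have t2 := h.two
  have t3 : (3 : F) = 0 := by simpa [hq] using FiniteField.cast_card_eq_zero F
  have sq : ∀ x : F, x ≠ 0 → x ^ 2 = 1 := fun x hx => by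
    simpa [hq] using FiniteField.pow_card_sub_one_eq_one x hx
  have hz : ∀ v, FR K e v → ((fsp S e v).card : F) = 1 := fun v hv => by
    have := h.r_sum hv _ Subset.rfl
    rw [sum_congr rfl fun i hi => sq _ (mem_fsp.1 hi), sum_const, nsmul_one] at this
    linear_combination this + t3
  induction hn : (fsp S e v).card using Nat.strong_induction_on generalizing v with
  | _ n ih =>
  by_contra! hc
  have h3 : 2 < n := by
    have := hz v hv
    by_contra h'
    rw [hn, show n = 2 by omega] at this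
    exact one_ne_zero (α := F) (by push_cast at this; linear_combination this)
  obtain ⟨i, j, k, a, b, c, ij, ik, jk⟩ := two_lt_card_iff.1 (hn ▸ h3)
  obtain ⟨w, hw, e'⟩ := h.r_three hv ij ik jk (sq _ (mem_fsp.1 a)) (sq _ (mem_fsp.1 b)) (sq _ (mem_fsp.1 c))
  have a1 : fsp S e w = fsp S e v \ {i, j, k} := by
    ext m; rw [mem_fsp, e', mem_sdiff, mem_fsp]; split_ifs <;> simp [*]
  have a2 : (fsp S e w).card + 3 = n := by
    rw [a1, ← card_eq_three.2 ⟨i, j, k, ij, ik, jk, rfl⟩, card_sdiff_add_card_eq_card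
      (by simp only [insert_subset_iff, singleton_subset_iff]; exact ⟨a, b, c⟩), hn]
  have a3 := ih _ (by omega) hw rfl
  obtain ⟨l, hl⟩ : (fsp S e w).Nonempty := by
    rw [nonempty_iff_ne_empty]; intro h0; simpa [h0] using hz w hw
  rw [a1, mem_sdiff, mem_fsp] at hl
  simp only [mem_insert, mem_singleton, not_or] at hl
  exact hE (h.nu3 hv (by omega) (by linear_combination sq _ hl.1 - t3) (Ne.symm hl.2.1) (mem_fsp.1 a))

theorem dich [Fintype F] (hp : (Fintype.card F).Prime) :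
    S.E ≤ K ∨ ∀ g ∈ K, ∀ i, ∃ j, g.1 (e i) ∈ F ∙ e j := by
  refine or_iff_not_imp_left.2 fun hE g hg i => ?_
  have hv : FR K e (g.1 (e i)) := ⟨g, hg, i, rfl⟩
  generalize g.1 (e i) = v at hv
  obtain ⟨j, hj⟩ := not_forall.1 (mt (h.span v) fun e' => by simpa [e', S.orth_q_zero] using h.r_q hv)
  have a : ∀ k, j ≠ k → S.h (e k) v = 0 := fun k hk => by
    by_cases h3 : Fintype.card F = 3
    · exact by_contra fun b => hk (card_le_one.1 (h.supp_one3 h3 hE hv) j (mem_fsp.2 hj) k (mem_fsp.2 b))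
    refine h.supp_one (Nat.card_eq_fintype_card (α := F) ▸ hp.five_le_of_ne_two_of_ne_three
      (fun h2 => h.two ?_) h3) hE hv hk hj
    simpa [h2] using FiniteField.cast_card_eq_zero F
  refine ⟨j, Submodule.mem_span_singleton.2 ⟨S.h (e j) v / 2, h.ext fun k => ?_⟩⟩
  by_cases hk : k = j
  · simp [hk, h.hh, h.two]
  · simp [h.hh, hk, a k (Ne.symm hk)]

end FK

theorem prime_field [Fintype F] (hp : (Fintype.card F).Prime) (c : F) : ∃ n : ℕ, c = n := by
  obtain ⟨x, rfl⟩ := (ZMod.ringEquivOfPrime F hp rfl).surjective c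
  haveI := NeZero.mk hp.ne_zero
  exact ⟨x.val, by rw [← map_natCast (ZMod.ringEquivOfPrime F hp rfl), ZMod.natCast_zmod_val]⟩

theorem frame_dichotomy [Fintype F] (hS : S.Nondeg) (hp : (Fintype.card F).Prime) {t : ℕ}
    {D : Fin t → Submodule F V} (h : ODec S 1 D) (hn : 6 ≤ t) (ho : Odd (finrank F V))
    {e : Fin t → V} (he : ∀ i, e i ∈ D i) (hq : ∀ i, S.q (e i) = 1) (H : Subgroup S.Isom)
    (hH : ∀ g ∈ S.E, ODec.Perm D g → g ∈ H) (hE : H ≤ S.E) : S.E ≤ H ∨ ∀ g ∈ H, ODec.Perm D g := by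
  have h2 := hS.two_ne_zero_of_odd ho
  have e0 : ∀ i, e i ≠ 0 := fun i e' => by simpa [e', S.orth_q_zero] using hq i
  have hD : ∀ i, D i = F ∙ e i := fun i => (Submodule.eq_of_le_of_finrank_eq
    ((Submodule.span_singleton_le_iff_mem _ _).2 (he i)) (by rw [finrank_span_singleton (e0 i), h.dim])).symm
  have pm : ∀ g : S.Isom, (∀ i, ∃ j, g.1 (e i) ∈ F ∙ e j) → ODec.Perm D g := fun g hg i =>
    (hg i).imp fun j hj x hx => by
      rw [hD] at hx ⊢
      obtain ⟨c, rfl⟩ := Submodule.mem_span_singleton.1 hx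
      exact map_smul g.1 c _ ▸ Submodule.smul_mem _ c hj
  have nn : S.negOne * S.negOne = 1 := isom_ext fun x => by simp
  have cm : ∀ g : S.Isom, g * S.negOne = S.negOne * g := fun g => isom_ext fun x => by simp
  let K : Subgroup S.Isom :=
    { carrier := {g | g ∈ H ∨ S.negOne * g ∈ H}
      one_mem' := Or.inl H.one_mem
      mul_mem' := by
        rintro a b (ha | ha) (hb | hb)
        · exact Or.inl (H.mul_mem ha hb)
        · exact Or.inr (by rw [← mul_assoc, ← cm, mul_assoc]; exact H.mul_mem ha hb)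
        · exact Or.inr (by rw [← mul_assoc]; exact H.mul_mem ha hb)
        · exact Or.inl (by
            have := H.mul_mem ha hb
            rwa [← cm, mul_assoc, ← mul_assoc _ _ b, nn, one_mul] at this)
      inv_mem' := by
        rintro a (ha | ha)
        · exact Or.inl (H.inv_mem ha)
        · exact Or.inr (by rw [← cm, ← inv_eq_of_mul_eq_one_left nn, ← mul_inv_rev]; exact H.inv_mem ha) }
  have f0 : FK (⊤ : Subgroup S.Isom) e := ⟨hS, h2, prime_field hp, by simpa, hq,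
    fun i j hij => h.orth i j hij (he j) _ (he i), fun x hx => h.eq_zero hS fun i => by
      rw [hD, mem_perp_singleton]; exact hx i, fun _ => trivial, fun _ _ _ _ _ _ => trivial⟩
  have h3 : 3 ≤ finrank F V :=
    ((f0.vec (L := Fin.castLE (by omega : 3 ≤ t)) (Fin.castLE_injective _)).2.ge).trans
      (Submodule.finrank_le _)
  obtain ⟨a, b, Hy⟩ := hS.orth_exists_hyp h3
  have dn : hS.dick S.negOne = -1 := by rw [hS.dick_negOne h2, ho.neg_one_pow]
  have q0 : ∀ i, S.q (e i) ≠ 0 := by simp [hq]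
  have f1 : FK K e := ⟨hS, h2, f0.pr, f0.card, hq, f0.orth, f0.span, fun i => Or.inr (hH _ ?_ (pm _ fun j =>
    ⟨j, ?_⟩)), fun i j k l ij kl => Or.inl (hH _ ?_ (pm _ fun m => ⟨_, by
      rw [isom_mul_apply, f0.t_e kl, f0.t_e ij]; exact Submodule.mem_span_singleton_self _⟩))⟩
  · refine (f1.dich hp).imp (fun h g hg => (h hg).resolve_right fun h' => ?_)
      fun h g hg => pm g (h g (Or.inl hg))
    have := hS.E_le_ker_dick (hE h')
    rw [MonoidHom.mem_ker, map_mul, dn, hS.E_le_ker_dick hg] at this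
    exact absurd this (by decide)
  · obtain ⟨g, g1, g2⟩ := exists_prod_refl e univ (fun i _ => q0 i) fun i _ j _ => f0.orth i j
    have : g = S.negOne := isom_ext fun x => f0.ext fun i => by simp [g1, hq, f0.hh]; ring
    refine (hS.mem_E_iff h3 Hy _).2 ⟨by rw [map_mul, dn, hS.dick_refl (q0 i)]; rfl, ?_⟩
    simp [← this, g2, hS.spin_refl (q0 _), hq, (sqSign_eq_one_iff (a := (1 : F))).2 IsSquare.one]
  · by_cases hj : i = j
    · simp [hj, refl_apply_self (q0 j)]
    · simp [refl_apply_of_perp (f0.orth i j hj)]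
  · have a1 := f0.q_sub ij
    have a2 := f0.q_sub kl
    exact (hS.mem_E_iff h3 Hy _).2 ⟨by rw [map_mul, hS.dick_refl (by rwa [a1]), hS.dick_refl (by rwa [a2])]; rfl,
      by rw [map_mul, hS.spin_refl (by rwa [a1]), hS.spin_refl (by rwa [a2]), a1, a2, Int.units_mul_self]⟩

theorem omegaGL_smul (Q : QuadraticForm F (ι → F)) {c : F} (hc : c ≠ 0) :
    Cfsg.Geo.omegaGL ⇑(c • Q) = Cfsg.Geo.omegaGL ⇑Q :=
  congrArg (fun I : Subgroup (GL ι F) => (commutator I).map I.subtype)
    (show Cfsg.isometryGroup F ⇑(c • Q) = Cfsg.isometryGroup F ⇑Q by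
      ext g; simp [Cfsg.isometryGroup, Cfsg.preserving, hc])

theorem frame_max [Fintype F] (hp : (Fintype.card F).Prime) (hn : 7 ≤ Fintype.card ι)
    (ho : Odd (Fintype.card ι)) {Q : (ι → F) → F} (hQ : Cfsg.Geo.IsNondegenerateQuadraticForm Q) {t : ℕ}
    {D : Fin t → Submodule F (ι → F)} (hD : Cfsg.Geo.IsOrthogonalMDecomposition Q 1 D) :
    Cfsg.Geo.IsMaximalIn (Cfsg.Geo.omegaGL Q) (Cfsg.Geo.decompositionStabilizer D ⊓ Cfsg.Geo.omegaGL Q) := by
  have h : ODec (orthS (quadOf hQ)) 1 D := odec_of _ (fun x y => Iff.rfl) hD.decomp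
  have hdim : t = Fintype.card ι := by
    have h1 := (DirectSum.isInternal_submodule_of_iSupIndep_of_iSup_eq_top hD.decomp.1.indep
      hD.decomp.1.iSup_eq_top)
    simpa [Module.finrank_directSum, h.dim] using
      (LinearEquiv.ofBijective (DirectSum.coeLinearMap D) h1).finrank_eq
  have i0 : Fin t := ⟨0, by omega⟩
  obtain ⟨x, hx, hx0⟩ := exists_ne_zero_of_finrank (D i0) (by rw [h.dim]; omega)
  have hc : Q x ≠ 0 := fun h0 => hx0 (h.eq_zero' hx fun y hy => by
    obtain ⟨c, rfl⟩ := Submodule.mem_span_singleton.1 ((Submodule.eq_of_le_of_finrank_eq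
      ((Submodule.span_singleton_le_iff_mem _ _).2 hx) (by rw [finrank_span_singleton hx0, h.dim])).ge hy)
    rw [map_smul, LinearMap.smul_apply, orth_h_self, show (orthS (quadOf hQ)).q x = 0 from h0]; simp)
  choose f hf using hD.isometric i0
  have hh : ∀ y z, QuadraticMap.polar Q y z = 0 ↔ (orthS ((Q x)⁻¹ • quadOf hQ)).h y z = 0 := by
    intro y z; simp [QuadraticMap.polar_smul, hc, coe_quadOf]
  have hS : (orthS ((Q x)⁻¹ • quadOf hQ)).Nondeg := fun y hy =>
    quadOf_nondeg hQ y fun z => (hh y z).2 (hy z)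
  rw [← coe_quadOf hQ, ← omegaGL_smul _ (inv_ne_zero hc), omegaGL_eq _ hS hn]
  have hq : ∀ i, (orthS ((Q x)⁻¹ • quadOf hQ)).q (f i ⟨x, hx⟩) = 1 := fun i => by
    simp [coe_quadOf, hf, hc]
  have h' := odec_of _ hh hD.decomp
  generalize orthS ((Q x)⁻¹ • quadOf hQ) = S at hS hq h'
  refine isMaximalIn_odec hS hD.decomp.1 h' ?_ fun H => frame_dichotomy hS hp h' (by omega) (by simpa)
    (fun i => (f i ⟨x, hx⟩).2) hq H
  have h2 := hS.two_ne_zero_of_odd (by simpa)
  have hv := (f i0 ⟨x, hx⟩).2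
  have qv := hq i0
  generalize (f i0 ⟨x, hx⟩ : ι → F) = v at hv qv
  obtain ⟨s, hs, h1, h3⟩ := exists_sing_top hS (iso3_orth S) [v] [] (by simp; omega)
  have h1 := h1 v (by simp)
  have e : ∀ c : F, (S.eich s v (S.q v)).1 (c • v) = c • (v - (2 : F) • s) := fun c => by
    rw [map_smul, eich_apply_of_perp (ECond.of_q hs (S.h_swap_zero h1)) (S.h_swap_zero h1)]
    simp [orth_h_self, qv]
  refine ⟨_, S.eich_mem_E s v (S.q v), fun hp => ?_⟩
  obtain ⟨j, hj⟩ := hp i0
  have h4 := hj _ (Submodule.smul_mem _ 1 hv)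
  rw [e, one_smul] at h4
  by_cases hij : i0 = j
  · subst hij
    refine h3 ((smul_eq_zero.1 (h'.eq_zero' ((Submodule.sub_mem_iff_right _ hv).1 h4)
      fun y hy => ?_)).resolve_left h2 ▸ zero_mem _)
    obtain ⟨c, rfl⟩ := Submodule.mem_span_singleton.1 ((Submodule.eq_of_le_of_finrank_eq
      ((Submodule.span_singleton_le_iff_mem _ _).2 hv) (by
        rw [finrank_span_singleton (by rintro rfl; simp [S.orth_q_zero] at qv), h.dim])).ge hy)
    simp [h1]
  · simpa [h1, orth_h_self, qv, h2] using h'.orth i0 j hij h4 v hv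

section Odd
variable [Fintype F] (hodd : Odd (Fintype.card F)) {m : ℕ}
include hodd

theorem oo_ts (hm : 3 ≤ m) (W : Submodule F (Unit ⊕ (Fin m ⊕ Fin m) → F)) (hW0 : W ≠ ⊥)
    (hW : Cfsg.Geo.IsTotallySingularQuad (Cfsg.quadFormOdd m F) W) :
    Cfsg.Geo.IsMaximalIn (Cfsg.Geo.omegaGL (Cfsg.quadFormOdd m F))
      (Cfsg.Geo.subspaceStabilizer W ⊓ Cfsg.Geo.omegaGL (Cfsg.quadFormOdd m F)) := by
  have hQ := quadFormOdd_nondeg (two_ne_zero_of_odd hodd) m
  have hS := quadOf_nondeg hQ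
  rw [← coe_quadOf hQ, omegaGL_eq _ hS (by simp; omega)]
  have hU : (orthS (quadOf hQ)).TS W := orth_ts hW
  refine isMaximalIn_ts hS (by simp; omega) hU hW0 (Or.inr ?_)
  by_cases h : 2 * finrank F W + 2 < finrank F (Unit ⊕ (Fin m ⊕ Fin m) → F)
  · exact Or.inl h
  · refine Or.inr fun U' hU' hle => (Submodule.eq_of_le_of_finrank_le hle ?_).ge
    have := hU'.two_mul_finrank_le hS
    simp at h this
    omega

theorem oo_nd (hm : 4 ≤ m) (W : Submodule F (Unit ⊕ (Fin m ⊕ Fin m) → F)) (hW0 : W ≠ ⊥)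
    (hev : Even (finrank F W))
    (hW : Cfsg.Geo.IsNondegenerateOn (QuadraticMap.polar (Cfsg.quadFormOdd m F)) W)
    (hex : ¬ (Fintype.card F = 3 ∧ finrank F W = 2 ∧ Cfsg.Geo.IsPlusTypeOn (Cfsg.quadFormOdd m F) W)) :
    Cfsg.Geo.IsMaximalIn (Cfsg.Geo.omegaGL (Cfsg.quadFormOdd m F))
      (Cfsg.Geo.subspaceStabilizer W ⊓ Cfsg.Geo.omegaGL (Cfsg.quadFormOdd m F)) := by
  have hQ := quadFormOdd_nondeg (two_ne_zero_of_odd hodd) m
  have hS := quadOf_nondeg hQ
  have hW' := restrict_nondeg_of_on (orthS (quadOf hQ)) (fun x y h => h) hW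
  rw [← coe_quadOf hQ, omegaGL_eq _ hS (by simp; omega)]
  have h1 := hS.finrank_perp W
  simp only [finrank_fintype_fun_eq_card, Fintype.card_sum, Fintype.card_unit,
    Fintype.card_fin] at h1
  obtain ⟨k, hk⟩ := hev
  by_cases h : 2 * finrank F W < 1 + (m + m)
  · refine isMaximalIn_nd_small hS (iso3_orth _) (by simp; omega) hW' hW0 (by simpa using h)
      (orth_irr hW' ?_)
    rintro ⟨h3, h2, x, hx0, hx⟩
    refine hex ⟨?_, h2, F ∙ (x : _ → F), (Submodule.span_singleton_le_iff_mem _ _).2 x.2,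
      fun w hw => ?_, by rw [finrank_span_singleton (by simpa using hx0), h2]⟩
    · rw [Nat.card_eq_fintype_card] at h3
      have := Fintype.one_lt_card (α := F)
      obtain ⟨j, hj⟩ := hodd
      omega
    · obtain ⟨c, rfl⟩ := Submodule.mem_span_singleton.1 hw
      rw [hQ.smul]
      exact mul_eq_zero_of_right _ hx
  · refine isMaximalIn_nd_large hS (iso3_orth _) (by simp; omega) hW' (fun h' => ?_)
      (by simp; omega) (orth_irr (hS.restrict_perp hW') ?_)
    · rw [h'] at hk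
      simp at hk
      omega
    · rintro ⟨-, h2, -⟩
      omega

theorem oo_frame (hm : 3 ≤ m) (hp : (Fintype.card F).Prime) {t : ℕ}
    (D : Fin t → Submodule F (Unit ⊕ (Fin m ⊕ Fin m) → F))
    (hD : Cfsg.Geo.IsOrthogonalMDecomposition (Cfsg.quadFormOdd m F) 1 D) :
    Cfsg.Geo.IsMaximalIn (Cfsg.Geo.omegaGL (Cfsg.quadFormOdd m F))
      (Cfsg.Geo.decompositionStabilizer D ⊓ Cfsg.Geo.omegaGL (Cfsg.quadFormOdd m F)) :=
  frame_max hp (by simp; omega) ⟨m, by simp; ring⟩ (quadFormOdd_nondeg (two_ne_zero_of_odd hodd) m) hD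

end Odd

end H29
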