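import Cfsg.Agent.H29.TS2

/-! Coordinates from a family of vectors with invertible Gram matrix (`exists_T_of_gram`), the
adjoint on a quadratic field subalgebra (`fld_adj2`), conjugation-invariant lists (`list_between`). -/

set_option autoImplicit false
set_option linter.unusedSectionVars false

namespace H29

open Matrix Cfsg.Geo Module

variable {F : Type*} [Field F] [Fintype F] {ι κ : Type} [Fintype ι] [DecidableEq ι]
  [Fintype κ] [DecidableEq κ] {M : Type} [Field M] {σ : F →+* F} {G : Matrix ι ι F} {ε : F}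

theorem exists_T_of_gram (hσ : ∀ a, σ (σ a) = a) (hc : Fintype.card κ = Fintype.card ι)
    (b : κ → ι → F) {G₀ : Matrix κ κ F} (h : ∀ i j, fm σ G (b i) (b j) = G₀ i j) (hu : IsUnit G₀) :
    ∃ T : (κ → F) ≃ₗ[F] (ι → F), (∀ i, T (Pi.single i 1) = b i) ∧ gT σ G T = G₀ := by
  let L := Fintype.linearCombination F b
  have h1 : ∀ x y, fm σ G (L x) (L y) = fm σ G₀ x y := fun x y => by
    simp only [L, Fintype.linearCombination_apply, fm_sum_left, fm_sum_right, fm_smul_left,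
      fm_smul_right, h]
    rw [fm_eq, dotProduct_mulVec]
    simp [dotProduct, vecMul, mul_comm]
  have h2 : Function.Injective L := (injective_iff_map_eq_zero L).2 fun x hx =>
    nondeg_left hu hσ fun y => by rw [← h1, hx, fm_zero_left]
  exact ⟨.ofBijective L ⟨h2, (LinearMap.injective_iff_surjective_of_finrank_eq_finrank
    (by simpa)).1 h2⟩, fun i => show L _ = _ by simp [L], congr_of_equiv _ h1⟩

theorem fld_adj2 [Nonempty ι] {G : Matrix ι ι F} (h : HF (RingHom.id F) ε G)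
    {K : Subalgebra F (Matrix ι ι F)} (hK : IsFieldSubalgebra 2 K)
    (h1 : IsAdjointClosedFor (fm (RingHom.id F) G) K)
    (h0 : ¬ IsSelfAdjointFor (fm (RingHom.id F) G) K) {k : Matrix ι ι F} (hk : k ∈ K) :
    adj (RingHom.id F) G k = k ^ Fintype.card F := by
  have h2 : ∀ x ∈ K, adj (RingHom.id F) G x ∈ K := fun x hx => by
    obtain ⟨y, hy, e⟩ := h1 x hx
    rwa [h.adj_eq e]
  letI := (isField_of hK).toField
  haveI : Finite K := Subtype.finite
  let τ : K →+* K :=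
    { toFun := fun x => ⟨_, h2 x x.2⟩
      map_one' := Subtype.ext h.adj_one
      map_mul' := fun x y => Subtype.ext ((h.adj_mul _ _).trans (hK.comm _ (h2 _ y.2) _ (h2 _ x.2)))
      map_zero' := Subtype.ext adj_zero
      map_add' := fun x y => Subtype.ext (adj_add _ _) }
  exact congrArg Subtype.val (H11.unit_σ_eq (σ := τ) (fun x => Subtype.ext (h.adj_adj _))
    (fun e => h0 ((selfAdj_iff h).2 fun x hx => congrArg Subtype.val (RingHom.congr_fun e ⟨x, hx⟩)))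
    (fld_card hK) ⟨k, hk⟩)

theorem list_between [Nonempty ι] (e : M ≃+* F) (T : (κ → F) ≃ₗ[F] (ι → F)) {N Ω : Subgroup (GL ι F)}
    (S : List (Matrix κ κ M))
    (h1 : ∀ A, ∀ g ∈ N, g ∈ Ω → g.1 = Φ T (A.map e) → ∀ t ∈ S, ∃ u ∈ S, A * t = u * A)
    {A B : Matrix κ κ M} (hA : ∃ g ∈ Ω, g.1 = Φ T (A.map e) ∧ g ∉ N) (hB : ∃ g ∈ Ω, g.1 = Φ T (B.map e))
    (h2 : ∀ t ∈ S, ∃ u ∈ S, A * t = u * A) (h3 : ¬ ∀ t ∈ S, ∃ u ∈ S, B * t = u * B) :
    ∃ K, N ⊓ Ω < K ∧ K < Ω := by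
  have h : ∀ {X : Matrix κ κ M} {g : GL ι F}, g.1 = Φ T (X.map e) →
      ((∀ t ∈ S, ∃ u ∈ S, cjA g (Ψ e T t) = Ψ e T u) ↔ ∀ t ∈ S, ∃ u ∈ S, X * t = u * X) :=
    fun hg => by
      rw [Ψ_apply] at hg
      simp only [cjA_eq_iff, hg, ← map_mul, (Ψ e T).injective.eq_iff]
  obtain ⟨a, ha, ea, ha'⟩ := hA
  obtain ⟨b, hb, eb⟩ := hB
  refine between_pred (fun g => ∀ t ∈ S, ∃ u ∈ S, cjA g (Ψ e T t) = Ψ e T u)
    (fun t ht => ⟨t, ht, cjA_one _⟩) (fun x y hx hy t ht => ?_) (fun g hg hg' => ?_)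
    ⟨b, hb, fun h4 => h3 ((h eb).1 h4)⟩ ⟨a, ha, (h ea).2 h2, ha'⟩
  · obtain ⟨u, hu, e1⟩ := hy t ht
    obtain ⟨v, hv, e2⟩ := hx u hu
    exact ⟨v, hv, by rw [cjA_mul, e1, e2]⟩
  · obtain ⟨X, hX⟩ := (Ψ e T).surjective g.1
    exact (h hX.symm).2 (h1 X g hg hg' hX.symm)

end H29
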