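import Cfsg.Agent.H29.Mono

/-! Overgroups of imprimitive subgroups `GL_m(q) ≀ S_t` of `SL_n(q)`: `LD.dich` for `m ≥ 2`, and
the maximality `dec_max` (including monomial subgroups). -/

set_option autoImplicit false
set_option linter.unusedSectionVars false

namespace H29

open Module H11 Matrix Cfsg.Geo Function

variable {F : Type*} [Field F]

section
variable {V : Type*} [AddCommGroup V] [Module F V] [FiniteDimensional F V] {t m : ℕ}
  {D : Fin t → Submodule F V} {π : Fin t → V →ₗ[F] V} {H : Subgroup (V ≃ₗ[F] V)}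

theorem exists_dil (φ : Dual F V) (u : V) (h : 1 + φ u ≠ 0) :
    ∃ g : V ≃ₗ[F] V, LinearMap.det g.toLinearMap = 1 + φ u ∧ ∀ x, g x = x + φ x • u :=
  ⟨LinearEquiv.dilatransvection (Ne.isUnit h), LinearMap.transvection.det φ u, fun _ => rfl⟩

/-- `H` contains the stabiliser of the decomposition `D` in `SL` -/
structure LD (D : Fin t → Submodule F V) (π : Fin t → V →ₗ[F] V) (m : ℕ)
    (H : Subgroup (V ≃ₗ[F] V)) : Prop where
  pr : Pr D π
  dim : ∀ i, finrank F (D i) = m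
  two : 2 ≤ m
  mem : ∀ (g : V ≃ₗ[F] V) (τ : Equiv.Perm (Fin t)), LinearMap.det g.toLinearMap = 1 →
    (∀ i, ∀ x ∈ D i, g x ∈ D (τ i)) → g ∈ H

namespace LD
variable (h : LD D π m H)
include h

theorem ex_notMem (i : Fin t) (y : V) : ∃ w ∈ D i, w ∉ F ∙ y := by
  by_contra! h1
  have := (Submodule.finrank_mono (show D i ≤ F ∙ y from h1)).trans (finrank_span_le_card _)
  have := h.two
  simp [h.dim] at *
  omega

theorem blk {i : Fin t} {u : V} (hu : u ∈ D i) (θ : Dual F V) (j : Fin t) (x : V) (hx : x ∈ D j) :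
    x + θ (π i x) • u ∈ D j := by
  by_cases e : i = j
  · exact add_mem hx (Submodule.smul_mem _ _ (e ▸ hu))
  · simpa [h.pr.ne i j e x hx]

theorem tv {i : Fin t} {u : V} (hu : u ∈ D i) {θ : Dual F V} (h0 : θ u = 0) :
    HasTv H (θ ∘ₗ π i) u := by
  obtain ⟨g, h1, h2⟩ := exists_dil (θ ∘ₗ π i) u (by simp [h.pr.self i u hu, h0])
  exact ⟨g, h.mem g 1 (by simp [h1, h.pr.self i u hu, h0]) fun j x hx => h2 x ▸ h.blk hu θ j x hx,
    h2⟩

theorem dil {i j : Fin t} {u w : V} (hu : u ∈ D i) (hw : w ∈ D j) (hij : i ≠ j) {θ θ' : Dual F V}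
    (h0 : θ u = 1) (h0' : θ' w = 1) {c : F} (hc : c ≠ 0) : ∃ g ∈ H, ∀ x,
      g x = x + ((c - 1) * θ (π i x)) • u + ((c⁻¹ - 1) * θ' (π j x)) • w := by
  obtain ⟨g, h1, h2⟩ := exists_dil (((c - 1) • θ) ∘ₗ π i) u (by simpa [h.pr.self i u hu, h0])
  obtain ⟨k, h3, h4⟩ := exists_dil (((c⁻¹ - 1) • θ') ∘ₗ π j) w (by simpa [h.pr.self j w hw, h0'])
  refine ⟨k * g, h.mem _ 1 ?_ fun l x hx => ?_, fun x => by
    simp [h2, h4, h.pr.ne j i hij.symm u hu]⟩
  · rw [LinearEquiv.coe_toLinearMap_mul, map_mul, h1, h3]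
    simp [h.pr.self i u hu, h0, h.pr.self j w hw, h0', hc]
  · rw [LinearEquiv.mul_apply, h2, h4]
    exact h.blk hw ((c⁻¹ - 1) • θ') l _ (h.blk hu ((c - 1) • θ) l x hx)

theorem perm (τ : Equiv.Perm (Fin t)) : ∃ g ∈ H, ∀ i, ∀ x ∈ D i, g x ∈ D (τ i) := by
  have e := fun i => LinearEquiv.ofFinrankEq (D i) (D (τ i)) (by rw [h.dim, h.dim])
  let f : V →ₗ[F] V := ∑ i, (D (τ i)).subtype ∘ₗ (e i).toLinearMap ∘ₗ (π i).codRestrict _ (h.pr.mem i)
  have h1 : ∀ i x, π (τ i) (f x) = e i ⟨π i x, h.pr.mem i x⟩ := fun i x => by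
    simp only [f, LinearMap.sum_apply, map_sum]
    exact (Finset.sum_eq_single i (fun j _ hj => h.pr.ne _ _ (τ.injective.ne hj.symm) _
      (Subtype.property _)) (by simp)).trans (h.pr.self _ _ (Subtype.property _))
  let g := LinearEquiv.ofInjectiveEndo f ((injective_iff_map_eq_zero _).2 fun x hx => by
    rw [← h.pr.sum x]
    refine Finset.sum_eq_zero fun i _ => ?_
    have := h1 i x
    rw [hx, map_zero, eq_comm, ZeroMemClass.coe_eq_zero, (e i).map_eq_zero_iff] at this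
    exact congrArg Subtype.val this)
  have h2 : ∀ i, ∀ x ∈ D i, g x ∈ D (τ i) := fun i x hx => by
    change f x ∈ _
    rw [← h.pr.sum (f x), ← Equiv.sum_comp τ]
    refine Submodule.sum_mem _ fun j _ => ?_
    by_cases hj : j = i
    · exact hj ▸ h.pr.mem _ _
    · rw [h1, show (⟨π j x, _⟩ : D j) = 0 from Subtype.ext (h.pr.ne j i hj x hx)]; simp
  rcases isEmpty_or_nonempty (Fin t) with ht | ⟨⟨i⟩⟩
  · exact ⟨1, H.one_mem, fun i => ht.elim i⟩
  obtain ⟨u, hu, hu0⟩ := h.ex_notMem i 0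
  obtain ⟨θ, hθ⟩ := ex_one' (F := F) (w := u) (by simpa using hu0)
  have h3 : LinearMap.det g.toLinearMap ≠ 0 := g.isUnit_det'.ne_zero
  obtain ⟨k, h4, h5⟩ := exists_dil ((((LinearMap.det g.toLinearMap)⁻¹ - 1) • θ) ∘ₗ π i) u
    (by simpa [h.pr.self i u hu, hθ])
  have h6 : ∀ i, ∀ x ∈ D i, (g * k) x ∈ D (τ i) := fun j x hx =>
    h2 _ _ (h5 x ▸ h.blk hu (((LinearMap.det g.toLinearMap)⁻¹ - 1) • θ) j x hx)
  refine ⟨g * k, h.mem _ τ ?_ h6, h6⟩
  rw [LinearEquiv.coe_toLinearMap_mul, map_mul, h4]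
  simp [h.pr.self i u hu, hθ, h3]

theorem mv {φ θ : Dual F V} {v w : V} {j : Fin t} (h1 : HasTv H φ v) (hw : w ∈ D j) (h0 : θ w = 0) :
    HasTv H (φ - φ w • θ ∘ₗ π j) (v + θ (π j v) • w) := by
  obtain ⟨g, hg, e⟩ := h.tv hw h0
  convert h1.conj hg using 1
  · ext x
    simp [HasTv.symm_apply e (by simp [h.pr.self j w hw, h0]), mul_comm]
  · exact (e v).symm

theorem full {i j : Fin t} (hij : j ≠ i) {u x : V} (hu : u ∈ D i) (hu0 : u ≠ 0) {φ : Dual F V}
    (h0 : φ u = 0) (h1 : HasTv H φ u) (hx : x ∈ D j) (h2 : φ x ≠ 0) (y : V) : LFull H y := by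
  have a0 := h.pr.ne j i hij
  have A : ∀ θ : Dual F V, ∀ w ∈ D j, θ w = 0 → φ w ≠ 0 → HasTv H (θ ∘ₗ π j) u := by
    intro θ w hw a1 a2
    have := h.mv (θ := (φ w)⁻¹ • θ) h1 hw (by simp [a1])
    simp only [a0 u hu, map_zero, zero_smul, add_zero] at this
    convert h1.sub this h0 (by simp [h0, a0 u hu]) using 1
    ext; simp [a2]
  have B : ∀ θ : Dual F V, HasTv H (θ ∘ₗ π j) u := fun θ => by
    by_cases a1 : θ x = 0
    · exact A θ x hx a1 h2
    obtain ⟨w, hw, a2⟩ := h.ex_notMem j x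
    obtain ⟨χ, a3, a4⟩ := ex_sep a2
    have a5 := h.pr.self j x hx
    by_cases a6 : φ (w - (θ w / θ x) • x) = 0
    · have := (A (θ + θ x • χ) (w - (θ w / θ x) • x - x) (sub_mem (sub_mem hw
        (Submodule.smul_mem _ _ hx)) hx) (by simp [a1, a3, a4]) (by
          rw [map_sub, a6]; simpa)).sub (A (θ x • χ) x hx (by simp [a3]) h2) (by simp [a0 u hu])
        (by simp [a0 u hu])
      convert this using 1
      ext; simp
    · exact A θ _ (sub_mem hw (Submodule.smul_mem _ _ hx)) (by simp [a1]) a6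
  have C : ∀ w ∈ D i, ∀ θ : Dual F V, HasTv H (θ ∘ₗ π j) w := fun w hw θ => by
    by_cases a1 : u ∈ F ∙ w
    · obtain ⟨c, rfl⟩ := Submodule.mem_span_singleton.1 a1
      have := HasTv.smul_swap.2 (B (c⁻¹ • θ))
      rwa [← LinearMap.smul_comp, smul_inv_smul₀ (left_ne_zero_of_smul hu0)] at this
    obtain ⟨χ, a2, a3⟩ := ex_sep a1
    simpa [a0 w hw, h.pr.self i u hu, a3, add_sub_cancel_left] using
      (h.mv (B θ) hw a2).sub_right (v := u) (by simpa [a0 w hw] using B θ) (by simp [a0 w hw, a0 u hu])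
  have E : ∀ k l, l ≠ k → ∀ w ∈ D k, ∀ θ : Dual F V, HasTv H (θ ∘ₗ π l) w := by
    intro k l hkl w hw θ
    obtain ⟨τ, hτ⟩ := Equiv.Perm.exists_extending_pair (f := ![i, j]) (g := ![k, l])
      (fun x y => by fin_cases x <;> fin_cases y <;> simp [hij, hij.symm])
      (fun x y => by fin_cases x <;> fin_cases y <;> simp [hkl, hkl.symm])
    obtain rfl : τ i = k := hτ 0
    obtain rfl : τ j = l := hτ 1
    obtain ⟨g, hg, e⟩ := h.perm τ
    have b1 := h.pr.equiv (g := g.toLinearMap) e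
    convert (C (π i (g.symm w)) (h.pr.mem _ _) (θ ∘ₗ g.toLinearMap)).conj hg using 1
    · ext x
      simpa using congrArg θ (b1 j (g.symm x))
    · simpa [h.pr.self _ w hw] using b1 i (g.symm w)
  rw [← h.pr.sum y]
  refine (lfullSub H).sum_mem fun k _ θ hθ => ?_
  rw [show θ = ∑ l, θ ∘ₗ π l by ext x; simp [← map_sum, h.pr.sum]]
  refine (Finset.sum_induction _ (fun χ => HasTv H χ (π k y) ∧ χ (π k y) = 0)
    (fun a b ha hb => ⟨ha.1.add hb.1 ha.2, by simp [ha.2, hb.2]⟩) ⟨hasTv_zero _ _, rfl⟩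
    fun l _ => ?_).1
  by_cases hl : l = k
  · subst hl
    exact ⟨h.tv (h.pr.mem _ _) hθ, by simp [h.pr.self _ _ (h.pr.mem l y), hθ]⟩
  · exact ⟨E k l hl _ (h.pr.mem _ _) θ, by simp [h.pr.ne l k hl _ (h.pr.mem k y)]⟩

theorem dich (hm : 3 ≤ m ∨ 3 ≤ t ∧ ∃ c : F, c ≠ 0 ∧ c ≠ 1) :
    (∀ y, LFull H y) ∨ ∀ g ∈ H, ∀ i, ∃ j, ∀ x ∈ D i, g x ∈ D j := by
  by_cases hf : ∀ y, LFull H y
  · exact .inl hf
  have R0 : ∀ φ v w j, HasTv H φ v → φ v = 0 → w ∈ D j → φ w = 0 → w ∉ F ∙ π j v → π j v ≠ 0 →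
      ∀ l, l ≠ j → ∀ x ∈ D l, φ x = 0 := by
    intro φ v w j h1 h2 hw h3 h4 h5 l hl x hx
    obtain ⟨θ, a1, a2⟩ := ex_sep (F := F) (w := π j v) (y := w) fun e => h4 (by
      obtain ⟨c, e⟩ := Submodule.mem_span_singleton.1 e
      exact (Submodule.smul_mem_iff _ (left_ne_zero_of_smul (e ▸ h5))).1
        (e ▸ Submodule.mem_span_singleton_self _))
    by_contra h6
    exact hf (h.full hl hw (by rintro rfl; simp at h4) h3
      (by simpa [h3, a2] using (h.mv h1 hw a1).sub_right (v := v) (by simpa [h3] using h1) (by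
        simp [h2, h3]))
      hx h6)
  have R1 : ∀ φ v j, HasTv H φ v → φ v = 0 → φ ≠ 0 → (∀ l, l ≠ j → ∀ x ∈ D l, φ x = 0) →
      v ∈ D j := by
    intro φ v j h1 h2 h3 h4
    rw [← h.pr.sum v]
    refine Submodule.sum_mem _ fun l _ => ?_
    by_cases hl : l = j
    · exact hl ▸ h.pr.mem _ _
    by_cases h5 : π l v = 0
    · simp [h5]
    obtain ⟨w, hw, a1⟩ := h.ex_notMem l (π l v)
    refine (h3 (LinearMap.ext fun x => ?_)).elim
    rw [← h.pr.sum x, map_sum]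
    refine Finset.sum_eq_zero fun k _ => ?_
    by_cases hk : k = j
    · exact R0 φ v w l h1 h2 hw (h4 l hl w hw) a1 h5 k (hk ▸ Ne.symm hl) _ (h.pr.mem _ _)
    · exact h4 k hk _ (h.pr.mem _ _)
  have R2 : ∀ φ v l, HasTv H φ v → φ v = 0 → π l v = 0 → ∀ w ∈ D l, φ w ≠ 0 → v = 0 := by
    intro φ v l h1 h2 h3 w hw h4
    obtain ⟨y, hy, a1⟩ := h.ex_notMem l w
    obtain ⟨θ, a2, a3⟩ := ex_sep a1
    have := h.mv h1 hw a2
    simp only [h3, map_zero, zero_smul, add_zero] at this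
    rw [← h3, h.pr.self l v (R1 _ v l (h1.sub this h2 (by simp [h2, h3])) (by simp [h3])
      (fun e => by simpa [h4, h.pr.self l y hy, a3] using LinearMap.congr_fun e y)
      fun k hk x hx => by simp [h.pr.ne l k hk.symm x hx])]
  have K : ∀ (φ : Dual F V) j (y : V), m ≤ finrank F (F ∙ y) + 1 ∨ ∃ w ∈ D j, φ w = 0 ∧ w ∉ F ∙ y :=
    fun φ j y => or_iff_not_imp_right.2 fun h1 => by
      push Not at h1
      have := finrank_le_inf_ker (D j) φ
      have := Submodule.finrank_mono (show D j ⊓ LinearMap.ker φ ≤ F ∙ y from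
        fun x hx => h1 x hx.1 hx.2)
      rw [h.dim] at *
      omega
  have K0 : ∀ (φ : Dual F V) j, ∃ w ∈ D j, φ w = 0 ∧ w ≠ 0 := fun φ j => by
    simpa using (K φ j 0).resolve_left (by
      have := h.two; rw [Submodule.span_zero_singleton, finrank_bot]; omega)
  have C : ∀ φ v, HasTv H φ v → φ v = 0 → φ ≠ 0 → v ≠ 0 → ∃ j, v ∈ D j := by
    intro φ v h1 h2 h3 h4
    by_contra! h5
    have a1 : ∀ j, π j v ≠ 0 → ∀ w ∈ D j, φ w = 0 → w ∈ F ∙ π j v := fun j a w hw b => by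
      by_contra c
      exact h5 j (R1 φ v j h1 h2 h3 (R0 φ v w j h1 h2 hw b c a))
    obtain ⟨j, hj⟩ : ∃ j, π j v ≠ 0 := by
      by_contra! a2
      exact h4 (by simpa [a2] using (h.pr.sum v).symm)
    obtain ⟨l, hl, hl'⟩ : ∃ l, l ≠ j ∧ π l v ≠ 0 := by
      by_contra! a2
      exact h5 j (by
        rw [← h.pr.sum v, Finset.sum_eq_single j (fun l _ => a2 l) (by simp)]; exact h.pr.mem _ _)
    obtain ⟨ht, c, c0, c1⟩ := hm.resolve_left fun hm => by
      obtain ⟨w, hw, b1, b2⟩ := (K φ j (π j v)).resolve_left (by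
        rw [finrank_span_singleton hj]; omega)
      exact b2 (a1 j hj w hw b1)
    obtain ⟨k, hk, hk'⟩ := ex_idx2 (by simpa) j l
    obtain ⟨y, hy, b1, b2⟩ := K0 φ k
    obtain ⟨z, hz, b3, b4⟩ := K0 φ j
    obtain ⟨e, rfl⟩ := Submodule.mem_span_singleton.1 (a1 j hj z hz b3)
    have b5 : φ (π j v) = 0 := by simpa [left_ne_zero_of_smul b4] using b3
    obtain ⟨θ, b6⟩ := ex_one' (F := F) hj
    obtain ⟨θ', b7⟩ := ex_one' (F := F) b2
    obtain ⟨g, hg, b8⟩ := h.dil (h.pr.mem j v) hy hk.symm b6 b7 c0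
    obtain ⟨w, hw, b9⟩ := h.ex_notMem l (π l v)
    have := R2 φ (g v - v) l (HasTv.sub_right (by
      convert h1.conj hg using 1
      ext x
      simpa [b1, b5] using congrArg φ (b8 (g.symm x))) h1 h2) (by simp [b8, b1, b5, h2])
      (by simp [b8, h.pr.ne l j hl _ (h.pr.mem j v), h.pr.ne l k hk'.symm y hy]) w hw
      fun e => b9 (a1 l hl' w hw e)
    simpa [b8, h.pr.self j _ (h.pr.mem j v), h.pr.ne j k hk.symm y hy, b6, hj, sub_eq_zero, c1]
      using congrArg (π j) this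
  refine .inr fun g hg i => ?_
  have A : ∀ u ∈ D i, u ≠ 0 → ∃ j, g u ∈ D j := fun u hu hu0 => by
    obtain ⟨w, hw, a1⟩ := h.ex_notMem i u
    obtain ⟨θ, a2, a3⟩ := ex_sep a1
    exact C _ _ ((h.tv hu a2).conj hg) (by simp [h.pr.self i u hu, a2])
      (fun e => by simpa [h.pr.self i w hw, a3] using LinearMap.congr_fun e (g w)) (by simpa)
  obtain ⟨u, hu, -, hu0⟩ := K0 0 i
  obtain ⟨j, hj⟩ := A u hu hu0
  refine ⟨j, fun x hx => by_contra fun h1 => ?_⟩
  obtain ⟨l, hl⟩ := A x hx (by rintro rfl; simp at h1)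
  have hjl : j ≠ l := by rintro rfl; exact h1 hl
  have a1 : π j (g (u + x)) = g u := by simp [h.pr.self j _ hj, h.pr.ne j l hjl _ hl]
  obtain ⟨k, hk⟩ := A (u + x) (add_mem hu hx) fun e => hu0 (by rw [e] at a1; simpa using a1.symm)
  by_cases e : k = j
  · exact h1 ((Submodule.add_mem_iff_right _ hj).1 (map_add g u x ▸ e ▸ hk))
  · exact hu0 (by rw [h.pr.ne j k (Ne.symm e) _ hk] at a1; simpa using a1.symm)

end LD
end

theorem dec_max [Fintype F] {n t m : ℕ} {D : Fin t → Submodule F (Fin n → F)}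
    (hD : IsMDecomposition m D) (hn : 5 ≤ n) (h1 : m = 1 → 5 ≤ Fintype.card F ∧ Zs n (1 : F))
    (h2 : m = 2 → 3 ≤ Fintype.card F) :
    IsMaximalIn (specialLinear (Fin n) F) (decompositionStabilizer D ⊓ specialLinear (Fin n) F) := by
  have hc := mdec_card hD
  have h3 := hD.two_le
  have h4 := hD.pos
  simp only [Fintype.card_fin] at hc
  haveI : Nontrivial (Fin n) := Fin.nontrivial_iff_two_le.2 (by omega)
  have h5 : ∀ g : GL (Fin n) F, (∀ i, ∃ j, ∀ x ∈ D i, g.1 *ᵥ x ∈ D j) →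
      g ∈ decompositionStabilizer D := fun g h =>
    exists_perm_of_forall h4 hD.finrank_eq (fun i j hij => hD.indep.pairwiseDisjoint hij) (glEquiv g) h
  refine isMaximalIn_SL _ (SetLike.not_le_iff_exists.1 ((big_SL (by simp; omega)).not_dec' hD 1
    (by omega) (by omega) (Nat.mul_pos (by omega) h4) fun _ _ _ _ _ _ _ => trivial))
    fun L hL _ => ?_
  by_cases hm : m = 1
  · subst hm
    obtain rfl : t = n := by omega
    obtain ⟨b, b1, b2⟩ := exists_vecs hD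
    obtain ⟨T, b3, -⟩ := exists_monoT hD b1 b2
    have b4 : ∀ X : GL (Fin t) F, (∀ k i l, X.1 i k ≠ 0 → X.1 l k ≠ 0 → i = l) →
        ΦU T X ∈ decompositionStabilizer D := fun X hX => h5 _ fun k => by
      obtain ⟨i, hi⟩ := Function.ne_iff.1 (mulVec_ne_zero X (x := Pi.single k 1) (by simp))
      refine ⟨i, fun x hx => ?_⟩
      obtain ⟨c, hc⟩ := (finrank_eq_one_iff_of_nonzero' (⟨b k, b1 k⟩ : D k)
        fun e => b2 k (congrArg Subtype.val e)).1 (hD.finrank_eq k) ⟨x, hx⟩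
      obtain rfl : c • b k = x := congrArg Subtype.val hc
      rw [mulVec_smul, ← b3, coe_ΦU, Φ_mulVec, show X.1 *ᵥ Pi.single k 1 = X.1 i k • Pi.single i 1
        from funext fun l => by
          by_cases e : l = i
          · simp [e]
          · simpa [e] using by_contra fun e' => e (hX k l i e' (by simpa using hi)), map_smul, b3]
      exact Submodule.smul_mem _ _ (Submodule.smul_mem _ _ (b1 i))
    refine (mono_dich (H := L.comap (ΦU T).toMonoidHom) (h1 rfl).1 hn (h1 rfl).2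
      fun τ d e => ?_).imp (fun h g hg => ?_) fun h g hg => ?_
    · refine ⟨GeneralLinearGroup.mkOfDetNeZero (mono τ d) (by simp [det_mono, e]), hL ⟨b4 _
        fun k i l a1 a2 => ?_, mem_specialLinear.2 ((det_Φ _ _).trans ((det_mono τ d).trans e))⟩, rfl⟩
      simp only [GeneralLinearGroup.val_mkOfDetNeZero, mono, of_apply, ne_eq, ite_eq_right_iff,
        not_forall] at a1 a2
      exact a1.1.trans a2.1.symm
    · simpa using h (x := (ΦU T).symm g) (mem_specialLinear.2 (by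
        rw [← det_Φ T, ← coe_ΦU, MulEquiv.apply_symm_apply, mem_specialLinear.1 hg]))
    · obtain ⟨g, rfl⟩ := (ΦU T).surjective g
      exact b4 g (h g hg)
  obtain ⟨π, hπ⟩ := exists_pr hD.indep hD.iSup_eq_top
  refine (LD.dich (H := L.map glEquiv.toMonoidHom) ⟨hπ, hD.finrank_eq, by omega, fun g τ a1 a2 =>
    ⟨glEquiv.symm g, hL ⟨h5 _ fun i => ⟨τ i, fun x hx => (glEquiv_symm_mulVec g x).symm ▸ a2 i x hx⟩,
      mem_specialLinear.2 ?_⟩, by simp⟩⟩ ?_).imp (sl_le_of_lfull L) fun h g hg =>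
    h5 g (h _ ⟨g, hg, rfl⟩)
  · rw [← LinearMap.det_toLin', ← glEquiv_coe, MulEquiv.apply_symm_apply, a1]
  · by_cases e : m = 2
    · exact .inr ⟨by subst e; omega, ex_idx2 (h2 e) 0 1⟩
    · exact .inl (by omega)

end H29
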