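import Cfsg.Agent.H29.LDec
import Cfsg.Agent.H29.Ten2

/-! Maximality in `SL_n(q)` of subspace stabilisers, subfield subgroups and similarity groups with
explicit small bounds on `n` (`sub_max`, `sfd_max`, `simS_max`, `simU_max`, `simQ_max`). -/

set_option autoImplicit false

namespace H29

open H11 H11.PForm Matrix Cfsg.Geo

variable {F : Type*} [Field F] [Fintype F] {n : ℕ}

theorem sub_max (hn : 2 ≤ n) (W : Submodule F (Fin n → F)) (hW0 : W ≠ ⊥) (hW1 : W ≠ ⊤) :
    IsMaximalIn (specialLinear (Fin n) F) (subspaceStabilizer W ⊓ specialLinear (Fin n) F) := by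
  have : Nontrivial (Fin n) := Fin.nontrivial_iff_two_le.2 (by omega)
  have hstab : ∀ g : GL (Fin n) F, (∀ x ∈ W, (g : Matrix (Fin n) (Fin n) F) *ᵥ x ∈ W) →
      g ∈ Cfsg.Geo.subspaceStabilizer W := by
    intro g hg v
    refine ⟨hg v, fun hv => ?_⟩
    have h1 : W.map (glEquiv g : (Fin n → F) →ₗ[F] (Fin n → F)) = W :=
      Submodule.eq_of_le_of_finrank_eq (by rintro _ ⟨x, hx, rfl⟩; exact hg x hx)
        (LinearEquiv.finrank_map_eq _ _)
    rw [← h1] at hv
    obtain ⟨x, hx, hx'⟩ := hv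
    rwa [← (glEquiv g).injective hx']
  have hfun : ∀ (U : Submodule F (Fin n → F)) (u : Fin n → F), u ∉ U →
      ∃ φ : Module.Dual F (Fin n → F), (∀ x ∈ U, φ x = 0) ∧ φ u = 1 := by
    intro U u hu
    obtain ⟨φ, hφ, hφw⟩ := LinearMap.exists_extend_of_notMem (0 : U →ₗ[F] F) hu 1
    exact ⟨φ, fun x hx => by simpa using LinearMap.congr_fun hφ ⟨x, hx⟩, hφw⟩
  apply isMaximalIn_SL
  · obtain ⟨w, hw, hw0⟩ := Submodule.exists_mem_ne_zero_of_ne_bot hW0
    obtain ⟨x, hx⟩ : ∃ x, x ∉ W := by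
      by_contra h
      push Not at h
      exact hW1 (eq_top_iff.2 fun x _ => h x)
    obtain ⟨φ, h1, h2⟩ := hfun (F ∙ x) w (fun hm => by
      obtain ⟨c, rfl⟩ := Submodule.mem_span_singleton.1 hm
      have hc : c ≠ 0 := by rintro rfl; simp at hw0
      exact hx ((W.smul_mem_iff hc).1 hw))
    obtain ⟨g, hg, h⟩ := exists_tv_SL φ x (h1 x (Submodule.mem_span_singleton_self x))
    refine ⟨g, hg, fun hm => hx ?_⟩
    have := (hm w).1 hw
    rw [SetLike.mem_coe, show Cfsg.glToMat (Fin n) F g = (g : Matrix _ _ F) from rfl, h, h2,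
      one_smul] at this
    exact (W.add_mem_iff_right hw).1 this
  · intro L hL _
    have hW : W ≤ lfullSub (L.map glEquiv.toMonoidHom) := by
      intro u hu φ hφ
      obtain ⟨g, hg, h⟩ := exists_tv_SL φ u hφ
      exact ⟨glEquiv g, ⟨g, hL ⟨hstab g fun x hx => by
        rw [h]; exact W.add_mem hx (W.smul_mem _ hu), hg⟩, rfl⟩, h⟩
    by_cases hT : lfullSub (L.map glEquiv.toMonoidHom) ≤ W
    · exact Or.inr fun g hg => hstab g fun x hx => hT (LFull.map (hW hx) ⟨g, hg, rfl⟩)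
    left
    obtain ⟨u, hu, huW⟩ := Set.not_subset.1 hT
    refine sl_le_of_lfull L fun x => ?_
    by_cases hm : u ∈ W ⊔ F ∙ x
    · obtain ⟨w, hw, y, hy, rfl⟩ := Submodule.mem_sup.1 hm
      obtain ⟨c, rfl⟩ := Submodule.mem_span_singleton.1 hy
      have hc : c ≠ 0 := by rintro rfl; exact huW (by simpa using hw)
      exact (Submodule.smul_mem_iff _ hc).1 ((Submodule.add_mem_iff_right _ (hW hw)).1 hu)
    · obtain ⟨φ, h1, h2⟩ := hfun _ u hm
      obtain ⟨g, hg, h⟩ := exists_tv_SL φ x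
        (h1 x (Submodule.mem_sup_right (Submodule.mem_span_singleton_self x)))
      have hgL : g ∈ L := hL ⟨hstab g fun y hy => by
        rw [h, h1 y (Submodule.mem_sup_left hy)]; simpa using hy, hg⟩
      have h3 : glEquiv g u ∈ lfullSub (L.map glEquiv.toMonoidHom) := LFull.map hu ⟨g, hgL, rfl⟩
      rw [H29.glEquiv_apply, h, h2, one_smul] at h3
      exact (Submodule.add_mem_iff_right _ hu).1 h3

theorem sfd_max (hn : 6 ≤ n) (F₀ : Subfield F) (r : ℕ) (P : GL (Fin n) F) (hr : r.Prime)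
    (hcard : Fintype.card F = Nat.card F₀ ^ r) :
    IsMaximalIn (specialLinear (Fin n) F) (subfieldSubgroup F₀ P ⊓ specialLinear (Fin n) F) := by
  have hr' := finrank_of_card (F₀ := F₀) (by rwa [Nat.card_eq_fintype_card])
  have : Nontrivial (Fin n) := Fin.nontrivial_iff_two_le.2 (by omega)
  refine isMaximalIn_SL _ ?_ fun L h1 _ => ?_
  · obtain ⟨l, hl⟩ := exists_notMem_subfield (hr' ▸ hr)
    obtain ⟨i, j, hij⟩ := exists_pair_ne (Fin n)
    obtain ⟨g, hg, h⟩ := exists_tv_SL (l • (basisOf P).coord j) (basisOf P i)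
      (by simp [Finsupp.single_apply, hij])
    refine ⟨g, hg, fun h' => hl ?_⟩
    obtain ⟨c, hc, h2⟩ := mem_subfieldSubgroup_iff.1 h'
    have h3 := mem_V0.1 (h2 _ (basis_mem_V0 j))
    have h4 := h3 j
    have h5 := h3 i
    simp [h, Finsupp.single_apply, hij, hij.symm] at h4 h5
    convert F₀.div_mem h5 (F₀.inv_mem h4) using 1
    field_simp
  · have hH : HRL F₀ (basisOf P) (L.map glEquiv.toMonoidHom) 1 := by
      intro e he χ hχ h0
      obtain ⟨g, hg, h⟩ := exists_tv_SL χ e h0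
      refine ⟨glEquiv g, ⟨g, h1 ⟨mem_subfieldSubgroup_iff.2 ⟨1, one_ne_zero, fun x hx => ?_⟩, hg⟩,
        rfl⟩, fun x => by simpa using h x⟩
      rw [h, inv_one, one_smul]
      exact Submodule.add_mem _ hx (V0_smul (hχ x hx) he)
    exact (hH.final (by simp; omega) (hr' ▸ hr)).imp (sl_le_of_lfull L) fun h g hg =>
      mem_subfieldSubgroup_iff.2 (h _ ⟨g, hg, rfl⟩)

theorem simS_max (hn : 9 ≤ n) (f : (Fin n → F) → (Fin n → F) → F) (hf : IsSymplecticForm f) :
    IsMaximalIn (specialLinear (Fin n) F) (similarityGroup f ⊓ specialLinear (Fin n) F) := by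
  have hA : (bilinOf hf.bilinear).IsAlt := fun x => hf.alternating x
  have hS : (sympS _ hA).Nondeg := fun x hx => by
    by_contra h0
    obtain ⟨y, hy⟩ := (hf.nondegenerate x h0).2
    exact hy (hx y)
  refine isMaximalIn_sim hS (iso3_symp _) (by simp; omega) _ (fun u v a => ⟨1, fun x y => ?_⟩)
    (fun g => ⟨?_, ?_⟩)
  · simpa using isom_h ((sympS _ hA).eich u v a) x y
  · rintro ⟨c, hc⟩
    exact ⟨c, c.ne_zero, hc⟩
  · rintro ⟨c, hc0, hc⟩
    exact ⟨Units.mk0 c hc0, hc⟩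

theorem simU_max (hn : 9 ≤ n) (σ : F ≃+* F) (f : (Fin n → F) → (Fin n → F) → F)
    (hf : IsUnitaryForm σ f) :
    IsMaximalIn (specialLinear (Fin n) F) (similarityGroup f ⊓ specialLinear (Fin n) F) := by
  have hσ : ∀ a, (σ : F →+* F) ((σ : F →+* F) a) = a := hf.involutive
  have hne : (σ : F →+* F) ≠ RingHom.id F := fun h => hf.ne_refl (RingEquiv.ext fun a => by
    simpa using DFunLike.congr_fun h a)
  let B : (Fin n → F) →ₛₗ[(σ : F →+* F)] (Fin n → F) →ₗ[F] F :=
    LinearMap.mk₂'ₛₗ (σ : F →+* F) (RingHom.id F) (fun x y => f y x)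
      (fun x y v => by rw [hf.herm v, hf.add_left, map_add, ← hf.herm, ← hf.herm])
      (fun c x v => by rw [hf.herm v, hf.smul_left, map_mul, ← hf.herm]; rfl)
      (fun v x y => hf.add_left x y v) (fun c v x => hf.smul_left c x v)
  have hB : ∀ x y, B x y = f y x := fun _ _ => rfl
  have hsym : B.IsSymm := ⟨fun x y => by rw [hB, hB]; exact (hf.herm x y).symm⟩
  have hS : (unitS hσ hne B hsym).Nondeg := fun x hx => by
    by_contra h0
    obtain ⟨y, hy⟩ := (hf.nondegenerate x h0).1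
    exact hy (hx y)
  refine isMaximalIn_sim hS (iso3_unit hne _) (by simp; omega) _ (fun u v a => ⟨1, fun x y => ?_⟩)
    (fun g => ⟨?_, ?_⟩)
  · simpa [hB] using isom_h ((unitS hσ hne B hsym).eich u v a) y x
  · rintro ⟨c, hc⟩
    exact ⟨c, c.ne_zero, fun x y => hc y x⟩
  · rintro ⟨c, hc0, hc⟩
    exact ⟨Units.mk0 c hc0, fun x y => hc y x⟩

theorem simQ_max (hn : 9 ≤ n) (hodd : Odd (Fintype.card F)) (Q : (Fin n → F) → F)
    (hQ : IsNondegenerateQuadraticForm Q) :
    IsMaximalIn (specialLinear (Fin n) F) (quadSimilarityGroup Q ⊓ specialLinear (Fin n) F) := by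
  have h2 := two_ne_zero_of_odd hodd
  refine isMaximalIn_sim (quadOf_nondeg hQ) (iso3_orth _) (by simp; omega) _
    (fun u v a => ⟨1, fun x => ?_⟩) (fun g => ⟨?_, ?_⟩)
  · rw [toGL_mulVec, Units.val_one, one_mul]
    exact orth_isom_q ((orthS (quadOf hQ)).eich u v a) x
  · rintro ⟨c, hc⟩
    refine ⟨c, c.ne_zero, fun x y => ?_⟩
    simp only [orthS_h, QuadraticMap.polar, coe_quadOf, ← Matrix.mulVec_add, hc]
    ring
  · rintro ⟨c, hc0, hc⟩
    refine ⟨Units.mk0 c hc0, fun x => ?_⟩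
    have := hc x x
    rw [orth_h_self, orth_h_self] at this
    apply mul_left_cancel₀ h2
    simp only [orthS_q, coe_quadOf] at this
    rw [this]; simp; ring

theorem dec_max' (hn : 7 ≤ n) {t m : ℕ} {D : Fin t → Submodule F (Fin n → F)}
    (hD : IsMDecomposition m D) (h1 : m = 1 → 5 ≤ Fintype.card F) (h2 : m = 2 → 3 ≤ Fintype.card F) :
    IsMaximalIn (specialLinear (Fin n) F) (decompositionStabilizer D ⊓ specialLinear (Fin n) F) :=
  dec_max hD (by omega) (fun e => ⟨h1 e, zs_of (h1 e) hn one_ne_zero⟩) h2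

end H29
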