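import Cfsg.Agent.H29.Ten
import Cfsg.Agent.H29.Fq

/-! Overgroups of the monomial subgroup of `SL_n(q)`, `q ≥ 5`: a group `H` containing the monomial
matrices of determinant one and no elementary transvection is monomial (`MH.wt`). -/

set_option autoImplicit false
set_option linter.unusedSectionVars false

namespace H29

open Module H11 Matrix Cfsg.Geo Function

variable {F : Type*} [Field F] [Fintype F] {n : ℕ}

theorem ex_quad (hq : 5 ≤ Fintype.card F) (x y a b : F) {c : F} (hc : c ≠ 0) :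
    ∃ w, w ≠ x ∧ w ≠ y ∧ a * w ^ 2 + b * w + c ≠ 0 := by
  by_contra! h
  obtain ⟨u, hu⟩ := ex_idx [x, y] (by simp; omega)
  obtain ⟨v, hv⟩ := ex_idx [x, y, u] (by simp; omega)
  obtain ⟨w, hw⟩ := ex_idx [x, y, u, v] (by simp; omega)
  simp only [List.mem_cons, List.not_mem_nil, or_false, not_or] at hu hv hw
  have h1 := h u hu.1 hu.2
  have h2 := h v hv.1 hv.2.1
  have h3 := h w hw.1 hw.2.1
  refine hc (mul_left_cancel₀ (mul_ne_zero (mul_ne_zero (sub_ne_zero.2 hv.2.2)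
    (sub_ne_zero.2 hw.2.2.1)) (sub_ne_zero.2 hw.2.2.2)) ?_)
  linear_combination v * w * (w - v) * h1 - u * w * (w - u) * h2 + u * v * (v - u) * h3

theorem sum_upd (G : Fin n → F → F) (d : Fin n → F) (k : Fin n) (x : F) :
    ∑ j, G j (update d k x j) = ∑ j, G j (d j) - G k (d k) + G k x := by
  rw [← Finset.add_sum_erase _ _ (Finset.mem_univ k),
    ← Finset.add_sum_erase _ (fun j => G j (d j)) (Finset.mem_univ k), update_self,
    Finset.sum_congr rfl fun j hj => by rw [update_of_ne (Finset.ne_of_mem_erase hj)]]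
  ring

theorem ex_diag (hq : 5 ≤ Fintype.card F) (P : Fin n → F) {k l m : Fin n} (h1 : k ≠ l) (h2 : k ≠ m)
    (h3 : l ≠ m) (a1 : P k ≠ 0) (a2 : P l ≠ 0) (a3 : P m ≠ 0) : ∃ d : Fin n → F, (∀ j, d j ≠ 0) ∧
      ∑ j, P j * d j = 0 ∧ ∑ j, P j * (d j)⁻¹ ≠ 0 := by
  obtain ⟨x, b1, b2⟩ := ex_idx2 (by omega) (0 : F) (-(∑ j, P j - P m - P k - P l) / P m)
  obtain ⟨s, hs⟩ : ∃ s, s = ∑ j, P j - P m - P k - P l + P m * x := ⟨_, rfl⟩
  have b3 : s ≠ 0 := fun e => b2 (by field_simp; linear_combination e - hs)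
  obtain ⟨s', hs'⟩ : ∃ s', s' = ∑ j, P j - P m - P k - P l + P m * x⁻¹ := ⟨_, rfl⟩
  obtain ⟨w, c1, c2, c3⟩ := ex_quad hq 0 (-s) s' (P k ^ 2 - P l ^ 2 + s' * s)
    (mul_ne_zero (pow_ne_zero 2 a1) b3)
  have c4 : s + w ≠ 0 := fun e => c2 (by linear_combination e)
  refine ⟨update (update (update 1 m x) k (w / P k)) l (-(s + w) / P l), fun j => ?_, ?_, ?_⟩
  · simp only [update_apply]
    split_ifs <;> simp [-neg_add_rev, a1, a2, c1, c4, b1]
  · simp only [sum_upd fun j x => P j * x, update_of_ne h1.symm, update_of_ne h2, update_of_ne h3,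
      Pi.one_apply]
    field_simp
    linear_combination -hs
  · simp only [sum_upd fun j x => P j * x⁻¹, update_of_ne h1.symm, update_of_ne h2, update_of_ne h3,
      Pi.one_apply, inv_one, mul_one]
    refine fun e => c3 ?_
    replace e : s' + P k * (w / P k)⁻¹ + P l * (-(s + w) / P l)⁻¹ = 0 := by
      linear_combination e + hs'
    field_simp at e
    linear_combination e

/-- vectors with sum zero, given product, and non-zero sum of inverses -/
def Zs (n : ℕ) (ρ : F) : Prop :=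
  ∃ d : Fin n → F, (∀ j, d j ≠ 0) ∧ ∏ j, d j = ρ ∧ ∑ j, d j = 0 ∧ ∑ j, (d j)⁻¹ ≠ 0

theorem Zs.succ {ρ : F} (h : Zs n (-ρ)) : Zs (n + 2) ρ := by
  obtain ⟨d, h1, h2, h3, h4⟩ := h
  refine ⟨Fin.cons 1 (Fin.cons (-1) d), fun j => ?_, ?_, ?_, ?_⟩
  · refine Fin.cases (by simp) (fun j => Fin.cases (by simp) (fun j => by simp [h1]) j) j
  all_goals simp [Fin.prod_univ_succ, Fin.sum_univ_succ, inv_neg, *]

theorem zs_of (hq : 5 ≤ Fintype.card F) (hn : 7 ≤ n) {ρ : F} (h0 : ρ ≠ 0) : Zs n ρ := by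
  obtain ⟨y, a1, a2, a3⟩ := ex_quad hq (0 : F) (-1) 1 1 one_ne_zero
  have a4 : 1 + y ≠ 0 := fun e => a2 (by linear_combination e)
  have A : ∀ k ρ, ρ ≠ 0 → Zs (F := F) (5 + 2 * k) ρ ∧ Zs (F := F) (8 + 2 * k) ρ := by
    intro k
    induction k with
    | succ k ih => exact fun ρ h => ⟨(ih _ (neg_ne_zero.2 h)).1.succ, (ih _ (neg_ne_zero.2 h)).2.succ⟩
    | zero =>
      intro ρ h
      constructor
      · obtain ⟨r, hr, e⟩ : ∃ r, r ≠ 0 ∧ ρ = r * (y * (1 + y)) :=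
          ⟨ρ / (y * (1 + y)), by simp [*], by field_simp⟩
        refine ⟨![r, r * y, -(r * (1 + y)), r⁻¹, -r⁻¹], fun j => by fin_cases j <;> simp [*],
          ?_, ?_, fun e' => a3 ?_⟩
        · simp [Fin.prod_univ_succ, e]; field_simp; simp
        · simp [Fin.sum_univ_succ]; ring
        · simp [Fin.sum_univ_succ, inv_neg] at e'
          field_simp at e'
          linear_combination e'
      · obtain ⟨r, hr, e⟩ : ∃ r, r ≠ 0 ∧ ρ = -(r * (y * (1 + y)) ^ 2) :=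
          ⟨-ρ / (y * (1 + y)) ^ 2, by simp [*], by field_simp⟩
        obtain ⟨b, b1, -, b2⟩ := ex_quad hq (0 : F) 0 r 0 one_ne_zero
        refine ⟨![r * b ^ 2, r * b ^ 2 * y, -(r * b ^ 2 * (1 + y)), 1, y, -(1 + y), (r * b ^ 3)⁻¹,
          -(r * b ^ 3)⁻¹], fun j => by fin_cases j <;> simp [*, -neg_add_rev],
          ?_, ?_, fun e' => mul_ne_zero a3 b2 ?_⟩
        · simp [Fin.prod_univ_succ, e, -neg_add_rev]; field_simp
        · simp [Fin.sum_univ_succ]; ring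
        · simp [Fin.sum_univ_succ, inv_neg, -neg_add_rev] at e'
          field_simp at e'
          linear_combination e'
  obtain ⟨k, rfl | rfl⟩ : ∃ k, n = 5 + 2 * k ∨ n = 8 + 2 * k := by
    rcases Nat.even_or_odd' n with ⟨k, rfl | rfl⟩
    exacts [⟨k - 4, .inr (by omega)⟩, ⟨k - 2, .inl (by omega)⟩]
  exacts [(A k ρ h0).1, (A k ρ h0).2]

/-- `η` at `a`, `η⁻¹` at `m` -/
def dg (a m : Fin n) (η : F) : Fin n → F := fun x => if x = a then η else if x = m then η⁻¹ else 1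

theorem dg_ne (a m : Fin n) {η : F} (h : η ≠ 0) (x : Fin n) : dg a m η x ≠ 0 := by
  unfold dg; split_ifs <;> simp [h]

theorem prod_dg {a m : Fin n} (ham : a ≠ m) {η : F} (h : η ≠ 0) : ∏ x, dg a m η x = 1 := by
  rw [Finset.prod_eq_mul a m ham (fun c _ hc => by simp [dg, hc.1, hc.2]) (by simp) (by simp)]
  simp [dg, ham.symm, h]

/-- vectors supported in `J` -/
def VJ (F : Type*) [Field F] (J : Fin n → Prop) : Submodule F (Fin n → F) where
  carrier := {x | ∀ j, ¬ J j → x j = 0}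
  add_mem' ha hb j hj := by simp [ha j hj, hb j hj]
  zero_mem' _ _ := rfl
  smul_mem' c x hx j hj := by simp [hx j hj]

theorem mem_VJ_ne {a : Fin n} {x : Fin n → F} : x ∈ VJ F (· ≠ a) ↔ x a = 0 :=
  ⟨fun h => h a (by simp), fun h j hj => by rwa [not_not.1 hj]⟩

/-- an element of `H` acts on `VJ F J` as `1 + u ψ` -/
def TJ (H : Subgroup (GL (Fin n) F)) (J : Fin n → Prop) (u ψ : Fin n → F) : Prop :=
  ∃ g ∈ H, ∀ x ∈ VJ F J, g.1 *ᵥ x = x + (ψ ⬝ᵥ x) • u

/-- `H` contains the monomial matrices of determinant one and no elementary transvection -/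
structure MH (H : Subgroup (GL (Fin n) F)) : Prop where
  q : 5 ≤ Fintype.card F
  five : 5 ≤ n
  mono : ∀ (τ : Equiv.Perm (Fin n)) (d : Fin n → F), (Equiv.Perm.sign τ : ℤ) * ∏ i, d i = 1 →
    ∃ g ∈ H, g.1 = mono τ d
  ne : ∀ i j (c : F), i ≠ j → TJ H (fun _ => True) (Pi.single i c) (Pi.single j 1) → c = 0

variable {H : Subgroup (GL (Fin n) F)} {J : Fin n → Prop} {u u' ψ ψ' : Fin n → F}

theorem gl_cancel (g : GL (Fin n) F) {x y : Fin n → F} (h : g.1 *ᵥ x = y) : (g⁻¹).1 *ᵥ y = x := by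
  rw [← h, inv_mulVec_mulVec]

theorem TJ.subl (h : TJ H J u ψ) (h' : TJ H J u' ψ) (hu : u ∈ VJ F J) (hu' : u' ∈ VJ F J)
    (e : ψ ⬝ᵥ u' = ψ ⬝ᵥ u) : TJ H J (u' - u) ψ := by
  obtain ⟨g, hg, h⟩ := h
  obtain ⟨k, hk, h'⟩ := h'
  refine ⟨g⁻¹ * k, H.mul_mem (H.inv_mem hg) hk, fun x hx => ?_⟩
  rw [Units.val_mul, ← mulVec_mulVec, h' x hx]
  refine gl_cancel g ?_
  rw [h _ (add_mem hx (Submodule.smul_mem _ _ (sub_mem hu' hu)))]
  simp [e, smul_sub, add_assoc]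

theorem TJ.subr (h : TJ H J u ψ) (h' : TJ H J u ψ') (hu : u ∈ VJ F J) (e : ψ ⬝ᵥ u = 0) :
    TJ H J u (ψ' - ψ) := by
  obtain ⟨g, hg, h⟩ := h
  obtain ⟨k, hk, h'⟩ := h'
  refine ⟨g⁻¹ * k, H.mul_mem (H.inv_mem hg) hk, fun x hx => ?_⟩
  rw [Units.val_mul, ← mulVec_mulVec, h' x hx]
  refine gl_cancel g ?_
  rw [h _ (add_mem hx (Submodule.smul_mem _ _ hu))]
  simp [e, sub_smul, add_assoc]

theorem TJ.congr (h : TJ H J u ψ) (e : ∀ j, J j → ψ' j = ψ j) : TJ H J u ψ' := by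
  obtain ⟨g, hg, h⟩ := h
  refine ⟨g, hg, fun x hx => ?_⟩
  rw [h x hx, dotProduct, dotProduct, Finset.sum_congr rfl fun j _ => ?_]
  by_cases hj : J j
  · rw [e j hj]
  · simp [hx j hj]

theorem ex_perm3 {α : Type*} {i l a k m b : α} (h1 : i ≠ l) (h2 : a ≠ i) (h3 : a ≠ l) (h4 : k ≠ m)
    (h5 : b ≠ k) (h6 : b ≠ m) : ∃ τ : Equiv.Perm α, τ i = k ∧ τ l = m ∧ τ a = b := by
  obtain ⟨τ, hτ⟩ := Equiv.Perm.exists_extending_pair (f := ![i, l, a]) (g := ![k, m, b])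
    (fun x y => by fin_cases x <;> fin_cases y <;> simp_all [eq_comm])
    (fun x y => by fin_cases x <;> fin_cases y <;> simp_all [eq_comm])
  exact ⟨τ, hτ 0, hτ 1, hτ 2⟩

theorem mono_free (h : ∀ (τ : Equiv.Perm (Fin n)) (d : Fin n → F),
    (Equiv.Perm.sign τ : ℤ) * ∏ i, d i = 1 → ∃ g ∈ H, g.1 = mono τ d) (τ : Equiv.Perm (Fin n)) {c : Fin n → F} (hc : ∀ i, c i ≠ 0) (a : Fin n) :
    ∃ g ∈ H, ∃ x, g.1 = mono τ (update c a x) := by
  have h1 : ∏ i ∈ Finset.univ \ {a}, c i ≠ 0 := Finset.prod_ne_zero_iff.2 fun i _ => hc i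
  obtain ⟨g, hg, e⟩ := h τ (update c a ((Equiv.Perm.sign τ : ℤ) / ∏ i ∈ Finset.univ \ {a}, c i))
    (by rw [Finset.prod_update_of_mem (Finset.mem_univ a), div_mul_cancel₀ _ h1, ← Int.cast_mul,
      ← Units.val_mul]; simp)
  exact ⟨g, hg, _, e⟩

namespace MH
variable (h : MH H)
include h

theorem idx (l : List (Fin n)) (hl : l.length < 5) : ∃ m, m ∉ l :=
  ex_idx l (by have := h.five; simp; omega)

theorem eta : ∃ η : F, η ≠ 0 ∧ η ≠ 1 ∧ η⁻¹ ≠ 1 ∧ η⁻¹ ≠ η := by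
  obtain ⟨η, h1, -, h2⟩ := ex_quad h.q (0 : F) 0 1 0 (c := -1) (by simp)
  refine ⟨η, h1, fun e => by simp [e] at h2, fun e => by simp [inv_eq_one.1 e] at h2, fun e => h2 ?_⟩
  field_simp at e
  linear_combination -e

theorem diag {d : Fin n → F} (hd : ∏ i, d i = 1) :
    ∃ g ∈ H, g.1 = diagonal d ∧ (g⁻¹).1 = diagonal d⁻¹ := by
  obtain ⟨g, hg, e⟩ := h.mono 1 d (by simpa)
  have h1 : g.1 = diagonal d := by
    rw [e]; ext i j; by_cases hij : i = j <;> simp [H29.mono, diagonal_apply, hij]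
  refine ⟨g, hg, h1, Units.inv_eq_of_mul_eq_one_right ?_⟩
  have h2 : ∀ i, d i ≠ 0 := fun i hi => by
    simp [Finset.prod_eq_zero (Finset.mem_univ i) hi] at hd
  simp [h1, h2]

theorem conj (t : TJ H J u ψ) {d : Fin n → F} (h0 : ∀ i, d i ≠ 0) (hd : ∏ i, d i = 1) :
    TJ H J (d * u) (d⁻¹ * ψ) := by
  obtain ⟨g, hg, t⟩ := t
  obtain ⟨k, hk, e, e'⟩ := h.diag hd
  refine ⟨k * g * k⁻¹, H.mul_mem (H.mul_mem hk hg) (H.inv_mem hk), fun x hx => ?_⟩
  rw [Units.val_mul, Units.val_mul, ← mulVec_mulVec, ← mulVec_mulVec, t _ fun j hj => by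
    simp [e', mulVec_diagonal, hx j hj], e, e']
  ext i
  simp [mulVec_diagonal, mul_add, h0, dotProduct, mul_comm, mul_left_comm, mul_assoc]
  field_simp [h0 i]

theorem left (t : TJ H J u ψ) (hu : u ∈ VJ F J) {i m : Fin n} (him : i ≠ m) {η : F} (h0 : η ≠ 0)
    (hi : ψ i = 0) (hm : J m → ψ m = 0) : TJ H J (dg i m η * u - u) ψ :=
  t.subl ((h.conj t (dg_ne i m h0) (prod_dg him h0)).congr fun j hj => by
    simp only [dg, Pi.mul_apply, Pi.inv_apply]
    split_ifs with a b <;> simp_all) hu (fun j hj => by simp [hu j hj])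
    (Finset.sum_congr rfl fun j _ => by
      simp only [dg, Pi.mul_apply]
      split_ifs with a b
      · simp [a, hi]
      · by_cases hj : J j
        · simp [b, hm (b ▸ hj)]
        · simp [hu j hj]
      · simp)

theorem axis {a : Fin n} (t : TJ H (fun _ => True) u (Pi.single a 1)) (hu : u a = 0) : u = 0 := by
  funext m
  by_contra hm
  have h1 : m ≠ a := by rintro rfl; exact hm hu
  obtain ⟨η, a1, a2, -⟩ := h.eta
  obtain ⟨i, hi⟩ := h.idx [a, m] (by simp)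
  obtain ⟨j, hj⟩ := h.idx [a, m, i] (by simp)
  simp only [List.mem_cons, List.not_mem_nil, or_false, not_or] at hi hj
  have := h.left (h.left t (fun _ h => (h trivial).elim) (Ne.symm hi.2) a1 (by simp [h1])
    (by simp [hi.1])) (fun _ h => (h trivial).elim) (Ne.symm hj.2.1) a1 (by simp [h1])
    (by simp [hj.1])
  refine mul_ne_zero (pow_ne_zero 2 (sub_ne_zero.2 a2)) hm (h.ne m a _ h1 (by
    convert this using 1
    ext x
    simp only [dg, Pi.sub_apply, Pi.mul_apply, Pi.single_apply]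
    split_ifs <;> simp_all
    ring))

theorem col {g : GL (Fin n) F} (hg : g ∈ H) {a r m : Fin n} (hr : a ≠ r) (hm : a ≠ m)
    (h1 : ∀ j, j ≠ a → g.1 a j = 0)
    (h2 : ∀ η z, η ≠ 0 → z a = 0 → dg a r η * g.1 *ᵥ z = g.1 *ᵥ (dg a m η * z)) (x : Fin n)
    (hx : x ≠ a) : g.1 x a = 0 := by
  obtain ⟨η, a1, a2, a3, a4⟩ := h.eta
  obtain ⟨t, ht, e, -⟩ := h.diag (prod_dg hr a1)
  obtain ⟨t', ht', -, e'⟩ := h.diag (prod_dg hm a1)
  set s := g⁻¹ * t * g * t'⁻¹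
  have b1 : ∀ z, g.1 *ᵥ (s.1 *ᵥ z) = dg a r η * g.1 *ᵥ ((dg a m η)⁻¹ * z) := fun z => by
    simp only [s, Units.val_mul, ← mulVec_mulVec, mulVec_inv_mulVec, e, e']
    ext i; simp only [mulVec_diagonal, Pi.mul_apply]; congr; ext; simp [mulVec_diagonal]
  have b2 : ∀ y, (g.1 *ᵥ y) a = g.1 a a * y a := fun y => by
    rw [mulVec, dotProduct, Finset.sum_eq_single a (fun j _ hj => by simp [h1 j hj]) (by simp)]
  have b3 : g.1 a a ≠ 0 := fun e => by
    have := b2 ((g⁻¹).1 *ᵥ Pi.single a 1)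
    rw [mulVec_inv_mulVec] at this
    simp [e] at this
  have b4 := h.axis (a := a) (u := s.1 *ᵥ Pi.single a 1 - Pi.single a 1) ⟨s, H.mul_mem (H.mul_mem
    (H.mul_mem (H.inv_mem hg) ht) hg) (H.inv_mem ht'), fun z _ => by
      have : s.1 *ᵥ (z - z a • Pi.single a 1) = z - z a • Pi.single a 1 := by
        rw [← gl_cancel g (b1 _), h2 _ _ a1 (by simp), inv_mulVec_mulVec]
        ext; simp [dg_ne, a1]
      rw [mulVec_sub, mulVec_smul] at this
      simp only [single_dotProduct, one_mul]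
      rw [smul_sub, sub_eq_iff_eq_add.1 this]; abel⟩ (by
    have := congrFun (b1 (Pi.single a 1)) a
    simp only [b2, Pi.mul_apply, dg, if_true, Pi.inv_apply, Pi.single_eq_same] at this
    field_simp at this
    simpa [sub_eq_zero] using this)
  have := congrFun (b1 (Pi.single a 1)) x
  rw [sub_eq_zero.1 b4, show (dg a m η)⁻¹ * Pi.single a 1 = Pi.single a η⁻¹ by
    ext y; by_cases hy : y = a <;> simp [hy, dg]] at this
  simp only [mulVec_single, Pi.mul_apply, dg, hx, if_false] at this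
  by_contra b5
  split_ifs at this <;> simp at this <;> field_simp at this
  · exact a4 (by field_simp; linear_combination -this)
  · exact a2 (by linear_combination this)

theorem lift {a i j : Fin n} {c : F} (hi : i ≠ a) (hj : j ≠ a) (hij : i ≠ j)
    (t : TJ H (· ≠ a) (Pi.single i c) (Pi.single j 1)) : c = 0 := by
  obtain ⟨g, hg, t⟩ := t
  simp only [mem_VJ_ne, single_dotProduct, one_mul] at t
  obtain ⟨m, hm⟩ := h.idx [a, i, j] (by simp)
  simp only [List.mem_cons, List.not_mem_nil, or_false, not_or] at hm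
  obtain ⟨η, a1, a2, -⟩ := h.eta
  have b1 := h.col hg (Ne.symm hm.1) (Ne.symm hm.1) (fun l hl => by
    simpa [hl.symm, hi.symm] using congrFun (t (Pi.single l 1) (by simp [hl.symm])) a)
    fun η z _ hz => by
      rw [t z hz, t _ (by simp [hz])]
      ext x
      by_cases hx : x = i <;> simp [hx, dg, hi, hj, Ne.symm hm.2.1, Ne.symm hm.2.2]
  have b2 : ∀ x, g.1 *ᵥ x = x + x j • Pi.single i c + Pi.single a ((g.1 a a - 1) * x a) :=
    fun x => by
      have := t (x - Pi.single a (x a)) (by simp)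
      rw [mulVec_sub, sub_eq_iff_eq_add] at this
      rw [this]
      ext y
      by_cases hy : y = a
      · simp [hy, hj, hi.symm]; ring
      · simp [hy, hj, b1 y hy]
  obtain ⟨k, hk, e, e'⟩ := h.diag (prod_dg (Ne.symm hm.2.1) a1)
  refine (mul_eq_zero.1 (h.ne i j ((η - 1) * c) hij ⟨g⁻¹ * k * g * k⁻¹, H.mul_mem (H.mul_mem
    (H.mul_mem (H.inv_mem hg) hk) hg) (H.inv_mem hk), fun x _ => ?_⟩)).resolve_left
    (sub_ne_zero.2 a2)
  simp only [Units.val_mul, ← mulVec_mulVec, e, e']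
  refine gl_cancel g ?_
  rw [b2, b2]
  ext y
  have := dg_ne i m a1 y
  simp only [mulVec_diagonal, Pi.add_apply, Pi.smul_apply, Pi.inv_apply, single_dotProduct,
    smul_eq_mul, Pi.single_apply, mul_add, mul_inv_cancel_left₀ this]
  simp only [dg, hij.symm, hi.symm, Ne.symm hm.1, Ne.symm hm.2.2, if_false]
  by_cases h1 : y = i
  · simp [h1, hi]; ring
  by_cases h2 : y = a <;> simp [h1, h2, hi.symm, Ne.symm hm.1]

theorem supp {a : Fin n} {g : GL (Fin n) F} (hg : g ∈ H ⊓ subspaceStabilizer (VJ F (· ≠ a)))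
    {i k : Fin n} (hi : i ≠ a) (hk : k ≠ a) (h0 : (g⁻¹).1 k i = 0) : g.1 i k = 0 := by
  by_contra h1
  obtain ⟨η, a1, a2, a3, -⟩ := h.eta
  obtain ⟨t, ht, e, -⟩ := h.diag (prod_dg hk a1)
  have b0 : g.1 a k = 0 := by
    simpa using mem_VJ_ne.1 (mulVec_mem_of_stab hg.2 (x := Pi.single k 1) (by
      simp [mem_VJ_ne, hk.symm]))
  have b1 : TJ H (· ≠ a) ((η - 1) • g.1.col k) ((g⁻¹).1 k) := by
    refine ⟨g * t * g⁻¹, H.mul_mem (H.mul_mem hg.1 ht) (H.inv_mem hg.1), fun x hx => ?_⟩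
    have := mem_VJ_ne.1 (mulVec_mem_of_stab (Subgroup.inv_mem _ hg.2) hx)
    rw [Units.val_mul, Units.val_mul, ← mulVec_mulVec, ← mulVec_mulVec, e,
      show diagonal (dg k a η) *ᵥ ((g⁻¹).1 *ᵥ x) = (g⁻¹).1 *ᵥ x +
        Pi.single k ((η - 1) * ((g⁻¹).1 k ⬝ᵥ x)) from funext fun y => ?_, mulVec_add,
      mulVec_inv_mulVec]
    · ext y; simp [mul_comm, mul_assoc]
    simp only [mulVec_diagonal, dg, Pi.add_apply, Pi.single_apply]
    split_ifs with c1 c2
    · rw [c1, mulVec]; ring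
    · simp [-Matrix.coe_units_inv, c2, this]
    · simp
  have b2 := h.left b1 (by simp [mem_VJ_ne, b0]) hi a1 h0 (by simp)
  rw [show dg i a η * (η - 1) • g.1.col k - (η - 1) • g.1.col k =
    Pi.single i ((η - 1) ^ 2 * g.1 i k) from funext fun y => by
      simp only [dg, Pi.sub_apply, Pi.mul_apply, Pi.single_apply, Pi.smul_apply, col_apply]
      split_ifs with c1 c2 <;> simp [*]
      ring] at b2
  obtain ⟨j, hj, hj0⟩ : ∃ j, j ≠ a ∧ (g⁻¹).1 k j ≠ 0 := by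
    by_contra! h2
    have := congrFun₂ g.inv_mul k k
    rw [mul_apply, Finset.sum_eq_zero fun j _ => by
      by_cases hj : j = a <;> simp [-Matrix.coe_units_inv, hj, b0, h2]] at this
    simp at this
  have hij : i ≠ j := by rintro rfl; exact hj0 h0
  have b3 := h.conj b2 (dg_ne j a (inv_ne_zero a1)) (prod_dg hj (inv_ne_zero a1))
  rw [show dg j a η⁻¹ * (Pi.single i ((η - 1) ^ 2 * g.1 i k) : Fin n → F) =
    Pi.single i ((η - 1) ^ 2 * g.1 i k)
    from funext fun y => by by_cases hy : y = i <;> simp [hy, dg, hi, hij]] at b3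
  obtain ⟨s, hs, b4⟩ := (b2.subr b3 (by simp [mem_VJ_ne, hi.symm])
    (by simp [-Matrix.coe_units_inv, h0])).congr (ψ' := Pi.single j ((η - 1) * (g⁻¹).1 k j))
    fun y hy => by
      by_cases hy' : y = j <;> simp [-Matrix.coe_units_inv, hy', dg, hy, sub_mul]
  refine mul_ne_zero (mul_ne_zero (sub_ne_zero.2 a2) hj0)
    (mul_ne_zero (pow_ne_zero 2 (sub_ne_zero.2 a2)) h1) (h.lift hi hj hij ⟨s, hs, fun x hx => ?_⟩)
  rw [b4 x hx]
  ext y
  by_cases hy : y = i <;> simp [-Matrix.coe_units_inv, hy]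
  ring

theorem wt (hJ : ∀ l : List (Fin n), l.length < 5 → (∀ x ∈ l, J x) → ∃ a, a ∉ l ∧ ∀ j, j ≠ a → J j)
    (H1 : ∀ g ∈ H ⊓ subspaceStabilizer (VJ F J), ∀ i k, J i → J k → (g⁻¹).1 k i = 0 → g.1 i k = 0)
    (H2 : ∀ g ∈ H ⊓ subspaceStabilizer (VJ F J), ∀ k, J k → (∀ i, g.1 i k ≠ 0) →
      ∃ d : Fin n → F, ∏ i, d i = 1 ∧
      ∑ i, (g⁻¹).1 k i * g.1 i k * d i = 0 ∧ ∑ i, (g⁻¹).1 k i * g.1 i k * (d i)⁻¹ ≠ 0)
    {g : GL (Fin n) F} (hg : g ∈ H ⊓ subspaceStabilizer (VJ F J)) {k i l : Fin n} (hk : J k)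
    (hi : g.1 i k ≠ 0) (hl : g.1 l k ≠ 0) : i = l := by
  set K := H ⊓ subspaceStabilizer (VJ F J)
  have A : ∀ g ∈ K, ∀ i k, J k → g.1 i k ≠ 0 → J i := fun g hg i k hk hi => by
    by_contra h1
    exact hi (by simpa using mulVec_mem_of_stab hg.2 (x := Pi.single k 1) (fun j hj => by
      rw [Pi.single_eq_of_ne]; rintro rfl; exact hj hk) i h1)
  have B : ∀ g ∈ K, ∀ k i l m, J k → g.1 i k ≠ 0 → g.1 l k ≠ 0 → g.1 m k ≠ 0 → i ≠ l → i ≠ m →
      l ≠ m → False := by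
    intro g hg k i l m hk hi hl hm a1 a2 a3
    have b0 : ∀ i, g.1 i k ≠ 0 → (g⁻¹).1 k i * g.1 i k ≠ 0 := fun i hi =>
      mul_ne_zero (fun e => hi (H1 g hg i k (A g hg i k hk hi) hk e)) hi
    obtain ⟨d, b1, b2, b3⟩ : ∃ d : Fin n → F, ∏ i, d i = 1 ∧
        ∑ i, (g⁻¹).1 k i * g.1 i k * d i = 0 ∧ ∑ i, (g⁻¹).1 k i * g.1 i k * (d i)⁻¹ ≠ 0 := by
      by_cases h1 : ∀ i, g.1 i k ≠ 0
      · exact H2 g hg k hk h1
      push Not at h1
      obtain ⟨j, hj⟩ := h1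
      obtain ⟨d, c1, c2, c3⟩ := ex_diag h.q (fun i => (g⁻¹).1 k i * g.1 i k) a1 a2 a3 (b0 i hi)
        (b0 l hl) (b0 m hm)
      refine ⟨update d j (∏ x ∈ Finset.univ \ {j}, d x)⁻¹, ?_, ?_, ?_⟩
      · rw [Finset.prod_update_of_mem (Finset.mem_univ j),
          inv_mul_cancel₀ (Finset.prod_ne_zero_iff.2 fun i _ => c1 i)]
      · simpa [-Matrix.coe_units_inv, sum_upd fun i (x : F) => (g⁻¹).1 k i * g.1 i k * x, hj] using c2
      · simpa [-Matrix.coe_units_inv, sum_upd fun i (x : F) => (g⁻¹).1 k i * g.1 i k * x⁻¹, hj] using c3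
    obtain ⟨t, ht, e, e'⟩ := h.diag b1
    have b4 : t ∈ K := ⟨ht, mem_subspaceStabilizer_of_le fun x hx j hj => by
      simp [e, mulVec_diagonal, hx j hj]⟩
    have := H1 (g⁻¹ * t⁻¹ * g) (K.mul_mem (K.mul_mem (K.inv_mem hg) (K.inv_mem b4)) hg) k k hk hk (by
      rw [← b2]
      simp [-Matrix.coe_units_inv, e, ← mul_assoc, mul_apply (N := g.1), mul_right_comm])
    refine b3 (this.symm ▸ ?_)
    simp [-Matrix.coe_units_inv, e', mul_apply (N := g.1), mul_right_comm]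
  by_contra hil
  have hJi := A g hg i k hk hi
  have hJl := A g hg l k hk hl
  obtain ⟨a, ha, ha'⟩ := hJ [i, l] (by simp) (by simp [hJi, hJl])
  obtain ⟨x, hx⟩ := h.idx [i, l, a] (by simp)
  simp only [List.mem_cons, List.not_mem_nil, or_false, not_or] at hx
  obtain ⟨m, hm, hxm⟩ : ∃ m, J m ∧ g.1 x m ≠ 0 := by
    by_contra! h2
    have := congrFun₂ g.mul_inv x x
    rw [mul_apply, Finset.sum_eq_zero fun j _ => by
      by_cases hj : J j
      · simp [h2 j hj]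
      · by_contra h3
        exact hj (A _ (K.inv_mem hg) j x (ha' x hx.2.2) (right_ne_zero_of_mul h3))] at this
    simp at this
  have c1 : ∀ y, y ≠ i → y ≠ l → g.1 y k = 0 := fun y h1 h2 => by
    by_contra h3
    exact B g hg k i l y hk hi hl h3 hil h1.symm h2.symm
  have hkm : k ≠ m := by rintro rfl; exact hxm (c1 x hx.1 hx.2.1)
  obtain ⟨b, hb, hb'⟩ := hJ [i, l, k, m] (by simp) (by simp [*])
  simp only [List.mem_cons, List.not_mem_nil, or_false, not_or] at hb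
  obtain ⟨τ, t0, t1, t2⟩ := ex_perm3 hil hb.1 hb.2.1 hkm hb.2.2.1 hb.2.2.2
  obtain ⟨β, hβ⟩ := ex_idx [0, -(g.1 i k * g.1 i k) / (g.1 i m * g.1 l k),
    -(g.1 l k * g.1 i k) / (g.1 l m * g.1 l k)] (by have := h.q; simp; omega)
  simp only [List.mem_cons, List.not_mem_nil, or_false, not_or] at hβ
  obtain ⟨p, hp, y, e⟩ := mono_free h.mono τ (c := update 1 l β) (fun j => by
    simp only [update_apply]; split_ifs <;> simp [hβ.1]) b
  have c2 : p ∈ K := ⟨hp, mem_subspaceStabilizer_of_le fun z hz j hj => by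
    obtain rfl : j = b := by_contra fun e => hj (hb' j e)
    simp [e, mono_mulVec, τ.symm_apply_eq.2 t2.symm, hz j hj]⟩
  have c3 : ∀ z, (g * p * g).1 z k = g.1 z k * g.1 i k + g.1 z m * g.1 l k * β := fun z => by
    rw [Units.val_mul, mul_apply, Finset.sum_eq_add i l hil (fun y _ hy => by
      simp [c1 y hy.1 hy.2]) (by simp) (by simp)]
    simp [e, mul_apply, H29.mono, t0, t1, Ne.symm hb.1, Ne.symm hb.2.1, hil]
    ring
  have c4 : ∀ z, g.1 z k ≠ 0 → β ≠ -(g.1 z k * g.1 i k) / (g.1 z m * g.1 l k) →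
      (g * p * g).1 z k ≠ 0 := fun z h1 h2 h3 => by
    rw [c3] at h3
    by_cases h4 : g.1 z m = 0
    · simp [h4, h1, hi] at h3
    · exact h2 (by field_simp; linear_combination h3)
  exact B _ (K.mul_mem (K.mul_mem hg c2) hg) k i l x hk (c4 i hi hβ.2.1) (c4 l hl hβ.2.2)
    (by simp [c3, c1 x hx.1 hx.2.1, hxm, hl, hβ.1]) hil (Ne.symm hx.1) (Ne.symm hx.2.1)

theorem col_pure {g : GL (Fin n) F} (hg : g ∈ H) {a : Fin n} (h1 : ∀ j, j ≠ a → g.1 a j = 0) :
    ∀ x, x ≠ a → g.1 x a = 0 := by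
  have W := @h.wt _ _ _ _ _ (· ≠ a) (fun l _ hl => ⟨a, fun e => hl a e rfl, fun _ => id⟩)
    (fun g hg i k => h.supp hg) fun g hg k hk e => (e a (by
      simpa using mem_VJ_ne.1 (mulVec_mem_of_stab hg.2 (x := Pi.single k 1) (by
        simp [mem_VJ_ne, hk.symm])))).elim
  have hK : g ∈ H ⊓ subspaceStabilizer (VJ F (· ≠ a)) :=
    ⟨hg, mem_subspaceStabilizer_of_le fun x hx => mem_VJ_ne.2 (by
      rw [mulVec, dotProduct, Finset.sum_eq_zero fun j _ => by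
        by_cases hj : j = a <;> simp [hj, mem_VJ_ne.1 hx, h1]])⟩
  obtain ⟨m, hm⟩ := h.idx [a] (by simp)
  replace hm : m ≠ a := by simpa using hm
  obtain ⟨r, hr⟩ := Function.ne_iff.1 (mulVec_ne_zero g (x := Pi.single m 1) (by simp))
  replace hr : g.1 r m ≠ 0 := by simpa using hr
  have hra : r ≠ a := by rintro rfl; exact hr (h1 m hm)
  have S := fun j (hj : j ≠ a) (e : g.1 r j ≠ 0) (e' : (g⁻¹).1 j r = 0) =>
    e (h.supp hK hra hj e')
  have S' := fun j (hj : j ≠ a) (e : g.1 r j ≠ 0) =>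
    W (Subgroup.inv_mem _ hK) hra (S j hj e) (S m hm hr)
  refine h.col hg hra.symm hm.symm h1 fun η z _ hz => funext fun y => ?_
  simp only [Pi.mul_apply, mulVec, dotProduct, Finset.mul_sum]
  refine Finset.sum_congr rfl fun j _ => ?_
  by_cases hj : j = a
  · simp [hj, hz]
  by_cases e : g.1 y j = 0
  · simp [e]
  have : y ≠ a := by rintro rfl; exact e (h1 j hj)
  have : y = r ↔ j = m := ⟨by rintro rfl; exact S' j hj e, by rintro rfl; exact W hK hm e hr⟩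
  simp [dg, *, mul_left_comm]

theorem const {g : GL (Fin n) F} (hg : g ∈ H) {k i j : Fin n} (hi : (g⁻¹).1 k i ≠ 0)
    (hj : (g⁻¹).1 k j ≠ 0) : (g⁻¹).1 k i * g.1 i k = (g⁻¹).1 k j * g.1 j k := by
  by_cases hij : i = j
  · rw [hij]
  set ψ := (g⁻¹).1 k
  obtain ⟨p, hp, τ, d, e, a1, a2⟩ : ∃ p ∈ H, ∃ τ d, p.1 = H29.mono τ d ∧ τ i = j ∧
      ∀ x, ψ (τ x) * d x = ψ x := by
    by_cases h0 : ∀ x, ψ x ≠ 0
    · obtain ⟨m, hm⟩ := h.idx [i, j] (by simp)
      simp only [List.mem_cons, List.not_mem_nil, or_false, not_or] at hm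
      obtain ⟨p, hp, e⟩ := h.mono (Equiv.swap i m * Equiv.swap i j)
        (fun x => ψ x / ψ ((Equiv.swap i m * Equiv.swap i j) x)) (by
          rw [Finset.prod_div_distrib, Equiv.prod_comp _ ψ,
            div_self (Finset.prod_ne_zero_iff.2 fun x _ => h0 x)]
          simp [hij, Ne.symm hm.1])
      exact ⟨p, hp, _, _, e, by simp [Equiv.swap_apply_of_ne_of_ne (Ne.symm hij) (Ne.symm hm.2)],
        fun x => mul_div_cancel₀ _ (h0 _)⟩
    push Not at h0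
    obtain ⟨m, hm⟩ := h0
    have b1 : m ≠ i := by rintro rfl; exact hi hm
    have b2 : m ≠ j := by rintro rfl; exact hj hm
    obtain ⟨p, hp, y, e⟩ := mono_free h.mono (Equiv.swap i j)
      (c := fun x => if x = i then ψ i / ψ j else if x = j then ψ j / ψ i else 1)
      (fun x => by split_ifs <;> simp [hi, hj]) m
    refine ⟨p, hp, _, _, e, by simp, fun x => ?_⟩
    simp only [update_apply, Equiv.swap_apply_def]
    split_ifs <;> simp_all <;> field_simp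
  have b1 : (g⁻¹ * p * g).1 k = Pi.single k 1 := by
    have : ψ ᵥ* p.1 = ψ := by ext x; simp [e, vecMul, dotProduct, H29.mono, a2]
    have h2 : (g⁻¹ * p * g).1 k = (ψ ᵥ* p.1) ᵥ* g.1 := rfl
    rw [h2, this]
    ext x
    exact (congrFun₂ g.inv_mul k x).trans (by simp [one_apply, Pi.single_apply, eq_comm])
  have b2 := h.col_pure (H.mul_mem (H.mul_mem (H.inv_mem hg) hp) hg) (a := k)
    fun j hj => by simp [-Units.val_mul, b1, hj]
  have b3 : (g⁻¹ * p * g).1 *ᵥ Pi.single k 1 = Pi.single k 1 := by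
    ext x
    rw [mulVec_single_one, col_apply]
    by_cases hx : x = k
    · rw [hx, b1]
    · rw [b2 x hx, Pi.single_eq_of_ne hx]
  have b4 := congrFun (congrArg (g.1 *ᵥ ·) b3) j
  simp only [Units.val_mul, ← mulVec_mulVec, mulVec_inv_mulVec, e, mono_mulVec] at b4
  rw [← a2 i, a1, mul_assoc]
  simpa [τ.symm_apply_eq.2 a1.symm, hj] using b4

theorem all (hZ : Zs n (1 : F)) {g : GL (Fin n) F} (hg : g ∈ H) {k i l : Fin n}
    (hi : g.1 i k ≠ 0) (hl : g.1 l k ≠ 0) : i = l := by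
  have A : ∀ g ∈ H, ∀ i k, g.1 i k = 0 → (g⁻¹).1 k i = 0 := fun g hg i k e => by
    by_contra h1
    have := congrFun₂ g.inv_mul k k
    rw [mul_apply, Finset.sum_eq_zero fun j _ => by
      by_cases hj : (g⁻¹).1 k j = 0
      · rw [hj, zero_mul]
      · rw [h.const hg hj h1, e, mul_zero]] at this
    simp at this
  refine h.wt (J := fun _ => True) (fun l hl _ => (h.idx l hl).imp fun _ h => ⟨h, fun _ _ => trivial⟩)
    (fun g hg i k _ _ => A _ (H.inv_mem hg.1) k i) (fun g hg k _ e => ?_)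
    ⟨hg, mem_subspaceStabilizer_of_le fun _ _ _ h => (h trivial).elim⟩ trivial hi hl
  obtain ⟨d, -, a1, a2, a3⟩ := hZ
  have b1 := fun i (e' : (g⁻¹).1 k i = 0) => e i (A _ (H.inv_mem hg.1) k i e')
  simp only [fun i => h.const hg.1 (b1 i) (b1 k), ← Finset.mul_sum]
  exact ⟨d, a1, by simp [a2], mul_ne_zero (mul_ne_zero (b1 k) (e k)) a3⟩

end MH

theorem mono_dich (hq : 5 ≤ Fintype.card F) (hn : 5 ≤ n) (hZ : Zs n (1 : F))
    (h : ∀ (τ : Equiv.Perm (Fin n)) (d : Fin n → F), (Equiv.Perm.sign τ : ℤ) * ∏ i, d i = 1 →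
      ∃ g ∈ H, g.1 = mono τ d) :
    specialLinear (Fin n) F ≤ H ∨ ∀ g ∈ H, ∀ k i l, g.1 i k ≠ 0 → g.1 l k ≠ 0 → i = l := by
  by_cases h1 : ∀ i j (c : F), i ≠ j →
      TJ H (fun _ => True) (Pi.single i c) (Pi.single j 1) → c = 0
  · exact .inr fun g hg k i l => (MH.mk hq hn h h1).all hZ hg
  push Not at h1
  obtain ⟨i, j, c, hij, ⟨t, ht, e⟩, hc⟩ := h1
  haveI : Nontrivial (Fin n) := Fin.nontrivial_iff_two_le.2 (by omega)
  refine .inl (sl_le_of_tv H fun k l hkl b => ?_)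
  by_cases hb : b = 0
  · simpa [hb] using hasTv_zero _ _
  obtain ⟨a, a1, a2⟩ := ex_idx2 (ι := Fin n) (by simp; omega) i j
  obtain ⟨a', a3, a4⟩ := ex_idx2 (ι := Fin n) (by simp; omega) k l
  obtain ⟨τ, t0, t1, -⟩ := ex_perm3 hij a1 a2 hkl a3 a4
  obtain ⟨p, hp, y, e'⟩ := mono_free h τ (c := update 1 i (b / c)) (fun j => by
    simp only [update_apply]; split_ifs <;> simp [hb, hc]) a
  refine ⟨_, ⟨p * t * p⁻¹, H.mul_mem (H.mul_mem hp ht) (H.inv_mem hp), rfl⟩, fun x => ?_⟩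
  rw [← mulVec_inv_mulVec p x]
  generalize (p⁻¹).1 *ᵥ x = z
  change (p * t * p⁻¹).1 *ᵥ _ = _
  rw [Units.val_mul, Units.val_mul, ← mulVec_mulVec, ← mulVec_mulVec, inv_mulVec_mulVec,
    e z fun _ h => (h trivial).elim, mulVec_add, mulVec_smul, e']
  congr 1
  ext w
  simp only [mono_mulVec]
  by_cases hw : w = k
  · simp [τ.symm_apply_eq.2 t1.symm, τ.symm_apply_eq.2 t0.symm, hw, a1.symm, a2.symm, hij.symm]
    field_simp
  · simp [hw, Pi.single_eq_of_ne (show τ.symm w ≠ i from fun e => hw (by rw [← t0, ← e]; simp))]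

end H29
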