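import Cfsg.Agent.H29.Cv5

/-! Tools for non-maximality: `between`, `between_set` (stabiliser of a set of vectors),
explicit root elements (`QInv.exists_eich`, `HF.exists_tv`), frames (`QInv.ls_between`,
`kr_between`). -/

set_option autoImplicit false
set_option linter.unusedSectionVars false

namespace H29

open Matrix Cfsg.Geo Module H11 H11.PForm
open scoped Kronecker commutatorElement

variable {F : Type*} [Field F] [Fintype F] {ι κ μ : Type} [Fintype ι] [DecidableEq ι]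
  [Fintype κ] [DecidableEq κ] [Fintype μ] [DecidableEq μ]
  {H : Subgroup (GL ι F)} {G : Matrix ι ι F} {Q : (ι → F) → F} {t k m : ℕ}
  {W : Submodule F (ι → F)} {σ : F →+* F} {ε : F}

local notation "ρ" => RingHom.id _

theorem between {G : Type*} [Group G] {Ω M X : Subgroup G} (h1 : M ⊓ Ω ≤ X) (h2 : ¬ Ω ≤ X)
    (h3 : ¬ X ⊓ Ω ≤ M) : ∃ K, M ⊓ Ω < K ∧ K < Ω :=
  ⟨X ⊓ Ω, lt_of_le_not_ge (le_inf h1 inf_le_right) fun h => h3 (h.trans inf_le_left),
    lt_of_le_not_ge inf_le_right fun h => h2 (h.trans inf_le_left)⟩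

theorem between_pred {G : Type*} [Group G] [Finite G] {Ω M : Subgroup G} (p : G → Prop) (h0 : p 1)
    (hm : ∀ a b, p a → p b → p (a * b)) (h1 : ∀ g ∈ M, g ∈ Ω → p g) (h2 : ∃ g ∈ Ω, ¬ p g)
    (h3 : ∃ g ∈ Ω, p g ∧ g ∉ M) : ∃ K, M ⊓ Ω < K ∧ K < Ω := by
  let S : Submonoid G := ⟨⟨{g | p g}, fun a b => hm _ _ a b⟩, h0⟩
  have hS : ∀ {g}, g ∈ S → g⁻¹ ∈ S := fun hg =>
    (Submonoid.powers_le.2 hg) (mem_powers_iff_mem_zpowers.2 (by simp))
  let X : Subgroup G := ⟨S, hS⟩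
  obtain ⟨a, ha, ha'⟩ := h2
  obtain ⟨b, hb, hb', hb''⟩ := h3
  exact between (X := X) (fun g hg => h1 g hg.1 hg.2) (fun h => ha' (h ha))
    fun h => hb'' (h ⟨hb', hb⟩)

/-- the stabiliser of a set of vectors -/
def setStab (L : Set (ι → F)) : Subgroup (GL ι F) where
  carrier := {g | ∀ x ∈ L, (g : Matrix ι ι F) *ᵥ x ∈ L}
  mul_mem' ha hb x hx := by rw [Units.val_mul, ← mulVec_mulVec]; exact ha _ (hb x hx)
  one_mem' x hx := by simpa
  inv_mem' {g} hg x hx := by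
    obtain ⟨n, hn⟩ : g⁻¹ ∈ Submonoid.powers g := mem_powers_iff_mem_zpowers.2 (by simp)
    rw [← show g ^ n = g⁻¹ from hn]
    clear hn
    induction n with
    | zero => simpa
    | succ n ih => rw [pow_succ', Units.val_mul, ← mulVec_mulVec]; exact hg _ ih

theorem mem_setStab {L : Set (ι → F)} {g : GL ι F} :
    g ∈ setStab L ↔ ∀ x ∈ L, (g : Matrix ι ι F) *ᵥ x ∈ L := Iff.rfl

theorem HF.exists_sep (h : HF σ ε G) {w : ι → F} (hw : w ∉ W) :
    ∃ v, (∀ a ∈ W, fm σ G v a = 0) ∧ fm σ G v w ≠ 0 := by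
  rw [← h.pp_pp W, mem_pp] at hw
  push Not at hw
  obtain ⟨v, h1, h2⟩ := hw
  exact ⟨v, h1, fun e => h2 (h.eq_zero_comm e)⟩

theorem HF.exists_sep1 (h : HF σ ε G) {u w : ι → F} (hw : w ∉ F ∙ u) :
    ∃ v, fm σ G v u = 0 ∧ fm σ G v w ≠ 0 :=
  let ⟨v, h1, h2⟩ := h.exists_sep hw; ⟨v, h1 u (Submodule.mem_span_singleton_self u), h2⟩

theorem HF.exists_sep2 (h : HF σ ε G) {u u' w : ι → F} (hw : w ∉ Submodule.span F {u, u'}) :
    ∃ v, fm σ G v u = 0 ∧ fm σ G v u' = 0 ∧ fm σ G v w ≠ 0 :=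
  let ⟨v, h1, h2⟩ := h.exists_sep hw
  ⟨v, h1 u (Submodule.subset_span (by simp)), h1 u' (Submodule.subset_span (by simp)), h2⟩

theorem fm_neg_left (x y : ι → F) : fm σ G (-x) y = -fm σ G x y := by
  rw [← neg_one_smul F, fm_smul_left, neg_one_mul]

theorem HF.exists_tv (h : HF σ ε G) {z : ι → F} (hz : fm σ G z z = 0) {a : F}
    (ha : σ a + a * ε = 0) : ∃ g ∈ Iso σ G ⊓ specialLinear ι F,
      ∀ x, (g : Matrix ι ι F) *ᵥ x = x + (a * fm σ G x z) • z := by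
  let φ : Dual F (ι → F) :=
    { toFun := fun x => a * fm σ G x z
      map_add' := fun x y => by rw [fm_add_left, mul_add]
      map_smul' := fun c x => by rw [fm_smul_left, mul_left_comm]; rfl }
  obtain ⟨g, h1, h2⟩ := exists_tv_SL φ z (by simp [φ, hz])
  refine ⟨g, ⟨fun x y => ?_, h1⟩, h2⟩
  rw [h2, h2]
  simp only [φ, LinearMap.coe_mk, AddHom.coe_mk, fm_add_left, fm_add_right, fm_smul_left,
    fm_smul_right, hz, map_mul, h.swap z y]
  linear_combination fm σ G x z * σ (fm σ G y z) * ha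

theorem mdec_disj {D : Fin t → Submodule F (ι → F)} (hD : IsMDecomposition m D) {i j : Fin t}
    {x : ι → F} (h0 : x ≠ 0) (hi : x ∈ D i) (hj : x ∈ D j) : i = j := by_contra fun e =>
  h0 (Submodule.disjoint_def.1 (hD.indep.pairwiseDisjoint e) x hi hj)

theorem not_decStab {D : Fin t → Submodule F (ι → F)} (hD : IsMDecomposition m D) {g : GL ι F}
    {i : Fin t} {x y : ι → F} (hx : x ∈ D i) (h0 : x ≠ 0) (h1 : (g : Matrix ι ι F) *ᵥ x ∈ D i)
    (hy : y ∈ D i) (h2 : (g : Matrix ι ι F) *ᵥ y ∉ D i) : g ∉ decompositionStabilizer D :=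
  fun hg => by
    obtain ⟨τ, hτ⟩ := of_mem_decStab hg
    exact h2 (mdec_disj hD (mulVec_ne_zero g h0) (hτ i x hx) h1 ▸ hτ i y hy)

theorem exists_mem_perp (W : Submodule F (ι → F)) (x : ι → F) (hW : 2 ≤ finrank F W) :
    ∃ w ∈ W, w ≠ 0 ∧ fm σ G w x = 0 := by
  let φ : Dual F (ι → F) :=
    { toFun := fun y => fm σ G y x
      map_add' := fun a b => fm_add_left _ _ _
      map_smul' := fun c a => fm_smul_left _ _ _ }
  obtain ⟨y, h1, h2, h3⟩ := exists_mem_ker_notMem [φ] W ⊥ (by simpa)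
  exact ⟨y, h1, by simpa using h2, h3 φ (by simp)⟩

theorem add_not_mem {D : Fin t → Submodule F (ι → F)}
    (hD : IsNondegenerateMDecomposition (fm σ G) k D) {i : Fin t} {x y : ι → F} (hx : x ∈ D i)
    (h0 : x ≠ 0) (hy : y ∈ pp σ G (D i)) (h1 : y ≠ 0) (j : Fin t) : x + y ∉ D j := fun h => by
  have h2 := (Submodule.eq_bot_iff _).1 (inf_pp (hD.nondegenerate i))
  obtain rfl | e := eq_or_ne j i
  · exact h1 (h2 y ⟨by simpa using (D j).sub_mem h hx, hy⟩)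
  · exact h0 (h2 x ⟨hx, by
      simpa using (pp σ G (D i)).sub_mem (fun w hw => hD.orthogonal j i e _ h w hw) hy⟩)

theorem mdec_three {D : Fin t → Submodule F (ι → F)} (hD : IsMDecomposition m D)
    (h : 2 * m < Fintype.card ι) : 3 ≤ t := by
  have := mdec_card hD; have := hD.two_le
  by_contra h1
  obtain rfl : t = 2 := by omega
  omega

namespace QInv

variable (h : QInv G H Q)
include h

theorem omega_eq (hn : 7 ≤ Fintype.card ι) : omegaGL Q = EGL h.S :=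
  omegaGL_eq _ h.nondeg hn

theorem exists_eich (hn : 7 ≤ Fintype.card ι) {u v : ι → F} (hu : Q u = 0)
    (huv : fm ρ G u v = 0) : ∃ g ∈ omegaGL Q, ∀ x, (g : Matrix ι ι F) *ᵥ x =
      x + fm ρ G u x • v - (fm ρ G v x + Q v * fm ρ G u x) • u := by
  have h1 : h.S.ECond u v (Q v) := ⟨(orth_sing _ u).2 hu, (h.S_h u v).trans huv, by
    change Q v - Q v ∈ (⊥ : AddSubgroup F); simp⟩
  refine ⟨toGL h.S (h.S.eich u v (Q v)), h.omega_eq hn ▸ ⟨_, eich_mem_E _ _ _ _, rfl⟩,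
    fun x => ?_⟩
  rw [toGL_mulVec, eich_apply h1, h.S_h, h.S_h]
  simp [orthP]

theorem exists_vec (hn : 7 ≤ Fintype.card ι) {x y : ι → F} (hx : x ≠ 0) (hy : y ≠ 0)
    (e : Q y = Q x) : ∃ g ∈ omegaGL Q, (g : Matrix ι ι F) *ᵥ x = y := by
  obtain ⟨g, h1, h2⟩ := exists_E_vec h.nondeg (iso3_orth _) (by simp; omega) hx hy (by
    change Q y - Q x ∈ (⊥ : AddSubgroup F); simp [e])
  exact ⟨toGL h.S g, h.omega_eq hn ▸ ⟨_, h1, rfl⟩, by rw [toGL_mulVec, h2]⟩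

theorem exists_sing (hW : 3 ≤ finrank F W) : ∃ x ∈ W, x ≠ 0 ∧ Q x = 0 :=
  let ⟨x, h1, h2, h3⟩ := iso3_orth h.S W hW; ⟨x, h1, h2, (orth_sing _ x).1 h3⟩

theorem exists_swap (h2 : (2 : F) ≠ 0) {x y : ι → F} (h0 : Q x ≠ 0) (e : Q y = Q x)
    (hxy : fm ρ G x y = 0) : ∃ s ∈ Cfsg.isometryGroup F Q, (s : Matrix ι ι F) *ᵥ x = y ∧
      (s : Matrix ι ι F) *ᵥ y = x ∧
      ∀ w, fm ρ G x w = 0 → fm ρ G y w = 0 → (s : Matrix ι ι F) *ᵥ w = w := by
  have h1 : Q (x - y) = 2 * Q x := by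
    have := h.lin2 1 (-1) x y
    rw [one_smul, neg_one_smul, ← sub_eq_add_neg, e, hxy] at this
    linear_combination this
  have h3 : h.S.QCond (x - y) (2 * Q x) := ⟨mul_ne_zero h2 h0, by
    change _ - Q _ ∈ (⊥ : AddSubgroup F); simp [h1]⟩
  refine ⟨toGL h.S (h.S.qrefl (x - y) (2 * Q x)), fun u _ => ?_, ?_, ?_, fun w a b => ?_⟩
  · have := (isometryGroup_eq (quadOf h.1)).ge ⟨h.S.qrefl (x - y) (2 * Q x), rfl⟩
    exact this u u
  all_goals rw [toGL_mulVec, qrefl_apply h3, h.S_h, fm_sub_left]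
  · rw [h.self, h.symm y, hxy, sub_zero, inv_mul_cancel₀ h3.ne]; simp
  · rw [h.self, hxy, e, zero_sub, mul_neg, inv_mul_cancel₀ h3.ne]; simp
  · simp [a, b]

theorem frame_isom {A B : Submodule F (ι → F)} (e : AreIsometricFor Q A B) {a : F}
    (hB : ∀ x ∈ B, ∀ y ∈ B, Q x = a → Q y = a → y ∈ F ∙ x ∨ fm ρ G y x = 0) :
    ∀ x ∈ A, ∀ y ∈ A, Q x = a → Q y = a → y ∈ F ∙ x ∨ fm ρ G y x = 0 := fun x hx y hy h1 h2 => by
  obtain ⟨e, he⟩ := e
  refine (hB _ (e ⟨x, hx⟩).2 _ (e ⟨y, hy⟩).2 ((he _).trans h1) ((he _).trans h2)).imp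
    (fun h3 => ?_) fun h3 => ?_
  · obtain ⟨c, hc⟩ := Submodule.mem_span_singleton.1 h3
    refine Submodule.mem_span_singleton.2 ⟨c, congrArg Subtype.val (e.injective (a₁ := c • ⟨x, hx⟩)
      (a₂ := ⟨y, hy⟩) (Subtype.ext (by rw [map_smul]; exact hc)))⟩
  · have := he (⟨y, hy⟩ + ⟨x, hx⟩)
    rw [map_add, Submodule.coe_add, Submodule.coe_add, h.add, h.add, he, he, h3] at this
    exact (add_left_cancel this).symm

theorem frame3 (hF : Fintype.card F = 3) (hW : IsNondegenerateOn (fm ρ G) W)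
    (hk : finrank F W = 3) : ∃ v ∈ W, Q v ≠ 0 ∧
      ∀ x ∈ W, ∀ y ∈ W, Q x = Q v → Q y = Q v → y ∈ F ∙ x ∨ fm ρ G y x = 0 := by
  obtain ⟨B, h1, h2⟩ := exists_gram_sub h.hf hk hW
  obtain ⟨⟨v, hv⟩, h3⟩ := frame33 hF h2
  rw [← fm_mulVec] at hv
  refine ⟨_, (h1 _).2 ⟨v, rfl⟩, fun e => h2.det_ne (by rw [← hv, h.self, e, mul_zero]),
    fun x hx y hy a b => ?_⟩
  obtain ⟨x, rfl⟩ := (h1 x).1 hx
  obtain ⟨y, rfl⟩ := (h1 y).1 hy
  refine (h3 x y (by rw [← fm_mulVec, ← hv, h.self, h.self, a])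
    (by rw [← fm_mulVec, ← hv, h.self, h.self, b])).imp (fun h4 => ?_) fun h4 => ?_
  · obtain ⟨c, rfl⟩ := Submodule.mem_span_singleton.1 h4
    rw [mulVec_smul]
    exact Submodule.smul_mem _ _ (Submodule.mem_span_singleton_self _)
  · rwa [h.symm, fm_mulVec]

end QInv

variable {D : Fin t → Submodule F (ι → F)}

theorem exists_isom_vec {A B : Submodule F (ι → F)} (e : AreIsometricFor Q A B) {x : ι → F}
    (hx : x ∈ A) : ∃ y ∈ B, Q y = Q x := let ⟨e, he⟩ := e; ⟨_, (e ⟨x, hx⟩).2, he _⟩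

theorem QInv.ls_between (h : QInv G (Cfsg.isometryGroup F Q) Q) (hn : 7 ≤ Fintype.card ι)
    (hD : IsNondegenerateMDecomposition (fm ρ G) k D) {i : Fin t} {v : ι → F} (hv : v ∈ D i)
    (h0 : v ≠ 0) (h3 : ¬ setStab (LS Q D (Q v)) ⊓ omegaGL Q ≤ decompositionStabilizer D) :
    ∃ K, decompositionStabilizer D ⊓ omegaGL Q < K ∧ K < omegaGL Q := by
  refine between ((h.mono (inf_le_right.trans omegaGL_le)).ls inf_le_left _) (fun h1 => ?_) h3
  obtain ⟨y, h4, h5, h6⟩ := h.exists_sing (W := pp ρ G (D i)) (by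
    have := h.hf.finrank_pp (D i)
    have := mdec_card hD.decomp
    have := hD.decomp.finrank_eq i
    nlinarith [hD.decomp.two_le])
  obtain ⟨g, h7, h8⟩ := h.exists_vec hn h0 (y := v + y)
    (fun e => add_not_mem hD hv h0 h4 h5 i (e ▸ zero_mem _))
    (by simp [h.add, h6, h.symm v y, h4 v hv])
  obtain ⟨⟨j, hj⟩, -⟩ := h1 h7 v ⟨⟨i, hv⟩, rfl⟩
  exact add_not_mem hD hv h0 h4 h5 j (h8 ▸ hj)

theorem comm_mem_omega {s r : GL ι F} (h1 : s ∈ Cfsg.isometryGroup F Q)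
    (h2 : r ∈ Cfsg.isometryGroup F Q) : s * r * s⁻¹ * r⁻¹ ∈ omegaGL Q :=
  ⟨⁅(⟨s, h1⟩ : Cfsg.isometryGroup F Q), ⟨r, h2⟩⁆,
    Subgroup.commutator_mem_commutator trivial trivial, rfl⟩

theorem QInv.frame_between (h : QInv G (Cfsg.isometryGroup F Q) Q) (hn : 7 ≤ Fintype.card ι)
    (h2 : (2 : F) ≠ 0) (hD : IsOrthogonalMDecomposition Q k D) (hk : 2 ≤ k)
    (ht : 2 * k < Fintype.card ι) {i : Fin t} {x : ι → F} (hx : x ∈ D i) (h0 : Q x ≠ 0)
    (h3 : ∀ y ∈ D i, ∀ z ∈ D i, Q y = Q x → Q z = Q x → z ∈ F ∙ y ∨ fm ρ G z y = 0) :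
    ∃ K, decompositionStabilizer D ⊓ omegaGL Q < K ∧ K < omegaGL Q := by
  have h4 := h.ndec hD
  have hx0 : x ≠ 0 := by rintro rfl; exact h0 h.zero
  refine h.ls_between hn h4 hx hx0 fun h1 => ?_
  have h5 := ls_cases h4 (p := fun y z => z ∈ F ∙ y ∨ fm ρ G z y = 0)
    (fun j => h.frame_isom (hD.isometric j i) h3) fun _ _ e => .inr (h.hf.eq_zero_comm e)
  have key : ∀ y j, y ∈ D j → Q y = Q x → j ≠ i → ∃ s ∈ Cfsg.isometryGroup F Q,
      s ∈ setStab (LS Q D (Q x)) ∧ (s : Matrix ι ι F) *ᵥ x = y ∧ (s : Matrix ι ι F) *ᵥ y = x ∧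
      ∀ w, fm ρ G x w = 0 → fm ρ G y w = 0 → (s : Matrix ι ι F) *ᵥ w = w := fun y j hy e hj => by
    obtain ⟨s, a1, a2, a3, a4⟩ := h.exists_swap h2 h0 e (h4.orthogonal i j hj.symm x hx y hy)
    refine ⟨s, a1, fun w hw => ⟨?_, (h.2.2 s a1 w).trans hw.2⟩, a2, a3, a4⟩
    rcases h5 x ⟨⟨i, hx⟩, rfl⟩ w hw with b | b
    · obtain ⟨c, rfl⟩ := Submodule.mem_span_singleton.1 b
      exact ⟨j, by rw [mulVec_smul, a2]; exact Submodule.smul_mem _ _ hy⟩
    rcases h5 y ⟨⟨j, hy⟩, e⟩ w hw with b' | b'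
    · obtain ⟨c, rfl⟩ := Submodule.mem_span_singleton.1 b'
      exact ⟨i, by rw [mulVec_smul, a3]; exact Submodule.smul_mem _ _ hx⟩
    · rw [a4 w (h.hf.eq_zero_comm b) (h.hf.eq_zero_comm b')]
      exact hw.1
  obtain ⟨j, l, hj, hl, hjl⟩ : ∃ j l : Fin t, j ≠ i ∧ l ≠ i ∧ j ≠ l := by
    obtain ⟨a, b, c, d⟩ := Finset.one_lt_card.1 (show 1 < (Finset.univ.erase i).card by
      have := mdec_three h4.decomp ht; simp; omega)
    obtain ⟨e, f⟩ := d
    exact ⟨a, c, by simpa using b, by simpa using e, f⟩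
  obtain ⟨y, hy, ey⟩ := exists_isom_vec (hD.isometric i j) hx
  obtain ⟨z, hz, ez⟩ := exists_isom_vec (hD.isometric i l) hx
  obtain ⟨s, a1, a2, a3, a4, a5⟩ := key y j hy ey hj
  obtain ⟨r, b1, b2, b3, b4, b5⟩ := key z l hz ez hl
  obtain ⟨w, c1, c2, c3⟩ := exists_mem_perp (σ := ρ) (G := G) (D i) x
    (by rwa [h4.decomp.finrank_eq])
  have c4 := a5 w (h.hf.eq_zero_comm c3) (h4.orthogonal j i hj y hy w c1)
  have c5 := b5 w (h.hf.eq_zero_comm c3) (h4.orthogonal l i hl z hz w c1)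
  have c6 := a5 z (h4.orthogonal i l hl.symm x hx z hz) (h4.orthogonal j l hjl y hy z hz)
  have inv : ∀ {g : GL ι F} {a b : ι → F}, (g : Matrix ι ι F) *ᵥ a = b →
      ((g⁻¹ : GL ι F) : Matrix ι ι F) *ᵥ b = a := fun e => by rw [← e, inv_mulVec_mulVec]
  refine not_decStab h4.decomp c1 c2 ?_ hx ?_ (h1 (Subgroup.mem_inf.2 ⟨mul_mem (mul_mem
    (mul_mem a2 b2) (inv_mem a2)) (inv_mem b2), comm_mem_omega a1 b1⟩))
  all_goals simp only [Units.val_mul, ← mulVec_mulVec]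
  · rwa [inv c5, inv c4, c5, c4]
  · rw [inv b4, inv c6, b4, a3]
    exact fun e => hj (mdec_disj h4.decomp (by rintro rfl; exact h0 (ey ▸ h.zero)) hy e)

theorem exists_three (ht : 3 ≤ t) : ∃ i j l : Fin t, i ≠ j ∧ i ≠ l ∧ j ≠ l :=
  ⟨⟨0, by omega⟩, ⟨1, by omega⟩, ⟨2, by omega⟩, by simp, by simp, by simp⟩

theorem QInv.even_between (h : QInv G (Cfsg.isometryGroup F Q) Q) (hn : 7 ≤ Fintype.card ι)
    (hF : Fintype.card F = 2 ∨ Fintype.card F = 4)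
    (hD : IsNondegenerateMDecomposition (fm ρ G) 2 D) (hp : ∀ i, IsPlusTypeOn Q (D i)) :
    ∃ K, decompositionStabilizer D ⊓ omegaGL Q < K ∧ K < omegaGL Q := by
  have h2 : (2 : F) = 0 := hF.elim (two_eq_of_card (k := 1)) (two_eq_of_card (k := 2))
  have h11 : (1 : F) + 1 = 0 := one_add_one_eq_two.trans h2
  let a : F → Prop := fun c => c = 0 ∨ Fintype.card F = 4 ∧ c = 1
  have ha : ∀ b c, a b → a c → a (b + c) := by
    rintro _ _ (rfl | ⟨e, rfl⟩) (rfl | ⟨e', rfl⟩) <;> simp [a, *]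
  have ha' : ∀ b, a b → a (-b) := fun b hb => by rwa [neg_eq_of_add_eq_zero_left (show b + b = 0 by
    rw [← two_mul, h2, zero_mul])]
  obtain ⟨c, hc⟩ : ∃ c, ¬ a c := by
    rcases hF with e | e
    · exact ⟨1, by simp [a, e]⟩
    · classical
      obtain ⟨c, -, hc⟩ := Finset.exists_mem_notMem_of_card_lt_card (s := ({0, 1} : Finset F))
        (t := Finset.univ) (by rw [Finset.card_univ, e]; exact Finset.card_le_two.trans_lt (by omega))
      exact ⟨c, by simpa [a, e] using hc⟩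
  have h6 := fun j => h.plane_plus (hD.nondegenerate j) (hD.decomp.finrank_eq j) (hp j)
  have h7 := ls_cases hD (p := fun x y => a (fm ρ G x y)) (fun j x hx y hy b b' => by
    obtain ⟨s, hs, h9, -⟩ := (h6 j).2 x hx y hy b b'
    rw [h9]
    rcases hF with e | e
    · exact .inl (by rw [eq_one_of_card_two e hs, inv_one, h11])
    have a1 := pow_card_sub (q := 3) e hs
    rw [← eq_inv_of_mul_eq_one_right (show s * s ^ 2 = 1 by linear_combination a1)]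
    exact (mul_eq_zero.1 (show (s + s ^ 2) * (s + s ^ 2 - 1) = 0 by
      linear_combination (s + 2) * a1 + h2)).imp_right fun a3 => ⟨e, sub_eq_zero.1 a3⟩)
    fun _ _ e => .inl e
  let L := AddSubgroup.closure (LS Q D 1)
  have h8 : ∀ x ∈ L, ∀ y ∈ LS Q D 1, a (fm ρ G x y) := fun x hx y hy =>
    AddSubgroup.closure_induction (fun x hx => h7 x hx y hy) (.inl (by simp))
      (fun _ _ _ _ b b' => fm_add_left (σ := ρ) (G := G) _ _ _ ▸ ha _ _ b b')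
      (fun _ _ b => fm_neg_left (σ := ρ) (G := G) _ _ ▸ ha' _ b) hx
  have h9 : ∀ c, a c → ∀ x ∈ L, c • x ∈ L := by
    rintro _ (rfl | ⟨-, rfl⟩) x hx <;> simp [hx]
  choose v hv hv1 using fun j => (h6 j).1
  have hv0 : ∀ j, v j ≠ 0 := fun j e => by simpa [e, h.zero] using hv1 j
  have hL : ∀ j, v j ∈ LS Q D 1 := fun j => ⟨⟨j, hv j⟩, hv1 j⟩
  obtain ⟨i, j, l, hij, hil, hjl⟩ := exists_three (mdec_three hD.decomp (by omega))
  have ho := fun a b e => hD.orthogonal a b e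
  have hu : Q (v i + v j) = 0 := by rw [h.add, hv1, hv1, ho i j hij _ (hv i) _ (hv j), h11, add_zero]
  have huL : v i + v j ∈ L := add_mem (AddSubgroup.subset_closure (hL i))
    (AddSubgroup.subset_closure (hL j))
  have hu1 : v i + v j ∉ D l := fun e => add_not_mem hD (hv i) (hv0 i)
    (fun w hw => ho j i hij.symm _ (hv j) w hw) (hv0 j) l e
  obtain ⟨e, he, he0, he1⟩ := sing_of_plusType (by rw [hD.decomp.finrank_eq]; omega) (hp l)
  have he2 : fm ρ G e (v l) ≠ 0 := fun b => by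
    obtain ⟨-, x, hx, b'⟩ := hD.nondegenerate l e he he0
    obtain ⟨α, β, rfl⟩ := plane_span (hD.decomp.finrank_eq l) he (hv l) he0 (fun b'' => by
      obtain ⟨γ, b''⟩ := Submodule.mem_span_singleton.1 b''
      simpa [← b'', h.smul, he1] using hv1 l) hx
    simp [fm_add_right, fm_smul_right, b, h.alt h2] at b'
  refine between (X := setStab L) (fun g hg x hx => AddSubgroup.closure_induction
    (fun x hx => AddSubgroup.subset_closure
      ((h.mono (inf_le_right.trans omegaGL_le)).ls inf_le_left _ g hg x hx)) (by simp)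
    (fun _ _ _ _ b b' => by rw [mulVec_add]; exact add_mem b b')
    (fun _ _ b => by rw [mulVec_neg]; exact neg_mem b) hx) (fun h1 => ?_) fun h1 => ?_
  · obtain ⟨g, b1, b2⟩ := h.exists_vec hn (x := v i + v j) (fun e => hu1 (e ▸ zero_mem _))
      (y := (c / fm ρ G e (v l)) • e) (smul_ne_zero (div_ne_zero (fun b => hc (.inl b)) he2) he0)
      (by simp [h.smul, he1, hu])
    have := h8 _ (h1 b1 _ huL) _ (hL l)
    rw [b2, fm_smul_left, div_mul_cancel₀ _ he2] at this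
    exact hc this
  · have b0 : ∀ x ∈ D l, fm ρ G (v i + v j) x = 0 := fun x hx => by
      rw [fm_add_left, ho i l hil _ (hv i) _ hx, ho j l hjl _ (hv j) _ hx, add_zero]
    obtain ⟨g, b1, b2⟩ := h.exists_eich hn hu (b0 _ (hv l))
    refine not_decStab hD.decomp (hv l) (hv0 l) (by simp [b2, b0 _ (hv l), h.alt h2, hv]) he ?_
      (h1 ⟨fun x hx => ?_, b1⟩)
    · rw [b2, b0 e he, h.symm]
      intro b3
      refine hu1 ((Submodule.smul_mem_iff _ he2).1 ?_)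
      simpa using (D l).sub_mem he b3
    · have b3 : a (fm ρ G (v i + v j) x) := by
        rw [fm_add_left, h.symm, h.symm (v j)]
        exact ha _ _ (h8 x hx _ (hL i)) (h8 x hx _ (hL j))
      rw [b2, hv1, one_mul]
      exact sub_mem (add_mem hx (h9 _ b3 _ (AddSubgroup.subset_closure (hL l))))
        (h9 _ (ha _ _ (h.symm x _ ▸ h8 x hx _ (hL l)) b3) _ huL)

theorem QInv.four_between (h : QInv G (Cfsg.isometryGroup F Q) Q) (hn : 7 ≤ Fintype.card ι)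
    (hF : Fintype.card F = 2) (hD : IsNondegenerateMDecomposition (fm ρ G) 4 D)
    (hp : ∀ i, IsPlusTypeOn Q (D i)) :
    ∃ K, decompositionStabilizer D ⊓ omegaGL Q < K ∧ K < omegaGL Q := by
  have h2 : (2 : F) = 0 := two_eq_of_card (k := 1) hF
  have h11 : (1 : F) + 1 = 0 := one_add_one_eq_two.trans h2
  have key : ∀ i, ∃ a ∈ D i, ∃ a' ∈ D i, Q a = 1 ∧ Q a' = 1 ∧ fm ρ G a a' = 1 ∧
      (∀ x ∈ D i, Q x = 1 → (∃ α β : F, α • a + β • a' = x) ∨
        fm ρ G a x = 0 ∧ fm ρ G a' x = 0) ∧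
      ∃ w ∈ D i, w ≠ 0 ∧ fm ρ G a w = 0 ∧ fm ρ G a' w = 0 := fun i => by
    obtain ⟨A, a1, a2, a3, a4, -, a5⟩ := h.two_planes hF (hD.nondegenerate i)
      (hD.decomp.finrank_eq i) (hp i)
    obtain ⟨a, ha, h0⟩ := Submodule.exists_mem_ne_zero_of_ne_bot (p := A) fun e => by
      rw [e, finrank_bot] at a3; omega
    obtain ⟨-, a', ha', h1⟩ := a2 a ha h0
    obtain ⟨w, hw, h3⟩ := Submodule.exists_mem_ne_zero_of_ne_bot (p := D i ⊓ pp ρ G A) fun e => by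
      have := (split_nd h.hf a2 (hD.nondegenerate i) a1).2.2.2
      rw [e, a3, hD.decomp.finrank_eq, finrank_bot] at this
      omega
    refine ⟨a, a1 ha, a', a1 ha', eq_one_of_card_two hF (mt (a4 a ha) h0), eq_one_of_card_two hF
      (mt (a4 a' ha') (by rintro rfl; simp at h1)), eq_one_of_card_two hF h1, fun x hx e =>
      (a5 x hx (by simp [e])).imp (plane_span a3 ha ha' h0 fun b => ?_) fun b =>
        ⟨h.symm x a ▸ b a ha, h.symm x a' ▸ b a' ha'⟩, w, hw.1, h3, h.symm w a ▸ hw.2 a ha,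
      h.symm w a' ▸ hw.2 a' ha'⟩
    obtain ⟨c, rfl⟩ := Submodule.mem_span_singleton.1 b
    simp [fm_smul_right, h.alt h2] at h1
  have := hD.decomp.two_le
  obtain ⟨i, j, hij⟩ : ∃ i j : Fin t, i ≠ j := ⟨⟨0, by omega⟩, ⟨1, by omega⟩, by simp⟩
  obtain ⟨a, ha, a', ha', a1, a2, a3, a4, w, hw, a5, a6, a7⟩ := key i
  obtain ⟨b, hb, b', hb', b1, b2, b3, b4, -⟩ := key j
  have o1 := hD.orthogonal i j hij
  have o2 := hD.orthogonal j i hij.symm
  have ha0 : a ≠ 0 := by rintro rfl; simp at a3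
  obtain ⟨g, c1, c2⟩ := h.exists_eich hn (u := a + b) (v := a' + b')
    (by rw [h.add, a1, b1, o1 a ha b hb, h11, add_zero])
    (by simp [fm_add_left, fm_add_right, a3, b3, o1 a ha b' hb', o2 b hb a' ha', h11])
  have c3 : Q (a' + b') = 0 := by rw [h.add, a2, b2, o1 a' ha' b' hb', h11, add_zero]
  have hneg : ∀ x : ι → F, x + x = 0 := fun x => by rw [← two_smul F, h2, zero_smul]
  simp only [c3, zero_mul, add_zero, fm_add_left] at c2
  have d1 : g.1 *ᵥ a = b := by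
    simp [c2, h.alt h2, o2 b hb a ha, o2 b' hb' a ha, h.symm a' a, a3,
      neg_eq_of_add_eq_zero_left (hneg b)]
  have d2 : g.1 *ᵥ a' = b' := by
    simp [c2, h.alt h2, o2 b hb a' ha', o2 b' hb' a' ha', a3, ← add_assoc, hneg]
  have d3 : g.1 *ᵥ b = a := by
    simp [c2, h.alt h2, o1 a ha b hb, o1 a' ha' b hb, h.symm b' b, b3,
      neg_eq_of_add_eq_zero_left (hneg a)]
  have d4 : g.1 *ᵥ b' = a' := by
    simp [c2, h.alt h2, o1 a ha b' hb', o1 a' ha' b' hb', b3, add_left_comm b', hneg]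
  refine h.ls_between hn hD ha ha0 fun h1 => not_decStab hD.decomp hw a5
    (by simp [c2, a6, a7, o2 b hb w hw, o2 b' hb' w hw, hw]) ha (d1 ▸ fun e => hij
      (mdec_disj hD.decomp (by rintro rfl; simp at b3) e hb)) (h1 ⟨?_, c1⟩)
  rintro x ⟨⟨l, hl⟩, hx⟩
  refine ⟨?_, (h.2.2 g (omegaGL_le c1) x).trans hx⟩
  obtain rfl | e := eq_or_ne i l
  · rcases a4 x hl (hx.trans a1) with ⟨α, β, rfl⟩ | ⟨e1, e2⟩
    · exact ⟨j, by simp [mulVec_add, mulVec_smul, d1, d2, add_mem, Submodule.smul_mem, hb, hb']⟩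
    · exact ⟨i, by simp [c2, e1, e2, o2 b hb x hl, o2 b' hb' x hl, hl]⟩
  obtain rfl | e' := eq_or_ne j l
  · rcases b4 x hl (hx.trans a1) with ⟨α, β, rfl⟩ | ⟨e1, e2⟩
    · exact ⟨i, by simp [mulVec_add, mulVec_smul, d3, d4, add_mem, Submodule.smul_mem, ha, ha']⟩
    · exact ⟨j, by simp [c2, e1, e2, o1 a ha x hl, o1 a' ha' x hl, hl]⟩
  · exact ⟨l, by simp [c2, hD.orthogonal i l e _ ha x hl, hD.orthogonal i l e _ ha' x hl,
      hD.orthogonal j l e' _ hb x hl, hD.orthogonal j l e' _ hb' x hl, hl]⟩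

/-- pure tensors -/
def pt (T : (κ × μ → F) ≃ₗ[F] (ι → F)) (w : κ → F) (u : μ → F) : ι → F :=
  T fun p => w p.1 * u p.2

variable {T : (κ × μ → F) ≃ₗ[F] (ι → F)} {G₁ : Matrix κ κ F} {G₂ : Matrix μ μ F} {ε₁ ε₂ : F}

theorem pt_add_left (w w' : κ → F) (u : μ → F) : pt T (w + w') u = pt T w u + pt T w' u := by
  rw [pt, pt, pt, ← map_add]; congr 1; ext; simp [add_mul]

theorem pt_add_right (w : κ → F) (u u' : μ → F) : pt T w (u + u') = pt T w u + pt T w u' := by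
  rw [pt, pt, pt, ← map_add]; congr 1; ext; simp [mul_add]

theorem pt_smul_left (c : F) (w : κ → F) (u : μ → F) : pt T (c • w) u = c • pt T w u := by
  rw [pt, pt, ← map_smul]; congr 1; ext; simp [mul_assoc]

theorem pt_smul_right (c : F) (w : κ → F) (u : μ → F) : pt T w (c • u) = c • pt T w u := by
  rw [pt, pt, ← map_smul]; congr 1; ext; simp [mul_left_comm]

theorem pt_kron (a : GL κ F) (b : GL μ F) (w : κ → F) (u : μ → F) :
    (ΦU T (kronU a b) : Matrix ι ι F) *ᵥ pt T w u = pt T (a.1 *ᵥ w) (b.1 *ᵥ u) := by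
  rw [pt, coe_ΦU, Φ_mulVec]; exact congrArg T (kron_mulVec _ _ _ _)

theorem mem_of_pt {w w' : κ → F} {u u' : μ → F} (h : pt T w u = pt T w' u') (h0 : w' ≠ 0) :
    u' ∈ F ∙ u := by
  obtain ⟨i, hi⟩ := Function.ne_iff.1 h0
  refine Submodule.mem_span_singleton.2 ⟨w i / w' i, funext fun j => ?_⟩
  have := congrFun (T.injective h) (i, j)
  simp only [Pi.zero_apply] at hi
  simp only [Pi.smul_apply, smul_eq_mul]
  field_simp
  exact this

theorem pt_ne_zero {w : κ → F} {u : μ → F} (h0 : w ≠ 0) (h1 : u ≠ 0) : pt T w u ≠ 0 := fun e =>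
  h1 (by simpa using mem_of_pt (T := T) (w := 0) (u := 0) (u' := u) (by
    rw [e, pt, map_eq_zero_iff _ T.injective]; ext; simp) h0)

theorem fm_pt (h : gT σ G T = G₁ ⊗ₖ G₂) (w w' : κ → F) (u u' : μ → F) :
    fm σ G (pt T w u) (pt T w' u') = fm σ G₁ w w' * fm σ G₂ u u' := by
  rw [pt, pt, ← fm_gT, h, fm_kron]

theorem not_kron {g : GL ι F} {w w' : κ → F} {u u' : μ → F} (h0 : w ≠ 0)
    (h1 : ∀ u, g.1 *ᵥ pt T w' u = pt T w' u) (h0' : w' ≠ 0) (h2 : g.1 *ᵥ pt T w u = pt T w u')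
    (h3 : u' ∉ F ∙ u) (a : GL κ F) (b : GL μ F) : g ≠ ΦU T (kronU a b) := by
  rintro rfl
  rw [pt_kron] at h2
  exact h3 ((Submodule.span_singleton_le_iff_mem _ _).2 (mem_of_pt ((h1 u).symm.trans
    (pt_kron _ _ _ _)) (mulVec_ne_zero a h0')) (mem_of_pt h2 h0))

theorem KrF.between {Ω M : Subgroup (GL ι F)} {Sg : (ι → F) → Prop} {d : ℕ} (hΩ : Big Ω Sg d)
    (hS : ∀ v, fm σ G v v = 0 → Sg v) (hs : Ω ≤ Iso σ G) (hk : KrF σ G M T G₁ G₂ ε₁ ε₂)
    (p : (κ → F) → Prop) (p1 : ∀ w, p w → fm σ G₁ w w ≠ 0)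
    (p2 : ∀ a ∈ Sim σ G₁, ∀ w, p w → p (a.1 *ᵥ w))
    (p3 : ∀ w w', p w → p w' → w' ∈ F ∙ w ∨ fm σ G₁ w w' = 0) {w w' : κ → F} (hw : p w)
    (hw' : p w') (hww : fm σ G₁ w w' = 0) {u u' : μ → F} (hu : fm σ G₂ u u = 0) (h0 : u ≠ 0)
    (hu' : u ∉ F ∙ u') {g : GL ι F} (hg : g ∈ Ω) {c : F} (hc : c ≠ 0)
    (g1 : g.1 *ᵥ pt T w u' = pt T w u' + c • pt T w u) (g2 : ∀ x, ∃ y, g.1 *ᵥ pt T w x = pt T w y)
    (g3 : ∀ v, fm σ G₁ w v = 0 → ∀ x, g.1 *ᵥ pt T v x = pt T v x) :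
    ∃ K, M ⊓ Ω < K ∧ K < Ω := by
  have n1 : ∀ w, p w → w ≠ 0 := fun w h e => p1 w h (by simp [e])
  haveI : Nonempty κ := by_contra fun e => n1 w hw (by ext i; exact (e ⟨i⟩).elim)
  haveI : Nonempty μ := by_contra fun e => h0 (by ext i; exact (e ⟨i⟩).elim)
  refine H29.between (X := setStab {x | ∃ v y, p v ∧ x = pt T v y}) (fun g hg => ?_)
    (fun h1 => ?_) fun h1 => ?_
  · obtain ⟨a, ha, b, -, rfl⟩ := Kr.sim (H := M ⊓ Ω) (fun g hg => hk.kr g hg.1)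
      (inf_le_right.trans (hs.trans Iso_le_Sim)) hk.gram hk.h1.ne_zero hk.h2.ne_zero g hg
    rintro _ ⟨v, y, hv, rfl⟩
    exact ⟨_, _, p2 a ha v hv, pt_kron _ _ _ _⟩
  · have h2 : ∀ v, fm σ G₁ v (w + w') = 0 → (∃ c : F, v = c • w ∨ v = c • w') → v = 0 := by
      rintro _ e ⟨c, rfl | rfl⟩
      · simp_all [fm_smul_left, fm_add_right]
      · simp_all [fm_smul_left, fm_add_right, hk.h1.eq_zero_comm hww]
    have h3 : w + w' ≠ 0 := fun e => n1 w hw (h2 w (by simp [e]) ⟨1, by simp⟩)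
    obtain ⟨g, b1, c, b2, b3⟩ := hΩ.trans (pt T w u) (pt T (w + w') u) (pt_ne_zero (n1 w hw) h0)
      (pt_ne_zero h3 h0) (hS _ (by rw [fm_pt hk.gram, hu, mul_zero]))
      (hS _ (by rw [fm_pt hk.gram, hu, mul_zero]))
    obtain ⟨v, y, hv, e⟩ := h1 b1 _ ⟨w, u, hw, rfl⟩
    obtain ⟨z, hz⟩ : ∃ z, fm σ G₂ z u ≠ 0 := by_contra fun e => h0 (hk.h2.right (by simpa using e))
    have h4 : ∀ v', fm σ G₁ v' v = 0 → fm σ G₁ v' (w + w') = 0 := fun v' e' => by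
      have := fm_pt hk.gram v' v z y
      rw [← e, b3, fm_smul_right, fm_pt hk.gram, e', zero_mul] at this
      simpa [b2, hz] using this
    rcases p3 w v hw hv with e' | e'
    · obtain ⟨c, rfl⟩ := Submodule.mem_span_singleton.1 e'
      exact n1 w' hw' (h2 _ (h4 _ (by simp [fm_smul_right, hk.h1.eq_zero_comm hww])) ⟨1, by simp⟩)
    · exact n1 w hw (h2 _ (h4 _ e') ⟨1, by simp⟩)
  · suffices h2 : g ∈ setStab {x | ∃ v y, p v ∧ x = pt T v y} by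
      obtain ⟨a, b, e⟩ := hk.kr g (h1 ⟨h2, hg⟩)
      refine not_kron (n1 w hw) (g3 w' hww) (n1 w' hw') (u := u') (u' := u' + c • u)
        (by rw [g1, pt_add_right, pt_smul_right]) (fun h2 => hu' ?_) a b e
      exact (Submodule.smul_mem_iff _ hc).1
        (by simpa using (F ∙ u').sub_mem h2 (Submodule.mem_span_singleton_self _))
    rintro _ ⟨v, y, hv, rfl⟩
    rcases p3 w v hw hv with e' | e'
    · obtain ⟨c, rfl⟩ := Submodule.mem_span_singleton.1 e'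
      obtain ⟨y', e⟩ := g2 y
      exact ⟨_, y', hv, by rw [pt_smul_left, pt_smul_left, mulVec_smul, e]⟩
    · exact ⟨v, y, hv, g3 v e' y⟩

theorem QInv.plane_between (h : QInv G (Cfsg.isometryGroup F Q) Q) (hn : 7 ≤ Fintype.card ι)
    (hF : Fintype.card F ≤ 3) (hW : IsNondegenerateOn (fm ρ G) W) (hk : finrank F W = 2)
    (hp : IsPlusTypeOn Q W) : ∃ K, subspaceStabilizer W ⊓ omegaGL Q < K ∧ K < omegaGL Q := by
  obtain ⟨v, hv, h1, h2⟩ := (h.mono (K := subspaceStabilizer W ⊓ omegaGL Q)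
    (inf_le_right.trans omegaGL_le)).point_of_plane hF hW hk hp inf_le_left
  have h0 : v ≠ 0 := by rintro rfl; simp [h.zero] at h1
  refine between h2 ((big_omega h.1 hn).not_stab (by simpa) (ne_top_of_lt (by
    rw [finrank_span_singleton h0]; omega))) fun h3 => ?_
  obtain ⟨u, u1, u2, u3⟩ := h.exists_sing (W := pp ρ G W) (by have := h.hf.finrank_pp W; omega)
  obtain ⟨w, w1, w2, -⟩ := exists_mem_ker_notMem [] W (F ∙ v) (by
    rw [finrank_span_singleton h0]; simp [hk])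
  have h4 := (Submodule.eq_bot_iff _).1 (inf_pp hW)
  obtain ⟨z, z1, z2, z3⟩ := h.hf.exists_sep2 (u := u) (u' := v) (w := w) fun e => by
    obtain ⟨a, b, rfl⟩ := Submodule.mem_span_pair.1 e
    rw [h4 (a • u) ⟨by simpa using W.sub_mem w1 (W.smul_mem b hv), Submodule.smul_mem _ _ u1⟩,
      zero_add] at w2
    exact w2 (Submodule.smul_mem _ _ (Submodule.mem_span_singleton_self v))
  obtain ⟨g, g1, g2⟩ := h.exists_eich hn u3 (h.symm z u ▸ z1)
  have h5 := mulVec_mem_of_stab (h3 ⟨mem_subspaceStabilizer_of_le (g := g) fun x hx => by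
    obtain ⟨c, rfl⟩ := Submodule.mem_span_singleton.1 hx
    simpa [g2, fm_smul_right, u1 v hv, z2] using hx, g1⟩) w1
  rw [g2, u1 w w1] at h5
  exact u2 (h4 u ⟨(W.smul_mem_iff z3).1 (by simpa using W.sub_mem w1 h5), u1⟩)

theorem frame33' (hF : Fintype.card F = 3) {G : Matrix (Fin 3) (Fin 3) F} (h : HF ρ 1 G) :
    ∃ w w', fm ρ G w w = G.det ∧ fm ρ G w' w' = G.det ∧ fm ρ G w w' = 0 ∧
      (∀ a ∈ Sim ρ G, ∀ w, fm ρ G w w = G.det → fm ρ G (a.1 *ᵥ w) (a.1 *ᵥ w) = G.det) ∧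
      ∀ w w', fm ρ G w w = G.det → fm ρ G w' w' = G.det → w' ∈ F ∙ w ∨ fm ρ G w w' = 0 := by
  have h3 : G.det ^ 3 = G.det := by simpa only [hF] using FiniteField.pow_card G.det
  obtain ⟨T, hT⟩ := symm_congr (two_ne_zero_of_odd (by rw [hF]; decide)) h
    ((hf_one h.σσ).smul h.det_ne (ε' := 1) (by simp)) rfl (by simp [h3])
  have h4 : ∀ x y, fm ρ G (T x) (T y) = G.det * ∑ i, x i * y i := fun x y => by
    rw [← fm_gT, hT, fm_smul_one]; rfl
  refine ⟨T (Pi.single 0 1), T (Pi.single 1 1), by simp [h4, Fin.sum_univ_three],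
    by simp [h4, Fin.sum_univ_three], by simp [h4, Fin.sum_univ_three], fun g hg w hw => ?_,
    (frame33 hF h).2⟩
  obtain ⟨c, hc, e⟩ := mem_Sim.1 hg
  have h2 := congrArg det e
  rw [fm_mulVec, e, fm_smul, hw]
  simp only [RingHom.coe_id, Matrix.map_id, det_mul, det_transpose, det_smul,
    Fintype.card_fin] at h2
  have h3 : c ^ 3 = c := by rw [← hF, FiniteField.pow_card]
  rw [← h3, ← h2, mul_right_comm, ← sq, pow_card_sub (q := 2) hF (det_ne_zero g), one_mul]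

theorem exists_perp_notMem (h : HF σ ε G) (hn : 3 ≤ Fintype.card ι) (u : ι → F) :
    ∃ v, v ∉ F ∙ u ∧ fm σ G u v = 0 := by
  obtain ⟨y, h1, h2, -⟩ := exists_mem_ker_notMem [] (pp σ G (F ∙ u)) (F ∙ u) (by
    have := h.finrank_pp (F ∙ u); have := finrank_span_one_le (F := F) u; simp; omega)
  exact ⟨y, h2, h.eq_zero_comm (h1 u (Submodule.mem_span_singleton_self u))⟩

theorem QInv.kr33_between (h : QInv G (Cfsg.isometryGroup F Q) Q) (hn : 7 ≤ Fintype.card ι)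
    (hF : Fintype.card F = 3) {M : Subgroup (GL ι F)} {T : (Fin 3 × μ → F) ≃ₗ[F] (ι → F)}
    {G₁ : Matrix (Fin 3) (Fin 3) F} (hk : KrF ρ G M T G₁ G₂ 1 1) :
    ∃ K, M ⊓ omegaGL Q < K ∧ K < omegaGL Q := by
  have h2 : (2 : F) ≠ 0 := two_ne_zero_of_odd (by rw [hF]; decide)
  have hS : ∀ v, fm ρ G v v = 0 → Q v = 0 := fun v e => by simpa [h.self, h2] using e
  obtain ⟨w, w', p1, p2, p3, p4, p5⟩ := frame33' hF hk.h1
  have hm : 3 ≤ Fintype.card μ := by have := KrF.card T; simp at this; omega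
  obtain ⟨G', h', h''⟩ := hf_of_quad (hk.h2.quad h2)
  obtain ⟨u, -, u0, u1⟩ := QInv.exists_sing (H := ⊥) (W := ⊤) ⟨hk.h2.quad h2, h', by simp⟩
    (by simpa)
  obtain ⟨u₂, a1, a2⟩ := exists_perp_notMem hk.h2 hm u
  obtain ⟨u', a3, a4⟩ := hk.h2.exists_sep1 a1
  obtain ⟨g, g1, g2⟩ := h.exists_eich hn (u := pt T w u) (v := pt T w u₂)
    (hS _ (by rw [fm_pt hk.gram, u1, mul_zero])) (by rw [fm_pt hk.gram, a2, mul_zero])
  refine hk.between (big_omega h.1 hn) hS (omegaGL_le.trans h.iso)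
    (fun w => fm ρ G₁ w w = G₁.det) (fun w e => e ▸ hk.h1.det_ne) p4 p5 p1 p2 p3 u1 u0 (u' := u') (fun e => ?_) g1
    (c := -(G₁.det * fm ρ G₂ u₂ u')) (by simp [hk.h1.det_ne, hk.h2.symm u₂, a4]) ?_
    (fun x => ?_) fun v e x => by simp [g2, fm_pt hk.gram, e]
  · obtain ⟨c, rfl⟩ := Submodule.mem_span_singleton.1 e
    simp_all [fm_smul_left]
  · simp [g2, fm_pt hk.gram, hk.h2.symm u, a3, p1, sub_eq_add_neg]
  · exact ⟨_, by rw [g2, ← pt_smul_right, ← pt_smul_right, sub_eq_add_neg, ← neg_one_smul F,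
      ← pt_smul_right, ← pt_add_right, ← pt_add_right]⟩

theorem KrF.tv_between {Ω M : Subgroup (GL ι F)} {Sg : (ι → F) → Prop} {d : ℕ} (hΩ : Big Ω Sg d)
    (h : HF σ ε G) (hS : ∀ v, fm σ G v v = 0 → Sg v) (hs : Ω ≤ Iso σ G)
    (hs' : Iso σ G ⊓ specialLinear ι F ≤ Ω) (hk : KrF σ G M T G₁ G₂ ε₁ ε₂)
    (p : (κ → F) → Prop) (p1 : ∀ w, p w → fm σ G₁ w w ≠ 0)
    (p2 : ∀ a ∈ Sim σ G₁, ∀ w, p w → p (a.1 *ᵥ w))
    (p3 : ∀ w w', p w → p w' → w' ∈ F ∙ w ∨ fm σ G₁ w w' = 0) {w w' : κ → F} (hw : p w)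
    (hw' : p w') (hww : fm σ G₁ w w' = 0) {u : μ → F} (hu : fm σ G₂ u u = 0) (h0 : u ≠ 0)
    (hε : 1 + ε = 0) : ∃ K, M ⊓ Ω < K ∧ K < Ω := by
  obtain ⟨u', hz⟩ : ∃ z, fm σ G₂ z u ≠ 0 := by_contra fun e => h0 (hk.h2.right (by simpa using e))
  obtain ⟨g, g1, g2⟩ := h.exists_tv (z := pt T w u) (by rw [fm_pt hk.gram, hu, mul_zero]) (a := 1)
    (by simpa)
  refine hk.between hΩ hS hs p p1 p2 p3 hw hw' hww hu h0 (u' := u') (fun e => ?_) (hs' g1)
    (mul_ne_zero (p1 w hw) hz) (by simp [g2, fm_pt hk.gram])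
    (fun x => ⟨_, by rw [g2, ← pt_smul_right, ← pt_add_right]⟩)
    fun v e x => by simp [g2, fm_pt hk.gram, hk.h1.eq_zero_comm e]
  obtain ⟨c, rfl⟩ := Submodule.mem_span_singleton.1 e
  rw [fm_smul_left] at hu
  simp_all

theorem krF_of_tfs {n₁ n₂ : ℕ} {e : ι ≃ Fin n₁ × Fin n₂} {P : GL ι F}
    {G₁ : Matrix (Fin n₁) (Fin n₁) F} {G₂ : Matrix (Fin n₂) (Fin n₂) F}
    (h : IsTensorFormStructure σ (fm σ G) (fm σ G₁) (fm σ G₂) e P) :
    ∃ c : F, c ≠ 0 ∧ gT σ G (coordT e P) = G₁ ⊗ₖ (c • G₂) :=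
  h.imp fun c hc => ⟨hc.1, fm_ext (σ := σ) fun x y => by
    rw [fm_gT, kronecker_smul, fm_smul]
    have := hc.2 x y
    rw [gram_fm, gram_fm] at this
    exact this⟩

theorem hf_of_symm {f : (ι → F) → (ι → F) → F} (h : IsSymmetricForm f) :
    ∃ G, f = fm ρ G ∧ HF ρ 1 G := by
  have e := eq_fm_of_bilin h.bilinear
  exact ⟨_, e, .of_swap (fun _ => rfl) (isUnit_of_nondegForm (e ▸ h.nondegenerate))
    fun x y => by rw [← e, h.symm]; simp⟩

end H29
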