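import Cfsg.Agent.H29.O4
import Cfsg.Agent.H29.NDOrth

/-! Orthogonal decompositions into planes: `odec2_dichotomy`; the general case `oo_odec_max`. -/

set_option autoImplicit false
set_option linter.unusedSectionVars false

namespace H29

open Module H11 H11.PForm

universe u
variable {F : Type*} [Field F] {V : Type u} [AddCommGroup V] [Module F V] {S : PForm (orthP F) V}
  [FiniteDimensional F V] [Finite F] {H : Subgroup S.Isom} {X : Submodule F V}

/-- the planes that are not exceptional -/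
def GoodP (S : PForm (orthP F) V) (X : Submodule F V) : Prop :=
  ((∀ x ∈ X, S.q x = 0 → x = 0) ∧ ((2 : F) = 0 ∨ 4 ≤ Nat.card F)) ∨ 7 ≤ Nat.card F

theorem tri_plane (hS : S.Nondeg) (hX : (S.restrict X).Nondeg) (h2 : finrank F X = 2) (hG : GoodP S X)
    {y : V} (hy : y ∈ X) (qy : S.q y ≠ 0) : ∃ y' ∈ X, S.q y' = S.q y ∧ S.h y y' ≠ 0 ∧ y ∉ F ∙ y' := by
  have y0 : y ≠ 0 := by rintro rfl; exact qy (orth_q_zero S)
  obtain ⟨b, hb, qb, b1, b2, b3⟩ : ∃ b ∈ X, S.q b ≠ 0 ∧ S.h b y ≠ 0 ∧ b ∉ F ∙ y ∧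
      2 * S.q y * S.q b ≠ S.h b y ^ 2 := by
    obtain e2 | e2 := eq_or_ne (2 : F) 0
    · obtain ⟨b, hb, b1⟩ := ex_h_one hX hy y0
      have yy : S.h y y = 0 := by simp [orth_h_self, e2]
      obtain ⟨s, hs⟩ : ∃ s : F, S.q (b + s • y) ≠ 0 := by
        rcases hG with ⟨a, -⟩ | hq
        · exact ⟨0, fun e => by simp [a b hb (by simpa using e)] at b1⟩
        obtain ⟨s, hs⟩ := ex_ne_poly (F := F) (n := 2) (by omega)
          (.X ^ 2 + .C (S.q y)⁻¹ * .X + .C (S.q b / S.q y))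
          (Polynomial.Monic.ne_zero (by monicity!)) (by compute_degree!)
        refine ⟨s, fun e => hs ?_⟩
        simp [orth_q_add, orth_q_smul, b1] at e ⊢
        field_simp
        linear_combination e
      refine ⟨_, add_mem hb (X.smul_mem s hy), hs, by simp [b1, yy], fun m => ?_, by simp [e2, b1, yy]⟩
      obtain ⟨c, hc⟩ := Submodule.mem_span_singleton.1 m
      simpa [b1, yy] using congrArg (S.h · y) hc
    · obtain ⟨w, hw, w0, w1⟩ := ex_perp_ne hS h2.ge y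
      have Q : ∀ s : F, S.q (w + s • y) = S.q w + s ^ 2 * S.q y := fun s => by
        simp [orth_q_add, orth_q_smul, w1]
      have R : ∀ s : F, S.h (w + s • y) y = s * (2 * S.q y) := fun s => by simp [w1, orth_h_self]
      obtain ⟨s, s0, s1, s2⟩ : ∃ s : F, s ≠ 0 ∧ s ^ 2 - S.q w / S.q y ≠ 0 ∧ S.q (w + s • y) ≠ 0 := by
        rcases hG with ⟨a, hq⟩ | hq
        · obtain ⟨s, hs⟩ := ex_ne_poly (F := F) (n := 3) (hq.resolve_left e2)
            (.X * (.X ^ 2 - .C (S.q w / S.q y))) (Polynomial.Monic.ne_zero (by monicity!))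
            (by compute_degree!)
          simp only [Polynomial.eval_mul, Polynomial.eval_sub, Polynomial.eval_X, Polynomial.eval_C,
            Polynomial.eval_pow, ne_eq, mul_eq_zero, not_or] at hs
          refine ⟨s, hs.1, hs.2, fun e => ?_⟩
          simpa [a _ (add_mem hw (X.smul_mem s hy)) e, hs.1, e2, qy] using R s
        obtain ⟨s, hs⟩ := ex_ne_poly (F := F) (n := 5) (by omega)
          (.X * (.X ^ 2 - .C (S.q w / S.q y)) * (.X ^ 2 + .C (S.q w / S.q y)))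
          (Polynomial.Monic.ne_zero (by monicity!)) (by compute_degree!)
        simp only [Polynomial.eval_mul, Polynomial.eval_sub, Polynomial.eval_X, Polynomial.eval_C,
          Polynomial.eval_pow, Polynomial.eval_add, ne_eq, mul_eq_zero, not_or] at hs
        refine ⟨s, hs.1.1, hs.1.2, fun e => hs.2 ?_⟩
        rw [Q] at e
        field_simp
        linear_combination e
      refine ⟨_, add_mem hw (X.smul_mem s hy), s2, by rw [R]; simp [s0, e2, qy], fun m => w0 ?_, fun e => s1 ?_⟩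
      · obtain ⟨c, rfl⟩ := Submodule.mem_span_singleton.1 ((Submodule.add_mem_iff_left _
          (Submodule.smul_mem _ s (Submodule.mem_span_singleton_self y))).1 m)
        simp [orth_h_self, e2, qy] at w1
        simp [w1]
      · rw [Q, R] at e
        field_simp
        exact mul_left_cancel₀ (mul_ne_zero e2 qy) (by linear_combination -e)
  refine ⟨_, refl_mem hb hy, orth_isom_q (S.refl b) y, fun e => b3 ?_, fun m => b2 ?_⟩
  · rw [refl_apply, map_sub, map_smul, orth_h_self, S.orth_symm b y, smul_eq_mul] at e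
    field_simp at e
    linear_combination e
  · obtain ⟨c, hc⟩ := Submodule.mem_span_singleton.1 m
    have c0 : c ≠ 0 := by rintro rfl; exact y0 (by simpa using hc.symm)
    rw [← Submodule.smul_mem_iff _ (mul_ne_zero c0 (mul_ne_zero (inv_ne_zero qb) b1))]
    exact Submodule.mem_span_singleton.2 ⟨c - 1, by
      rw [refl_apply] at hc; linear_combination (norm := module) hc⟩

theorem plane_le (h2 : finrank F X = 2) {u u' : V} (hu : u ∈ X) (hu' : u' ∈ X) (u0 : u' ≠ 0)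
    (ind : u ∉ F ∙ u') {Y : Submodule F V} (h1 : u ∈ Y) (h1' : u' ∈ Y) : X ≤ Y := by
  rw [← Submodule.eq_of_le_of_finrank_eq (show (F ∙ u') ⊔ (F ∙ u) ≤ X by simp [hu, hu'])
    (by rw [Submodule.finrank_sup_span_singleton ind, finrank_span_singleton u0, h2])]
  simp [h1, h1']

theorem ns_ne {x : V} (h : S.q x ≠ 0) : x ≠ 0 := by rintro rfl; exact h (orth_q_zero S)

theorem ex_ns_perp (hS : S.Nondeg) (hX : (S.restrict X).Nondeg) (h2 : finrank F X = 2) {p : V}
    (hp : p ∈ X) (qp : S.q p ≠ 0) : ∃ b ∈ X, S.q b ≠ 0 ∧ S.h b p = 0 := by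
  obtain ⟨w, hw, w0, w1⟩ := ex_perp_ne hS h2.ge p
  refine ⟨w, hw, fun e => qp ?_, w1⟩
  obtain ⟨f, hf, Hy⟩ := exists_partner_mem hX hw w0 ((S.orth_sing w).2 e)
  rw [plane_eq h2 hw hf Hy hp, w1]
  simp [orth_q_smul, e]

theorem ex_lm (hq : 7 ≤ Nat.card F) (a b : F) : ∃ l m : Fˣ, (l ≠ 1 ∨ m ≠ 1) ∧
    ((l : F) - 1) * ((l : F)⁻¹ - 1) * a + ((m : F) - 1) * ((m : F)⁻¹ - 1) * b = 0 := by
  obtain ⟨r, hr⟩ := ex_ne_poly (F := F) (n := 5) (by omega)
    (.X * (.X - 1) * (.X + .C (a / b)) * (.X ^ 2 + .C (a / b)))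
    (Polynomial.Monic.ne_zero (by monicity!)) (by compute_degree!)
  simp only [Polynomial.eval_mul, Polynomial.eval_sub, Polynomial.eval_X, Polynomial.eval_C,
    Polynomial.eval_pow, Polynomial.eval_add, Polynomial.eval_one, ne_eq, mul_eq_zero, not_or] at hr
  obtain ⟨⟨⟨r0, r1⟩, r2⟩, r3⟩ := hr
  have r4 : Units.mk0 r r0 ≠ 1 := fun e => r1 (by simpa [sub_eq_zero] using congrArg Units.val e)
  obtain rfl | a0 := eq_or_ne a 0
  · exact ⟨_, 1, .inl r4, by simp⟩
  obtain rfl | b0 := eq_or_ne b 0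
  · exact ⟨1, _, .inr r4, by simp⟩
  have r5 : r * b + a ≠ 0 := fun e => r2 (by field_simp; linear_combination e)
  refine ⟨Units.mk0 ((r - 1) * a / (r * (r * b + a))) (by simp [*]),
    Units.mk0 (-(r * b * (r - 1) / (r * b + a))) (by simp [*]), .inl fun e => r3 ?_, ?_⟩
  · have := congrArg Units.val e
    simp only [Units.val_mk0, Units.val_one] at this
    field_simp at this ⊢
    linear_combination -this
  · simp only [Units.val_mk0]
    field_simp
    ring

theorem tor_diff (h2 : finrank F X = 2) {e f : V} (he : e ∈ X) (hf : f ∈ X) (Hy : S.IsHyp e f) (c : Fˣ)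
    {y : V} (hy : y ∈ X) : S.q ((Hy.tor c).1 y - y) = ((c : F) - 1) * ((c : F)⁻¹ - 1) * S.q y ∧
      ((Hy.tor c).1 y - y = 0 → y ≠ 0 → c = 1) := by
  rw [plane_eq h2 he hf Hy hy]
  generalize S.h f y = a
  generalize S.h e y = b
  have : (Hy.tor c).1 (a • e + b • f) - (a • e + b • f) = (a * (c - 1)) • e + (b * ((c : F)⁻¹ - 1)) • f := by
    simp; module
  rw [this, Hy.orth_q_comb, Hy.orth_q_comb]
  refine ⟨by ring, fun e0 y0 => by_contra fun c1 => y0 ?_⟩
  have c2 : (c : F) - 1 ≠ 0 := fun e => c1 (Units.ext (sub_eq_zero.1 e))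
  have c3 : (c : F)⁻¹ - 1 ≠ 0 := fun e => c2 (by rw [inv_eq_one.1 (sub_eq_zero.1 e), sub_self])
  have a1 := congrArg (S.h e) e0
  have a2 := congrArg (S.h f) e0
  simp [Hy.h_ee, Hy.h_ef, Hy.orth_h_fe, Hy.h_ff, c2, c3] at a1 a2
  simp [a1, a2]

theorem tor_fix {e f : V} (he : e ∈ X) (hf : f ∈ X) (Hy : S.IsHyp e f) (c : Fˣ) :
    Hy.tor c ∈ S.fix (S.perp X) := fun x hx => Hy.tor_perp _ (S.mem_perp_pair.2 ⟨hx e he, hx f hf⟩)

namespace OD
variable {t : ℕ} {D : Fin t → Submodule F V} (h : OD H 2 D) (hG : ∀ i, GoodP S (D i))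
include h

theorem not_perp {i : Fin t} {a r : V} (ha : a ∈ D i) (a0 : a ≠ 0) (hr : r ∈ S.perp (D i)) :
    a + r ∉ S.perp (D i) := fun e => a0 (h.od.eq_zero' ha (by simpa using sub_mem e hr))

include hG

theorem pair {i j : Fin t} (ij : i ≠ j) {v : V} (vi : v ∉ S.perp (D i)) (vj : v ∉ S.perp (D j)) :
    ∃ m ∈ S.fix (S.perp (D i ⊔ D j)), ODec.Perm D m ∧ h.nd.dick m = 1 ∧ m.1 v - v ≠ 0 ∧
      S.q (m.1 v - v) = 0 ∧ m.1 v - v ∈ D i ⊔ D j := by
  classical
  obtain ⟨_, m, r, hr, rfl⟩ := exists_decomp (h.sup ij).1 v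
  obtain ⟨y, hy, z, hz, rfl⟩ := Submodule.mem_sup.1 m
  have o1 := h.od.orth i j ij
  have o2 := h.od.orth j i ij.symm
  rw [perp_sup] at hr
  have y0 : y ≠ 0 := by rintro rfl; exact vi (add_mem (add_mem (zero_mem _) (o1 hz)) hr.1)
  have z0 : z ≠ 0 := by rintro rfl; exact vj (add_mem (add_mem (o2 hy) (zero_mem _)) hr.2)
  suffices ∃ a ∈ S.fix (S.perp (D i)), ∃ b ∈ S.fix (S.perp (D j)), h.nd.dick (a * b) = 1 ∧
      (a.1 y - y = 0 → b.1 z - z ≠ 0) ∧ S.q (a.1 y - y) + S.q (b.1 z - z) = 0 by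
    obtain ⟨a, ha, b, hb, d, n0, q0⟩ := this
    have m1 := sub_mem ((stab_of_fix_perp h.nd ha y).1 hy) hy
    have m2' := (stab_of_fix_perp h.nd hb z).1 hz
    have m2 := sub_mem m2' hz
    have e : (a * b).1 (y + z + r) - (y + z + r) = (a.1 y - y) + (b.1 z - z) := by
      simp [hb y (o2 hy), hb r hr.2, ha r hr.1, ha _ (o1 m2')]; abel
    refine ⟨_, mul_mem (fix_anti (S.perp_anti le_sup_left) ha) (fix_anti (S.perp_anti le_sup_right) hb),
      (h.pf ha).mul (h.pf hb), d, ?_, ?_, ?_⟩ <;> rw [e]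
    · intro e0
      have := h.od.eq_zero' m1 (eq_neg_of_add_eq_zero_left e0 ▸ neg_mem (o1 m2))
      exact n0 this (by simpa [this] using e0)
    · rw [orth_q_add, q0, o1 m2 _ m1, add_zero]
    · exact Submodule.add_mem_sup m1 m2
  have T : ∀ i j, (∀ x ∈ D i, S.q x = 0 → x = 0) → ∀ x ∈ D j, S.q x = 0 → x = 0 := fun i j a x hx e => by
    obtain ⟨φ, hφ⟩ := h.eqv j i
    simpa using a _ (φ ⟨x, hx⟩).2 ((hφ.orth_q ⟨x, hx⟩).trans e)
  by_cases an : ∀ x ∈ D i, S.q x = 0 → x = 0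
  · cases nonempty_fintype F
    obtain ⟨A, A1, A2⟩ := aniso_img h.nd (h.od.nondeg i) (h.dim i) an hy y0
    obtain ⟨B, B1, B2⟩ := aniso_img h.nd (h.od.nondeg j) (h.dim j) (T i j an) hz z0
    obtain ⟨a, a1, a2⟩ : ∃ a ∈ A, -a ∈ B := by
      by_contra! e
      have := Finset.card_le_card (show A ∪ B.image Neg.neg ⊆ Finset.univ.erase 0 from fun a m => by
        simp only [Finset.mem_union, Finset.mem_image, Finset.mem_erase, Finset.mem_univ, and_true] at m ⊢
        rcases m with m | ⟨b, m, rfl⟩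
        exacts [(A2 a m).1, neg_ne_zero.2 (B2 b m).1])
      rw [Finset.card_union_of_disjoint (Finset.disjoint_left.2 fun a m m' => by
        obtain ⟨b, m', rfl⟩ := Finset.mem_image.1 m'
        exact e _ m (by simpa)), Finset.card_image_of_injective _ neg_injective,
        Finset.card_erase_of_mem (Finset.mem_univ _), Finset.card_univ, ← Nat.card_eq_fintype_card] at this
      have := Nat.card_pos (α := F)
      omega
    obtain ⟨qb, b, hb, b1, rfl⟩ := A2 a a1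
    obtain ⟨qc, c, hc, c1, e⟩ := B2 _ a2
    refine ⟨_, refl_fix hb, _, refl_fix hc, by simp [h.nd.dick_refl, qb, e], fun e0 => ?_, ?_⟩
    · simp [refl_apply, b1, qb, ns_ne qb] at e0
    · simp [refl_apply, b1, c1, orth_q_neg, orth_q_smul, e]
  · have E : ∀ j, ∃ e ∈ D j, ∃ f ∈ D j, S.IsHyp e f := fun j => by
      obtain ⟨e, he, e1, e0⟩ : ∃ e ∈ D j, S.q e = 0 ∧ e ≠ 0 := by
        by_contra! a
        exact an (T j i a)
      exact ⟨e, he, exists_partner_mem (h.od.nondeg j) he e0 ((S.orth_sing e).2 e1)⟩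
    obtain ⟨e, he, f, hf, Hy⟩ := E i
    obtain ⟨e', he', f', hf', Hy'⟩ := E j
    obtain ⟨l, m, lm, q0⟩ := ex_lm ((hG i).resolve_left fun a => an a.1) (S.q y) (S.q z)
    obtain ⟨a1, a2⟩ := tor_diff (h.od.dim i) he hf Hy l hy
    obtain ⟨b1, b2⟩ := tor_diff (h.od.dim j) he' hf' Hy' m hz
    exact ⟨_, tor_fix he hf Hy l, _, tor_fix he' hf' Hy' m, by simp [h.nd.dick_tor],
      fun e0 e1 => lm.elim (· (a2 e0 y0)) (· (b2 e1 z0)), by rw [a1, b1, q0]⟩

omit hG in
theorem perp_of_sup {i j l : Fin t} (hl : l ∉ ({i, j} : Finset _)) : D i ⊔ D j ≤ S.perp (D l) := by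
  simp only [Finset.mem_insert, Finset.mem_singleton, not_or] at hl
  exact sup_le (h.od.orth _ _ hl.1) (h.od.orth _ _ hl.2)

theorem root3 {c v : V} {k i j l n : Fin t} (hc : c ∈ D k) (hv : RC H c v) (ij : i ≠ j)
    (hl : l ∉ ({i, j} : Finset _)) (vi : v ∉ S.perp (D i)) (vj : v ∉ S.perp (D j))
    (vl : v ∉ S.perp (D l)) (vn : v ∈ S.perp (D n)) : S.E ≤ H := by
  obtain ⟨m, -, m1, -, m2, m3, m4⟩ := h.pair hG ij vi vj
  obtain ⟨r, r1, r2⟩ := h.adj m n
  have e : (m * r).1 v = m.1 v := by simp [r1 v vn]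
  exact h.root_of hc hv r2 (m1.mul (h.pf r1)) (I := {i, j}) (by
    have := Finset.card_le_two (a := i) (b := j); have := h.four; omega) (e ▸ m2) (e ▸ m3)
    (fun l hl => e ▸ h.perp_of_sup hl m4) hl vl

theorem root2 (ht : 7 ≤ t) (hE : ¬ S.E ≤ H) (k : Fin t) (c : V) (hc : c ∈ D k) (v : V) (hv : RC H c v) :
    ∃ l, v ∈ D l := by
  classical
  obtain ⟨i, y, hy, qy, hr⟩ := h.ex_ns hv.1
  by_contra! hn
  apply hE
  obtain ⟨j, ji, vj⟩ := h.ex_supp (hn i)
  have vi : v ∉ S.perp (D i) := by simpa using h.not_perp hy (ns_ne qy) hr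
  by_cases hl : ∃ l ∉ ({i, j} : Finset _), v ∉ S.perp (D l)
  · obtain ⟨l, hl, vl⟩ := hl
    by_cases hn : ∃ n, v ∈ S.perp (D n)
    · exact h.root3 hG hc hv ji.symm hl vi vj vl hn.choose_spec
    push Not at hn
    obtain ⟨i', j', ij', hi', hj'⟩ := exists_two_notMem ({i, j, l} : Finset _) (by
      have := Finset.card_le_three (a := i) (b := j) (c := l); simp; omega)
    simp only [Finset.mem_insert, Finset.mem_singleton, not_or] at hi' hj'
    have hl' : l ∉ ({i', j'} : Finset _) := by simp [Ne.symm hi'.2.2, Ne.symm hj'.2.2]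
    obtain ⟨m, m0, m1, m2, m3, m4, m5⟩ := h.pair hG ji.symm vi vj
    obtain ⟨n, n0, n1, n2, n3, n4, n5⟩ := h.pair hG ij' (hn _) (hn _)
    have c2 := Finset.card_le_two (a := i) (b := j)
    have c3 := Finset.card_le_two (a := i') (b := j')
    obtain s1 | s1 := Int.units_eq_one_or (h.nd.spin m)
    · exact h.root_of hc hv ((h.memE _).2 ⟨m2, s1⟩) m1 (I := {i, j}) (by omega) m3 m4
        (fun l hl => h.perp_of_sup hl m5) hl vl
    obtain s2 | s2 := Int.units_eq_one_or (h.nd.spin n)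
    · exact h.root_of hc hv ((h.memE _).2 ⟨n2, s2⟩) n1 (I := {i', j'}) (by omega) n3 n4
        (fun l hl => h.perp_of_sup hl n5) hl' vl
    have p : n.1 v - v ∈ S.perp (D i ⊔ D j) := by
      rw [perp_sup]
      exact ⟨h.perp_of_sup (by simp [Ne.symm hi'.1, Ne.symm hj'.1]) n5,
        h.perp_of_sup (by simp [Ne.symm hi'.2.1, Ne.symm hj'.2.1]) n5⟩
    have e : (m * n).1 v - v = (m.1 v - v) + (n.1 v - v) := by
      rw [← m0 _ p]; simp
    refine h.root_of hc hv ((h.memE (m * n)).2 (by simp [*])) (m1.mul n1) (I := {i, j} ∪ {i', j'})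
      (by have := Finset.card_union_le {i, j} {i', j'}; omega) (fun e0 => m3 ?_) ?_ (fun l hl => ?_)
      (Finset.notMem_union.2 ⟨hl, hl'⟩) vl
    · exact Submodule.disjoint_def.1 ((S.restrict_nondeg_iff _).1 (h.sup ji.symm).1) _ m5
        (eq_neg_of_add_eq_zero_left (e ▸ e0) ▸ neg_mem p)
    · rw [e, orth_q_add, m4, n4, p _ m5]; simp
    · rw [Finset.notMem_union] at hl
      exact e ▸ add_mem (h.perp_of_sup hl.1 m5) (h.perp_of_sup hl.2 n5)
  push Not at hl
  obtain ⟨z, rfl⟩ : ∃ z, v = y + z := ⟨v - y, by simp⟩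
  rw [add_sub_cancel_left] at hr
  have hz : z ∈ D j := by
    by_contra e
    obtain ⟨l, lj, zl⟩ := h.ex_supp e
    obtain rfl | li := eq_or_ne l i
    exacts [zl hr, zl (by simpa using sub_mem (hl l (by simp [lj, li])) (h.od.orth l i li hy))]
  have z0 : z ≠ 0 := by rintro rfl; exact hn i (by simpa)
  obtain ⟨l, n, ln, hl', hn'⟩ := exists_two_notMem ({i, j} : Finset _) (by
    have := Finset.card_le_two (a := i) (b := j); simp; omega)
  have hl'' := hl'
  simp only [Finset.mem_insert, Finset.mem_singleton, not_or] at hl'' hn'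
  obtain ⟨y', hy', q', a1, a2⟩ := tri_plane h.nd (h.od.nondeg i) (h.od.dim i) (hG i) hy qy
  obtain ⟨g, g1, rfl⟩ := witt_mem (h.od.nondeg i) hy hy' (ns_ne qy) (ns_ne (q' ▸ qy)) q'
  obtain ⟨s, s0, s1, -, s2⟩ := h.od.exists_swap h.nd (Ne.symm hl''.2) (h.eqv j l)
  obtain ⟨r, r1, r2⟩ := h.adj (g * s) n
  have sz := s1 z hz
  have o := h.od.orth
  have w := hv.refl (h.rc_map hc hv r2 (((h.pf g1).mul s0).mul (h.pf r1)))
  rw [isom_mul_apply, r1 _ (hl n (by simp [hn'])), isom_mul_apply, map_add,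
    s2 i ji.symm (Ne.symm hl''.1) y hy, map_add, g1 _ (o i l (Ne.symm hl''.1) sz), refl_apply] at w
  have γ0 : (S.q (y + z))⁻¹ * S.h (y + z) (g.1 y + s.1 z) ≠ 0 := mul_ne_zero (inv_ne_zero hv.1) (by
    simpa [o i l (Ne.symm hl''.1) sz y hy, o j l (Ne.symm hl''.2) sz z hz, o j i ji hy' z hz] using a1)
  generalize (S.q (y + z))⁻¹ * S.h (y + z) (g.1 y + s.1 z) = γ at w γ0
  refine h.root3 hG hc w ji.symm hl' (n := n) ?_ ?_ ?_ ?_
  · convert h.not_perp (sub_mem hy' ((D i).smul_mem γ hy)) (fun e => a2 ?_)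
      (sub_mem (o i l (Ne.symm hl''.1) sz) (Submodule.smul_mem _ γ hr)) using 2
    · module
    · rw [← Submodule.smul_mem_iff _ γ0, ← sub_eq_zero.1 e]; exact Submodule.mem_span_singleton_self _
  · convert h.not_perp (neg_mem ((D j).smul_mem γ hz)) (by simp [γ0, z0])
      (add_mem (o j i ji (sub_mem hy' ((D i).smul_mem γ hy))) (o j l (Ne.symm hl''.2) sz)) using 2
    module
  · convert h.not_perp sz (by simpa) (sub_mem (o l i hl''.1 hy') (Submodule.smul_mem _ γ (hl l hl'))) using 2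
    module
  · exact sub_mem (add_mem (o n i hn'.1 hy') (o n l ln.symm sz)) (Submodule.smul_mem _ γ (hl n (by simp [hn'])))

theorem st2 (ht : 7 ≤ t) (hE : ¬ S.E ≤ H) {k : Fin t} {e : V} (he : e ∈ D k) (e0 : e ≠ 0) (g : S.Isom)
    (hg : g ∈ H) (ge : g.1 e = e) : ODec.Perm D g := by
  have hR := h.root2 hG ht hE
  by_cases qe : S.q e ≠ 0
  · exact h.st hR hg he qe (ge.symm ▸ he)
  push Not at qe
  have se := (S.orth_sing e).2 qe
  obtain ⟨f, hf, Hy⟩ := exists_partner_mem (h.od.nondeg k) he e0 se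
  obtain ⟨w, hw, e1⟩ := Hy.exists_decomp (g.1 f)
  have e2 : S.h e (g.1 f) = 1 := by rw [← ge, isom_h, Hy.h_ef]
  rw [e2] at e1
  by_cases wD : w ∈ D k
  · refine h.st hR hg (add_mem he hf) (by simp [orth_q_add, qe, Hy.orth_q_f, Hy.h_ef]) (l := k) ?_
    rw [map_add, ge, e1]
    exact add_mem he (add_mem (add_mem ((D k).smul_mem _ he) ((D k).smul_mem _ hf)) wD)
  have hq : 7 ≤ Nat.card F := (hG k).resolve_left fun a => e0 (a.1 e he qe)
  obtain ⟨l, hl⟩ := ex_ne_poly (F := F) (n := 3) (by omega) (.X * (.X ^ 2 - 1))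
    (Polynomial.Monic.ne_zero (by monicity!)) (by compute_degree!)
  simp only [Polynomial.eval_mul, Polynomial.eval_sub, Polynomial.eval_X, Polynomial.eval_one,
    Polynomial.eval_pow, ne_eq, mul_eq_zero, not_or] at hl
  let c : Fˣ := Units.mk0 (l ^ 2) (pow_ne_zero 2 hl.1)
  have τ : Hy.tor c ∈ H := h.mem _ ((h.memE _).2 ⟨h.nd.dick_tor Hy c, by
    rw [h.nd.spin_tor]; exact sqSign_sq l⟩) (h.pf (tor_fix he hf Hy c))
  obtain ⟨w1, w2⟩ := S.mem_perp_pair.1 hw
  have ec : S.ECond e w (S.q w) := .of_q se w1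
  have e3 : (S.eich e w (S.q w)).1 f = g.1 f := by
    have q1 := orth_isom_q g f
    rw [e1, orth_q_add, Hy.orth_q_comb, Hy.orth_q_f] at q1
    simp [w1, w2] at q1
    rw [e1, eich_apply ec, Hy.h_ef, S.h_swap_zero w2, eq_neg_of_add_eq_zero_left q1]
    simp; abel
  let r := (S.eich e w (S.q w))⁻¹ * g
  have r1 : r.1 e = e := by
    rw [isom_mul_apply, ge]
    exact (congrArg _ (eich_apply_self e w (S.q w)).symm).trans (isom_inv_apply_self _ _)
  have r2 : r.1 f = f := by rw [isom_mul_apply, ← e3, isom_inv_apply_self]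
  have r3 : r * Hy.tor c = Hy.tor c * r := Hy.isom_ext (by simp [r1]) (by simp [r2]) fun x hx => by
    rw [isom_mul_apply, isom_mul_apply (Hy.tor c), Hy.tor_perp c hx, Hy.tor_perp c (S.mem_perp_pair.2 ⟨by
      rw [← r1, isom_h]; exact (S.mem_perp_pair.1 hx).1, by
      rw [← r2, isom_h]; exact (S.mem_perp_pair.1 hx).2⟩)]
  have r4 := Hy.conj_tor_eich c hw ec
  have w3 : S.h e ((c : F) • w) = 0 := by simp [w1]
  refine absurd ?_ hE
  obtain ⟨n, nk, hn⟩ := h.ex_supp (x := w + -((c : F) • w)) (i := k) fun m => wD (by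
    rw [← Submodule.smul_mem_iff _ (neg_ne_zero.2 hl.2)]
    convert m using 1; simp only [c, Units.val_mk0]; module)
  refine h.grow (I := {k}) (by simp; omega) se e0 (fun l hl => h.od.orth _ _ (by simpa using hl) he)
    ⟨_, .of_q se (by simp [w1]), ?_⟩ (by simpa) hn
  rw [orth_eich_add qe w1 (by simp [w1]), orth_eich_neg qe w3,
    show S.q ((c : F) • w) = c * S.q w * c by rw [orth_q_smul]; ring]
  erw [← r4]
  convert mul_mem (mul_mem (mul_mem hg τ) (inv_mem hg)) (inv_mem τ) using 1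
  rw [show g = S.eich e w (S.q w) * r by simp [r], mul_assoc _ r, r3]
  group

omit hG in
theorem fix2 {u u' : V} (qu : S.q u ≠ 0) (o : S.h u u' = 0) (ind : u ∉ F ∙ u')
    (hp : ODec.Perm D (S.refl u * S.refl u')) : ∃ m, u ∈ S.perp (D m) := by
  by_contra! hn
  have N : ∀ l m, u ∉ D l ⊔ D m := fun l m e => by
    obtain ⟨n, -, hn'⟩ := h.ex2 {l, m} (by
      have := Finset.card_le_two (a := l) (b := m); have := h.four; omega) l
    exact hn n (h.perp_of_sup hn' e)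
  have A : ∀ l, ∃ a : F, u + a • u' ∈ D l := fun l => by
    obtain ⟨m, hm⟩ := hp l
    obtain rfl | lm := eq_or_ne l m
    swap
    · exact absurd (h.rot lm hm).2.2 (N l m)
    obtain ⟨x, hx, ux⟩ : ∃ x ∈ D l, S.h u x ≠ 0 := by
      by_contra! e
      exact hn l (S.mem_perp'.2 e)
    refine ⟨(S.q u')⁻¹ * S.h u' x * (S.q u / S.h u x), ?_⟩
    convert (D l).smul_mem (S.q u / S.h u x) (sub_mem hx (hm x hx)) using 1
    rw [isom_mul_apply, refl_apply u, refl_apply u', map_sub, map_smul, o]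
    match_scalars <;> field_simp <;> simp
  obtain ⟨l, m, lm, -⟩ := exists_two_notMem (∅ : Finset (Fin t)) (by have := h.four; simp; omega)
  obtain ⟨a, ha⟩ := A l
  obtain ⟨b, hb⟩ := A m
  obtain rfl | ab := eq_or_ne a b
  · exact ind (eq_neg_of_add_eq_zero_left (Submodule.disjoint_def.1 (h.od.disj lm) _ ha hb) ▸
      neg_mem (Submodule.smul_mem _ _ (Submodule.mem_span_singleton_self _)))
  have : u' ∈ D l ⊔ D m := by
    rw [← Submodule.smul_mem_iff _ (sub_ne_zero.2 ab)]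
    convert sub_mem (Submodule.mem_sup_left ha) (Submodule.mem_sup_right hb) using 1
    module
  exact N l m (by simpa using sub_mem (Submodule.mem_sup_left ha) (Submodule.smul_mem _ a this))

theorem final2 (ht : 7 ≤ t) (hE : ¬ S.E ≤ H) {g : S.Isom} (hg : g ∈ H) : ODec.Perm D g := by
  have hR := h.root2 hG ht hE
  have N := fun i => orth_exists_q_ne_mem (h.od.nondeg i) (by have := h.dim i; omega)
  have A : ∀ g ∈ H, ∀ k, ∀ a ∈ D k, a ≠ 0 → ∀ i, g.1 a ∈ S.perp (D i) → ODec.Perm D g :=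
    fun g hg k a ha a0 i e => by
      obtain ⟨u, hu, qu⟩ := N i
      obtain ⟨u', hu', q', a1, a2⟩ := tri_plane h.nd (h.od.nondeg i) (h.od.dim i) (hG i) hu qu
      exact h.perm_of_fix_rot hR hg (h.st2 hG ht hE ha a0) hu hu' qu q' a2 (.inl a1) (e u hu) (e u' hu')
  by_contra hn
  let k : Fin t := ⟨0, by omega⟩
  obtain ⟨x, hx, qx⟩ := N k
  obtain ⟨y, hy, qy, -, xy⟩ := tri_plane h.nd (h.od.nondeg k) (h.od.dim k) (hG k) hx qx
  have y0 := ns_ne (qy ▸ qx)
  have xy' : ∀ c : F, x - c • y ≠ 0 := fun c e => xy (sub_eq_zero.1 e ▸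
    Submodule.smul_mem _ _ (Submodule.mem_span_singleton_self _))
  have B : ∀ i, ∃ s : Fin 3, ∃ b ∈ D i, S.q b ≠ 0 ∧ S.h b (g.1 (![x, y, x + y] s)) = 0 := fun i => by
    obtain ⟨p, hp, r, hr, e⟩ := exists_decomp (h.od.nondeg i) (g.1 x)
    obtain ⟨p', hp', r', hr', e'⟩ := exists_decomp (h.od.nondeg i) (g.1 y)
    have C := fun {p} => ex_ns_perp (p := p) h.nd (h.od.nondeg i) (h.od.dim i)
    by_cases q1 : S.q p = 0
    swap
    · obtain ⟨b, hb, qb, b1⟩ := C hp q1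
      exact ⟨0, b, hb, qb, by simp [e, b1, hr b hb]⟩
    by_cases q2 : S.q p' = 0
    swap
    · obtain ⟨b, hb, qb, b1⟩ := C hp' q2
      exact ⟨1, b, hb, qb, by simp [e', b1, hr' b hb]⟩
    by_cases q3 : S.q (p' + p) = 0
    swap
    · obtain ⟨b, hb, qb, b1⟩ := C (add_mem hp' hp) q3
      exact ⟨2, b, hb, qb, by simpa [e, e', hr b hb, hr' b hb, add_comm] using b1⟩
    obtain ⟨f, hf, Hy⟩ := exists_partner_mem (h.od.nondeg i) hp' (fun e0 => hn (A g hg k y hy y0 i (by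
      simpa [e', e0]))) ((S.orth_sing _).2 q2)
    have e1 := plane_eq (h.od.dim i) hp' hf Hy hp
    rw [orth_q_add, q1, q2, add_zero, zero_add] at q3
    refine absurd (A g hg k _ (sub_mem hx ((D k).smul_mem (S.h f p) hy)) (xy' _) i ?_) hn
    convert sub_mem hr (Submodule.smul_mem _ (S.h f p) hr') using 1
    rw [map_sub, map_smul, e, e']
    rw [q3] at e1
    linear_combination (norm := module) e1
  choose s b hb qb b1 using B
  obtain ⟨i, j, ij, e⟩ := Fintype.exists_ne_map_eq_of_card_lt (fun i => (s i, sqSign (S.q (b i))))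
    (by simp; omega)
  obtain ⟨e1, e2⟩ := Prod.mk.inj e
  have m : ∀ s, ![x, y, x + y] s ∈ D k ∧ ![x, y, x + y] s ≠ 0 := fun s => by
    fin_cases s
    exacts [⟨hx, ns_ne qx⟩, ⟨hy, y0⟩, ⟨add_mem hx hy, by simpa using xy' (-1)⟩]
  obtain ⟨n, e3⟩ := h.fix2 (by rw [orth_isom_q]; exact qb i) ((isom_h _ _ _).trans (h.od.orth i j ij (hb j) _ (hb i)))
    (notMem_span_map _ fun m => ns_ne (qb i) (Submodule.disjoint_def.1 (h.od.disj ij) _ (hb i)
      ((Submodule.span_singleton_le_iff_mem _ _).2 (hb j) m)))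
    (h.conj_fix hg (h.st2 hG ht hE (m _).1 (m _).2) (h.rr (hb i) (hb j) (qb i) (qb j) e2) (b1 i)
      (e1 ▸ b1 j))
  obtain ⟨l, hl⟩ := A _ (inv_mem hg) i _ (hb i) (ns_ne (qb i)) n e3 k
  exact hn (h.st hR hg (hl x hx) (by rwa [orth_isom_q]) (l := k) (by simpa))

end OD

theorem odec2_dichotomy (hS : S.Nondeg) {t : ℕ} {D : Fin t → Submodule F V} (hD : ODec S 2 D)
    (ht : 7 ≤ t) (hn : 3 ≤ finrank F V) (heq : ∀ i j, Eqv (S.restrict (D i)) (S.restrict (D j)))
    (hG : ∀ i, GoodP S (D i)) (H : Subgroup S.Isom)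
    (hH : ∀ g ∈ S.E, ODec.Perm D g → g ∈ H) : S.E ≤ H ∨ ∀ g ∈ H, ODec.Perm D g := by
  have h : OD H 2 D := by
    refine ⟨hS, hD, le_rfl, by omega, heq, hH, fun i => ?_, fun i y hy y0 => ?_,
      fun i Y Z hYZ _ v hv qv vY hb => ?_⟩
    · by_cases a : ∀ x ∈ D i, S.q x = 0 → x = 0
      · exact airr_minus hS (hD.nondeg i) (hD.dim i).ge a
      have := (hG i).resolve_left fun b => a b.1
      push Not at a
      obtain ⟨e, he, e1, e0⟩ := a
      exact airr_plus (by omega) (hD.nondeg i) (hD.dim i) he e0 ((S.orth_sing e).2 e1)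
    · obtain ⟨u, hu, qu⟩ := orth_exists_q_ne_mem (hD.nondeg i) (by rw [hD.dim]; omega)
      obtain ⟨u', hu', q', -, a2⟩ := tri_plane hS (hD.nondeg i) (hD.dim i) (hG i) hu qu
      obtain ⟨e, f, Hy⟩ := hS.orth_exists_hyp hn
      have qu' := q' ▸ qu
      refine ⟨S.refl u' * S.refl u, (hS.mem_E_iff hn Hy _).2 (by simp [hS.dick_refl, hS.spin_refl, *]),
        mul_mem (refl_fix hu') (refl_fix hu), fun e => y0 ?_⟩
      have e1 := congrArg (S.refl u').1 e
      rw [isom_mul_apply, refl_refl_apply, refl_apply, refl_apply, sub_right_inj, ← sub_eq_zero] at e1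
      obtain ⟨b1, b2⟩ := eq_zero_of_indep (ns_ne qu') a2 e1
      exact hD.eq_zero' hy (S.le_perp_comm.1 (plane_le (hD.dim i) hu hu' (ns_ne qu') a2 (Y := S.perp (F ∙ y))
        (S.mem_perp_singleton.2 (S.h_swap_zero (by simpa [qu] using b1)))
        (S.mem_perp_singleton.2 (S.h_swap_zero (by simpa [qu'] using b2))))
        (Submodule.mem_span_singleton_self y))
    · obtain ⟨u, hu, q', a1, a2⟩ := tri_plane hS (hD.nondeg i) (hD.dim i) (hG i) hv qv
      exact plane_le (hD.dim i) hv hu (ns_ne (q' ▸ qv)) a2 vY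
        ((hb u hu (q' ▸ qv) (by rw [q'])).resolve_right fun m => a1 (hYZ v vY u m))
  exact or_iff_not_imp_left.2 fun hE g hg => h.final2 hG ht hE hg

theorem ODec.ex_not_perm2 (hS : S.Nondeg) {t : ℕ} {D : Fin t → Submodule F V} (h : ODec S 2 D)
    (ht : 3 ≤ t) : ∃ g ∈ S.E, ¬ ODec.Perm D g := by
  obtain ⟨j, l, jl, hj, hl⟩ := exists_two_notMem ({⟨0, by omega⟩} : Finset (Fin t)) (by simp; omega)
  generalize (⟨0, _⟩ : Fin t) = i at hj hl
  rw [Finset.mem_singleton] at hj hl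
  have d := Submodule.finrank_sup_add_finrank_inf_eq (D j) (D l)
  rw [(h.disj jl).eq_bot, finrank_bot, h.dim, h.dim] at d
  obtain ⟨u, hu, u0, us⟩ := iso3_orth S (D j ⊔ D l) (by omega)
  replace hu := sup_le (h.orth i j (Ne.symm hj)) (h.orth i l (Ne.symm hl)) hu
  obtain ⟨x, hx, x0⟩ := exists_ne_zero_of_finrank (D i) (by rw [h.dim]; omega)
  obtain ⟨w, hw, w1⟩ := ex_h_one (h.nondeg i) hx x0
  refine ⟨_, S.eich_mem_E u w (S.q w), fun hp => ?_⟩
  obtain ⟨m, hm⟩ := hp i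
  have := hm x hx
  rw [eich_apply_of_perp (.of_q us (S.h_swap_zero (hu w hw))) (S.h_swap_zero (hu x hx)), w1] at this
  obtain rfl | e := eq_or_ne i m
  · exact u0 (h.eq_zero' (by simpa using sub_mem hx this) hu)
  · exact x0 (h.eq_zero' hx (by simpa using add_mem (h.orth i m e this) hu))

theorem oo_odec_max [Fintype F] {n : ℕ} (hn : 13 ≤ n) {Q : (Fin n → F) → F}
    (hQ : Cfsg.Geo.IsNondegenerateQuadraticForm Q) {t k : ℕ} (hk : 2 ≤ k)
    {D : Fin t → Submodule F (Fin n → F)} (hD : Cfsg.Geo.IsOrthogonalMDecomposition Q k D)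
    (h2 : k = 2 → Fintype.card F ≠ 3 ∧ ((∀ i, Cfsg.Geo.IsPlusTypeOn Q (D i)) → 7 ≤ Fintype.card F))
    (h3 : k = 3 → Odd (Fintype.card F) ∧ Fintype.card F ≠ 3)
    (h4 : k = 4 → Fintype.card F = 2 → ¬ ∀ i, Cfsg.Geo.IsPlusTypeOn Q (D i)) :
    Cfsg.Geo.IsMaximalIn (Cfsg.Geo.omegaGL Q)
      (Cfsg.Geo.decompositionStabilizer D ⊓ Cfsg.Geo.omegaGL Q) := by
  have hS := quadOf_nondeg hQ
  have h : ODec (orthS (quadOf hQ)) k D := odec_of _ (fun x y => Iff.rfl) hD.decomp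
  have heq : ∀ i j, Eqv ((orthS (quadOf hQ)).restrict (D i)) ((orthS (quadOf hQ)).restrict (D j)) :=
    fun i j => (hD.isometric i j).imp fun e he => orth_isIsom he
  have hdim : t * k = n := by
    have h1 := (DirectSum.isInternal_submodule_of_iSupIndep_of_iSup_eq_top hD.decomp.1.indep
      hD.decomp.1.iSup_eq_top)
    simpa [Module.finrank_directSum, h.dim] using
      (LinearEquiv.ofBijective (DirectSum.coeLinearMap D) h1).finrank_eq
  have c1 := Fintype.one_lt_card (α := F)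
  rw [← coe_quadOf hQ, omegaGL_eq _ hS (by simp; omega)]
  refine isMaximalIn_odec hS hD.decomp.1 h ?_ fun H hH _ => ?_
  · obtain rfl | k2 := eq_or_ne k 2
    · exact h.ex_not_perm2 hS (by omega)
    obtain ⟨e, he, e0, hs⟩ := iso3_orth (orthS (quadOf hQ)) (D ⟨0, by have := h.two; omega⟩)
      (by rw [h.dim]; omega)
    exact h.exists_E_not_perm hS he e0 hs
  obtain rfl | rfl | rfl | k5 : k = 2 ∨ k = 3 ∨ k = 4 ∨ 5 ≤ k := by omega
  · refine odec2_dichotomy hS h (by omega) (by simp; omega) heq (fun i => ?_) H hH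
    obtain ⟨a1, a2⟩ := h2 rfl
    rw [GoodP, Nat.card_eq_fintype_card]
    refine or_iff_not_imp_right.2 fun h7 => ⟨fun x hx e => by_contra fun x0 => h7 (a2 fun j => ?_),
      or_iff_not_imp_left.2 fun e => ?_⟩
    · obtain ⟨φ, hφ⟩ := hD.isometric i j
      exact plusType_of_sing hQ (h.dim j) (φ ⟨x, hx⟩).2 (by simpa) ((hφ ⟨x, hx⟩).trans e)
    · obtain ⟨r, hr⟩ := two_ne_zero_iff_odd.1 e
      omega
  · obtain ⟨a1, a2⟩ := h3 rfl
    refine odec3_dichotomy hS (two_ne_zero_iff_odd.2 a1) ?_ h (by simp; omega) heq H hH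
    obtain ⟨r, hr⟩ := a1
    rw [Nat.card_eq_fintype_card]; omega
  · refine odec4_dichotomy hS h (by omega) heq (fun i => ?_) H hH
    by_cases c2 : Fintype.card F = 2
    · refine .inr (.inr fun a => h4 rfl c2 fun j => ?_)
      obtain ⟨U, U1, U2⟩ := (heq i j).hasTS a
      refine ⟨U.map (D j).subtype, Submodule.map_subtype_le _ _, ?_, by
        rw [Submodule.finrank_map_subtype_eq, U2, h.dim]⟩
      rintro _ ⟨x, hx, rfl⟩
      exact orth_ts_iff.1 U1 x hx
    · exact notO4_of_card (.inl c2)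
  · exact odec_dichotomy hS (iso3_orth _) h k5 heq H hH

end H29
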