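import Cfsg.Agent.H29.ODec
import Cfsg.Agent.H29.RatA
import Cfsg.Agent.H11.Spin

/-! Orthogonal decompositions into 3-spaces (`q ≥ 5` odd): the family `P3 H X` of 3-spaces whose
`Ω` lies in `H`; two members are equal or orthogonal (`P3.eq_or_perp`); `odec3_dichotomy`. -/

set_option autoImplicit false
set_option linter.unusedSectionVars false

namespace H29

open Module H11 H11.PForm

universe u

variable {F : Type*} [Field F] {V : Type u} [AddCommGroup V] [Module F V] {S : PForm (orthP F) V}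
  [FiniteDimensional F V] [Finite F]

theorem exists_ne_sq_ne (hq : 5 ≤ Nat.card F) {α β : F} (hβ : β ≠ 0) :
    ∃ t : F, t ≠ 0 ∧ α + t ^ 2 * β ≠ 0 := by
  classical
  by_contra hc
  push Not at hc
  have := Fintype.ofFinite F
  have h1 : (Finset.univ : Finset F) ⊆ {0, 1, -1} := fun t _ => by
    by_cases ht : t = 0
    · simp [ht]
    have h2 : (t - 1) * (t + 1) = 0 :=
      mul_right_cancel₀ hβ (by linear_combination hc t ht - hc 1 one_ne_zero)
    rcases mul_eq_zero.1 h2 with h | h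
    · simp [sub_eq_zero.1 h]
    · simp [eq_neg_of_add_eq_zero_left h]
  have h2 := (Finset.card_le_card h1).trans Finset.card_le_three
  rw [Finset.card_univ, ← Nat.card_eq_fintype_card] at h2
  omega

theorem nondeg_inf_perp {D : Submodule F V} (hD : (S.restrict D).Nondeg) {d : V} (hd : d ∈ D)
    (h : S.h d d ≠ 0) : (S.restrict (D ⊓ S.perp (F ∙ d))).Nondeg := by
  rw [restrict_nondeg_iff'] at hD ⊢
  intro x hx h1
  refine hD x hx.1 fun y hy => ?_
  have := h1 (y - (S.h d y / S.h d d) • d) ⟨D.sub_mem hy (D.smul_mem _ hd),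
    S.mem_perp_singleton.2 (by simp [h])⟩
  simpa [S.h_swap_zero (S.mem_perp_singleton.1 hx.2)] using this

theorem finrank_inf_perp_one (hS : S.Nondeg) (D : Submodule F V) (d : V) :
    finrank F D ≤ finrank F ↥(D ⊓ S.perp (F ∙ d)) + 1 :=
  (finrank_inf_perp hS D (F ∙ d)).trans (by have := finrank_span_one_le (F := F) d; omega)

theorem refl_mem {W : Submodule F V} {a x : V} (ha : a ∈ W) (hx : x ∈ W) : (S.refl a).1 x ∈ W := by
  rw [refl_apply]; exact W.sub_mem hx (W.smul_mem _ ha)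

/-- 3-spaces whose group `Ω` lies in `H` -/
structure P3 (H : Subgroup S.Isom) (X : Submodule F V) : Prop where
  nondeg : (S.restrict X).Nondeg
  dim : finrank F X = 3
  refl : ∀ a ∈ X, ∀ b ∈ X, S.q a ≠ 0 → S.q b ≠ 0 → sqSign (S.q a) = sqSign (S.q b) →
    S.refl a * S.refl b ∈ H
  eich : ∀ u ∈ X, ∀ v ∈ X, ∀ a, S.eich u v a ∈ H
  bset : ∀ u ∈ X, u ≠ 0 → ∀ hs : S.Sing u, ∀ v ∈ BSet H hs, v ∈ X

variable {H : Subgroup S.Isom}

theorem P3.map {X : Submodule F V} (h : P3 H X) {g : S.Isom} (hg : g ∈ H) :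
    P3 H (X.map (g.1 : V →ₗ[F] V)) where
  nondeg := (eqv_map g.1 (isom_isIsom g) X).nondeg h.nondeg
  dim := by rw [LinearEquiv.finrank_map_eq, h.dim]
  refl := by
    rintro _ ⟨a, ha, rfl⟩ _ ⟨b, hb, rfl⟩ h1 h2 h3
    simp only [LinearEquiv.coe_coe, orth_isom_q] at h1 h2 h3 ⊢
    rw [← conj_refl, ← conj_refl]
    convert H.mul_mem (H.mul_mem hg (h.refl a ha b hb h1 h2 h3)) (H.inv_mem hg) using 1
    group
  eich := by
    rintro _ ⟨a, ha, rfl⟩ _ ⟨b, hb, rfl⟩ c
    simp only [LinearEquiv.coe_coe]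
    rw [← conj_eich]
    exact H.mul_mem (H.mul_mem hg (h.eich a ha b hb c)) (H.inv_mem hg)
  bset := by
    rintro _ ⟨u, hu, rfl⟩ h0 hs v hv
    have hs' : S.Sing u := by simpa using hs
    exact ⟨(g⁻¹).1 v, h.bset u hu (by simpa using h0) hs' _
      (BSet_map hv (H.inv_mem hg) (isom_inv_apply_self g u)), isom_apply_inv_self g v⟩

/-- basis of a nondegenerate 3-space through a singular vector -/
theorem exists_basis3 (hS : S.Nondeg) {X : Submodule F V} (hX : (S.restrict X).Nondeg)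
    (h3 : finrank F X = 3) {u : V} (hu : u ∈ X) (hu0 : u ≠ 0) (hs : S.Sing u) :
    ∃ f ∈ X, ∃ w ∈ X, S.IsHyp u f ∧ S.h u w = 0 ∧ S.h f w = 0 ∧ S.h w w ≠ 0 ∧
      ∀ x ∈ X, ∃ c : F, x = S.h f x • u + S.h u x • f + c • w := by
  obtain ⟨f, hf, Hy⟩ := exists_partner_mem hX hu hu0 hs
  obtain ⟨w, hw, hw0, h1⟩ := exists_mem_ker_notMem [S.h u, S.h f] X ⊥ (by simp; omega)
  simp only [List.mem_cons, List.not_mem_nil, or_false, forall_eq_or_imp, forall_eq,
    Submodule.mem_bot] at h1 hw0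
  have hwn : w ∉ Submodule.span F {u, f} := fun h => hw0
    (Submodule.disjoint_def.1 ((S.restrict_nondeg_iff _).1 Hy.nondeg) w h (S.mem_perp_pair.2 h1))
  have e : Submodule.span F {u, f} ⊔ F ∙ w = X := Submodule.eq_of_le_of_finrank_eq
    (sup_le (Submodule.span_le.2 (by rintro x (rfl | rfl) <;> assumption))
      ((Submodule.span_singleton_le_iff_mem _ _).2 hw))
    (by rw [Submodule.finrank_sup_span_singleton hwn, Hy.finrank_span, h3])
  have key : ∀ x ∈ X, ∃ c : F, x = S.h f x • u + S.h u x • f + c • w := by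
    intro x hx
    rw [← e] at hx
    obtain ⟨y, hy, z, hz, rfl⟩ := Submodule.mem_sup.1 hx
    obtain ⟨a, b, rfl⟩ := Submodule.mem_span_pair.1 hy
    obtain ⟨c, rfl⟩ := Submodule.mem_span_singleton.1 hz
    exact ⟨c, by simp [Hy.h_ee, Hy.h_ff, Hy.h_ef, Hy.orth_h_fe, h1.1, h1.2]⟩
  refine ⟨f, hf, w, hw, Hy, h1.1, h1.2, fun h0 => hw0 ?_, key⟩
  refine (S.restrict_nondeg_iff' X).1 hX w hw fun y hy => ?_
  obtain ⟨c, hc⟩ := key y hy
  rw [hc]
  simp [S.h_swap_zero h1.1, S.h_swap_zero h1.2, h0]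

theorem q_ne_of_h {x : V} (h : S.h x x ≠ 0) : S.q x ≠ 0 := fun h0 => h (by
  rw [orth_h_self, h0, mul_zero])

theorem P3.eq_of_sing (hS : S.Nondeg) (hq : 5 ≤ Nat.card F) {X X' : Submodule F V} (h : P3 H X)
    (h' : P3 H X') {u : V} (hu : u ∈ X) (hu' : u ∈ X') (hu0 : u ≠ 0) (hs : S.Sing u) : X = X' := by
  obtain ⟨f, hf, -, -, Hy, -⟩ := exists_basis3 hS h.nondeg h.dim hu hu0 hs
  obtain ⟨f', hf', w, hw, Hy', a1, -, -, a2⟩ := exists_basis3 hS h'.nondeg h'.dim hu' hu0 hs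
  have hwX : w ∈ X := h.bset u hu hu0 hs w (mem_BSet_of_mem h'.eich hu' hs hw a1)
  obtain ⟨v, hv, e1⟩ := Hy.exists_decomp f'
  rw [Hy'.h_ef, one_smul] at e1
  have hv' := S.mem_perp_pair.1 hv
  have hc : S.ECond u v (S.q v) := ECond.of_q hs hv'.1
  have e2 : (S.eich u v (S.q v)).1 f = f' := by
    have := Hy'.orth_q_f
    rw [e1, orth_q_add, orth_q_add, orth_q_smul, Hy.orth_q_e, Hy.orth_q_f] at this
    simp only [orthP_ε, one_mul, map_add, map_smul, LinearMap.add_apply, LinearMap.smul_apply,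
      Hy.h_ef, hv'.1, hv'.2, smul_eq_mul, map_smulₛₗ, RingHom.id_apply] at this
    rw [eich_apply hc, e1, Hy.h_ef, S.h_swap_zero hv'.2]
    simp only [orthP_ε, one_mul]
    rw [show S.q v = -S.h f f' by linear_combination this]
    module
  obtain ⟨l, hl0, hl⟩ := exists_sq_ne_one (F := F) (by omega)
  let c : Fˣ := Units.mk0 (l ^ 2) (pow_ne_zero 2 hl0)
  have key : ∀ {Y : Submodule F V} {f : V} (Hy : S.IsHyp u f), P3 H Y → u ∈ Y → f ∈ Y →
      Hy.tor c ∈ H := by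
    intro Y f Hy hY hu hf
    rw [Hy.orth_tor_eq]
    have e3 : S.q (u - f) = -1 := by simpa using Hy.orth_q_sub 1
    refine hY.refl _ (Y.sub_mem hu hf) _ (Y.sub_mem hu (Y.smul_mem _ hf)) (by simp [e3])
      (by simp [Hy.orth_q_sub]) ?_
    rw [e3, Hy.orth_q_sub, show -(c : F) = -1 * l ^ 2 by simp [c],
      sqSign_mul (by simp) (pow_ne_zero 2 hl0), sqSign_sq, mul_one]
  have e3 : S.eich u v (S.q v) * Hy.tor c * (S.eich u v (S.q v))⁻¹ = Hy'.tor c := by
    have hku : (S.eich u v (S.q v)).1 u = u := eich_apply_self _ _ _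
    generalize S.eich u v (S.q v) = k at e2 hku
    have b1 : S.refl (u - f') = k * S.refl (u - f) * k⁻¹ := by rw [conj_refl, map_sub, hku, e2]
    have b2 : S.refl (u - (c : F) • f') = k * S.refl (u - (c : F) • f) * k⁻¹ := by
      rw [conj_refl, map_sub, map_smul, hku, e2]
    rw [Hy.orth_tor_eq, Hy'.orth_tor_eq, b1, b2]
    group
  have m := H.mul_mem (key Hy' h' hu' hf') (H.inv_mem (key Hy h hu hf))
  have e4 : S.eich u v (S.q v) * Hy.tor c * (S.eich u v (S.q v))⁻¹ * (Hy.tor c)⁻¹ =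
      S.eich u v (S.q v) * (Hy.tor c * (S.eich u v (S.q v))⁻¹ * (Hy.tor c)⁻¹) := by group
  have hc2 := hc.neg.smul_right (c : F)
  rw [← e3, e4, eich_inv hc, Hy.conj_tor_eich c (Submodule.neg_mem _ hv) hc.neg] at m
  simp only [RingHom.id_apply] at m hc2
  rw [eich_mul hc hc2] at m
  have m1 := h.bset u hu hu0 hs _ ⟨_, hc.add hc2, m⟩
  have hvX : v ∈ X := by
    have := X.smul_mem (1 - l ^ 2)⁻¹ m1
    rwa [show v + (c : F) • -v = (1 - l ^ 2) • v by simp only [c, Units.val_mk0]; module, smul_smul,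
      inv_mul_cancel₀ (sub_ne_zero.2 hl.symm), one_smul] at this
  have hf'X : f' ∈ X := e1 ▸ X.add_mem (X.add_mem (X.smul_mem _ hu) hf) hvX
  refine (Submodule.eq_of_le_of_finrank_eq (fun x hx => ?_) (by rw [h.dim, h'.dim])).symm
  obtain ⟨c, hc⟩ := a2 x hx
  rw [hc]
  exact X.add_mem (X.add_mem (X.smul_mem _ hu) (X.smul_mem _ hf'X)) (X.smul_mem _ hwX)

theorem P3.exists_rot (hS : S.Nondeg) (h2 : (2 : F) ≠ 0) (hq : 5 ≤ Nat.card F) {D : Submodule F V}
    (h : P3 H D) {d c' : V} (hd : d ∈ D) (hc : c' ∈ D) (hqd : S.q d ≠ 0) (hqc : S.q c' ≠ 0)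
    (hdc : S.h d c' = 0) : ∃ k ∈ H, (∀ z ∈ S.perp D, k.1 z = z) ∧ (∀ z ∈ D, k.1 z ∈ D) ∧
      k.1 d ∈ Submodule.span F {d, c'} ∧ k.1 d ∉ F ∙ d := by
  obtain ⟨t, ht, hta⟩ := exists_ne_sq_ne hq (α := S.q d) hqc
  have hdd : S.h d d ≠ 0 := by rw [orth_h_self]; exact mul_ne_zero h2 hqd
  have e1 : S.q (d + t • c') = S.q d + t ^ 2 * S.q c' := by
    rw [orth_q_add, orth_q_smul, map_smul, hdc]; simp
  have ha : d + t • c' ∈ D := D.add_mem hd (D.smul_mem _ hc)
  obtain ⟨y, hy, hqy⟩ := orth_exists_q_eq_mem (nondeg_inf_perp h.nondeg hd hdd)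
    (by have := finrank_inf_perp_one hS D d; have := h.dim; omega) (S.q (d + t • c'))
  have e2 : (S.refl (d + t • c') * S.refl y).1 d =
      d - ((S.q (d + t • c'))⁻¹ * S.h d d) • (d + t • c') := by
    rw [isom_mul_apply, refl_apply_of_perp (S.h_swap_zero (S.mem_perp_singleton.1 hy.2)),
      refl_apply]
    simp [S.h_swap_zero hdc]
  refine ⟨_, h.refl _ ha y hy.1 (by rwa [e1]) (by rwa [hqy, e1]) (by rw [hqy]), fun z hz => ?_,
    fun z hz => refl_mem ha (refl_mem hy.1 hz), ?_, fun hm => ?_⟩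
  · rw [isom_mul_apply, refl_apply_of_perp (hz y hy.1), refl_apply_of_perp (hz _ ha)]
  · rw [e2]
    exact Submodule.mem_span_pair.2 ⟨1 - (S.q (d + t • c'))⁻¹ * S.h d d,
      -((S.q (d + t • c'))⁻¹ * S.h d d * t), by module⟩
  · obtain ⟨s, hs⟩ := Submodule.mem_span_singleton.1 hm
    have := congrArg (S.h c') hs
    rw [e2, e1] at this
    simp [S.h_swap_zero hdc, hta, hdd, ht, orth_h_self, h2, hqc, hqd] at this

theorem P3.exists_move (hS : S.Nondeg) (h2 : (2 : F) ≠ 0) (hq : 5 ≤ Nat.card F) {D : Submodule F V}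
    (h : P3 H D) {d : V} (hd : d ∈ D) (hd0 : d ≠ 0) :
    ∃ k ∈ H, (∀ z ∈ S.perp D, k.1 z = z) ∧ (∀ z ∈ D, k.1 z ∈ D) ∧ k.1 d ∉ F ∙ d := by
  by_cases hs : S.q d = 0
  · obtain ⟨f, hf, w, hw, Hy, a1, a2, a3, -⟩ :=
      exists_basis3 hS h.nondeg h.dim hd hd0 ((orth_sing S d).2 hs)
    refine ⟨S.eich f w (S.q w), h.eich f hf w hw _, fun z hz =>
      eich_apply_of_perp_perp (hz f hf) (hz w hw), fun z hz => (eich_mem_stab hf hw _ z).1 hz,
      fun hm => ?_⟩
    obtain ⟨s, hs⟩ := Submodule.mem_span_singleton.1 hm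
    have := congrArg (S.h w) hs
    rw [eich_apply (ECond.of_q Hy.sing_f a2)] at this
    simp [S.h_swap_zero a1, S.h_swap_zero a2, Hy.orth_h_fe] at this
    exact a3 this.symm
  · have hdd : S.h d d ≠ 0 := by rw [orth_h_self]; exact mul_ne_zero h2 hs
    obtain ⟨c, hc, hqc⟩ := orth_exists_q_ne_mem (nondeg_inf_perp h.nondeg hd hdd)
      (by have := finrank_inf_perp_one hS D d; have := h.dim; omega)
    obtain ⟨k, a1, a2, a3, -, a4⟩ := h.exists_rot hS h2 hq hd hc.1 hs hqc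
      (S.mem_perp_singleton.1 hc.2)
    exact ⟨k, a1, a2, a3, a4⟩

theorem P3.exists_axis (hS : S.Nondeg) (h2 : (2 : F) ≠ 0) (hq : 5 ≤ Nat.card F) {D : Submodule F V}
    (h : P3 H D) {d : V} (hd : d ∈ D) (hd0 : d ≠ 0) :
    ∃ k ∈ H, (∀ z ∈ S.perp D, k.1 z = z) ∧ (∀ z ∈ D, k.1 z ∈ D) ∧ k.1 d = d ∧
      ∀ z ∈ D, k.1 z = z → z ∈ F ∙ d := by
  by_cases hs : S.q d = 0
  · obtain ⟨f, hf, w, hw, Hy, a1, a2, a3, a4⟩ :=
      exists_basis3 hS h.nondeg h.dim hd hd0 ((orth_sing S d).2 hs)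
    refine ⟨S.eich d w (S.q w), h.eich d hd w hw _, fun z hz =>
      eich_apply_of_perp_perp (hz d hd) (hz w hw), fun z hz => (eich_mem_stab hd hw _ z).1 hz,
      eich_apply_self _ _ _, fun z hz hk => ?_⟩
    rw [eich_apply (ECond.of_q Hy.sing_e a1), add_sub_assoc, add_eq_left] at hk
    have b1 := congrArg (S.h w) hk
    have b2 := congrArg (S.h f) hk
    simp [S.h_swap_zero a1, a3] at b1
    simp [b1, a2, Hy.orth_h_fe] at b2
    obtain ⟨c, hc⟩ := a4 z hz
    have b3 := congrArg (S.h w) hc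
    simp [S.h_swap_zero a1, S.h_swap_zero a2, b2, a3] at b3
    rw [hc, b1, b3]
    simpa using Submodule.smul_mem _ _ (Submodule.mem_span_singleton_self d)
  · have hdd : S.h d d ≠ 0 := by rw [orth_h_self]; exact mul_ne_zero h2 hs
    have hN := nondeg_inf_perp h.nondeg hd hdd
    have hN2 : 2 ≤ finrank F ↥(D ⊓ S.perp (F ∙ d)) := by
      have := finrank_inf_perp_one hS D d; have := h.dim; omega
    obtain ⟨a, ha, hqa⟩ := orth_exists_q_ne_mem hN (by omega)
    have haa : S.h a a ≠ 0 := by rw [orth_h_self]; exact mul_ne_zero h2 hqa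
    obtain ⟨a', ha', hqa'⟩ := orth_exists_q_ne_mem (nondeg_inf_perp hN ha haa)
      (by have := finrank_inf_perp_one hS (D ⊓ S.perp (F ∙ d)) a; omega)
    obtain ⟨k₀, -, -, c1, c2, c3⟩ := h.exists_rot hS h2 hq ha.1 ha'.1.1 hqa hqa'
      (S.mem_perp_singleton.1 ha'.2)
    set b := k₀.1 a with hb
    have hqb : S.q b = S.q a := orth_isom_q k₀ a
    have hbD := c1 a ha.1
    have hda : S.h a d = 0 := S.h_swap_zero (S.mem_perp_singleton.1 ha.2)
    have hdb : S.h b d = 0 := by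
      obtain ⟨s, t, h⟩ := Submodule.mem_span_pair.1 c2
      rw [← h]
      simp [hda, S.h_swap_zero (S.mem_perp_singleton.1 ha'.1.2)]
    have ha0 : a ≠ 0 := by rintro rfl; simp at haa
    refine ⟨_, h.refl a ha.1 b hbD hqa (by rwa [hqb]) (by rw [hqb]), fun z hz => ?_,
      fun z hz => refl_mem ha.1 (refl_mem hbD hz), ?_, fun z hz hk => ?_⟩
    · rw [isom_mul_apply, refl_apply_of_perp (hz b hbD), refl_apply_of_perp (hz _ ha.1)]
    · rw [isom_mul_apply, refl_apply_of_perp hdb, refl_apply_of_perp hda]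
    · have e1 : (S.refl b).1 z = (S.refl a).1 z := by
        conv_rhs => rw [← hk, isom_mul_apply, refl_refl_apply]
      rw [refl_apply, refl_apply, sub_right_inj, ← sub_eq_zero, hqb] at e1
      obtain ⟨f1, f2⟩ := eq_zero_of_indep ha0 c3 e1
      simp only [mul_eq_zero, inv_eq_zero, hqa, false_or] at f1 f2
      have hz' : z - (S.h d z / S.h d d) • d ∈ D ⊓ S.perp (F ∙ d) :=
        ⟨D.sub_mem hz (D.smul_mem _ hd), S.mem_perp_singleton.2 (by simp [hdd])⟩
      have e : (F ∙ a) ⊔ F ∙ b = D ⊓ S.perp (F ∙ d) := Submodule.eq_of_le_of_finrank_le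
        (sup_le ((Submodule.span_singleton_le_iff_mem _ _).2 ha)
          ((Submodule.span_singleton_le_iff_mem _ _).2
            ⟨hbD, S.mem_perp_singleton.2 (S.h_swap_zero hdb)⟩))
        (by
          rw [Submodule.finrank_sup_span_singleton c3, finrank_span_singleton ha0]
          have : finrank F ↥(D ⊓ S.perp (F ∙ d)) < finrank F D :=
            Submodule.finrank_lt_finrank_of_lt (lt_of_le_of_ne inf_le_left fun h' =>
              hdd (S.mem_perp_singleton.1 (h'.ge hd).2))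
          have := h.dim
          omega)
      have := (S.restrict_nondeg_iff' _).1 hN _ hz' fun y hy => by
        rw [← e] at hy
        obtain ⟨_, h1, _, h3, rfl⟩ := Submodule.mem_sup.1 hy
        obtain ⟨s, rfl⟩ := Submodule.mem_span_singleton.1 h1
        obtain ⟨t, rfl⟩ := Submodule.mem_span_singleton.1 h3
        apply S.h_swap_zero
        simp [f1, f2, hda, hdb]
      rw [sub_eq_zero.1 this]
      exact Submodule.smul_mem _ _ (Submodule.mem_span_singleton_self d)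

theorem P3.stab_of_fix (hS : S.Nondeg) (hq : 5 ≤ Nat.card F) {X : Submodule F V} (h : P3 H X)
    {k : S.Isom} (hk : k ∈ H) {u u' : V} (hu : u ∈ X) (hu' : u' ∈ X) (hu0 : u ≠ 0) (hs : S.Sing u)
    (hku : k.1 u' = u) {x : V} (hx : x ∈ X) : k.1 x ∈ X := by
  rw [h.eq_of_sing hS hq (h.map hk) hu ⟨u', hu', hku⟩ hu0 hs]
  exact ⟨x, hx, rfl⟩

theorem exists_perp_decomp (hS : S.Nondeg) {X C : Submodule F V} (hCX : C ≤ X)
    (hC : (S.restrict C).Nondeg) (h3 : finrank F X = 3) (h2 : finrank F C = 2) :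
    ∃ x₀ ∈ X, x₀ ∈ S.perp C ∧ x₀ ∉ C ∧ ∀ x ∈ X, ∃ c ∈ C, ∃ γ : F, x = c + γ • x₀ := by
  obtain ⟨x₀, hx, hx0⟩ := exists_ne_zero_of_finrank (X ⊓ S.perp C)
    (by have := finrank_inf_perp hS X C; omega)
  have hn : x₀ ∉ C := fun h =>
    hx0 (Submodule.disjoint_def.1 ((S.restrict_nondeg_iff _).1 hC) x₀ h hx.2)
  have e : C ⊔ F ∙ x₀ = X := Submodule.eq_of_le_of_finrank_eq
    (sup_le hCX ((Submodule.span_singleton_le_iff_mem _ _).2 hx.1))
    (by rw [Submodule.finrank_sup_span_singleton hn, h2, h3])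
  refine ⟨x₀, hx.1, hx.2, hn, fun x hx => ?_⟩
  rw [← e] at hx
  obtain ⟨c, hc, z, hz, rfl⟩ := Submodule.mem_sup.1 hx
  obtain ⟨γ, rfl⟩ := Submodule.mem_span_singleton.1 hz
  exact ⟨c, hc, γ, rfl⟩

theorem P3.eq_of_plane (hS : S.Nondeg) (h2 : (2 : F) ≠ 0) (hq : 5 ≤ Nat.card F)
    {X D : Submodule F V} (hX : P3 H X) (hD : P3 H D) (hd : 2 ≤ finrank F ↥(X ⊓ D)) : X = D := by
  by_contra hne
  set C := X ⊓ D with hCdef
  have han : ∀ c ∈ C, c ≠ 0 → S.q c ≠ 0 := fun c hc h0 hq' =>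
    hne (hX.eq_of_sing hS hq hD hc.1 hc.2 h0 ((orth_sing S c).2 hq'))
  have han' : ∀ c ∈ C, c ≠ 0 → S.h c c ≠ 0 := fun c hc h0 => by
    rw [orth_h_self]; exact mul_ne_zero h2 (han c hc h0)
  have hC : (S.restrict C).Nondeg := (S.restrict_nondeg_iff' C).2 fun c hc h => by
    by_contra h0; exact han' c hc h0 (h c hc)
  have hC2 : finrank F C = 2 := by
    by_contra h
    have h1 := Submodule.finrank_mono (inf_le_left : C ≤ X)
    have h3 : C = X := Submodule.eq_of_le_of_finrank_le inf_le_left (by have := hX.dim; omega)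
    exact hne (Submodule.eq_of_le_of_finrank_eq (h3 ▸ inf_le_right) (by rw [hX.dim, hD.dim]))
  obtain ⟨x₀, a1, a2, a3, a4⟩ := exists_perp_decomp hS inf_le_left hC hX.dim hC2
  obtain ⟨c₀, b1, b2, b3, b4⟩ := exists_perp_decomp hS inf_le_right hC hD.dim hC2
  have hnd : ∀ {Y : Submodule F V} {y : V}, (S.restrict Y).Nondeg → y ∈ Y → y ∈ S.perp C → y ∉ C →
      (∀ x ∈ Y, ∃ c ∈ C, ∃ γ : F, x = c + γ • y) → S.h y y ≠ 0 := by
    intro Y y h1 h2 h3 h4 h5 h0
    refine ne_zero_of_notMem h4 ((S.restrict_nondeg_iff' Y).1 h1 y h2 fun x hx => ?_)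
    obtain ⟨c, hc, γ, rfl⟩ := h5 x hx
    simp [h0, S.h_swap_zero (h3 c hc)]
  have hx₀ := hnd hX.nondeg a1 a2 a3 a4
  have hc₀ := hnd hD.nondeg b1 b2 b3 b4
  obtain ⟨u, hu, hu0, hs⟩ := iso3_orth S X hX.dim.ge
  obtain ⟨c, hc, γ, rfl⟩ := a4 u hu
  have hc0 : c ≠ 0 := by
    rintro rfl
    have := hs.h_self
    have hγ : γ ≠ 0 := by rintro rfl; simp at hu0
    simp [hγ, hx₀] at this
  have hγ : γ ≠ 0 := by
    rintro rfl
    exact han c hc hc0 (by simpa [orth_sing] using hs)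
  obtain ⟨p, hp, z, hz, e1⟩ := exists_decomp hD.nondeg x₀
  obtain ⟨c₁, hc₁, β, rfl⟩ := b4 p hp
  have hc₁0 : c₁ = 0 := by
    by_contra h0
    have := a2 c₁ hc₁
    rw [e1] at this
    simp [b2 c₁ hc₁, hz c₁ hc₁.2, han' c₁ hc₁ h0] at this
  rw [hc₁0, zero_add] at e1
  by_cases hβ : β = 0
  · rw [hβ, zero_smul, zero_add] at e1
    obtain ⟨c', hc', hc'0⟩ := exists_ne_zero_of_finrank (C ⊓ S.perp (F ∙ c))
      (by have := finrank_inf_perp_one hS C c; omega)
    obtain ⟨k, hk, k1, k2, k3, k4⟩ := hD.exists_rot hS h2 hq b1 hc'.1.2 (q_ne_of_h hc₀)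
      (han c' hc'.1 hc'0) (S.h_swap_zero (b2 c' hc'.1))
    have hkc : S.h c (k.1 c₀) = 0 := by
      obtain ⟨s, t, h⟩ := Submodule.mem_span_pair.1 k3
      rw [← h]
      simp [b2 c hc, S.mem_perp_singleton.1 hc'.2]
    have hkD : D.map (k.1 : V →ₗ[F] V) = D := map_eq_of_le k.1 k2 le_rfl
    obtain ⟨y, hy, rfl⟩ : c ∈ D.map (k.1 : V →ₗ[F] V) := hkD.symm ▸ hc.2
    simp only [LinearEquiv.coe_coe, isom_h] at hkc hc hs hu0 hu
    obtain ⟨y', hy', δ, rfl⟩ := b4 y hy
    have hδ : δ = 0 := by simpa [b2 y' hy', hc₀] using hkc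
    rw [hδ, zero_smul, add_zero] at hc hs hu0 hu
    have hst := fun x => hX.stab_of_fix hS hq hk hu (X.add_mem hy'.1 (X.smul_mem γ a1)) hu0 hs
      (by rw [map_add, map_smul, k1 x₀ (e1 ▸ hz)]) (x := x)
    have hkC : C.map (k.1 : V →ₗ[F] V) = C :=
      map_eq_of_le k.1 (fun x hx => ⟨hst x hx.1, k2 x hx.2⟩) le_rfl
    obtain ⟨c₂, hc₂, δ', e2⟩ := b4 _ (k2 c₀ b1)
    have hc₂0 : c₂ = 0 := by
      by_contra h0
      obtain ⟨y₂, hy₂, e3⟩ : c₂ ∈ C.map (k.1 : V →ₗ[F] V) := hkC.symm ▸ hc₂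
      have : S.h c₂ (k.1 c₀) = 0 := by rw [← e3]; simpa using b2 y₂ hy₂
      rw [e2] at this
      simp [b2 c₂ hc₂, han' c₂ hc₂ h0] at this
    exact k4 (by
      rw [e2, hc₂0, zero_add]; exact Submodule.smul_mem _ _ (Submodule.mem_span_singleton_self _))
  · have hd0 : c + (γ * β) • c₀ ≠ 0 := fun h => han' c hc hc0 (by
      simpa [b2 c hc] using congrArg (S.h c) h)
    obtain ⟨k, hk, k1, k2, k3, k4⟩ := hD.exists_axis hS h2 hq
      (D.add_mem hc.2 (D.smul_mem (γ * β) b1)) hd0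
    have hst := fun x => hX.stab_of_fix hS hq hk hu hu hu0 hs (x := x) (by
      rw [e1, show c + γ • (β • c₀ + z) = (c + (γ * β) • c₀) + γ • z by module, map_add, k3,
        map_smul, k1 z hz])
    have hkC : C.map (k.1 : V →ₗ[F] V) = C :=
      map_eq_of_le k.1 (fun x hx => ⟨hst x hx.1, k2 x hx.2⟩) le_rfl
    have m1 : k.1 x₀ - x₀ ∈ C := ⟨X.sub_mem (hst _ a1) a1, by
      rw [e1, map_add, k1 z hz, add_sub_add_right_eq_sub]
      exact D.sub_mem (k2 _ (D.smul_mem _ b1)) (D.smul_mem _ b1)⟩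
    have m2 : k.1 x₀ - x₀ = 0 := by
      by_contra h0
      obtain ⟨y₂, hy₂, e3⟩ : k.1 x₀ - x₀ ∈ C.map (k.1 : V →ₗ[F] V) := hkC.symm ▸ m1
      apply han' _ m1 h0
      rw [map_sub, a2 _ m1, ← e3]
      simpa using a2 y₂ hy₂
    rw [e1, map_add, k1 z hz, add_sub_add_right_eq_sub, sub_eq_zero] at m2
    obtain ⟨s, hs'⟩ := Submodule.mem_span_singleton.1 (k4 _ (D.smul_mem _ b1) m2)
    have e3 := congrArg (S.h c) hs'
    simp [b2 c hc, han' c hc hc0] at e3
    rw [e3, zero_smul, eq_comm, smul_eq_zero] at hs'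
    exact hs'.elim hβ (ne_zero_of_notMem b3)

theorem P3.eq_or_perp (hS : S.Nondeg) (h2 : (2 : F) ≠ 0) (hq : 5 ≤ Nat.card F)
    {X D : Submodule F V} (hX : P3 H X) (hD : P3 H D) : X = D ∨ X ≤ S.perp D := by
  by_contra hcon
  push Not at hcon
  obtain ⟨hne, hp⟩ := hcon
  have hC : finrank F ↥(X ⊓ D) ≤ 1 := by
    by_contra h
    exact hne (hX.eq_of_plane hS h2 hq hD (by omega))
  have hdj := Submodule.disjoint_def.1 ((S.restrict_nondeg_iff _).1 hD.nondeg)
  by_cases hZ : 2 ≤ finrank F ↥(X ⊓ S.perp D)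
  · obtain ⟨x₀, hx₀, hx₀'⟩ := SetLike.not_le_iff_exists.1 hp
    obtain ⟨d, hd, z, hz, rfl⟩ := exists_decomp hD.nondeg x₀
    obtain ⟨k, hk, k1, k2, k3⟩ := hD.exists_move hS h2 hq hd (by rintro rfl; simp [hz] at hx₀')
    have e := hX.eq_of_plane hS h2 hq (hX.map hk) (hZ.trans (Submodule.finrank_mono
      fun y hy => ⟨hy.1, y, hy.1, k1 y hy.2⟩))
    have m : k.1 (d + z) ∈ X := by rw [e]; exact ⟨_, hx₀, rfl⟩
    have e2 : (X ⊓ S.perp D) ⊔ F ∙ (d + z) = X := Submodule.eq_of_le_of_finrank_le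
      (sup_le inf_le_left ((Submodule.span_singleton_le_iff_mem _ _).2 hx₀))
      (by rw [Submodule.finrank_sup_span_singleton
        (show d + z ∉ X ⊓ S.perp D from fun h => hx₀' h.2)]; have := hX.dim; omega)
    rw [← e2] at m
    obtain ⟨y, hy, w, hw, e3⟩ := Submodule.mem_sup.1 m
    obtain ⟨s, rfl⟩ := Submodule.mem_span_singleton.1 hw
    rw [map_add, k1 z hz] at e3
    have := hdj (k.1 d - s • d) (D.sub_mem (k2 d hd) (D.smul_mem _ hd)) (by
      rw [show k.1 d - s • d = y + s • z - z by linear_combination (norm := module) -e3]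
      exact Submodule.sub_mem _ (Submodule.add_mem _ hy.2 (Submodule.smul_mem _ _ hz)) hz)
    exact k3 (by
      rw [sub_eq_zero.1 this]; exact Submodule.smul_mem _ _ (Submodule.mem_span_singleton_self _))
  have key : ∀ u ∈ X, S.Sing u → u ∉ S.perp D → ∃ c ∈ X ⊓ D, c ≠ 0 ∧ S.h u c = 0 := by
    intro u hu hs hu'
    obtain ⟨d, hd, z, hz, rfl⟩ := exists_decomp hD.nondeg u
    have hd0 : d ≠ 0 := by rintro rfl; simp [hz] at hu'
    obtain ⟨k, hk, k1, k2, k3, k4⟩ := hD.exists_axis hS h2 hq hd hd0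
    have hku : k.1 (d + z) = d + z := by rw [map_add, k3, k1 z hz]
    have hst := fun x => hX.stab_of_fix hS hq hk hu hu (ne_zero_of_notMem hu') hs hku (x := x)
    obtain ⟨x, hx, hx'⟩ : ∃ x ∈ X, x ∉ (F ∙ (d + z)) ⊔ (X ⊓ S.perp D) := by
      by_contra hc
      push Not at hc
      have h1 := Submodule.finrank_mono (show X ≤ _ from hc)
      have h3 := Submodule.finrank_add_le_finrank_add_finrank (F ∙ (d + z)) (X ⊓ S.perp D)
      have h4 := finrank_span_one_le (F := F) (d + z)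
      have := hX.dim
      omega
    obtain ⟨d', hd', z', hz', rfl⟩ := exists_decomp hD.nondeg x
    refine ⟨k.1 (d' + z') - (d' + z'), ⟨X.sub_mem (hst _ hx) hx, ?_⟩, fun h0 => hx' ?_, ?_⟩
    · rw [map_add, k1 z' hz', add_sub_add_right_eq_sub]
      exact D.sub_mem (k2 _ hd') hd'
    · rw [map_add, k1 z' hz', add_sub_add_right_eq_sub, sub_eq_zero] at h0
      obtain ⟨s, rfl⟩ := Submodule.mem_span_singleton.1 (k4 _ hd' h0)
      refine Submodule.mem_sup.2 ⟨s • (d + z), Submodule.smul_mem _ _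
        (Submodule.mem_span_singleton_self _), z' - s • z, ⟨?_, Submodule.sub_mem _ hz'
          (Submodule.smul_mem _ _ hz)⟩, by module⟩
      have := X.sub_mem hx (X.smul_mem s hu)
      rwa [show s • d + z' - s • (d + z) = z' - s • z by module] at this
    · rw [map_sub]
      conv_lhs => rw [← hku, isom_h, hku]
      exact sub_self _
  obtain ⟨e, he, f, hf, Hy⟩ := exists_hyp_mem (iso3_orth S) hX.nondeg hX.dim.ge
  have hspan := span_sing X he hf Hy.sing_e (by simp [Hy.h_ef])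
  obtain ⟨u₀, hu₀, hs₀, hu₀'⟩ : ∃ u ∈ X, S.Sing u ∧ u ∉ S.perp D := by
    by_contra hc
    push Not at hc
    exact hp (hspan (S.perp D).toAddSubgroup hc)
  obtain ⟨c₀, hc₀, hc₀0, -⟩ := key u₀ hu₀ hs₀ hu₀'
  have e : (F ∙ c₀) = X ⊓ D := Submodule.eq_of_le_of_finrank_le
    ((Submodule.span_singleton_le_iff_mem _ _).2 hc₀) (by rwa [finrank_span_singleton hc₀0])
  refine hc₀0 ((S.restrict_nondeg_iff' X).1 hX.nondeg c₀ hc₀.1
    (hspan (LinearMap.ker (S.h c₀)).toAddSubgroup fun u hu hs => ?_))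
  by_cases hu' : u ∈ S.perp D
  · exact hu' c₀ hc₀.2
  · obtain ⟨c, hc, hc0, h⟩ := key u hu hs hu'
    rw [← e] at hc
    obtain ⟨s, rfl⟩ := Submodule.mem_span_singleton.1 hc
    have hs0 : s ≠ 0 := by rintro rfl; simp at hc0
    exact S.h_swap_zero (by simpa [hs0] using h)

theorem odec3_dichotomy (hS : S.Nondeg) (h2 : (2 : F) ≠ 0) (hq : 5 ≤ Nat.card F) {t : ℕ}
    {D : Fin t → Submodule F V} (h : ODec S 3 D) (hn : 5 ≤ finrank F V)
    (heq : ∀ i j, Eqv (S.restrict (D i)) (S.restrict (D j)))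
    (H : Subgroup S.Isom) (hH : ∀ g ∈ S.E, ODec.Perm D g → g ∈ H) :
    S.E ≤ H ∨ ∀ g ∈ H, ODec.Perm D g := by
  have hE : ∀ i, ∀ u ∈ D i, ∀ v ∈ D i, ∀ a, S.eich u v a ∈ H := fun i u hu v hv a =>
    hH _ (S.eich_mem_E u v a) (h.perm_eich hu hv a)
  obtain ⟨e₀, f₀, Hy₀⟩ := hS.orth_exists_hyp (by omega)
  have hR : ∀ i j, ∀ a ∈ D i, ∀ b ∈ D j, S.q a ≠ 0 → S.q b ≠ 0 → sqSign (S.q a) = sqSign (S.q b) →
      S.refl a * S.refl b ∈ H := fun i j a ha b hb h1 h3 h4 =>
    hH _ ((hS.mem_E_iff (by omega) Hy₀ _).2 ⟨by simp [hS.dick_refl h1, hS.dick_refl h3], by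
      rw [map_mul, hS.spin_refl h1, hS.spin_refl h3, h4, Int.units_mul_self]⟩)
      ((h.perm_of_fix (fun x hx => refl_mem ha hx) fun x hx => refl_apply_of_perp (hx a ha)).mul
        (h.perm_of_fix (fun x hx => refl_mem hb hx) fun x hx => refl_apply_of_perp (hx b hb)))
  by_cases hE' : S.E ≤ H
  · exact Or.inl hE'
  have hB : ∀ i, ∀ u ∈ D i, u ≠ 0 → ∀ hs : S.Sing u, ∀ v ∈ BSet H hs, v ∈ D i := by
    intro i u hu hu0 hs v hv
    by_contra hvW
    apply hE'
    have hW := h.nondeg i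
    have hsm : ∀ u ∈ D i, u ≠ 0 → ∀ hs : S.Sing u, ∀ y ∈ S.perp (D i), y ∈ BSet H hs →
        ∀ c : F, c • y ∈ BSet H hs := by
      intro u hu hu0 hs y hy hyB c
      obtain ⟨f, hf, Hy⟩ := exists_partner_mem hW hu hu0 hs
      have key : ∀ l : F, l ^ 2 • y ∈ BSet H hs := fun l => by
        by_cases hl : l = 0
        · simp [hl]
        let c : Fˣ := Units.mk0 (l ^ 2) (pow_ne_zero 2 hl)
        have ht : Hy.tor c ∈ H := by
          rw [Hy.orth_tor_eq]
          have e3 : S.q (u - f) = -1 := by simpa using Hy.orth_q_sub 1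
          refine hR i i _ ((D i).sub_mem hu hf) _ ((D i).sub_mem hu ((D i).smul_mem _ hf))
            (by simp [e3]) (by simp [Hy.orth_q_sub]) ?_
          rw [e3, Hy.orth_q_sub, show -(c : F) = -1 * l ^ 2 by simp [c],
            sqSign_mul (by simp) (pow_ne_zero 2 hl), sqSign_sq, mul_one]
        have := BSet_map (hu' := hs.smul (c : F)) hyB ht (Hy.tor_e c)
        rw [Hy.tor_perp c (S.mem_perp_pair.2 ⟨hy u hu, hy f hf⟩)] at this
        exact BSet_smul (hu := hs) c.ne_zero this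
      convert (BSet H hs).sub_mem (key ((c + 1) / 2)) (key ((c - 1) / 2)) using 1
      rw [← sub_smul]
      congr 1
      field_simp
      ring
    have transfer : ∀ u ∈ D i, u ≠ 0 → ∀ hs : S.Sing u, ∀ u' ∈ D i, u' ≠ 0 → ∀ hs' : S.Sing u',
        ∀ y ∈ S.perp (D i), y ∈ BSet H hs → y ∈ BSet H hs' := by
      intro u hu hu0 hs u' hu' hu0' hs' y hy hyB
      obtain ⟨g, hg, c, hc, e⟩ := hW.exists_E_move (Or.inr (h.dim i).ge) (x := ⟨u, hu⟩)
        (y := ⟨u', hu'⟩) hs (by simpa using hu0) hs' (by simpa using hu0')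
      have e' : (ext1 hW g).1 u = c • u' := by
        rw [ext1_left hW g ⟨u, hu⟩, e]; rfl
      have := BSet_map (hu' := hs'.smul c) hyB (ext1_E_mem hW (hE i) hg) e'
      rw [ext1_right hW g hy] at this
      have := hsm u' hu' hu0' hs' _ (Submodule.smul_mem _ _ hy) (BSet_smul (hu := hs') hc this) c⁻¹
      simpa [smul_smul, hc] using this
    let Y : Submodule F V :=
      { carrier := {y | y ∈ S.perp (D i) ∧ y ∈ BSet H hs}
        add_mem' := fun ha hb => ⟨Submodule.add_mem _ ha.1 hb.1, AddSubgroup.add_mem _ ha.2 hb.2⟩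
        zero_mem' := ⟨Submodule.zero_mem _, AddSubgroup.zero_mem _⟩
        smul_mem' := fun c y hy => ⟨Submodule.smul_mem _ _ hy.1, hsm u hu hu0 hs y hy.1 hy.2 c⟩ }
    have hdec : ∀ v, S.h u v = 0 → ∃ a ∈ BSet H hs, ∃ b ∈ S.perp (D i), v = a + b ∧ a ∈ D i := by
      intro v hv
      obtain ⟨a, ha, b, hb, rfl⟩ := exists_decomp hW v
      exact ⟨a, mem_BSet_of_mem (hE i) hu hs ha (by simpa [hb u hu] using hv), b, hb, rfl, ha⟩
    have hY : S.perp (D i) ≤ Y := by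
      refine h.irr_perp hS (iso3_orth S) le_rfl hn heq hH i ?_ Y (fun y hy => hy.1) ?_
        fun g hg hgW y hy => ⟨?_, ?_⟩
      · intro Y hY j hj y hy hyi hyj
        have key : ∀ y ∈ Y, y ∈ S.perp (D i) → ∀ a ∈ D j, S.q a ≠ 0 → S.h a y ≠ 0 → a ∈ Y := by
          intro y hy hyi a ha h1 h3
          obtain ⟨b, hb, hqb⟩ := orth_exists_q_eq_mem hW (by rw [h.dim]; omega) (S.q a)
          have := hY _ (hR j i a ha b hb h1 (by rwa [hqb]) (by rw [hqb])) (mem_stab_of_le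
            fun x hx => by
              rw [isom_mul_apply, refl_apply_of_perp (h.orth j i hj (refl_mem hb hx) a ha)]
              exact refl_mem hb hx) y hy
          rw [isom_mul_apply, refl_apply_of_perp (hyi b hb), refl_apply] at this
          have := Y.smul_mem ((S.q a)⁻¹ * S.h a y)⁻¹ (Y.sub_mem hy this)
          rwa [sub_sub_cancel, smul_smul, inv_mul_cancel₀ (by simp [h1, h3]), one_smul] at this
        have hgen := fun A : AddSubgroup (D j) => (h.nondeg j).orth_addSubgroup_eq_top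
          (Or.inr (Or.inl (by rw [h.dim]; omega))) A
        obtain ⟨a, ha, h1, h3⟩ : ∃ a ∈ D j, S.q a ≠ 0 ∧ S.h a y ≠ 0 := by
          by_contra hc
          push Not at hc
          apply hyj
          intro x hx
          have := hgen (LinearMap.ker (S.h y ∘ₗ (D j).subtype)).toAddSubgroup
            fun x hx => S.h_swap_zero (hc x x.2 hx)
          have : (⟨x, hx⟩ : D j) ∈ (LinearMap.ker (S.h y ∘ₗ (D j).subtype)).toAddSubgroup :=
            this ▸ AddSubgroup.mem_top _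
          exact S.h_swap_zero this
        have haY := key y hy hyi a ha h1 h3
        have hR' := (h.nondeg j).orth_R_eq_top (notO4_of_two_ne h2)
        have := orth_irr (h.nondeg j) (fun h' => by have := h.dim j; omega)
          (Y.comap (D j).subtype) (fun h0 => by
            have : (⟨a, ha⟩ : D j) ∈ Y.comap (D j).subtype := haY
            rw [h0, Submodule.mem_bot] at this
            apply h1
            rw [show a = 0 from congrArg Subtype.val this, orth_q_zero])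
          (fun g => R_induction hR' (p := fun g => ∀ y ∈ Y.comap (D j).subtype,
            g.1 y ∈ Y.comap (D j).subtype) (fun y hy => hy) (fun v g hv hg y hy => by
              rw [isom_mul_apply, refl_apply]
              refine Submodule.sub_mem _ (hg y hy) ?_
              by_cases h0 : (S.restrict (D j)).h v (g.1 y) = 0
              · simp only [h0, mul_zero, zero_smul, Submodule.zero_mem]
              · exact Submodule.smul_mem _ _ (key _ (hg y hy) (h.orth i j hj.symm (g.1 y).2)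
                  v v.2 hv h0)) g)
        intro x hx
        have : (⟨x, hx⟩ : D j) ∈ Y.comap (D j).subtype := this ▸ Submodule.mem_top
        exact this
      · obtain ⟨a, ha, b, hb, rfl, haW⟩ := hdec v (BSet_perp hv)
        intro h0
        have : b ∈ Y := ⟨hb, by simpa using (BSet H hs).sub_mem hv ha⟩
        rw [h0, Submodule.mem_bot] at this
        exact hvW (by simpa [this] using haW)
      · exact (stab_le_stab_perp _ hgW y).1 hy.1
      · exact transfer (g.1 u) ((hgW u).1 hu) (by simpa using hu0) ((isom_sing g u).2 hs) u hu hu0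
          hs _ ((stab_le_stab_perp _ hgW y).1 hy.1) (BSet_map hy.2 hg rfl)
    have hfull : ∀ u' ∈ D i, u' ≠ 0 → S.Sing u' → Full H u' := fun u' hu' hu0' hs' => by
      refine full_of_BSet hs' (fun v hv => ?_) (fun a _ => hE i u' hu' 0 (D i).zero_mem a)
      obtain ⟨a, ha, b, hb, rfl⟩ := exists_decomp hW v
      exact AddSubgroup.add_mem _
        (mem_BSet_of_mem (hE i) hu' hs' ha (by simpa [hb u' hu'] using hv))
        (transfer u hu hu0 hs u' hu' hu0' hs' b hb (hY hb).2)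
    obtain ⟨f, hf, Hy⟩ := exists_partner_mem hW hu hu0 hs
    exact S.E_le_iff.2 fun x v a _ => full_all_of_pair hS hs Hy.sing_f (hfull u hu hu0 hs)
      (hfull f hf Hy.f_ne Hy.sing_f) (by rw [Hy.h_ef]; exact one_ne_zero) x v a
  have hP : ∀ i, P3 H (D i) := fun i => ⟨h.nondeg i, h.dim i, hR i i, hE i, hB i⟩
  refine Or.inr fun g hg i => ?_
  by_contra hc
  push Not at hc
  obtain ⟨x, hx, hx0⟩ := exists_ne_zero_of_finrank (D i) (by rw [h.dim]; omega)
  refine hx0 (by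
    simpa using h.eq_zero hS (x := g.1 x) fun j =>
      ((((hP i).map hg).eq_or_perp hS h2 hq (hP j)).resolve_left fun h' => by
        obtain ⟨y, hy, hy'⟩ := hc j
        exact hy' (h' ▸ ⟨y, hy, rfl⟩)) ⟨x, hx, rfl⟩)

end H29
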