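import Cfsg.Agent.H29.OG

/-! Orthogonal decompositions into 4-spaces: `odec4_dichotomy`. -/

set_option autoImplicit false
set_option linter.unusedSectionVars false

namespace H29

open Module H11 H11.PForm

universe u
variable {F : Type*} [Field F] {V : Type u} [AddCommGroup V] [Module F V] {S : PForm (orthP F) V}
  [FiniteDimensional F V] [Finite F] {H : Subgroup S.Isom} {X : Submodule F V}

theorem conn_four (hS : S.Nondeg) (hX : (S.restrict X).Nondeg) (h4 : 4 ≤ finrank F X)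
    (hO : (S.restrict X).NotO4) : Conn S X := fun Y Z hYZ _ v hv qv vY hb => by
  obtain h2 | h2 := eq_or_ne (2 : F) 0
  · have sq : ∀ a : F, sqSign a = 1 := fun a => sqSign_eq_one_iff.2 (isSquare_of_two_eq_zero h2 a)
    have := orth_irr hX (fun h' => by omega) (Y.comap X.subtype) (fun h0 => qv (by
        have : (⟨v, hv⟩ : X) ∈ Y.comap X.subtype := vY
        rw [h0, Submodule.mem_bot] at this
        rw [show v = 0 from congrArg Subtype.val this, orth_q_zero]))
      (fun g => R_induction (hX.orth_R_eq_top hO) (p := fun g => ∀ y ∈ Y.comap X.subtype,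
        g.1 y ∈ Y.comap X.subtype) (fun y hy => hy) (fun b g qb hg y hy => by
          rw [isom_mul_apply]
          rcases hb b b.2 qb (by rw [sq, sq]) with m | m
          · exact refl_mem m (hg y hy)
          · rw [refl_apply_of_perp (S := S.restrict X) (S.h_swap_zero (hYZ _ (hg y hy) _ m))]
            exact hg y hy) g)
    exact fun x hx => (this.ge (Submodule.mem_top (x := (⟨x, hx⟩ : X))) :)
  · have vv : S.h v v ≠ 0 := by simp [orth_h_self, h2, qv]
    obtain ⟨e, he, f, hf, Hy⟩ := exists_hyp_mem (iso3_orth S) (nondeg_inf_perp hX hv vv) (by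
      have := finrank_inf_perp_one hS X v; omega)
    have A := span_sing _ he hf Hy.sing_e (by simp [Hy.h_ef]) Y.toAddSubgroup fun u hu su => by
      have vu := S.mem_perp_singleton.1 hu.2
      have e : S.q (v + u) = S.q v := by simp [orth_q_add, vu, (S.orth_sing u).1 su]
      simpa using sub_mem ((hb _ (add_mem hv hu.1) (e ▸ qv) (by rw [e])).resolve_right fun m =>
        vv (by simpa [vu] using hYZ v vY _ m)) vY
    intro x hx
    simpa using add_mem (A (x - (S.h v x / S.h v v) • v) ⟨sub_mem hx (X.smul_mem _ hv),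
      S.mem_perp_singleton.2 (by simp [vv])⟩) (Y.smul_mem (S.h v x / S.h v v) vY)

theorem mv_four (hS : S.Nondeg) (hX : (S.restrict X).Nondeg) (h4 : 4 ≤ finrank F X) {y : V}
    (hy : y ∈ X) (y0 : y ≠ 0) : ∃ g ∈ S.E, g ∈ S.fix (S.perp X) ∧ g.1 y ≠ y := by
  by_cases qy : S.q y = 0
  · obtain ⟨f, hf, Hy⟩ := exists_partner_mem hX hy y0 ((S.orth_sing y).2 qy)
    obtain ⟨w, hw, w0, w1⟩ := exists_mem_ker_notMem [S.h y, S.h f] X ⊥ (by simp; omega)
    have a := w1 (S.h y) (by simp)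
    refine ⟨_, S.eich_mem_E f w (S.q w), fun x hx => eich_apply_of_perp_perp (hx f hf) (hx w hw),
      fun e => w0 ?_⟩
    rw [eich_apply (.of_q Hy.sing_f (w1 _ (by simp))), add_sub_assoc, add_eq_left, sub_eq_zero] at e
    have e' := congrArg (S.h y) e
    simp only [map_smul, a, Hy.h_ef, smul_eq_mul, mul_zero, mul_one] at e'
    rw [← e'] at e
    simpa [Hy.orth_h_fe] using e
  · obtain ⟨u, u1, v, hv, u0, us, a1, a2, a3⟩ := ex_move4 hS hX h4 hy qy
    exact ⟨_, S.eich_mem_E u v (S.q v), fun x hx => eich_apply_of_perp_perp (hx u u1) (hx v hv), by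
      simp [eich_apply_of_perp (.of_q us a2) a1, a3, u0]⟩

theorem odec4_dichotomy (hS : S.Nondeg) {t : ℕ} {D : Fin t → Submodule F V} (hD : ODec S 4 D)
    (ht : 4 ≤ t) (heq : ∀ i j, Eqv (S.restrict (D i)) (S.restrict (D j)))
    (hO : ∀ i, (S.restrict (D i)).NotO4) (H : Subgroup S.Isom)
    (hH : ∀ g ∈ S.E, ODec.Perm D g → g ∈ H) : S.E ≤ H ∨ ∀ g ∈ H, ODec.Perm D g := by
  have h : OD H 4 D := ⟨hS, hD, by omega, ht, heq, hH, fun i => airr_four hS (hD.nondeg i) (hD.dim i).ge,
    fun i y => mv_four hS (hD.nondeg i) (hD.dim i).ge,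
    fun i => conn_four hS (hD.nondeg i) (hD.dim i).ge (hO i)⟩
  refine or_iff_not_imp_left.2 fun hE g hg => ?_
  have hR : ∀ i, ∀ c ∈ D i, ∀ v, RC H c v → ∃ l, v ∈ D l := fun i c hc v hv => by
    obtain ⟨j, y, hy, qy, hr⟩ := h.ex_ns hv.1
    by_contra! hn
    obtain ⟨l, lj, hl⟩ := h.ex_supp (hn j)
    obtain ⟨u, u1, w, hw, u0, us, a1, a2, a3⟩ := ex_move4 hS (hD.nondeg j) (hD.dim j).ge hy qy
    have e : (S.eich u w (S.q w)).1 v - v = -u := by
      have b1 := hr u u1
      have b2 := hr w hw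
      rw [map_sub, sub_eq_zero] at b1 b2
      simp [eich_apply_of_perp (.of_q us a2) (b1.trans a1), b2, a3]
    exact hE (h.root_of hc hv (S.eich_mem_E u w (S.q w)) (hD.perm_eich u1 hw _) (I := {j}) (by simp; omega)
      (by simpa [e]) (by simpa [e, orth_q_neg] using (S.orth_sing u).1 us)
      (fun l hl => by rw [e]; exact neg_mem (hD.orth _ _ (by simpa using hl) u1)) (by simpa) hl)
  obtain ⟨a, ha, qa⟩ := orth_exists_q_ne_mem (hD.nondeg ⟨0, by omega⟩) (by rw [hD.dim]; omega)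
  obtain ⟨j, y, hy, qy, hr⟩ := h.ex_ns (x := g.1 a) (by simpa)
  obtain ⟨u, hu, w, hw, u0, us, qw, a1, a2, a3⟩ : ∃ u ∈ D j, ∃ w ∈ D j, u ≠ 0 ∧ S.Sing u ∧ S.q w ≠ 0 ∧
      S.h u y = 0 ∧ S.h w y = 0 ∧ S.h w u = 0 := by
    have d := finrank_inf_perp_one hS (D j) y
    rw [hD.dim] at d
    obtain ⟨u, hu, u0, us⟩ := iso3_orth S (D j ⊓ S.perp (F ∙ y)) (by omega)
    have uy := S.mem_perp_singleton.1 hu.2
    by_cases yy : S.h y y = 0
    · exact ⟨u, hu.1, y, hy, u0, us, qy, S.h_swap_zero uy, yy, uy⟩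
    obtain ⟨-, -, w, hw, -, b1, -, b2, -⟩ := exists_basis3 hS (nondeg_inf_perp (hD.nondeg j) hy yy)
      (le_antisymm (by
        have := Submodule.finrank_lt_finrank_of_lt (lt_of_le_of_ne (inf_le_left (b := S.perp (F ∙ y)))
          fun e => yy (S.mem_perp_singleton.1 (e.ge hy).2))
        rw [hD.dim] at this; omega) (by omega)) hu u0 us
    exact ⟨u, hu.1, w, hw.1, u0, us, q_ne_of_h b2, S.h_swap_zero uy,
      S.h_swap_zero (S.mem_perp_singleton.1 hw.2), S.h_swap_zero b1⟩
  have b1 := hr u hu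
  have b2 := hr w hw
  rw [map_sub, sub_eq_zero] at b1 b2
  have qu := (S.orth_sing u).1 us
  refine h.perm_of_fix_rot hR hg (fun r hr e => h.st hR hr ha qa (e.symm ▸ ha)) hw (add_mem hw hu) qw
    (by simp [orth_q_add, qu, a3]) (fun m => ?_) (.inr (by omega)) (b2.trans a2) (by simp [*])
  obtain ⟨c, hc⟩ := Submodule.mem_span_singleton.1 m
  have e : c • u = (1 - c) • w := by linear_combination (norm := module) hc
  have e' := congrArg S.q e
  simp [orth_q_smul, qu, qw] at e'
  rw [e', zero_smul, sub_eq_zero.1 e' |>.symm, one_smul] at e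
  exact u0 e

end H29
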