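import Cfsg.Agent.H29.OH

/-! Orthogonal decompositions into at least five planes (`odec2_five`) and the general statement in
dimension at least ten (`oo_odec_ten`). -/

set_option autoImplicit false
set_option linter.unusedSectionVars false

namespace H29

open Module H11 H11.PForm

universe u
variable {F : Type*} [Field F] {V : Type u} [AddCommGroup V] [Module F V] {S : PForm (orthP F) V}
  [FiniteDimensional F V] [Finite F] {H : Subgroup S.Isom} {X : Submodule F V}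

namespace OD
variable {t : ℕ} {D : Fin t → Submodule F V} (h : OD H 2 D) (hG : ∀ i, GoodP S (D i))
include h

include hG in
theorem pair0 {i j : Fin t} {y z : V} (hy : y ∈ D i) (hz : z ∈ D j) (y0 : y ≠ 0) (z0 : z ≠ 0) :
    ∃ a ∈ S.fix (S.perp (D i)), ∃ b ∈ S.fix (S.perp (D j)),
      (a.1 y - y = 0 → b.1 z - z ≠ 0) ∧ S.q (a.1 y - y) + S.q (b.1 z - z) = 0 := by
  classical
  have T : ∀ i j, (∀ x ∈ D i, S.q x = 0 → x = 0) → ∀ x ∈ D j, S.q x = 0 → x = 0 := fun i j a x hx e => by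
    obtain ⟨φ, hφ⟩ := h.eqv j i
    simpa using a _ (φ ⟨x, hx⟩).2 ((hφ.orth_q ⟨x, hx⟩).trans e)
  by_cases an : ∀ x ∈ D i, S.q x = 0 → x = 0
  · cases nonempty_fintype F
    obtain ⟨A, A1, A2⟩ := aniso_img h.nd (h.od.nondeg i) (h.dim i) an hy y0
    obtain ⟨B, B1, B2⟩ := aniso_img h.nd (h.od.nondeg j) (h.dim j) (T i j an) hz z0
    obtain ⟨a, a1, a2⟩ : ∃ a ∈ A, -a ∈ B := by
      by_contra! e
      have := Finset.card_le_card (show A ∪ B.image Neg.neg ⊆ Finset.univ.erase 0 from fun a m => by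
        simp only [Finset.mem_union, Finset.mem_image, Finset.mem_erase, Finset.mem_univ, and_true] at m ⊢
        rcases m with m | ⟨b, m, rfl⟩
        exacts [(A2 a m).1, neg_ne_zero.2 (B2 b m).1])
      rw [Finset.card_union_of_disjoint (Finset.disjoint_left.2 fun a m m' => by
        obtain ⟨b, m', rfl⟩ := Finset.mem_image.1 m'
        exact e _ m (by simpa)), Finset.card_image_of_injective _ neg_injective,
        Finset.card_erase_of_mem (Finset.mem_univ _), Finset.card_univ, ← Nat.card_eq_fintype_card] at this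
      have := Nat.card_pos (α := F)
      omega
    obtain ⟨qb, b, hb, b1, rfl⟩ := A2 a a1
    obtain ⟨qc, c, hc, c1, e⟩ := B2 _ a2
    refine ⟨_, refl_fix hb, _, refl_fix hc, fun e0 => ?_, ?_⟩
    · simp [refl_apply, b1, qb, ns_ne qb] at e0
    · simp [refl_apply, b1, c1, orth_q_neg, orth_q_smul, e]
  · have E : ∀ j, ∃ e ∈ D j, ∃ f ∈ D j, S.IsHyp e f := fun j => by
      obtain ⟨e, he, e1, e0⟩ : ∃ e ∈ D j, S.q e = 0 ∧ e ≠ 0 := by
        by_contra! a
        exact an (T j i a)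
      exact ⟨e, he, exists_partner_mem (h.od.nondeg j) he e0 ((S.orth_sing e).2 e1)⟩
    obtain ⟨e, he, f, hf, Hy⟩ := E i
    obtain ⟨e', he', f', hf', Hy'⟩ := E j
    obtain ⟨l, m, lm, q0⟩ := ex_lm ((hG i).resolve_left fun a => an a.1) (S.q y) (S.q z)
    obtain ⟨a1, a2⟩ := tor_diff (h.od.dim i) he hf Hy l hy
    obtain ⟨b1, b2⟩ := tor_diff (h.od.dim j) he' hf' Hy' m hz
    exact ⟨_, tor_fix he hf Hy l, _, tor_fix he' hf' Hy' m, 
      fun e0 e1 => lm.elim (· (a2 e0 y0)) (· (b2 e1 z0)), by rw [a1, b1, q0]⟩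

theorem ns_diff {i : Fin t} {y : V} (hy : y ∈ D i) (qy : S.q y ≠ 0) {a : S.Isom}
    (ha : a ∈ S.fix (S.perp (D i))) (e : S.q (a.1 y - y) = 0) : a.1 y - y = 0 := by
  by_contra e0
  have m := sub_mem ((stab_of_fix_perp h.nd ha y).1 hy) hy
  obtain ⟨f, hf, Hy⟩ := exists_partner_mem (h.od.nondeg i) m e0 ((S.orth_sing _).2 e)
  have e1 := S.orth_q_add (a.1 y - y) y
  rw [sub_add_cancel, orth_isom_q, e] at e1
  refine qy ?_
  rw [plane_eq (h.od.dim i) m hf Hy hy, show S.h (a.1 y - y) y = 0 by linear_combination -e1]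
  simp [orth_q_smul, e]

include hG in
theorem pair1 {i j : Fin t} {y z : V} (hy : y ∈ D i) (hz : z ∈ D j) (qy : S.q y ≠ 0) (qz : S.q z ≠ 0) :
    ∃ a ∈ D i, ∃ b ∈ D j, S.q a ≠ 0 ∧ S.q b = -S.q a ∧ (S.refl a).1 y = y + a ∧ (S.refl b).1 z = z + b := by
  obtain ⟨a, ha, b, hb, n0, q0⟩ := h.pair0 hG hy hz (ns_ne qy) (ns_ne qz)
  have q1 : S.q (a.1 y - y) ≠ 0 := fun e => n0 (h.ns_diff hy qy ha e) (h.ns_diff hz qz hb (by simpa [e] using q0))
  have R : ∀ (a : S.Isom) y, S.q (a.1 y - y) ≠ 0 → (S.refl (a.1 y - y)).1 y = y + (a.1 y - y) := fun a y e => by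
    rw [← refl_neg, neg_sub, refl_sub_apply (orth_isom_q a y).symm (by rwa [← neg_sub, orth_q_neg]),
      add_sub_cancel]
  have q2 := eq_neg_of_add_eq_zero_right q0
  exact ⟨_, sub_mem ((stab_of_fix_perp h.nd ha y).1 hy) hy, _, sub_mem ((stab_of_fix_perp h.nd hb z).1 hz) hz,
    q1, q2, R a y q1, R b z (by rwa [q2, neg_ne_zero])⟩

theorem root_neg (h2 : (2 : F) ≠ 0) {c a b r : V} {k i j l : Fin t} (hc : c ∈ D k) (ij : i ≠ j)
    (ha : a ∈ D i) (hb : b ∈ D j) (a0 : a ≠ 0) (e : S.q b = -S.q a) (hr : r ∈ S.perp (D i ⊔ D j))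
    (hv : RC H c (a + b + r)) (hl : l ∉ ({i, j} : Finset _)) (vl : r ∉ S.perp (D l)) : S.E ≤ H := by
  let N : Fin t → S.Isom := fun i => ext1 (h.od.nondeg i) (negOne _)
  have N1 : ∀ i, N i ∈ S.fix (S.perp (D i)) := fun i x hx => ext1_right _ _ hx
  have N2 : ∀ i, ∀ x ∈ D i, (N i).1 x = -x := fun i x hx => by
    simpa using ext1_left (h.od.nondeg i) (negOne _) ⟨x, hx⟩
  have o := h.od.orth i j ij hb
  rw [perp_sup] at hr
  have e1 : (N i * N j).1 (a + b + r) - (a + b + r) = (-2 : F) • (a + b) := by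
    simp only [isom_mul_apply, map_add, N1 j a (h.od.orth j i ij.symm ha), N1 j r hr.2, N2 j b hb, map_neg,
      N1 i b o, N1 i r hr.1, N2 i a ha]
    module
  have m := Submodule.add_mem_sup ha hb
  refine h.root_of hc hv ((h.memE (N i * N j)).2 ⟨?_, ?_⟩) ((h.pf (N1 i)).mul (h.pf (N1 j))) (I := {i, j})
    (by have := Finset.card_le_two (a := i) (b := j); have := h.four; omega) ?_ ?_
    (fun l hl => e1 ▸ Submodule.smul_mem _ _ (h.perp_of_sup hl m)) hl
    fun e => vl (by simpa using sub_mem e (h.perp_of_sup hl m))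
  · simp [N, h.nd.dick_ext1, Nondeg.dick_negOne _ h2, h.od.dim]
  · have := (h.eqv i j).disc_eq (h.od.nondeg i) (h.od.nondeg j)
    simp only [Nondeg.disc] at this
    simp [N, h.nd.spin_ext1, this]
  · rw [e1]
    exact smul_ne_zero (neg_ne_zero.2 h2) fun e0 => a0 (h.od.eq_zero' ha
      (eq_neg_of_add_eq_zero_left e0 ▸ neg_mem o))
  · rw [e1, orth_q_smul, orth_q_add, e, o a ha]; simp

include hG in
theorem root_full (ht : 5 ≤ t) {c v : V} {k : Fin t} (hc : c ∈ D k) (hv : RC H c v)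
    (hn : ∀ n, v ∉ S.perp (D n)) : S.E ≤ H := by
  obtain ⟨y, hy, hr, -⟩ := h.comp v
  have y0 : ∀ n, y n ≠ 0 := fun n e => hn n (by simpa [e] using hr n)
  have M : ∀ n, ∀ a ∈ S.fix (S.perp (D n)), a.1 v - v = a.1 (y n) - y n := fun n a ha => by
    have := ha _ (hr n)
    rw [map_sub] at this
    linear_combination (norm := module) this
  by_cases hs : ∃ n, S.q (y n) = 0
  · obtain ⟨n, hs⟩ := hs
    obtain ⟨f, hf, Hy⟩ := exists_partner_mem (h.od.nondeg n) (hy n) (y0 n) ((S.orth_sing _).2 hs)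
    have hq : 7 ≤ Nat.card F := (hG n).resolve_left fun a => y0 n (a.1 _ (hy n) hs)
    obtain ⟨l, hl⟩ := ex_ne_poly (F := F) (n := 3) (by omega) (.X * (.X ^ 2 - 1))
      (Polynomial.Monic.ne_zero (by monicity!)) (by compute_degree!)
    simp only [Polynomial.eval_mul, Polynomial.eval_sub, Polynomial.eval_X, Polynomial.eval_one,
      Polynomial.eval_pow, ne_eq, mul_eq_zero, not_or] at hl
    let u : Fˣ := Units.mk0 (l ^ 2) (pow_ne_zero 2 hl.1)
    have e : (Hy.tor u).1 v - v = (l ^ 2 - 1) • y n := by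
      rw [M n _ (tor_fix (hy n) hf Hy u), Hy.tor_e, sub_smul, one_smul]; rfl
    obtain ⟨m, mn, -⟩ := h.ex2 ∅ (by simp; omega) n
    exact h.root_of hc hv ((h.memE _).2 ⟨h.nd.dick_tor Hy u, by rw [h.nd.spin_tor]; exact sqSign_sq l⟩)
      (h.pf (tor_fix (hy n) hf Hy u)) (I := {n}) (by simp; omega) (e ▸ smul_ne_zero hl.2 (y0 n))
      (by simp [e, orth_q_smul, hs]) (fun l hl => e ▸ Submodule.smul_mem _ _
        (h.od.orth _ _ (by simpa using hl) (hy n))) (l := m) (by simpa) (hn m)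
  push Not at hs
  let L : Fin 5 → Fin t := Fin.castLE ht
  have n : ∀ a b, a ≠ b → L a ≠ L b := fun a b e => (Fin.castLE_injective _).ne e
  have o : ∀ a b, a ≠ b → ∀ x ∈ D (L a), ∀ z ∈ D (L b), S.h x z = 0 := fun a b e x hx z hz =>
    h.od.orth _ _ (n a b e) hz x hx
  obtain ⟨a, ha, b, hb, qa, qb, a1, b1⟩ := h.pair1 hG (hy (L 0)) (hy (L 1)) (hs _) (hs _)
  obtain ⟨a', ha', b', hb', qa', qb', a1', b1'⟩ := h.pair1 hG (hy (L 2)) (hy (L 3)) (hs _) (hs _)
  have R : ∀ n, ∀ a ∈ D n, (S.refl a).1 (y n) = y n + a → (S.refl a).1 v = v + a := fun n a ha e => by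
    have := M n _ (refl_fix ha)
    rw [e] at this
    linear_combination (norm := module) this
  replace a1 := R _ _ ha a1; replace b1 := R _ _ hb b1; replace a1' := R _ _ ha' a1'; replace b1' := R _ _ hb' b1'
  have P := fun {n a} (ha : a ∈ D n) => h.pf (refl_fix ha)
  have ab : a + b ≠ 0 := fun e => ns_ne qa (h.od.eq_zero' ha (eq_neg_of_add_eq_zero_left e ▸
    neg_mem (h.od.orth _ _ (n 0 1 (by decide)) hb)))
  have m := Submodule.add_mem_sup ha hb
  have m' := Submodule.add_mem_sup ha' hb'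
  have qb0 : S.q b ≠ 0 := by rwa [qb, neg_ne_zero]
  have qb0' : S.q b' ≠ 0 := by rwa [qb', neg_ne_zero]
  have sg : ∀ x : F, x ≠ 0 → sqSign (-x) = sqSign (-1 : F) * sqSign x := fun x e => by
    rw [← sqSign_mul (by simp) e, neg_one_mul]
  have q2 : S.q (a + b) = 0 := by simp [orth_q_add, qb, o 0 1 (by decide) a ha b hb]
  have q2' : S.q (a' + b') = 0 := by simp [orth_q_add, qb', o 2 3 (by decide) a' ha' b' hb']
  obtain s1 | s1 := Int.units_eq_one_or (sqSign (-1 : F))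
  · have e : (S.refl a * S.refl b).1 v - v = a + b := by
      simp [b1, a1, refl_apply_of_perp (o 0 1 (by decide) a ha b hb)]; abel
    exact h.root_of hc hv (h.rrE qa qb0 (by rw [qb, sg _ qa, s1, one_mul])) ((P ha).mul (P hb))
      (I := {L 0, L 1}) (by have := Finset.card_le_two (a := L 0) (b := L 1); omega) (e ▸ ab) (e ▸ q2)
      (fun l hl => e ▸ h.perp_of_sup hl m) (l := L 4) (by simp [n]) (hn _)
  have h2 : (2 : F) ≠ 0 := fun e => sqSign_eq_neg_one_iff.1 s1 (isSquare_of_two_eq_zero e _)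
  have e : (S.refl a * S.refl b * (S.refl a' * S.refl b')).1 v = v + (a + b + (a' + b')) := by
    simp [b1, a1, b1', a1', refl_apply_of_perp, o 0 1 (by decide) a ha b hb, o 0 2 (by decide) a ha a' ha',
      o 0 3 (by decide) a ha b' hb', o 1 2 (by decide) b hb a' ha', o 1 3 (by decide) b hb b' hb',
      o 2 3 (by decide) a' ha' b' hb']
    abel
  have p : a' + b' ∈ S.perp (D (L 0) ⊔ D (L 1)) := by
    rw [perp_sup]; exact ⟨h.perp_of_sup (by simp [n]) m', h.perp_of_sup (by simp [n]) m'⟩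
  have w := h.rc_map hc hv (m := S.refl a * S.refl b * (S.refl a' * S.refl b')) ((h.memE _).2 (by
    simp only [map_mul, h.nd.dick_refl qa, h.nd.dick_refl qb0, h.nd.dick_refl qa', h.nd.dick_refl qb0',
      h.nd.spin_refl qa, h.nd.spin_refl qb0, h.nd.spin_refl qa', h.nd.spin_refl qb0', qb, qb', sg _ qa,
      sg _ qa', s1]
    simp))
    (((P ha).mul (P hb)).mul ((P ha').mul (P hb')))
  have q4 : S.q (a + b + (a' + b')) = 0 := by rw [orth_q_add, q2, q2', p _ m]; simp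
  have p5 : a + b + (a' + b') ∈ S.perp (D (L 4)) :=
    add_mem (h.perp_of_sup (by simp [n]) m) (h.perp_of_sup (by simp [n]) m')
  generalize hz : a + b + (a' + b') = z at e q4 p5
  have e' := w.1
  rw [e] at w
  have e1 := orth_isom_q (S.refl a * S.refl b * (S.refl a' * S.refl b')) v
  rw [e, orth_q_add, q4] at e1
  have q0 : S.q ((S.q v)⁻¹ • z) = 0 := by simp [orth_q_smul, q4]
  have zv : S.h ((S.q v)⁻¹ • z) v = 0 := by
    rw [S.orth_symm, map_smul, show S.h v z = 0 by linear_combination e1, smul_zero]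
  have sz := (S.orth_sing _).2 q0
  have B : v ∈ BSet H sz := ⟨_, .of_q sz zv, by
    rw [orth_eich_eq q0 zv hv.1, smul_inv_smul₀ hv.1]
    convert mul_mem hv.2 (inv_mem w.2) using 1
    simp [refl_inv, mul_assoc, ← mul_assoc (S.refl c)]⟩
  obtain ⟨g, g1, g2, g3⟩ := h.mv (L 4) _ (hy _) (y0 _)
  have B' := sub_mem (BSet_map (hu' := sz) B (h.mem _ g1 (h.pf g2)) (g2 _ (Submodule.smul_mem _ _ p5))) B
  rw [M _ _ g2] at B'
  have qx := mt (h.ns_diff (hy _) (hs _) g2) (sub_ne_zero.2 g3)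
  have hx := sub_mem ((stab_of_fix_perp h.nd g2 _).1 (hy (L 4))) (hy _)
  generalize g.1 (y (L 4)) - y (L 4) = x at B' qx hx
  have E := bset_eich B' (S.q x)
  rw [orth_eich_eq q0 (BSet_perp B') qx] at E
  have γ : S.q x * (S.q v)⁻¹ ≠ 0 := mul_ne_zero qx (inv_ne_zero hv.1)
  refine h.root_neg h2 hx (n 0 1 (by decide)) ((D _).smul_mem (S.q x * (S.q v)⁻¹) ha)
    ((D _).smul_mem (S.q x * (S.q v)⁻¹) hb) (smul_ne_zero γ (ns_ne qa)) (by simp [orth_q_smul, qb])
    (r := x + (S.q x * (S.q v)⁻¹) • (a' + b')) (add_mem (by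
      rw [perp_sup]; exact ⟨h.od.orth _ _ (n 0 4 (by decide)) hx, h.od.orth _ _ (n 1 4 (by decide)) hx⟩)
      (Submodule.smul_mem _ _ p)) ?_ (l := L 4) (by simp [n])
    (h.not_perp hx (ns_ne qx) (Submodule.smul_mem _ _ (h.perp_of_sup (by simp [n]) m')))
  rw [show _ + _ + _ = x + S.q x • (S.q v)⁻¹ • z by rw [← hz]; module]
  refine ⟨?_, by simpa [refl_inv] using inv_mem E⟩
  rw [orth_q_add, orth_q_smul, q0, map_smul, S.h_swap_zero (BSet_perp B')]
  simpa using qx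

include hG

theorem root5 (ht : 5 ≤ t) (hE : ¬ S.E ≤ H) (k : Fin t) (c : V) (hc : c ∈ D k) (v : V) (hv : RC H c v) :
    ∃ l, v ∈ D l := by
  classical
  obtain ⟨i, y, hy, qy, hr⟩ := h.ex_ns hv.1
  by_contra! hn
  apply hE
  obtain ⟨j, ji, vj⟩ := h.ex_supp (hn i)
  have vi : v ∉ S.perp (D i) := by simpa using h.not_perp hy (ns_ne qy) hr
  by_cases hl : ∃ l ∉ ({i, j} : Finset _), v ∉ S.perp (D l)
  · obtain ⟨l, hl, vl⟩ := hl
    by_cases hn : ∃ n, v ∈ S.perp (D n)
    · exact h.root3 hG hc hv ji.symm hl vi vj vl hn.choose_spec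
    push Not at hn
    exact h.root_full hG ht hc hv hn
  push Not at hl
  obtain ⟨z, rfl⟩ : ∃ z, v = y + z := ⟨v - y, by simp⟩
  rw [add_sub_cancel_left] at hr
  have hz : z ∈ D j := by
    by_contra e
    obtain ⟨l, lj, zl⟩ := h.ex_supp e
    obtain rfl | li := eq_or_ne l i
    exacts [zl hr, zl (by simpa using sub_mem (hl l (by simp [lj, li])) (h.od.orth l i li hy))]
  have z0 : z ≠ 0 := by rintro rfl; exact hn i (by simpa)
  obtain ⟨l, n, ln, hl', hn'⟩ := exists_two_notMem ({i, j} : Finset _) (by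
    have := Finset.card_le_two (a := i) (b := j); simp; omega)
  have hl'' := hl'
  simp only [Finset.mem_insert, Finset.mem_singleton, not_or] at hl'' hn'
  obtain ⟨y', hy', q', a1, a2⟩ := tri_plane h.nd (h.od.nondeg i) (h.od.dim i) (hG i) hy qy
  obtain ⟨g, g1, rfl⟩ := witt_mem (h.od.nondeg i) hy hy' (ns_ne qy) (ns_ne (q' ▸ qy)) q'
  obtain ⟨s, s0, s1, -, s2⟩ := h.od.exists_swap h.nd (Ne.symm hl''.2) (h.eqv j l)
  obtain ⟨r, r1, r2⟩ := h.adj (g * s) n
  have sz := s1 z hz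
  have o := h.od.orth
  have w := hv.refl (h.rc_map hc hv r2 (((h.pf g1).mul s0).mul (h.pf r1)))
  rw [isom_mul_apply, r1 _ (hl n (by simp [hn'])), isom_mul_apply, map_add,
    s2 i ji.symm (Ne.symm hl''.1) y hy, map_add, g1 _ (o i l (Ne.symm hl''.1) sz), refl_apply] at w
  have γ0 : (S.q (y + z))⁻¹ * S.h (y + z) (g.1 y + s.1 z) ≠ 0 := mul_ne_zero (inv_ne_zero hv.1) (by
    simpa [o i l (Ne.symm hl''.1) sz y hy, o j l (Ne.symm hl''.2) sz z hz, o j i ji hy' z hz] using a1)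
  generalize (S.q (y + z))⁻¹ * S.h (y + z) (g.1 y + s.1 z) = γ at w γ0
  refine h.root3 hG hc w ji.symm hl' (n := n) ?_ ?_ ?_ ?_
  · convert h.not_perp (sub_mem hy' ((D i).smul_mem γ hy)) (fun e => a2 ?_)
      (sub_mem (o i l (Ne.symm hl''.1) sz) (Submodule.smul_mem _ γ hr)) using 2
    · module
    · rw [← Submodule.smul_mem_iff _ γ0, ← sub_eq_zero.1 e]; exact Submodule.mem_span_singleton_self _
  · convert h.not_perp (neg_mem ((D j).smul_mem γ hz)) (by simp [γ0, z0])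
      (add_mem (o j i ji (sub_mem hy' ((D i).smul_mem γ hy))) (o j l (Ne.symm hl''.2) sz)) using 2
    module
  · convert h.not_perp sz (by simpa) (sub_mem (o l i hl''.1 hy') (Submodule.smul_mem _ γ (hl l hl'))) using 2
    module
  · exact sub_mem (add_mem (o n i hn'.1 hy') (o n l ln.symm sz)) (Submodule.smul_mem _ γ (hl n (by simp [hn'])))

theorem st5 (ht : 5 ≤ t) (hE : ¬ S.E ≤ H) {k : Fin t} {e : V} (he : e ∈ D k) (e0 : e ≠ 0) (g : S.Isom)
    (hg : g ∈ H) (ge : g.1 e = e) : ODec.Perm D g := by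
  have hR := h.root5 hG ht hE
  by_cases qe : S.q e ≠ 0
  · exact h.st hR hg he qe (ge.symm ▸ he)
  push Not at qe
  have se := (S.orth_sing e).2 qe
  obtain ⟨f, hf, Hy⟩ := exists_partner_mem (h.od.nondeg k) he e0 se
  obtain ⟨w, hw, e1⟩ := Hy.exists_decomp (g.1 f)
  have e2 : S.h e (g.1 f) = 1 := by rw [← ge, isom_h, Hy.h_ef]
  rw [e2] at e1
  by_cases wD : w ∈ D k
  · refine h.st hR hg (add_mem he hf) (by simp [orth_q_add, qe, Hy.orth_q_f, Hy.h_ef]) (l := k) ?_
    rw [map_add, ge, e1]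
    exact add_mem he (add_mem (add_mem ((D k).smul_mem _ he) ((D k).smul_mem _ hf)) wD)
  have hq : 7 ≤ Nat.card F := (hG k).resolve_left fun a => e0 (a.1 e he qe)
  obtain ⟨l, hl⟩ := ex_ne_poly (F := F) (n := 3) (by omega) (.X * (.X ^ 2 - 1))
    (Polynomial.Monic.ne_zero (by monicity!)) (by compute_degree!)
  simp only [Polynomial.eval_mul, Polynomial.eval_sub, Polynomial.eval_X, Polynomial.eval_one,
    Polynomial.eval_pow, ne_eq, mul_eq_zero, not_or] at hl
  let c : Fˣ := Units.mk0 (l ^ 2) (pow_ne_zero 2 hl.1)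
  have τ : Hy.tor c ∈ H := h.mem _ ((h.memE _).2 ⟨h.nd.dick_tor Hy c, by
    rw [h.nd.spin_tor]; exact sqSign_sq l⟩) (h.pf (tor_fix he hf Hy c))
  obtain ⟨w1, w2⟩ := S.mem_perp_pair.1 hw
  have ec : S.ECond e w (S.q w) := .of_q se w1
  have e3 : (S.eich e w (S.q w)).1 f = g.1 f := by
    have q1 := orth_isom_q g f
    rw [e1, orth_q_add, Hy.orth_q_comb, Hy.orth_q_f] at q1
    simp [w1, w2] at q1
    rw [e1, eich_apply ec, Hy.h_ef, S.h_swap_zero w2, eq_neg_of_add_eq_zero_left q1]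
    simp; abel
  let r := (S.eich e w (S.q w))⁻¹ * g
  have r1 : r.1 e = e := by
    rw [isom_mul_apply, ge]
    exact (congrArg _ (eich_apply_self e w (S.q w)).symm).trans (isom_inv_apply_self _ _)
  have r2 : r.1 f = f := by rw [isom_mul_apply, ← e3, isom_inv_apply_self]
  have r3 : r * Hy.tor c = Hy.tor c * r := Hy.isom_ext (by simp [r1]) (by simp [r2]) fun x hx => by
    rw [isom_mul_apply, isom_mul_apply (Hy.tor c), Hy.tor_perp c hx, Hy.tor_perp c (S.mem_perp_pair.2 ⟨by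
      rw [← r1, isom_h]; exact (S.mem_perp_pair.1 hx).1, by
      rw [← r2, isom_h]; exact (S.mem_perp_pair.1 hx).2⟩)]
  have r4 := Hy.conj_tor_eich c hw ec
  have w3 : S.h e ((c : F) • w) = 0 := by simp [w1]
  refine absurd ?_ hE
  obtain ⟨n, nk, hn⟩ := h.ex_supp (x := w + -((c : F) • w)) (i := k) fun m => wD (by
    rw [← Submodule.smul_mem_iff _ (neg_ne_zero.2 hl.2)]
    convert m using 1; simp only [c, Units.val_mk0]; module)
  refine h.grow (I := {k}) (by simp; omega) se e0 (fun l hl => h.od.orth _ _ (by simpa using hl) he)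
    ⟨_, .of_q se (by simp [w1]), ?_⟩ (by simpa) hn
  rw [orth_eich_add qe w1 (by simp [w1]), orth_eich_neg qe w3,
    show S.q ((c : F) • w) = c * S.q w * c by rw [orth_q_smul]; ring]
  erw [← r4]
  convert mul_mem (mul_mem (mul_mem hg τ) (inv_mem hg)) (inv_mem τ) using 1
  rw [show g = S.eich e w (S.q w) * r by simp [r], mul_assoc _ r, r3]
  group

theorem final5 (ht : 5 ≤ t) (hE : ¬ S.E ≤ H) {g : S.Isom} (hg : g ∈ H) : ODec.Perm D g := by
  have hR := h.root5 hG ht hE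
  have N := fun i => orth_exists_q_ne_mem (h.od.nondeg i) (by have := h.dim i; omega)
  have A : ∀ g ∈ H, ∀ k, ∀ a ∈ D k, a ≠ 0 → ∀ i, g.1 a ∈ S.perp (D i) → ODec.Perm D g :=
    fun g hg k a ha a0 i e => by
      obtain ⟨u, hu, qu⟩ := N i
      obtain ⟨u', hu', q', a1, a2⟩ := tri_plane h.nd (h.od.nondeg i) (h.od.dim i) (hG i) hu qu
      exact h.perm_of_fix_rot hR hg (h.st5 hG ht hE ha a0) hu hu' qu q' a2 (.inl a1) (e u hu) (e u' hu')
  by_contra hn
  let k : Fin t := ⟨0, by omega⟩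
  obtain ⟨x, hx, qx⟩ := N k
  obtain ⟨y, hy, qy, -, xy⟩ := tri_plane h.nd (h.od.nondeg k) (h.od.dim k) (hG k) hx qx
  have y0 := ns_ne (qy ▸ qx)
  have xy' : ∀ c : F, x - c • y ≠ 0 := fun c e => xy (sub_eq_zero.1 e ▸
    Submodule.smul_mem _ _ (Submodule.mem_span_singleton_self _))
  choose p hp r hr e using fun i => exists_decomp (h.od.nondeg i) (g.1 x)
  choose p' hp' r' hr' e' using fun i => exists_decomp (h.od.nondeg i) (g.1 y)
  have C : ∀ i (s : F), p i + s • p' i ≠ 0 := fun i s e0 => hn (A g hg k _ (sub_mem hx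
    ((D k).smul_mem (-s) hy)) (xy' _) i (by
      convert add_mem (hr i) (Submodule.smul_mem _ s (hr' i)) using 1
      rw [map_sub, map_smul, e i, e' i]
      linear_combination (norm := module) e0))
  let P : Fin t → Polynomial F := fun i =>
    .C (S.q (p' i)) * .X ^ 2 + .C (S.h (p i) (p' i)) * .X + .C (S.q (p i))
  have hP : ∀ i s, (P i).eval s = S.q (p i + s • p' i) := fun i s => by
    simp [P, orth_q_add, orth_q_smul]; ring
  have P0 : ∀ i, P i ≠ 0 := fun i e0 => by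
    have q2 : S.q (p' i) = 0 := by simpa [P] using congrArg (·.coeff 2) e0
    have q3 : S.h (p i) (p' i) = 0 := by simpa [P] using congrArg (·.coeff 1) e0
    obtain ⟨f, hf, Hy⟩ := exists_partner_mem (h.od.nondeg i) (hp' i) (fun e0 => hn (A g hg k y hy y0 i (by
      simpa [e' i, e0] using hr' i))) ((S.orth_sing _).2 q2)
    have e1 := plane_eq (h.od.dim i) (hp' i) hf Hy (hp i)
    rw [S.h_swap_zero q3] at e1
    exact C i (-S.h f (p i)) (by linear_combination (norm := module) e1)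
  let L : Fin 3 → Fin t := Fin.castLE (by omega)
  obtain ⟨s, hs⟩ : ∃ s : F, ∀ a, S.q (p (L a) + s • p' (L a)) ≠ 0 := by
    by_cases h7 : 7 ≤ Nat.card F
    · obtain ⟨s, hs⟩ := ex_ne_poly (F := F) (n := 6) h7 (∏ a, P (L a))
        (Finset.prod_ne_zero_iff.2 fun a _ => P0 _) ((Polynomial.natDegree_prod_le _ _).trans
          ((Finset.sum_le_card_nsmul _ _ 2 fun a _ => Polynomial.natDegree_quadratic_le).trans (by simp)))
      rw [Polynomial.eval_prod, Finset.prod_ne_zero_iff] at hs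
      exact ⟨s, fun a => hP _ s ▸ hs a (Finset.mem_univ _)⟩
    · exact ⟨0, fun a e0 => C _ 0 (((hG _).resolve_right h7).1 _ (add_mem (hp _)
        (Submodule.smul_mem _ _ (hp' _))) e0)⟩
  choose b hb qb b0 using fun a => ex_ns_perp h.nd (h.od.nondeg (L a)) (h.od.dim _)
    (add_mem (hp _) (Submodule.smul_mem _ s (hp' _))) (hs a)
  have b1 : ∀ a, S.h (b a) (g.1 (x - (-s) • y)) = 0 := fun a => by
    rw [map_sub, map_smul, e (L a), e' (L a)]
    simpa [hr _ _ (hb a), hr' _ _ (hb a)] using b0 a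
  obtain ⟨i, j, ij, e2⟩ := Fintype.exists_ne_map_eq_of_card_lt (fun i => sqSign (S.q (b i))) (by simp)
  replace ij : L i ≠ L j := (Fin.castLE_injective _).ne ij
  obtain ⟨n, e3⟩ := h.fix2 (by rw [orth_isom_q]; exact qb i) ((isom_h _ _ _).trans (h.od.orth _ _ ij (hb j) _ (hb i)))
    (notMem_span_map _ fun m => ns_ne (qb i) (Submodule.disjoint_def.1 (h.od.disj ij) _ (hb i)
      ((Submodule.span_singleton_le_iff_mem _ _).2 (hb j) m)))
    (h.conj_fix hg (h.st5 hG ht hE (sub_mem hx ((D k).smul_mem _ hy)) (xy' _)) (h.rr (hb i) (hb j) (qb i) (qb j) e2) (b1 i)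
      (b1 j))
  obtain ⟨l, hl⟩ := A _ (inv_mem hg) _ _ (hb i) (ns_ne (qb i)) n e3 k
  exact hn (h.st hR hg (hl x hx) (by rwa [orth_isom_q]) (l := k) (by simpa))

end OD

theorem odec2_five (hS : S.Nondeg) {t : ℕ} {D : Fin t → Submodule F V} (hD : ODec S 2 D)
    (ht : 5 ≤ t) (hn : 3 ≤ finrank F V) (heq : ∀ i j, Eqv (S.restrict (D i)) (S.restrict (D j)))
    (hG : ∀ i, GoodP S (D i)) (H : Subgroup S.Isom)
    (hH : ∀ g ∈ S.E, ODec.Perm D g → g ∈ H) : S.E ≤ H ∨ ∀ g ∈ H, ODec.Perm D g := by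
  have h : OD H 2 D := by
    refine ⟨hS, hD, le_rfl, by omega, heq, hH, fun i => ?_, fun i y hy y0 => ?_,
      fun i Y Z hYZ _ v hv qv vY hb => ?_⟩
    · by_cases a : ∀ x ∈ D i, S.q x = 0 → x = 0
      · exact airr_minus hS (hD.nondeg i) (hD.dim i).ge a
      have := (hG i).resolve_left fun b => a b.1
      push Not at a
      obtain ⟨e, he, e1, e0⟩ := a
      exact airr_plus (by omega) (hD.nondeg i) (hD.dim i) he e0 ((S.orth_sing e).2 e1)
    · obtain ⟨u, hu, qu⟩ := orth_exists_q_ne_mem (hD.nondeg i) (by rw [hD.dim]; omega)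
      obtain ⟨u', hu', q', -, a2⟩ := tri_plane hS (hD.nondeg i) (hD.dim i) (hG i) hu qu
      obtain ⟨e, f, Hy⟩ := hS.orth_exists_hyp hn
      have qu' := q' ▸ qu
      refine ⟨S.refl u' * S.refl u, (hS.mem_E_iff hn Hy _).2 (by simp [hS.dick_refl, hS.spin_refl, *]),
        mul_mem (refl_fix hu') (refl_fix hu), fun e => y0 ?_⟩
      have e1 := congrArg (S.refl u').1 e
      rw [isom_mul_apply, refl_refl_apply, refl_apply, refl_apply, sub_right_inj, ← sub_eq_zero] at e1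
      obtain ⟨b1, b2⟩ := eq_zero_of_indep (ns_ne qu') a2 e1
      exact hD.eq_zero' hy (S.le_perp_comm.1 (plane_le (hD.dim i) hu hu' (ns_ne qu') a2 (Y := S.perp (F ∙ y))
        (S.mem_perp_singleton.2 (S.h_swap_zero (by simpa [qu] using b1)))
        (S.mem_perp_singleton.2 (S.h_swap_zero (by simpa [qu'] using b2))))
        (Submodule.mem_span_singleton_self y))
    · obtain ⟨u, hu, q', a1, a2⟩ := tri_plane hS (hD.nondeg i) (hD.dim i) (hG i) hv qv
      exact plane_le (hD.dim i) hv hu (ns_ne (q' ▸ qv)) a2 vY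
        ((hb u hu (q' ▸ qv) (by rw [q'])).resolve_right fun m => a1 (hYZ v vY u m))
  exact or_iff_not_imp_left.2 fun hE g hg => h.final5 hG ht hE hg

theorem oo_odec_ten [Fintype F] {n : ℕ} (hn : 10 ≤ n) {Q : (Fin n → F) → F}
    (hQ : Cfsg.Geo.IsNondegenerateQuadraticForm Q) {t k : ℕ} (hk : 2 ≤ k)
    {D : Fin t → Submodule F (Fin n → F)} (hD : Cfsg.Geo.IsOrthogonalMDecomposition Q k D)
    (h2 : k = 2 → Fintype.card F ≠ 3 ∧ ((∀ i, Cfsg.Geo.IsPlusTypeOn Q (D i)) → 7 ≤ Fintype.card F))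
    (h3 : k = 3 → Odd (Fintype.card F) ∧ Fintype.card F ≠ 3)
    (h4 : k = 4 → Fintype.card F = 2 → ¬ ∀ i, Cfsg.Geo.IsPlusTypeOn Q (D i)) :
    Cfsg.Geo.IsMaximalIn (Cfsg.Geo.omegaGL Q)
      (Cfsg.Geo.decompositionStabilizer D ⊓ Cfsg.Geo.omegaGL Q) := by
  have hS := quadOf_nondeg hQ
  have h : ODec (orthS (quadOf hQ)) k D := odec_of _ (fun x y => Iff.rfl) hD.decomp
  have heq : ∀ i j, Eqv ((orthS (quadOf hQ)).restrict (D i)) ((orthS (quadOf hQ)).restrict (D j)) :=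
    fun i j => (hD.isometric i j).imp fun e he => orth_isIsom he
  have hdim : t * k = n := by
    have h1 := (DirectSum.isInternal_submodule_of_iSupIndep_of_iSup_eq_top hD.decomp.1.indep
      hD.decomp.1.iSup_eq_top)
    simpa [Module.finrank_directSum, h.dim] using
      (LinearEquiv.ofBijective (DirectSum.coeLinearMap D) h1).finrank_eq
  have c1 := Fintype.one_lt_card (α := F)
  rw [← coe_quadOf hQ, omegaGL_eq _ hS (by simp; omega)]
  refine isMaximalIn_odec hS hD.decomp.1 h ?_ fun H hH _ => ?_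
  · obtain rfl | k2 := eq_or_ne k 2
    · exact h.ex_not_perm2 hS (by omega)
    obtain ⟨e, he, e0, hs⟩ := iso3_orth (orthS (quadOf hQ)) (D ⟨0, by have := h.two; omega⟩)
      (by rw [h.dim]; omega)
    exact h.exists_E_not_perm hS he e0 hs
  obtain rfl | rfl | rfl | k5 : k = 2 ∨ k = 3 ∨ k = 4 ∨ 5 ≤ k := by omega
  · refine odec2_five hS h (by omega) (by simp; omega) heq (fun i => ?_) H hH
    obtain ⟨a1, a2⟩ := h2 rfl
    rw [GoodP, Nat.card_eq_fintype_card]
    refine or_iff_not_imp_right.2 fun h7 => ⟨fun x hx e => by_contra fun x0 => h7 (a2 fun j => ?_),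
      or_iff_not_imp_left.2 fun e => ?_⟩
    · obtain ⟨φ, hφ⟩ := hD.isometric i j
      exact plusType_of_sing hQ (h.dim j) (φ ⟨x, hx⟩).2 (by simpa) ((hφ ⟨x, hx⟩).trans e)
    · obtain ⟨r, hr⟩ := two_ne_zero_iff_odd.1 e
      omega
  · obtain ⟨a1, a2⟩ := h3 rfl
    refine odec3_dichotomy hS (two_ne_zero_iff_odd.2 a1) ?_ h (by simp; omega) heq H hH
    obtain ⟨r, hr⟩ := a1
    rw [Nat.card_eq_fintype_card]; omega
  · refine odec4_three hS h (by omega) heq (fun i => ?_) H hH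
    by_cases c2 : Fintype.card F = 2
    · refine .inr (.inr fun a => h4 rfl c2 fun j => ?_)
      obtain ⟨U, U1, U2⟩ := (heq i j).hasTS a
      refine ⟨U.map (D j).subtype, Submodule.map_subtype_le _ _, ?_, by
        rw [Submodule.finrank_map_subtype_eq, U2, h.dim]⟩
      rintro _ ⟨x, hx, rfl⟩
      exact orth_ts_iff.1 U1 x hx
    · exact notO4_of_card (.inl c2)
  · exact odec_dichotomy hS (iso3_orth _) h k5 heq H hH

end H29
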