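import Cfsg.Agent.H29.Fr3
import Cfsg.Agent.H11.Chunk
import Cfsg.Agent.H29.Ten

/-! Orthogonal decompositions into subspaces of dimension at least two: additive irreducibility
`AIrr`, the structure `OD` of an overgroup of the stabiliser and the growth lemma `OD.grow`. -/

set_option autoImplicit false
set_option linter.unusedSectionVars false

namespace H29

open Module H11 H11.PForm

universe u
variable {F : Type*} [Field F] {V : Type u} [AddCommGroup V] [Module F V] {S : PForm (orthP F) V}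
  [FiniteDimensional F V] [Finite F] {H : Subgroup S.Isom} {X : Submodule F V}

/-- `O(X)` leaves no proper additive subgroup invariant -/
def AIrr (S : PForm (orthP F) V) (X : Submodule F V) : Prop :=
  ∀ T : AddSubgroup V, (∀ g : S.Isom, (∀ x ∈ S.perp X, g.1 x = x) → ∀ y ∈ X, y ∈ T → g.1 y ∈ T) →
    ∀ y ∈ X, y ≠ 0 → y ∈ T → ∀ x ∈ X, x ∈ T

theorem witt_mem (hX : (S.restrict X).Nondeg) {x y : V} (hx : x ∈ X) (hy : y ∈ X) (x0 : x ≠ 0)
    (y0 : y ≠ 0) (e : S.q y = S.q x) : ∃ g : S.Isom, (∀ z ∈ S.perp X, g.1 z = z) ∧ g.1 x = y := by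
  obtain ⟨g, hg⟩ := hX.witt_vec (u := ⟨x, hx⟩) (u' := ⟨y, hy⟩) (by simpa) (by simpa)
    (by simpa [sub_eq_zero] using e)
  exact ⟨ext1 hX g, fun z hz => ext1_right hX g hz, (ext1_left hX g ⟨x, hx⟩).trans (by rw [hg])⟩

theorem airr_of (hX : (S.restrict X).Nondeg) (h : ∀ T : AddSubgroup V, (∀ g : S.Isom,
    (∀ x ∈ S.perp X, g.1 x = x) → ∀ y ∈ X, y ∈ T → g.1 y ∈ T) → ∀ y ∈ X, S.q y ≠ 0 → y ∈ T →
      ∃ u ∈ X, u ≠ 0 ∧ S.q u = 0 ∧ u ∈ T) : AIrr S X := fun T hT y hy y0 hyT => by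
  obtain ⟨u, hu, u0, us, uT⟩ : ∃ u ∈ X, u ≠ 0 ∧ S.q u = 0 ∧ u ∈ T := by
    by_cases e : S.q y = 0
    exacts [⟨y, hy, y0, e, hyT⟩, h T hT y hy e hyT]
  have hs := (S.orth_sing u).2 us
  obtain ⟨f, hf, Hy⟩ := exists_partner_mem hX hu u0 hs
  refine span_sing X hu hf hs (by simp [Hy.h_ef]) T fun x hx xs => ?_
  obtain rfl | x0 := eq_or_ne x 0
  · exact T.zero_mem
  obtain ⟨g, g1, rfl⟩ := witt_mem hX hu hx u0 x0 (by rw [us, (S.orth_sing x).1 xs])
  exact hT g g1 u hu uT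

theorem ex_move4 (hS : S.Nondeg) (hX : (S.restrict X).Nondeg) (h4 : 4 ≤ finrank F X) {y : V}
    (hy : y ∈ X) (qy : S.q y ≠ 0) : ∃ u ∈ X, ∃ v ∈ X, u ≠ 0 ∧ S.Sing u ∧ S.h u y = 0 ∧ S.h u v = 0 ∧
      S.h v y = 1 := by
  obtain ⟨u, ⟨u1, u2⟩, u0, us⟩ := iso3_orth S (X ⊓ S.perp (F ∙ y)) (by
    have := finrank_inf_perp_one hS X y; omega)
  obtain ⟨v, hv, v1, v2⟩ := exists_mem_perp_h_eq hX u1 hy (fun m => by
    obtain ⟨c, rfl⟩ := Submodule.mem_span_singleton.1 m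
    exact qy ((S.orth_sing _).1 (us.smul c))) 1
  exact ⟨u, u1, v, hv, u0, us, S.h_swap_zero (S.mem_perp_singleton.1 u2), v1, by rwa [S.orth_symm]⟩

theorem airr_four (hS : S.Nondeg) (hX : (S.restrict X).Nondeg) (h4 : 4 ≤ finrank F X) : AIrr S X :=
  airr_of hX fun T hT y hy qy yT => by
    obtain ⟨u, u1, v, hv, u0, us, a1, a2, a3⟩ := ex_move4 hS hX h4 hy qy
    refine ⟨u, u1, u0, (S.orth_sing u).1 us, ?_⟩
    simpa [eich_apply_of_perp (.of_q us a2) a1, a3] using T.sub_mem yT (hT (S.eich u v (S.q v))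
      (fun x hx => eich_apply_of_perp_perp (hx u u1) (hx v hv)) y hy yT)

theorem plane_eq (h2 : finrank F X = 2) {e f : V} (he : e ∈ X) (hf : f ∈ X) (Hy : S.IsHyp e f) {y : V}
    (hy : y ∈ X) : y = S.h f y • e + S.h e y • f := by
  have h1 : Submodule.span F {e, f} = X := Submodule.eq_of_le_of_finrank_eq
    (Submodule.span_le.2 (Set.pair_subset he hf)) (by rw [Hy.finrank_span, h2])
  obtain ⟨a, b, rfl⟩ := Submodule.mem_span_pair.1 (h1.ge hy)
  simp [Hy.h_ee, Hy.h_ef, Hy.h_fe, Hy.h_ff]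

open Polynomial in
theorem ex_ne_poly {n : ℕ} (hn : n < Nat.card F) (p : F[X]) (h0 : p ≠ 0) (hp : p.natDegree ≤ n) :
    ∃ x, p.eval x ≠ 0 :=
  exists_eval_ne_zero_of_natDegree_lt_card p h0 (by
    cases nonempty_fintype F
    rw [Cardinal.mk_fintype, Nat.cast_lt, ← Nat.card_eq_fintype_card]; omega)

theorem airr_plus (hq : 5 ≤ Nat.card F) (hX : (S.restrict X).Nondeg) (h2 : finrank F X = 2) {e : V}
    (he : e ∈ X) (e0 : e ≠ 0) (hs : S.Sing e) : AIrr S X :=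
  airr_of hX fun T hT y hy qy yT => by
    obtain ⟨f, hf, Hy⟩ := exists_partner_mem hX he e0 hs
    obtain ⟨l, hl⟩ := ex_ne_poly (F := F) (n := 4) hq (.X * (.X + 1) * (.X ^ 2 + .X + 1))
      (Polynomial.Monic.ne_zero (by monicity!)) (by compute_degree!)
    simp only [Polynomial.eval_mul, Polynomial.eval_add, Polynomial.eval_X, Polynomial.eval_one,
      Polynomial.eval_pow, ne_eq, mul_eq_zero, not_or] at hl
    have ey := plane_eq h2 he hf Hy hy
    have k : ∀ c (hc : c ≠ 0), (c * S.h f y) • e + (c⁻¹ * S.h e y) • f ∈ T := fun c hc => by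
      have := hT (Hy.tor (Units.mk0 c hc)) (fun x hx => Hy.tor_perp _
        (S.mem_perp_pair.2 ⟨hx e he, hx f hf⟩)) y hy yT
      rw [ey] at this
      simpa [smul_smul, mul_comm] using this
    have a1 : S.h e y ≠ 0 := fun a => qy (by rw [ey, a]; simp [orth_q_smul, Hy.orth_q_e])
    refine ⟨(((l + 1)⁻¹ - l⁻¹ - 1) * S.h e y) • f, X.smul_mem _ hf, smul_ne_zero (mul_ne_zero
      (fun a => hl.2 ?_) a1) Hy.f_ne, by simp [orth_q_smul, Hy.orth_q_f], ?_⟩
    · have := hl.1.1; have := hl.1.2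
      field_simp at a
      linear_combination -a
    · convert T.sub_mem (T.sub_mem (k _ hl.1.2) (k _ hl.1.1)) (k 1 one_ne_zero) using 1
      rw [inv_one]; module

theorem ex_h_one (hX : (S.restrict X).Nondeg) {y : V} (hy : y ∈ X) (y0 : y ≠ 0) :
    ∃ b ∈ X, S.h b y = 1 := by
  obtain ⟨b, hb⟩ := hX.exists_h_eq_one (x := ⟨y, hy⟩) (by simpa)
  exact ⟨b, b.2, by rw [S.orth_symm]; exact hb⟩

theorem ex_perp_ne (hS : S.Nondeg) (h2 : 2 ≤ finrank F X) (y : V) : ∃ w ∈ X, w ≠ 0 ∧ S.h w y = 0 := by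
  obtain ⟨w, ⟨w1, w2⟩, w0⟩ := exists_ne_zero_of_finrank (X ⊓ S.perp (F ∙ y)) (by
    have := finrank_inf_perp_one hS X y; omega)
  exact ⟨w, w1, w0, S.h_swap_zero (S.mem_perp_singleton.1 w2)⟩

theorem aniso_img (hS : S.Nondeg) (hX : (S.restrict X).Nondeg) (h2 : 2 ≤ finrank F X)
    (ha : ∀ x ∈ X, S.q x = 0 → x = 0) {y : V} (hy : y ∈ X) (y0 : y ≠ 0) :
    ∃ A : Finset F, Nat.card F ≤ 2 * A.card ∧ ∀ a ∈ A, a ≠ 0 ∧ ∃ b ∈ X, S.h b y = 1 ∧ S.q b = a := by
  classical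
  cases nonempty_fintype F
  obtain ⟨b, hb, b1⟩ := ex_h_one hX hy y0
  obtain ⟨w, w1, w0, w2⟩ := ex_perp_ne hS h2 y
  let p : Polynomial F := .C (S.q w) * .X ^ 2 + .C (S.h b w) * .X + .C (S.q b)
  have d : p.degree = 2 := Polynomial.degree_quadratic (mt (ha w w1) w0)
  have c1 := FiniteField.card_image_polynomial_eval (p := p) (by rw [d]; decide)
  rw [Polynomial.natDegree_eq_of_degree_eq_some (n := 2) d, ← Nat.card_eq_fintype_card] at c1
  refine ⟨_, c1, fun a m => ?_⟩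
  obtain ⟨s, -, rfl⟩ := Finset.mem_image.1 m
  have hp : p.eval s = S.q (b + s • w) := by simp [p, orth_q_add, orth_q_smul]; ring
  have m := X.add_mem hb (X.smul_mem s w1)
  refine ⟨fun e => ?_, _, m, by simp [b1, w2], hp.symm⟩
  simpa [b1, w2] using congrArg (S.h · y) (ha _ m (hp ▸ e))

theorem airr_minus (hS : S.Nondeg) (hX : (S.restrict X).Nondeg) (h2 : 2 ≤ finrank F X)
    (ha : ∀ x ∈ X, S.q x = 0 → x = 0) : AIrr S X := fun T hT y hy y0 yT => by
  classical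
  have R : ∀ y ∈ X, y ∈ T → ∀ b ∈ X, ((S.q b)⁻¹ * S.h b y) • b ∈ T := fun y hy yT b hb => by
    simpa [refl_apply] using T.sub_mem yT (hT (S.refl b) (fun x hx => refl_apply_of_perp (hx b hb))
      y hy yT)
  have C : ∀ y ∈ X, y ≠ 0 → y ∈ T → ∀ c : F, c • y ∈ T := fun y hy y0 yT c => by
    cases nonempty_fintype F
    obtain ⟨B, c1, hB⟩ := aniso_img hS hX h2 ha hy y0
    let A := T.comap (LinearMap.toSpanSingleton F V y).toAddMonoidHom
    have c2 : insert 0 (B.image fun a => (S.q y)⁻¹ * a⁻¹) ⊆ (A : Set F).toFinset := by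
      intro a m
      rw [Set.mem_toFinset]
      simp only [Finset.mem_insert, Finset.mem_image] at m
      rcases m with rfl | ⟨a, m, rfl⟩
      · exact A.zero_mem
      obtain ⟨-, b, hb, b1, rfl⟩ := hB a m
      simpa [A, b1, S.orth_symm b y] using R _ (X.smul_mem _ hb) (R y hy yT _ hb) y hy
    have c3 := Finset.card_le_card c2
    have qy := mt (ha y hy) y0
    rw [Finset.card_insert_of_notMem (by simpa [qy] using fun e => (hB 0 e).1 rfl),
      Finset.card_image_of_injective _ fun a a' e => by simpa [qy] using e, Set.toFinset_card,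
      ← Nat.card_eq_fintype_card] at c3
    have c4 := A.index_mul_card
    have c5 : A.index = 1 := by
      have := A.index_ne_zero_of_finite
      have c6 : Nat.card (A : Set F) = Nat.card A := rfl
      by_contra e
      nlinarith [show 2 ≤ A.index by omega]
    exact (AddSubgroup.index_eq_one.1 c5).ge (AddSubgroup.mem_top c)
  have D : ∀ x ∈ X, S.h x y ≠ 0 → x ∈ T := fun x hx e => by
    have x0 : x ≠ 0 := by rintro rfl; simp at e
    have e' := mul_ne_zero (inv_ne_zero (mt (ha x hx) x0)) e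
    have := C _ (X.smul_mem _ hx) (smul_ne_zero e' x0) (R y hy yT x hx) ((S.q x)⁻¹ * S.h x y)⁻¹
    rwa [inv_smul_smul₀ e'] at this
  intro x hx
  by_cases e : S.h x y = 0
  · obtain ⟨b, hb, b1⟩ := ex_h_one hX hy y0
    simpa using T.sub_mem (D _ (X.add_mem hx hb) (by simp [e, b1])) (D b hb (by simp [b1]))
  · exact D x hx e

theorem AIrr.ex_ns (h : AIrr S X) (hS : S.Nondeg) (hX : (S.restrict X).Nondeg) {s : V}
    (hs : s ∉ S.perp X) : ∃ b ∈ X, S.q b ≠ 0 ∧ S.h b s ≠ 0 := by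
  by_contra! hn
  obtain ⟨a, ha, r, hr, rfl⟩ := exists_decomp hX s
  have a0 : a ≠ 0 := by rintro rfl; exact hs (by simpa)
  obtain ⟨b, hb, qb⟩ := orth_exists_q_ne_mem hX (finrank_pos_iff_exists_ne_zero.2
    ⟨⟨a, ha⟩, by simpa⟩)
  let T : AddSubgroup V := ⨅ b ∈ X, ⨅ _ : S.q b ≠ 0, (S.h b).toAddMonoidHom.ker
  have hT : ∀ x, x ∈ T ↔ ∀ b ∈ X, S.q b ≠ 0 → S.h b x = 0 := fun x => by simp [T]
  have := h T (fun g hg y hy yT => (hT _).2 fun b hb qb => by
    rw [isom_h_right]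
    exact (hT y).1 yT _ ((((S.stab X).inv_mem (stab_of_fix_perp hS hg)) b).1 hb) (by rwa [orth_isom_q]))
    a ha a0 ((hT a).2 fun b hb qb => by simpa [hr b hb] using hn b hb qb)
  exact qb (by
    rw [(S.restrict_nondeg_iff' _).1 hX b hb fun x hx => (hT x).1 (this x hx) b hb qb, orth_q_zero])

/-- connectivity of the vectors of one class -/
def Conn (S : PForm (orthP F) V) (X : Submodule F V) : Prop :=
  ∀ Y Z : Submodule F V, (∀ y ∈ Y, ∀ z ∈ Z, S.h y z = 0) → Disjoint Y Z → ∀ v ∈ X, S.q v ≠ 0 → v ∈ Y →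
    (∀ b ∈ X, S.q b ≠ 0 → sqSign (S.q b) = sqSign (S.q v) → b ∈ Y ∨ b ∈ Z) → X ≤ Y

/-- an overgroup of the stabiliser of an orthogonal decomposition -/
structure OD (H : Subgroup S.Isom) {t : ℕ} (k : ℕ) (D : Fin t → Submodule F V) : Prop where
  nd : S.Nondeg
  od : ODec S k D
  two : 2 ≤ k
  four : 4 ≤ t
  eqv : ∀ i j, Eqv (S.restrict (D i)) (S.restrict (D j))
  mem : ∀ g ∈ S.E, ODec.Perm D g → g ∈ H
  irr : ∀ i, AIrr S (D i)
  mv : ∀ i, ∀ y ∈ D i, y ≠ 0 → ∃ g ∈ S.E, g ∈ S.fix (S.perp (D i)) ∧ g.1 y ≠ y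
  conn : ∀ i, Conn S (D i)

/-- the class of vectors `v` with `r_v r_c ∈ H` -/
def RC (H : Subgroup S.Isom) (c v : V) : Prop := S.q v ≠ 0 ∧ S.refl v * S.refl c ∈ H

theorem RC.refl {c v w : V} (h1 : RC H c v) (h2 : RC H c w) : RC H c ((S.refl v).1 w) :=
  ⟨by simpa using h2.1, by
    rw [← conj_refl, refl_inv]
    convert H.mul_mem (H.mul_mem h1.2 (H.inv_mem h2.2)) h1.2 using 1
    simp [refl_inv, mul_assoc, ← mul_assoc (S.refl c)]⟩

theorem refl_fix {b : V} (hb : b ∈ X) : S.refl b ∈ S.fix (S.perp X) :=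
  fun _ hx => refl_apply_of_perp (hx b hb)

namespace OD
variable {t k : ℕ} {D : Fin t → Submodule F V} (h : OD H k D)
include h

theorem dim (i : Fin t) : 2 ≤ finrank F (D i) := by rw [h.od.dim]; exact h.two

theorem sup {i j : Fin t} (ij : i ≠ j) :
    (S.restrict (D i ⊔ D j)).Nondeg ∧ 4 ≤ finrank F ↥(D i ⊔ D j) := by
  refine ⟨nondeg_sup (h.od.nondeg i) (h.od.nondeg j) (h.od.orth i j ij), ?_⟩
  have := Submodule.finrank_sup_add_finrank_inf_eq (D i) (D j)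
  rw [(h.od.disj ij).eq_bot, finrank_bot] at this
  have := h.dim i; have := h.dim j; omega

theorem ex2 (I : Finset (Fin t)) (hI : I.card + 2 ≤ t) (l : Fin t) : ∃ l', l' ≠ l ∧ l' ∉ I := by
  obtain ⟨a, b, ab, h1, h2⟩ := exists_two_notMem I (by simpa)
  by_cases e : a = l
  exacts [⟨b, e ▸ ab.symm, h2⟩, ⟨a, e, h1⟩]

theorem memE (g : S.Isom) : g ∈ S.E ↔ h.nd.dick g = 1 ∧ h.nd.spin g = 1 := by
  have := h.four
  have h3 : 3 ≤ finrank F V := by
    have := (h.sup (i := ⟨0, by omega⟩) (j := ⟨1, by omega⟩) (by simp)).2.trans (Submodule.finrank_le _)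
    omega
  obtain ⟨e, f, Hy⟩ := h.nd.orth_exists_hyp h3
  exact h.nd.mem_E_iff h3 Hy g

theorem pf {i : Fin t} {g : S.Isom} (hg : g ∈ S.fix (S.perp (D i))) : ODec.Perm D g :=
  h.od.perm_of_fix (fun x hx => (stab_of_fix_perp h.nd hg x).1 hx) hg

theorem adj (g : S.Isom) (l : Fin t) : ∃ r ∈ S.fix (S.perp (D l)), g * r ∈ S.E := by
  have A : ∀ s : ℤˣ, (2 : F) ≠ 0 ∨ s = 1 → ∃ b ∈ D l, h.nd.dick (S.refl b) = -1 ∧
      h.nd.spin (S.refl b) = s := fun s hs => by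
    obtain ⟨c, c0, hc⟩ : ∃ c : F, c ≠ 0 ∧ sqSign c = s := by
      obtain rfl | rfl := Int.units_eq_one_or s
      · exact ⟨1, one_ne_zero, sqSign_one⟩
      · obtain ⟨c, c0, hc⟩ := exists_not_isSquare (hs.resolve_right (by decide))
        exact ⟨c, c0, sqSign_eq_neg_one_iff.2 hc⟩
    obtain ⟨b, hb, rfl⟩ := orth_exists_q_eq_mem (h.od.nondeg l) (h.dim l) c
    exact ⟨b, hb, h.nd.dick_refl c0, (h.nd.spin_refl c0).trans hc⟩
  obtain ⟨a, ha, a1, a2⟩ := A 1 (.inr rfl)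
  obtain ⟨b, hb, b1, b2⟩ := A (h.nd.spin g) ((ne_or_eq _ _).imp_right fun e => h.nd.spin_of_two e g)
  obtain e | e := Int.units_eq_one_or (h.nd.dick g)
  · exact ⟨_, mul_mem (refl_fix ha) (refl_fix hb), (h.memE _).2 (by simp [*])⟩
  · exact ⟨_, refl_fix hb, (h.memE _).2 (by simp [*])⟩

theorem rrE {a b : V} (qa : S.q a ≠ 0) (qb : S.q b ≠ 0) (e : sqSign (S.q a) = sqSign (S.q b)) :
    S.refl a * S.refl b ∈ S.E :=
  (h.memE _).2 (by simp [h.nd.dick_refl, h.nd.spin_refl, *])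

theorem rr {i j : Fin t} {a b : V} (ha : a ∈ D i) (hb : b ∈ D j) (qa : S.q a ≠ 0) (qb : S.q b ≠ 0)
    (e : sqSign (S.q a) = sqSign (S.q b)) : S.refl a * S.refl b ∈ H :=
  h.mem _ (h.rrE qa qb e) ((h.pf (refl_fix ha)).mul (h.pf (refl_fix hb)))

theorem comp (x : V) : ∃ c : Fin t → V, (∀ i, c i ∈ D i) ∧ (∀ i, x - c i ∈ S.perp (D i)) ∧
    x = ∑ i, c i := by
  choose c hc r hr e using fun i => exists_decomp (h.od.nondeg i) x
  refine ⟨c, hc, fun i => by rw [e i]; simpa using hr i, sub_eq_zero.1 (h.od.eq_zero h.nd fun i y hy => ?_)⟩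
  rw [map_sub, map_sum, Finset.sum_eq_single i (fun j _ e => h.od.orth i j e.symm (hc j) y hy) (by simp),
    e i]
  simp [hr i y hy]

theorem qsum {c : Fin t → V} (hc : ∀ i, c i ∈ D i) (J : Finset (Fin t)) :
    S.q (∑ l ∈ J, c l) = ∑ l ∈ J, S.q (c l) := by
  induction J using Finset.induction_on with
  | empty => simp [orth_q_zero]
  | insert a J ha ih =>
    rw [Finset.sum_insert ha, Finset.sum_insert ha, orth_q_add, ih, map_sum (S.h _),
      Finset.sum_eq_zero (f := fun l => S.h (c a) (c l)) fun l hl =>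
        h.od.orth a l (by rintro rfl; exact ha hl) (hc l) _ (hc a), add_zero]

theorem ex_ns {x : V} (hx : S.q x ≠ 0) : ∃ i, ∃ y ∈ D i, S.q y ≠ 0 ∧ x - y ∈ S.perp (D i) := by
  obtain ⟨c, c1, c2, e⟩ := h.comp x
  rw [e, h.qsum c1] at hx
  obtain ⟨i, -, hi⟩ := Finset.exists_ne_zero_of_sum_ne_zero hx
  exact ⟨i, _, c1 i, hi, c2 i⟩

theorem ex_supp {x : V} {i : Fin t} (hx : x ∉ D i) : ∃ l, l ≠ i ∧ x ∉ S.perp (D l) := by
  by_contra! e
  obtain ⟨a, ha, r, hr, rfl⟩ := exists_decomp (h.od.nondeg i) x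
  suffices r = 0 from hx (by simpa [this])
  refine h.od.eq_zero h.nd fun l => ?_
  obtain rfl | li := eq_or_ne l i
  exacts [hr, by simpa using sub_mem (e l li) (h.od.orth l i li ha)]

theorem g1 {I : Finset (Fin t)} (hI : I.card + 2 ≤ t) {s y : V} (hs : S.Sing s)
    (sI : ∀ l ∉ I, s ∈ S.perp (D l)) (hy : y ∈ BSet H hs) {l₀ : Fin t} (hl : l₀ ∉ I)
    (yl : y ∉ S.perp (D l₀)) : ∀ l ∉ I, ∀ x ∈ D l, x ∈ BSet H hs := by
  obtain ⟨a, ha, r, hr, rfl⟩ := exists_decomp (h.od.nondeg l₀) y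
  obtain ⟨g, g1, g2, g3⟩ := h.mv l₀ a ha (by rintro rfl; exact yl (by simpa))
  obtain ⟨l₁, l1, l2⟩ := h.ex2 I hI l₀
  have A := h.irr l₀ (BSet H hs) (fun g hg y hy yT => by
    obtain ⟨r, r1, r2⟩ := h.adj g l₁
    simpa [r1 y (h.od.orth _ _ l1 hy)] using BSet_map (hu' := hs) yT
      (h.mem _ r2 ((h.pf hg).mul (h.pf r1))) (by simp [r1 s (sI _ l2), hg s (sI _ hl)]))
    (g.1 a - a) (sub_mem ((stab_of_fix_perp h.nd g2 a).1 ha) ha) (sub_ne_zero.2 g3) (by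
      simpa [g2 r hr] using sub_mem (BSet_map (hu' := hs) hy (h.mem _ g1 (h.pf g2)) (g2 s (sI _ hl))) hy)
  intro l hl' x hx
  obtain rfl | e := eq_or_ne l l₀
  · exact A x hx
  obtain ⟨σ, σ0, σ1, -, σ2⟩ := h.od.exists_swap h.nd e (h.eqv l l₀)
  obtain ⟨r, r1, r2⟩ := h.adj σ l₀
  have m := h.mem _ r2 (σ0.mul (h.pf r1))
  have e1 : (σ * r).1 s = s := by
    obtain ⟨c, c1, c2, rfl⟩ := h.comp s
    have z : ∀ l ∉ I, c l = 0 := fun l hl => h.od.eq_zero' (c1 l) (by simpa using sub_mem (sI l hl) (c2 l))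
    rw [isom_mul_apply, r1 _ (sI _ hl), map_sum]
    refine Finset.sum_congr rfl fun i _ => ?_
    by_cases hi : i ∈ I
    · exact σ2 i (by rintro rfl; exact hl' hi) (by rintro rfl; exact hl hi) _ (c1 i)
    · simp [z i hi]
  simpa using BSet_map (hu' := hs) (v := (σ * r).1 x) (by
    simpa [r1 x (h.od.orth _ _ e.symm hx)] using A _ (σ1 x hx)) (inv_mem m)
    (by rw [← e1, isom_inv_apply_self, e1])

theorem grow {I : Finset (Fin t)} (hI : I.card + 2 ≤ t) {s y : V} (hs : S.Sing s) (s0 : s ≠ 0)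
    (sI : ∀ l ∉ I, s ∈ S.perp (D l)) (hy : y ∈ BSet H hs) {l : Fin t} (hl : l ∉ I)
    (yl : y ∉ S.perp (D l)) : S.E ≤ H := by
  classical
  have A := h.g1 hI hs sI hy hl yl
  obtain ⟨l', l1, l2⟩ := h.ex2 I hI l
  obtain ⟨n, hn⟩ : ∃ n, s ∉ S.perp (D n) := by
    by_contra! e
    exact s0 (h.od.eq_zero h.nd e)
  have nI : ∀ l ∉ I, l ≠ n := by rintro l hl rfl; exact hn (sI _ hl)
  obtain ⟨b, hb, qb, bs⟩ := (h.irr n).ex_ns h.nd (h.od.nondeg n) hn
  obtain ⟨r, r1, r2⟩ := h.adj (S.refl b) l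
  obtain ⟨x, hx, x0⟩ := exists_ne_zero_of_finrank (D l') (by have := h.dim l'; omega)
  have hs' : S.Sing ((S.refl b).1 s) := by simpa
  have B := h.g1 hI hs' (fun l hl => by
    rw [refl_apply]; exact sub_mem (sI l hl) (Submodule.smul_mem _ _ (h.od.orth _ _ (nI l hl) hb)))
    (BSet_map (A l' l2 x hx) (h.mem _ r2 ((h.pf (refl_fix hb)).mul (h.pf r1))) (by simp [r1 s (sI l hl)]))
    l2 (by
      rw [isom_mul_apply, r1 x (h.od.orth _ _ l1.symm hx),
        refl_fix hb x (h.od.orth _ _ (nI l' l2).symm hx)]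
      exact fun e => x0 (h.od.eq_zero' hx e))
  obtain ⟨u1, u2⟩ := h.sup l1
  have U : ∀ {s} (hs : S.Sing s), (∀ l ∉ I, ∀ x ∈ D l, x ∈ BSet H hs) → ∀ x ∈ D l' ⊔ D l,
      x ∈ BSet H hs := fun hs A x hx => by
    obtain ⟨a, ha, b, hb, rfl⟩ := Submodule.mem_sup.1 hx
    exact add_mem (A _ l2 a ha) (A _ hl b hb)
  have C := pair_full u1 hs hs' (by simp [refl_apply, hs.h_self, qb, bs, S.orth_symm b s]) (U hs A) (U hs' B)
  have Fu : ∀ u ∈ D l' ⊔ D l, S.Sing u → Full H u := fun u hu su => by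
    have uI : ∀ n ∉ ({l', l} : Finset _), u ∈ S.perp (D n) := fun n hn => by
      simp only [Finset.mem_insert, Finset.mem_singleton, not_or] at hn
      exact sup_le (h.od.orth _ _ hn.1) (h.od.orth _ _ hn.2) hu
    have sU : s ∈ S.perp (D l' ⊔ D l) := by rw [perp_sup]; exact ⟨sI _ l2, sI _ hl⟩
    have G := h.g1 (by have := Finset.card_le_two (a := l') (b := l); have := h.four; omega) su uI
      (mem_BSet_of_mem C (Submodule.mem_sup_right hu) su (Submodule.mem_sup_left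
        (Submodule.subset_span (by simp))) (sU u hu)) (l₀ := n)
      (by simp [(nI _ l2).symm, (nI _ hl).symm]) hn
    refine full_of_BSet su (fun v hv => ?_) fun a _ => C u (Submodule.mem_sup_right hu) 0 (zero_mem _) a
    obtain ⟨a, ha, r, hr, rfl⟩ := exists_decomp u1 v
    refine add_mem (mem_BSet_of_mem C (Submodule.mem_sup_right hu) su (Submodule.mem_sup_right ha)
      (by simpa [hr u hu] using hv)) ?_
    obtain ⟨c, c1, c2, rfl⟩ := h.comp r
    rw [perp_sup] at hr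
    refine sum_mem fun i _ => ?_
    by_cases hi : i ∈ ({l', l} : Finset _)
    · rw [h.od.eq_zero' (c1 i) (by
        simp only [Finset.mem_insert, Finset.mem_singleton] at hi
        rcases hi with rfl | rfl
        exacts [by simpa using sub_mem hr.1 (c2 i), by simpa using sub_mem hr.2 (c2 i)])]
      exact zero_mem _
    · exact G i hi _ (c1 i)
  obtain ⟨e, he, f, hf, Hy⟩ := exists_hyp_mem (iso3_orth S) u1 (by omega)
  exact S.E_le_iff.2 fun x v a _ => full_all_of_pair h.nd Hy.sing_e Hy.sing_f (Fu e he Hy.sing_e)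
    (Fu f hf Hy.sing_f) (by simp [Hy.h_ef]) x v a

theorem rc_map {c v : V} {i : Fin t} (hc : c ∈ D i) (hv : RC H c v) {m : S.Isom} (m1 : m ∈ S.E)
    (m2 : ODec.Perm D m) : RC H c (m.1 v) :=
  ⟨by simpa using hv.1, by
    have := h.mem _ (Subgroup.Normal.conj_mem inferInstance m m1 (S.refl c))
      (((h.pf (refl_fix hc)).mul m2).mul (h.pf (inv_mem (refl_fix hc))))
    rw [← conj_refl]
    convert mul_mem (mul_mem (h.mem m m1 m2) hv.2) (inv_mem this) using 1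
    simp only [mul_inv_rev, refl_inv, mul_assoc]
    rw [← mul_assoc (S.refl c) (S.refl c), refl_mul_self, one_mul]⟩

theorem root_of {c v : V} {i : Fin t} (hc : c ∈ D i) (hv : RC H c v) {m : S.Isom} (m1 : m ∈ S.E)
    (m2 : ODec.Perm D m) {I : Finset (Fin t)} (hI : I.card + 2 ≤ t) (s0 : m.1 v - v ≠ 0)
    (hs : S.q (m.1 v - v) = 0) (sI : ∀ l ∉ I, m.1 v - v ∈ S.perp (D l)) {l : Fin t} (hl : l ∉ I)
    (yl : v ∉ S.perp (D l)) : S.E ≤ H := by
  have w := h.rc_map hc hv m1 m2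
  have e := S.orth_q_add v (m.1 v - v)
  have q0 : S.q ((S.q v)⁻¹ • (m.1 v - v)) = 0 := by simp [orth_q_smul, hs]
  have p : S.h ((S.q v)⁻¹ • (m.1 v - v)) v = 0 := by
    rw [add_sub_cancel, orth_isom_q, hs] at e
    rw [S.orth_symm, map_smul, show S.h v (m.1 v - v) = 0 by linear_combination -e, smul_zero]
  refine h.grow hI ((S.orth_sing _).2 q0) (smul_ne_zero (inv_ne_zero hv.1) s0)
    (fun l hl => Submodule.smul_mem _ _ (sI l hl)) ⟨_, .of_q ((S.orth_sing _).2 q0) p, ?_⟩ hl yl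
  rw [orth_eich_eq q0 p hv.1, smul_inv_smul₀ hv.1, add_sub_cancel]
  convert mul_mem hv.2 (inv_mem w.2) using 1
  simp [refl_inv, mul_assoc, ← mul_assoc (S.refl c)]

variable (hR : ∀ i, ∀ c ∈ D i, ∀ v, RC H c v → ∃ l, v ∈ D l)
include hR

theorem st {g : S.Isom} (hg : g ∈ H) {i l : Fin t} {c : V} (hc : c ∈ D i) (qc : S.q c ≠ 0)
    (gc : g.1 c ∈ D l) : ODec.Perm D g := fun j => by
  have A : ∀ b ∈ D j, S.q b ≠ 0 → sqSign (S.q b) = sqSign (S.q c) → ∃ n, g.1 b ∈ D n :=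
    fun b hb qb e => hR l _ gc _ ⟨by simpa, by
      rw [← conj_refl, ← conj_refl]
      convert mul_mem (mul_mem hg (h.rr hb hc qb qc e)) (inv_mem hg) using 1
      group⟩
  obtain ⟨b, hb, e⟩ := orth_exists_q_eq_mem (h.od.nondeg j) (h.dim j) (S.q c)
  obtain ⟨n, hn⟩ := A b hb (e ▸ qc) (by rw [e])
  refine ⟨n, h.conn j ((D n).comap (g.1 : V →ₗ[F] V)) ((S.perp (D n)).comap (g.1 : V →ₗ[F] V))
    (fun y hy z hz => by simpa using hz _ hy) (Submodule.disjoint_def.2 fun x h1 h2 => by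
      simpa using h.od.eq_zero' h1 h2) b hb (e ▸ qc) hn fun b' hb' q' e' => ?_⟩
  obtain ⟨m, hm⟩ := A b' hb' q' (by rw [e', e])
  obtain rfl | mn := eq_or_ne n m
  exacts [.inl hm, .inr (h.od.orth _ _ mn hm)]

omit hR in
theorem rot {u u' : V} {l m : Fin t} (lm : l ≠ m) (hm : ∀ x ∈ D l, (S.refl u * S.refl u').1 x ∈ D m) :
    S.h u u' = 0 ∧ k = 2 ∧ u ∈ D l ⊔ D m := by
  have A : ∀ x ∈ D l, x ≠ 0 → (S.refl u * S.refl u').1 x ≠ x := fun x hx x0 e =>
    x0 (Submodule.disjoint_def.1 (h.od.disj lm) x hx (e ▸ hm x hx))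
  obtain ⟨x, hx, x0, a⟩ := ex_perp_ne h.nd (h.dim l) u'
  obtain ⟨y, hy, y0, b⟩ := ex_perp_ne h.nd (h.dim l) ((S.refl u').1 u)
  have ex : (S.refl u * S.refl u').1 x = x - ((S.q u)⁻¹ * S.h u x) • u := by
    rw [isom_mul_apply, refl_apply_of_perp (S.h_swap_zero a), refl_apply]
  have ey : (S.refl u * S.refl u').1 y = y - ((S.q u')⁻¹ * S.h u' y) • u' := by
    rw [isom_mul_apply, refl_apply_of_perp (by rw [isom_h_right, refl_inv, S.orth_symm, b]), refl_apply]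
  have c1 : (S.q u)⁻¹ * S.h u x ≠ 0 := fun e => A x hx x0 (by rw [ex, e]; simp)
  have c2 : (S.q u')⁻¹ * S.h u' y ≠ 0 := fun e => A y hy y0 (by rw [ey, e]; simp)
  have o1 := h.od.orth l m lm (hm y hy) x hx
  have o2 := h.od.orth l m lm (hm x hx) y hy
  have o3 := isom_h (S.refl u * S.refl u') x y
  rw [ey] at o1 o3; rw [ex] at o2 o3
  refine ⟨?_, ?_, ?_⟩
  · simp only [map_sub, map_smul, LinearMap.sub_apply, LinearMap.smul_apply, smul_eq_mul, a,
      RingHom.id_apply, S.orth_symm x y, S.orth_symm u y] at o1 o2 o3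
    exact mul_left_cancel₀ (mul_ne_zero c1 c2) (by linear_combination o3 - o2 + o1)
  · by_contra e
    obtain ⟨z, hz, z0, z1⟩ := exists_mem_ker_notMem [S.h u, S.h u'] (D l) ⊥ (by
      have := h.two; simp [h.od.dim]; omega)
    exact A z hz (by simpa using z0) (by
      rw [isom_mul_apply, refl_apply_of_perp (z1 _ (by simp)), refl_apply_of_perp (z1 _ (by simp))])
  · rw [← Submodule.smul_mem_iff _ c1]
    have := sub_mem (Submodule.mem_sup_left hx) (Submodule.mem_sup_right (hm x hx))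
    rwa [ex, sub_sub_cancel] at this

theorem perm_of_rot {g : S.Isom} (hg : g ∈ H) {i : Fin t} {u u' : V} (hu : g.1 u ∈ D i)
    (hu' : g.1 u' ∈ D i) (qu : S.q u ≠ 0) (qu' : S.q u' ≠ 0) (ind : u ∉ F ∙ u')
    (hk : S.h u u' ≠ 0 ∨ k ≠ 2) (hp : ODec.Perm D (S.refl u * S.refl u')) : ODec.Perm D g := by
  have A : ∀ l, ∀ x ∈ D l, (S.refl u * S.refl u').1 x - x ∈ D l := fun l x hx => by
    obtain ⟨m, hm⟩ := hp l
    obtain rfl | lm := eq_or_ne l m
    · exact sub_mem (hm x hx) hx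
    · have := h.rot lm hm; tauto
  obtain ⟨x, -, x1, x2⟩ := exists_mem_perp_h_eq (W := ⊤) (S := S)
    ((S.restrict_nondeg_iff' _).2 fun x _ e => h.nd x fun y => e y trivial) trivial trivial ind 1
  obtain ⟨c, c1, -, rfl⟩ := h.comp x
  by_contra hn
  have B : ∀ l, S.q ((S.refl u * S.refl u').1 (c l) - c l) = 0 := fun l => by
    by_contra e
    refine hn (h.st hR hg (A l _ (c1 l)) e (l := i) ?_)
    rw [isom_mul_apply, refl_apply u, refl_apply u', sub_right_comm, sub_sub_cancel_left, map_sub,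
      map_neg, map_smul, map_smul]
    exact sub_mem (neg_mem (Submodule.smul_mem _ _ hu')) (Submodule.smul_mem _ _ hu)
  have := (h.qsum (fun l => A l _ (c1 l)) Finset.univ).trans (Finset.sum_eq_zero fun l _ => B l)
  rw [Finset.sum_sub_distrib, ← map_sum, isom_mul_apply, refl_apply_of_perp x1, refl_apply, x2] at this
  simp [orth_q_neg, orth_q_smul, qu] at this

omit hR in
theorem conj_fix {g : S.Isom} (hg : g ∈ H) {a u u' : V} (hst : ∀ r ∈ H, r.1 a = a → ODec.Perm D r)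
    (m : S.refl u * S.refl u' ∈ H) (a1 : S.h u (g.1 a) = 0) (a2 : S.h u' (g.1 a) = 0) :
    ODec.Perm D (S.refl (g⁻¹.1 u) * S.refl (g⁻¹.1 u')) :=
  hst _ (by
    rw [← conj_refl, ← conj_refl]
    convert mul_mem (mul_mem (inv_mem hg) m) hg using 1
    group) (by
    rw [isom_h_right] at a1 a2
    rw [isom_mul_apply, refl_apply_of_perp a2, refl_apply_of_perp a1])

theorem perm_of_fix_rot {g : S.Isom} (hg : g ∈ H) {a : V} (hst : ∀ r ∈ H, r.1 a = a → ODec.Perm D r)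
    {i : Fin t} {u u' : V} (hu : u ∈ D i) (hu' : u' ∈ D i) (qu : S.q u ≠ 0) (e : S.q u' = S.q u)
    (ind : u ∉ F ∙ u') (hk : S.h u u' ≠ 0 ∨ k ≠ 2) (a1 : S.h u (g.1 a) = 0) (a2 : S.h u' (g.1 a) = 0) :
    ODec.Perm D g :=
  h.perm_of_rot hR hg (i := i) (by simpa) (by simpa) (by rwa [orth_isom_q]) (by rwa [orth_isom_q, e])
    (notMem_span_map _ ind) (by rwa [isom_h])
    (h.conj_fix hg hst (h.rr hu hu' qu (e ▸ qu) (by rw [e])) a1 a2)

end OD

end H29
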