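import Cfsg.Agent.H29.O2

/-! Orthogonal decompositions into at least three 4-spaces: the structure `OE` (the variant of `OD`
for three parts) and `odec4_three`. -/

set_option autoImplicit false
set_option linter.unusedSectionVars false

namespace H29

open Module H11 H11.PForm

universe u
variable {F : Type*} [Field F] {V : Type u} [AddCommGroup V] [Module F V] {S : PForm (orthP F) V}
  [FiniteDimensional F V] [Finite F] {H : Subgroup S.Isom} {X : Submodule F V}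

/-- an overgroup of the stabiliser of an orthogonal decomposition -/
structure OE (H : Subgroup S.Isom) {t : ℕ} (k : ℕ) (D : Fin t → Submodule F V) : Prop where
  nd : S.Nondeg
  od : ODec S k D
  two : 3 ≤ k
  four : 3 ≤ t
  eqv : ∀ i j, Eqv (S.restrict (D i)) (S.restrict (D j))
  mem : ∀ g ∈ S.E, ODec.Perm D g → g ∈ H
  irr : ∀ i, AIrr S (D i)
  mv : ∀ i, ∀ y ∈ D i, y ≠ 0 → ∃ g ∈ S.E, g ∈ S.fix (S.perp (D i)) ∧ g.1 y ≠ y
  conn : ∀ i, Conn S (D i)

namespace OE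
variable {t k : ℕ} {D : Fin t → Submodule F V} (h : OE H k D)
include h

theorem dim (i : Fin t) : 2 ≤ finrank F (D i) := by rw [h.od.dim]; have := h.two; omega

theorem sup {i j : Fin t} (ij : i ≠ j) :
    (S.restrict (D i ⊔ D j)).Nondeg ∧ 4 ≤ finrank F ↥(D i ⊔ D j) := by
  refine ⟨nondeg_sup (h.od.nondeg i) (h.od.nondeg j) (h.od.orth i j ij), ?_⟩
  have := Submodule.finrank_sup_add_finrank_inf_eq (D i) (D j)
  rw [(h.od.disj ij).eq_bot, finrank_bot] at this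
  have := h.dim i; have := h.dim j; omega

theorem ex2 (I : Finset (Fin t)) (hI : I.card + 2 ≤ t) (l : Fin t) : ∃ l', l' ≠ l ∧ l' ∉ I := by
  obtain ⟨a, b, ab, h1, h2⟩ := exists_two_notMem I (by simpa)
  by_cases e : a = l
  exacts [⟨b, e ▸ ab.symm, h2⟩, ⟨a, e, h1⟩]

theorem memE (g : S.Isom) : g ∈ S.E ↔ h.nd.dick g = 1 ∧ h.nd.spin g = 1 := by
  have := h.four
  have h3 : 3 ≤ finrank F V := by
    have := (h.sup (i := ⟨0, by omega⟩) (j := ⟨1, by omega⟩) (by simp)).2.trans (Submodule.finrank_le _)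
    omega
  obtain ⟨e, f, Hy⟩ := h.nd.orth_exists_hyp h3
  exact h.nd.mem_E_iff h3 Hy g

theorem pf {i : Fin t} {g : S.Isom} (hg : g ∈ S.fix (S.perp (D i))) : ODec.Perm D g :=
  h.od.perm_of_fix (fun x hx => (stab_of_fix_perp h.nd hg x).1 hx) hg

theorem adj (g : S.Isom) (l : Fin t) : ∃ r ∈ S.fix (S.perp (D l)), g * r ∈ S.E := by
  have A : ∀ s : ℤˣ, (2 : F) ≠ 0 ∨ s = 1 → ∃ b ∈ D l, h.nd.dick (S.refl b) = -1 ∧
      h.nd.spin (S.refl b) = s := fun s hs => by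
    obtain ⟨c, c0, hc⟩ : ∃ c : F, c ≠ 0 ∧ sqSign c = s := by
      obtain rfl | rfl := Int.units_eq_one_or s
      · exact ⟨1, one_ne_zero, sqSign_one⟩
      · obtain ⟨c, c0, hc⟩ := exists_not_isSquare (hs.resolve_right (by decide))
        exact ⟨c, c0, sqSign_eq_neg_one_iff.2 hc⟩
    obtain ⟨b, hb, rfl⟩ := orth_exists_q_eq_mem (h.od.nondeg l) (h.dim l) c
    exact ⟨b, hb, h.nd.dick_refl c0, (h.nd.spin_refl c0).trans hc⟩
  obtain ⟨a, ha, a1, a2⟩ := A 1 (.inr rfl)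
  obtain ⟨b, hb, b1, b2⟩ := A (h.nd.spin g) ((ne_or_eq _ _).imp_right fun e => h.nd.spin_of_two e g)
  obtain e | e := Int.units_eq_one_or (h.nd.dick g)
  · exact ⟨_, mul_mem (refl_fix ha) (refl_fix hb), (h.memE _).2 (by simp [*])⟩
  · exact ⟨_, refl_fix hb, (h.memE _).2 (by simp [*])⟩

theorem rrE {a b : V} (qa : S.q a ≠ 0) (qb : S.q b ≠ 0) (e : sqSign (S.q a) = sqSign (S.q b)) :
    S.refl a * S.refl b ∈ S.E :=
  (h.memE _).2 (by simp [h.nd.dick_refl, h.nd.spin_refl, *])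

theorem rr {i j : Fin t} {a b : V} (ha : a ∈ D i) (hb : b ∈ D j) (qa : S.q a ≠ 0) (qb : S.q b ≠ 0)
    (e : sqSign (S.q a) = sqSign (S.q b)) : S.refl a * S.refl b ∈ H :=
  h.mem _ (h.rrE qa qb e) ((h.pf (refl_fix ha)).mul (h.pf (refl_fix hb)))

theorem comp (x : V) : ∃ c : Fin t → V, (∀ i, c i ∈ D i) ∧ (∀ i, x - c i ∈ S.perp (D i)) ∧
    x = ∑ i, c i := by
  choose c hc r hr e using fun i => exists_decomp (h.od.nondeg i) x
  refine ⟨c, hc, fun i => by rw [e i]; simpa using hr i, sub_eq_zero.1 (h.od.eq_zero h.nd fun i y hy => ?_)⟩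
  rw [map_sub, map_sum, Finset.sum_eq_single i (fun j _ e => h.od.orth i j e.symm (hc j) y hy) (by simp),
    e i]
  simp [hr i y hy]

theorem qsum {c : Fin t → V} (hc : ∀ i, c i ∈ D i) (J : Finset (Fin t)) :
    S.q (∑ l ∈ J, c l) = ∑ l ∈ J, S.q (c l) := by
  induction J using Finset.induction_on with
  | empty => simp [orth_q_zero]
  | insert a J ha ih =>
    rw [Finset.sum_insert ha, Finset.sum_insert ha, orth_q_add, ih, map_sum (S.h _),
      Finset.sum_eq_zero (f := fun l => S.h (c a) (c l)) fun l hl =>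
        h.od.orth a l (by rintro rfl; exact ha hl) (hc l) _ (hc a), add_zero]

theorem ex_ns {x : V} (hx : S.q x ≠ 0) : ∃ i, ∃ y ∈ D i, S.q y ≠ 0 ∧ x - y ∈ S.perp (D i) := by
  obtain ⟨c, c1, c2, e⟩ := h.comp x
  rw [e, h.qsum c1] at hx
  obtain ⟨i, -, hi⟩ := Finset.exists_ne_zero_of_sum_ne_zero hx
  exact ⟨i, _, c1 i, hi, c2 i⟩

theorem ex_supp {x : V} {i : Fin t} (hx : x ∉ D i) : ∃ l, l ≠ i ∧ x ∉ S.perp (D l) := by
  by_contra! e
  obtain ⟨a, ha, r, hr, rfl⟩ := exists_decomp (h.od.nondeg i) x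
  suffices r = 0 from hx (by simpa [this])
  refine h.od.eq_zero h.nd fun l => ?_
  obtain rfl | li := eq_or_ne l i
  exacts [hr, by simpa using sub_mem (e l li) (h.od.orth l i li ha)]

theorem g1 {I : Finset (Fin t)} (hI : I.card + 2 ≤ t) {s y : V} (hs : S.Sing s)
    (sI : ∀ l ∉ I, s ∈ S.perp (D l)) (hy : y ∈ BSet H hs) {l₀ : Fin t} (hl : l₀ ∉ I)
    (yl : y ∉ S.perp (D l₀)) : ∀ l ∉ I, ∀ x ∈ D l, x ∈ BSet H hs := by
  obtain ⟨a, ha, r, hr, rfl⟩ := exists_decomp (h.od.nondeg l₀) y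
  obtain ⟨g, g1, g2, g3⟩ := h.mv l₀ a ha (by rintro rfl; exact yl (by simpa))
  obtain ⟨l₁, l1, l2⟩ := h.ex2 I hI l₀
  have A := h.irr l₀ (BSet H hs) (fun g hg y hy yT => by
    obtain ⟨r, r1, r2⟩ := h.adj g l₁
    simpa [r1 y (h.od.orth _ _ l1 hy)] using BSet_map (hu' := hs) yT
      (h.mem _ r2 ((h.pf hg).mul (h.pf r1))) (by simp [r1 s (sI _ l2), hg s (sI _ hl)]))
    (g.1 a - a) (sub_mem ((stab_of_fix_perp h.nd g2 a).1 ha) ha) (sub_ne_zero.2 g3) (by
      simpa [g2 r hr] using sub_mem (BSet_map (hu' := hs) hy (h.mem _ g1 (h.pf g2)) (g2 s (sI _ hl))) hy)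
  intro l hl' x hx
  obtain rfl | e := eq_or_ne l l₀
  · exact A x hx
  obtain ⟨σ, σ0, σ1, -, σ2⟩ := h.od.exists_swap h.nd e (h.eqv l l₀)
  obtain ⟨r, r1, r2⟩ := h.adj σ l₀
  have m := h.mem _ r2 (σ0.mul (h.pf r1))
  have e1 : (σ * r).1 s = s := by
    obtain ⟨c, c1, c2, rfl⟩ := h.comp s
    have z : ∀ l ∉ I, c l = 0 := fun l hl => h.od.eq_zero' (c1 l) (by simpa using sub_mem (sI l hl) (c2 l))
    rw [isom_mul_apply, r1 _ (sI _ hl), map_sum]
    refine Finset.sum_congr rfl fun i _ => ?_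
    by_cases hi : i ∈ I
    · exact σ2 i (by rintro rfl; exact hl' hi) (by rintro rfl; exact hl hi) _ (c1 i)
    · simp [z i hi]
  simpa using BSet_map (hu' := hs) (v := (σ * r).1 x) (by
    simpa [r1 x (h.od.orth _ _ e.symm hx)] using A _ (σ1 x hx)) (inv_mem m)
    (by rw [← e1, isom_inv_apply_self, e1])

theorem grow {I : Finset (Fin t)} (hI : I.card + 2 ≤ t) {s y : V} (hs : S.Sing s) (s0 : s ≠ 0)
    (sI : ∀ l ∉ I, s ∈ S.perp (D l)) (hy : y ∈ BSet H hs) {l : Fin t} (hl : l ∉ I)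
    (yl : y ∉ S.perp (D l)) : S.E ≤ H := by
  classical
  have A := h.g1 hI hs sI hy hl yl
  obtain ⟨l', l1, l2⟩ := h.ex2 I hI l
  obtain ⟨n, hn⟩ : ∃ n, s ∉ S.perp (D n) := by
    by_contra! e
    exact s0 (h.od.eq_zero h.nd e)
  have nI : ∀ l ∉ I, l ≠ n := by rintro l hl rfl; exact hn (sI _ hl)
  obtain ⟨b, hb, qb, bs⟩ := (h.irr n).ex_ns h.nd (h.od.nondeg n) hn
  obtain ⟨r, r1, r2⟩ := h.adj (S.refl b) l
  obtain ⟨x, hx, x0⟩ := exists_ne_zero_of_finrank (D l') (by have := h.dim l'; omega)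
  have hs' : S.Sing ((S.refl b).1 s) := by simpa
  have B := h.g1 hI hs' (fun l hl => by
    rw [refl_apply]; exact sub_mem (sI l hl) (Submodule.smul_mem _ _ (h.od.orth _ _ (nI l hl) hb)))
    (BSet_map (A l' l2 x hx) (h.mem _ r2 ((h.pf (refl_fix hb)).mul (h.pf r1))) (by simp [r1 s (sI l hl)]))
    l2 (by
      rw [isom_mul_apply, r1 x (h.od.orth _ _ l1.symm hx),
        refl_fix hb x (h.od.orth _ _ (nI l' l2).symm hx)]
      exact fun e => x0 (h.od.eq_zero' hx e))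
  obtain ⟨u1, u2⟩ := h.sup l1
  have U : ∀ {s} (hs : S.Sing s), (∀ l ∉ I, ∀ x ∈ D l, x ∈ BSet H hs) → ∀ x ∈ D l' ⊔ D l,
      x ∈ BSet H hs := fun hs A x hx => by
    obtain ⟨a, ha, b, hb, rfl⟩ := Submodule.mem_sup.1 hx
    exact add_mem (A _ l2 a ha) (A _ hl b hb)
  have C := pair_full u1 hs hs' (by simp [refl_apply, hs.h_self, qb, bs, S.orth_symm b s]) (U hs A) (U hs' B)
  have Fu : ∀ u ∈ D l, S.Sing u → Full H u := fun u hu su => by
    have hu' : u ∈ D l' ⊔ D l := Submodule.mem_sup_right hu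
    have G := h.g1 (I := {l}) (by have := h.four; simpa) su
      (fun n hn => h.od.orth _ _ (by simpa using hn) hu)
      (mem_BSet_of_mem C (Submodule.mem_sup_right hu') su (Submodule.mem_sup_left
        (Submodule.subset_span (by simp))) (sI _ hl u hu)) (l₀ := n) (by simp [(nI _ hl).symm]) hn
    refine full_of_BSet su (fun v hv => ?_) fun a _ => C u (Submodule.mem_sup_right hu') 0 (zero_mem _) a
    obtain ⟨a, ha, r, hr, rfl⟩ := exists_decomp (h.od.nondeg l) v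
    refine add_mem (mem_BSet_of_mem C (Submodule.mem_sup_right hu') su (Submodule.mem_sup_right
      (Submodule.mem_sup_right ha)) (by simpa [hr u hu] using hv)) ?_
    obtain ⟨c, c1, c2, rfl⟩ := h.comp r
    refine sum_mem fun i _ => ?_
    obtain rfl | hi := eq_or_ne i l
    · rw [h.od.eq_zero' (c1 i) (by simpa using sub_mem hr (c2 i))]
      exact zero_mem _
    · exact G i (by simpa) _ (c1 i)
  obtain ⟨e, he, f, hf, Hy⟩ := exists_hyp_mem (iso3_orth S) (h.od.nondeg l) (by rw [h.od.dim]; exact h.two)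
  exact S.E_le_iff.2 fun x v a _ => full_all_of_pair h.nd Hy.sing_e Hy.sing_f (Fu e he Hy.sing_e)
    (Fu f hf Hy.sing_f) (by simp [Hy.h_ef]) x v a

theorem rc_map {c v : V} {i : Fin t} (hc : c ∈ D i) (hv : RC H c v) {m : S.Isom} (m1 : m ∈ S.E)
    (m2 : ODec.Perm D m) : RC H c (m.1 v) :=
  ⟨by simpa using hv.1, by
    have := h.mem _ (Subgroup.Normal.conj_mem inferInstance m m1 (S.refl c))
      (((h.pf (refl_fix hc)).mul m2).mul (h.pf (inv_mem (refl_fix hc))))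
    rw [← conj_refl]
    convert mul_mem (mul_mem (h.mem m m1 m2) hv.2) (inv_mem this) using 1
    simp only [mul_inv_rev, refl_inv, mul_assoc]
    rw [← mul_assoc (S.refl c) (S.refl c), refl_mul_self, one_mul]⟩

theorem root_of {c v : V} {i : Fin t} (hc : c ∈ D i) (hv : RC H c v) {m : S.Isom} (m1 : m ∈ S.E)
    (m2 : ODec.Perm D m) {I : Finset (Fin t)} (hI : I.card + 2 ≤ t) (s0 : m.1 v - v ≠ 0)
    (hs : S.q (m.1 v - v) = 0) (sI : ∀ l ∉ I, m.1 v - v ∈ S.perp (D l)) {l : Fin t} (hl : l ∉ I)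
    (yl : v ∉ S.perp (D l)) : S.E ≤ H := by
  have w := h.rc_map hc hv m1 m2
  have e := S.orth_q_add v (m.1 v - v)
  have q0 : S.q ((S.q v)⁻¹ • (m.1 v - v)) = 0 := by simp [orth_q_smul, hs]
  have p : S.h ((S.q v)⁻¹ • (m.1 v - v)) v = 0 := by
    rw [add_sub_cancel, orth_isom_q, hs] at e
    rw [S.orth_symm, map_smul, show S.h v (m.1 v - v) = 0 by linear_combination -e, smul_zero]
  refine h.grow hI ((S.orth_sing _).2 q0) (smul_ne_zero (inv_ne_zero hv.1) s0)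
    (fun l hl => Submodule.smul_mem _ _ (sI l hl)) ⟨_, .of_q ((S.orth_sing _).2 q0) p, ?_⟩ hl yl
  rw [orth_eich_eq q0 p hv.1, smul_inv_smul₀ hv.1, add_sub_cancel]
  convert mul_mem hv.2 (inv_mem w.2) using 1
  simp [refl_inv, mul_assoc, ← mul_assoc (S.refl c)]

variable (hR : ∀ i, ∀ c ∈ D i, ∀ v, RC H c v → ∃ l, v ∈ D l)
include hR

theorem st {g : S.Isom} (hg : g ∈ H) {i l : Fin t} {c : V} (hc : c ∈ D i) (qc : S.q c ≠ 0)
    (gc : g.1 c ∈ D l) : ODec.Perm D g := fun j => by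
  have A : ∀ b ∈ D j, S.q b ≠ 0 → sqSign (S.q b) = sqSign (S.q c) → ∃ n, g.1 b ∈ D n :=
    fun b hb qb e => hR l _ gc _ ⟨by simpa, by
      rw [← conj_refl, ← conj_refl]
      convert mul_mem (mul_mem hg (h.rr hb hc qb qc e)) (inv_mem hg) using 1
      group⟩
  obtain ⟨b, hb, e⟩ := orth_exists_q_eq_mem (h.od.nondeg j) (h.dim j) (S.q c)
  obtain ⟨n, hn⟩ := A b hb (e ▸ qc) (by rw [e])
  refine ⟨n, h.conn j ((D n).comap (g.1 : V →ₗ[F] V)) ((S.perp (D n)).comap (g.1 : V →ₗ[F] V))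
    (fun y hy z hz => by simpa using hz _ hy) (Submodule.disjoint_def.2 fun x h1 h2 => by
      simpa using h.od.eq_zero' h1 h2) b hb (e ▸ qc) hn fun b' hb' q' e' => ?_⟩
  obtain ⟨m, hm⟩ := A b' hb' q' (by rw [e', e])
  obtain rfl | mn := eq_or_ne n m
  exacts [.inl hm, .inr (h.od.orth _ _ mn hm)]

omit hR in
theorem rot {u u' : V} {l m : Fin t} (lm : l ≠ m) (hm : ∀ x ∈ D l, (S.refl u * S.refl u').1 x ∈ D m) :
    S.h u u' = 0 ∧ k = 2 ∧ u ∈ D l ⊔ D m := by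
  have A : ∀ x ∈ D l, x ≠ 0 → (S.refl u * S.refl u').1 x ≠ x := fun x hx x0 e =>
    x0 (Submodule.disjoint_def.1 (h.od.disj lm) x hx (e ▸ hm x hx))
  obtain ⟨x, hx, x0, a⟩ := ex_perp_ne h.nd (h.dim l) u'
  obtain ⟨y, hy, y0, b⟩ := ex_perp_ne h.nd (h.dim l) ((S.refl u').1 u)
  have ex : (S.refl u * S.refl u').1 x = x - ((S.q u)⁻¹ * S.h u x) • u := by
    rw [isom_mul_apply, refl_apply_of_perp (S.h_swap_zero a), refl_apply]
  have ey : (S.refl u * S.refl u').1 y = y - ((S.q u')⁻¹ * S.h u' y) • u' := by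
    rw [isom_mul_apply, refl_apply_of_perp (by rw [isom_h_right, refl_inv, S.orth_symm, b]), refl_apply]
  have c1 : (S.q u)⁻¹ * S.h u x ≠ 0 := fun e => A x hx x0 (by rw [ex, e]; simp)
  have c2 : (S.q u')⁻¹ * S.h u' y ≠ 0 := fun e => A y hy y0 (by rw [ey, e]; simp)
  have o1 := h.od.orth l m lm (hm y hy) x hx
  have o2 := h.od.orth l m lm (hm x hx) y hy
  have o3 := isom_h (S.refl u * S.refl u') x y
  rw [ey] at o1 o3; rw [ex] at o2 o3
  refine ⟨?_, ?_, ?_⟩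
  · simp only [map_sub, map_smul, LinearMap.sub_apply, LinearMap.smul_apply, smul_eq_mul, a,
      RingHom.id_apply, S.orth_symm x y, S.orth_symm u y] at o1 o2 o3
    exact mul_left_cancel₀ (mul_ne_zero c1 c2) (by linear_combination o3 - o2 + o1)
  · by_contra e
    obtain ⟨z, hz, z0, z1⟩ := exists_mem_ker_notMem [S.h u, S.h u'] (D l) ⊥ (by
      have := h.two; simp [h.od.dim]; omega)
    exact A z hz (by simpa using z0) (by
      rw [isom_mul_apply, refl_apply_of_perp (z1 _ (by simp)), refl_apply_of_perp (z1 _ (by simp))])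
  · rw [← Submodule.smul_mem_iff _ c1]
    have := sub_mem (Submodule.mem_sup_left hx) (Submodule.mem_sup_right (hm x hx))
    rwa [ex, sub_sub_cancel] at this

theorem perm_of_rot {g : S.Isom} (hg : g ∈ H) {i : Fin t} {u u' : V} (hu : g.1 u ∈ D i)
    (hu' : g.1 u' ∈ D i) (qu : S.q u ≠ 0) (qu' : S.q u' ≠ 0) (ind : u ∉ F ∙ u')
    (hk : S.h u u' ≠ 0 ∨ k ≠ 2) (hp : ODec.Perm D (S.refl u * S.refl u')) : ODec.Perm D g := by
  have A : ∀ l, ∀ x ∈ D l, (S.refl u * S.refl u').1 x - x ∈ D l := fun l x hx => by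
    obtain ⟨m, hm⟩ := hp l
    obtain rfl | lm := eq_or_ne l m
    · exact sub_mem (hm x hx) hx
    · have := h.rot lm hm; tauto
  obtain ⟨x, -, x1, x2⟩ := exists_mem_perp_h_eq (W := ⊤) (S := S)
    ((S.restrict_nondeg_iff' _).2 fun x _ e => h.nd x fun y => e y trivial) trivial trivial ind 1
  obtain ⟨c, c1, -, rfl⟩ := h.comp x
  by_contra hn
  have B : ∀ l, S.q ((S.refl u * S.refl u').1 (c l) - c l) = 0 := fun l => by
    by_contra e
    refine hn (h.st hR hg (A l _ (c1 l)) e (l := i) ?_)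
    rw [isom_mul_apply, refl_apply u, refl_apply u', sub_right_comm, sub_sub_cancel_left, map_sub,
      map_neg, map_smul, map_smul]
    exact sub_mem (neg_mem (Submodule.smul_mem _ _ hu')) (Submodule.smul_mem _ _ hu)
  have := (h.qsum (fun l => A l _ (c1 l)) Finset.univ).trans (Finset.sum_eq_zero fun l _ => B l)
  rw [Finset.sum_sub_distrib, ← map_sum, isom_mul_apply, refl_apply_of_perp x1, refl_apply, x2] at this
  simp [orth_q_neg, orth_q_smul, qu] at this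

omit hR in
theorem conj_fix {g : S.Isom} (hg : g ∈ H) {a u u' : V} (hst : ∀ r ∈ H, r.1 a = a → ODec.Perm D r)
    (m : S.refl u * S.refl u' ∈ H) (a1 : S.h u (g.1 a) = 0) (a2 : S.h u' (g.1 a) = 0) :
    ODec.Perm D (S.refl (g⁻¹.1 u) * S.refl (g⁻¹.1 u')) :=
  hst _ (by
    rw [← conj_refl, ← conj_refl]
    convert mul_mem (mul_mem (inv_mem hg) m) hg using 1
    group) (by
    rw [isom_h_right] at a1 a2
    rw [isom_mul_apply, refl_apply_of_perp a2, refl_apply_of_perp a1])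

theorem perm_of_fix_rot {g : S.Isom} (hg : g ∈ H) {a : V} (hst : ∀ r ∈ H, r.1 a = a → ODec.Perm D r)
    {i : Fin t} {u u' : V} (hu : u ∈ D i) (hu' : u' ∈ D i) (qu : S.q u ≠ 0) (e : S.q u' = S.q u)
    (ind : u ∉ F ∙ u') (hk : S.h u u' ≠ 0 ∨ k ≠ 2) (a1 : S.h u (g.1 a) = 0) (a2 : S.h u' (g.1 a) = 0) :
    ODec.Perm D g :=
  h.perm_of_rot hR hg (i := i) (by simpa) (by simpa) (by rwa [orth_isom_q]) (by rwa [orth_isom_q, e])
    (notMem_span_map _ ind) (by rwa [isom_h])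
    (h.conj_fix hg hst (h.rr hu hu' qu (e ▸ qu) (by rw [e])) a1 a2)

end OE

theorem odec4_three (hS : S.Nondeg) {t : ℕ} {D : Fin t → Submodule F V} (hD : ODec S 4 D)
    (ht : 3 ≤ t) (heq : ∀ i j, Eqv (S.restrict (D i)) (S.restrict (D j)))
    (hO : ∀ i, (S.restrict (D i)).NotO4) (H : Subgroup S.Isom)
    (hH : ∀ g ∈ S.E, ODec.Perm D g → g ∈ H) : S.E ≤ H ∨ ∀ g ∈ H, ODec.Perm D g := by
  have h : OE H 4 D := ⟨hS, hD, by omega, ht, heq, hH, fun i => airr_four hS (hD.nondeg i) (hD.dim i).ge,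
    fun i y => mv_four hS (hD.nondeg i) (hD.dim i).ge,
    fun i => conn_four hS (hD.nondeg i) (hD.dim i).ge (hO i)⟩
  refine or_iff_not_imp_left.2 fun hE g hg => ?_
  have hR : ∀ i, ∀ c ∈ D i, ∀ v, RC H c v → ∃ l, v ∈ D l := fun i c hc v hv => by
    obtain ⟨j, y, hy, qy, hr⟩ := h.ex_ns hv.1
    by_contra! hn
    obtain ⟨l, lj, hl⟩ := h.ex_supp (hn j)
    obtain ⟨u, u1, w, hw, u0, us, a1, a2, a3⟩ := ex_move4 hS (hD.nondeg j) (hD.dim j).ge hy qy
    have e : (S.eich u w (S.q w)).1 v - v = -u := by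
      have b1 := hr u u1
      have b2 := hr w hw
      rw [map_sub, sub_eq_zero] at b1 b2
      simp [eich_apply_of_perp (.of_q us a2) (b1.trans a1), b2, a3]
    exact hE (h.root_of hc hv (S.eich_mem_E u w (S.q w)) (hD.perm_eich u1 hw _) (I := {j}) (by simp; omega)
      (by simpa [e]) (by simpa [e, orth_q_neg] using (S.orth_sing u).1 us)
      (fun l hl => by rw [e]; exact neg_mem (hD.orth _ _ (by simpa using hl) u1)) (by simpa) hl)
  obtain ⟨a, ha, qa⟩ := orth_exists_q_ne_mem (hD.nondeg ⟨0, by omega⟩) (by rw [hD.dim]; omega)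
  obtain ⟨j, y, hy, qy, hr⟩ := h.ex_ns (x := g.1 a) (by simpa)
  obtain ⟨u, hu, w, hw, u0, us, qw, a1, a2, a3⟩ : ∃ u ∈ D j, ∃ w ∈ D j, u ≠ 0 ∧ S.Sing u ∧ S.q w ≠ 0 ∧
      S.h u y = 0 ∧ S.h w y = 0 ∧ S.h w u = 0 := by
    have d := finrank_inf_perp_one hS (D j) y
    rw [hD.dim] at d
    obtain ⟨u, hu, u0, us⟩ := iso3_orth S (D j ⊓ S.perp (F ∙ y)) (by omega)
    have uy := S.mem_perp_singleton.1 hu.2
    by_cases yy : S.h y y = 0
    · exact ⟨u, hu.1, y, hy, u0, us, qy, S.h_swap_zero uy, yy, uy⟩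
    obtain ⟨-, -, w, hw, -, b1, -, b2, -⟩ := exists_basis3 hS (nondeg_inf_perp (hD.nondeg j) hy yy)
      (le_antisymm (by
        have := Submodule.finrank_lt_finrank_of_lt (lt_of_le_of_ne (inf_le_left (b := S.perp (F ∙ y)))
          fun e => yy (S.mem_perp_singleton.1 (e.ge hy).2))
        rw [hD.dim] at this; omega) (by omega)) hu u0 us
    exact ⟨u, hu.1, w, hw.1, u0, us, q_ne_of_h b2, S.h_swap_zero uy,
      S.h_swap_zero (S.mem_perp_singleton.1 hw.2), S.h_swap_zero b1⟩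
  have b1 := hr u hu
  have b2 := hr w hw
  rw [map_sub, sub_eq_zero] at b1 b2
  have qu := (S.orth_sing u).1 us
  refine h.perm_of_fix_rot hR hg (fun r hr e => h.st hR hr ha qa (e.symm ▸ ha)) hw (add_mem hw hu) qw
    (by simp [orth_q_add, qu, a3]) (fun m => ?_) (.inr (by omega)) (b2.trans a2) (by simp [*])
  obtain ⟨c, hc⟩ := Submodule.mem_span_singleton.1 m
  have e : c • u = (1 - c) • w := by linear_combination (norm := module) hc
  have e' := congrArg S.q e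
  simp [orth_q_smul, qu, qw] at e'
  rw [e', zero_smul, sub_eq_zero.1 e' |>.symm, one_smul] at e
  exact u0 e

end H29
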