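import Cfsg.Agent.H29.ExtO2

/-! Overgroups of `Ω₃(K)` in orthogonal groups over a subfield `F` of prime index `r ≥ 5`:
the interface of the pieces. -/

set_option autoImplicit false
set_option linter.unusedSectionVars false

namespace H29.Q3

open Module H11 H11.PForm

variable {F K V : Type*} [Field F] [Field K] [Algebra F K] [AddCommGroup V] [Module F V]
  [Module K V] [IsScalarTower F K V] [FiniteDimensional F V] {S : PForm (orthP F) V}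

/-- a proper overgroup of `Ω₃(K)` -/
structure O3 (φ : Dual F K) (U : PForm (orthP K) V) (H : Subgroup S.Isom) : Prop extends OX φ U H where
  dim3 : finrank K V = 3
  five : 5 ≤ finrank F K

variable (U : PForm (orthP K) V) (H : Subgroup S.Isom)

/-- the stabiliser of a singular `K`-line acts semilinearly on it -/
def SL : Prop := ∀ (v : V) (g : S.Isom) (γ : K → K), U.Sing v → v ≠ 0 → g ∈ H →
  (∀ a, g.1 (a • v) = γ a • v) → ∀ κ : K, ∃ κ' : K, ∀ a, γ (κ * a) = κ' * γ a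

def S1 : Prop := ∀ (Y : Submodule F V) (g : S.Isom) (y y' : V), KM U H Y → g ∈ H →
  (∀ z ∈ Y, g.1 z ∈ Y) → y ∈ Y → y' ∈ Y → y ≠ 0 → y' ∉ F ∙ y → g.1 y = y → g.1 y' = y' →
  ∀ z ∈ Y, g.1 z = z

def S2 : Prop := ∀ (Y : Submodule F V) (g : S.Isom) (y : V) (a b c : F), KM U H Y → g ∈ H →
  (∀ z ∈ Y, g.1 z ∈ Y) → y ∈ Y → y ≠ 0 → g.1 y = y →
  (∀ z ∈ Y, g.1 (g.1 (g.1 z)) = a • g.1 (g.1 z) + b • g.1 z + c • z) → ∀ z ∈ Y, g.1 z = z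

def S3 : Prop := ∀ (Y : Submodule F V) (y : V), KM U H Y → y ∈ Y → y ≠ 0 →
  {f : Y → V | ∃ g ∈ H, (∀ z ∈ Y, g.1 z ∈ Y) ∧ g.1 y = y ∧ f = fun z : Y => g.1 z}.ncard ≤ finrank F K

/-- fixed vectors of a Siegel transformation -/
def FX : Prop := ∀ u w x : V, U.Sing u → u ≠ 0 → U.h u w = 0 → w ∉ K ∙ u →
  (U.eich u w (U.q w)).1 x = x → x ∈ K ∙ u

def TX : Prop := ∀ (u w : V) (Y : Submodule F V) (t : S.Isom), U.Sing u → u ≠ 0 → U.h u w = 0 →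
  w ∉ K ∙ u → KM U H Y → u ∈ Y → t ∈ H → (∀ x, t.1 x = (U.eich u w (U.q w)).1 x) →
  (∀ z ∈ Y, t.1 z ∈ Y) → Y = KL F K u

def CA : Prop := ∀ (d : ℕ) (X Y : Submodule F V) (x : V), OM U H (d + 1) → KM U H X → KM U H Y →
  d < finrank F (X ⊓ Y : Submodule F V) → x ∈ Y → (∀ z ∈ X, S.h z x = 0) → x ∈ X

def INJ : Prop := ∀ (d : ℕ) (u : V) (Y : Submodule F V), OM U H (d + 1) → U.Sing u → u ≠ 0 →
  KM U H Y → u ∈ Y → Y ≠ KL F K u → d < finrank F (KL F K u ⊓ Y : Submodule F V) →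
  2 * (d + 1) < finrank F K → ∃ (I : Set (K × K)) (G : K × K → S.Isom),
    Nat.card K ^ 2 ≤ Nat.card F * I.ncard ∧ (∀ i ∈ I, G i ∈ H ∧ ∀ z ∈ KL F K u ⊓ Y, (G i).1 z = z) ∧
    ∀ i ∈ I, ∀ j ∈ I, (∀ z ∈ Y, (G i).1 z = (G j).1 z) → i = j

def E1 : Prop := ∀ (d : ℕ) (u : V) (Y : Submodule F V), OM U H (d + 1) → U.Sing u → u ≠ 0 →
  KM U H Y → u ∈ Y → d < finrank F (KL F K u ⊓ Y : Submodule F V) → finrank F K < 2 * (d + 1) →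
  Y = KL F K u

def E2 : Prop := ∀ (d : ℕ) (u : V) (Y : Submodule F V), OM U H (d + 1) → U.Sing u → u ≠ 0 →
  KM U H Y → u ∈ Y → d < finrank F (KL F K u ⊓ Y : Submodule F V) → 1 ≤ d →
  2 * (d + 1) < finrank F K → Y = KL F K u

/-- `t` is a `K`-linear rotation about `y` with trace `c` on `y ^ ⊥` -/
def Rot (y : V) (t : S.Isom) (c : K) : Prop := (∀ (a : K) x, t.1 (a • x) = a • t.1 x) ∧ t.1 y = y ∧
  ∀ w, U.h y w = 0 → U.h y (t.1 w) = 0 ∧ t.1 (t.1 w) + w = c • t.1 w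

def F1 : Prop := ∀ y, U.q y ≠ 0 → ∃ T : Subgroup S.Isom, T ≤ H ∧
  (2 * Nat.card T = Nat.card K + 1 ∨ 2 * Nat.card T + 1 = Nat.card K) ∧
  ∀ t ∈ T, ∃ c : K, Rot U y t c ∧ (c = 2 → t = 1)

def F2 : Prop := ∀ (y : V) (t : S.Isom) (c : K) (Z : Submodule F V), U.q y ≠ 0 → t ∈ H → Rot U y t c →
  c ≠ 2 → KM U H Z → y ∈ Z → ¬ ∀ z ∈ Z, t.1 z ∈ Z

/-- free actions on sets of subspaces -/
def G1 (S : PForm (orthP F) V) : Prop := ∀ (T : Subgroup S.Isom) (P : Set (Submodule F V)),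
  (∀ t ∈ T, ∀ Z ∈ P, Z.map (t.1 : V →ₗ[F] V) ∈ P) →
  (∀ t ∈ T, ∀ Z ∈ P, (∀ z ∈ Z, t.1 z ∈ Z) → t = 1) → Nat.card T ∣ P.ncard

def G2 : Prop := ∀ u, U.Sing u → u ≠ 0 → ∃ T : Subgroup S.Isom, T ≤ H ∧ Nat.card T = Nat.card K ∧
  ∀ t ∈ T, (∀ a : K, t.1 (a • u) = a • u) ∧ (t = 1 ∨ ∃ w, U.h u w = 0 ∧ w ∉ K ∙ u ∧
    ∀ x, t.1 x = (U.eich u w (U.q w)).1 x)

def G3 : Prop := ∀ u : V, u ≠ 0 → OM U H 1 → Nat.card F *
  ({Z | KM U H Z ∧ u ∈ Z}.ncard * (Nat.card K - Nat.card F)) ≤ Nat.card K ^ 3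

def G4 : Prop := ∀ u : V, U.Sing u → u ≠ 0 → OM U H 1 →
  {Z | KM U H Z ∧ u ∈ Z}.ncard ≠ Nat.card K + 1

end H29.Q3
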