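import Cfsg.Agent.H29.Q0

/-! Overgroups of `Ω₃(K)`: the pieces `FX`, `TX`, `CA` and the assembly. -/

set_option autoImplicit false
set_option linter.unusedSectionVars false

namespace H29.Q3

open Module H11 H11.PForm

universe u

variable {F K V : Type*} [Field F] [Field K] [Algebra F K] [AddCommGroup V] [Module F V]
  [Module K V] [IsScalarTower F K V] [FiniteDimensional F V] {S : PForm (orthP F) V}
  [Finite F] [Finite K] {φ : Dual F K} {U : PForm (orthP K) V} {H : Subgroup S.Isom}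

theorem perp2 (h : O3 φ U H) {u w x : V} (hu : U.Sing u) (u0 : u ≠ 0) (hw : U.h u w = 0) (w0 : w ∉ K ∙ u)
    (h1 : U.h u x = 0) (h2 : U.h w x = 0) : x ∈ K ∙ u := by
  haveI := h.toOX.fd
  have a1 := h.toOX.ndK.finrank_perp (Submodule.span K {u, w})
  have a2 : finrank K (Submodule.span K {u, w}) = 2 := by
    rw [Submodule.span_insert, Submodule.finrank_sup_span_singleton w0, finrank_span_singleton u0]
  have a3 := h.dim3
  refine (Submodule.eq_of_le_of_finrank_eq (S₁ := K ∙ u) (S₂ := U.perp (Submodule.span K {u, w}))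
    ((Submodule.span_singleton_le_iff_mem _ _).2 (U.mem_perp_pair.2 ⟨hu.h_self, U.h_swap_zero hw⟩))
    (by rw [finrank_span_singleton u0]; omega)).ge (U.mem_perp_pair.2 ⟨h1, h2⟩)

theorem fx (h : O3 φ U H) : FX U := fun u w x hu u0 hw w0 e => by
  rw [eich_apply (.of_q hu hw), add_sub_assoc, add_eq_left, sub_eq_zero] at e
  have a : U.h u x = 0 := by_contra fun c => w0 ((Submodule.smul_mem_iff _ c).1
    (e ▸ Submodule.smul_mem _ _ (Submodule.mem_span_singleton_self u)))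
  exact perp2 h hu u0 hw w0 a (by simpa [a, u0] using e.symm)

theorem tx (h : O3 φ U H) (s2 : S2 U H) : TX U H := fun u w Y t hu u0 hw w0 hY huY ht e hn => by
  have a := s2 Y t u 3 (-3) 1 hY ht hn huY u0 (by rw [e, eich_apply_self]) fun z _ => by
    rw [← algebraMap_smul K (3 : F), ← algebraMap_smul K (-3 : F), map_neg, map_ofNat, one_smul]
    simp only [e, eich_apply (.of_q hu hw), map_sub, map_add, map_smul, hw, hu.h_self, U.h_swap_zero hw,
      U.orth_h_self w, orthP_ε, smul_eq_mul]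
    module
  exact Submodule.eq_of_le_of_finrank_eq (fun z hz => mem_KL'.2 (fx h u w z hu u0 hw w0 (e z ▸ a z hz)))
    (by rw [finrank_KL u0, hY.finrank])

theorem ca (h : O3 φ U H) (tx : TX U H) : CA U H := fun d X Y x hM hX hY hd hx hp => by
  haveI := h.toOX.fd
  obtain ⟨g, hg, u, hu0, hu, e1, Y, hY, e2, huY, hd⟩ := hX.tr hY hd
  obtain ⟨x, rfl⟩ := g.1.surjective x
  rw [e2] at hx
  rw [e1]
  have hux : U.h u x = 0 := h.toOX.perpK fun k => by
    rw [← isom_h g, hp _ ((e1 _).2 (smul_mem_KL k u))]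
  by_contra hx'
  obtain ⟨y, y1, y2⟩ := h.toOX.ndK.exists_perp_of_notMem (mt mem_KL'.2 hx') 1
  rw [mem_perp_singleton] at y1
  obtain ⟨t, ht, e⟩ := h.hH _ (U.eich_mem_E u y (U.q y))
  refine hx' (tx u y Y t hu hu0 y1 (fun a => ?_) hY huY ht e (hM.nml hY inf_le_right hd ht ?_ hx ?_
    fun a => hx' a.1) ▸ hx)
  · obtain ⟨c, rfl⟩ := Submodule.mem_span_singleton.1 a
    simp [hux] at y2
  · rintro _ ⟨⟨a, rfl⟩, -⟩
    simp [e, eich_apply_self]
  · simpa [e, eich_apply_of_perp (.of_q hu y1) hux, y2] using Y.sub_mem hx huY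

theorem om1 (h : O3 φ U H) (e1 : E1 U H) (e2 : E2 U H) : OM U H 1 := by
  refine Nat.decreasingInduction' (P := OM U H) (fun d _ d1 hM => ?_) (Nat.le_add_left 1 (finrank F V))
    fun X Y _ _ hd => (hd.not_ge ((Submodule.finrank_le _).trans (Nat.le_succ _))).elim
  intro X Y hX hY hd
  obtain ⟨g, hg, u, hu0, hu, a1, Y', hY', a2, huY, hd⟩ := hX.tr hY hd
  have a : Y' = KL F K u := by
    obtain ⟨k, hk⟩ := h.pr.odd_of_ne_two (by have := h.five; omega)
    rcases lt_or_gt_of_ne (show finrank F K ≠ 2 * (d + 1) by omega) with b | b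
    · exact e1 d u Y' hM hu hu0 hY' huY hd b
    · exact e2 d u Y' hM hu hu0 hY' huY hd d1 b
  refine Submodule.ext fun y => ?_
  obtain ⟨y, rfl⟩ := g.1.surjective y
  rw [a1, a2, a]

theorem arith {q Q N n k : ℕ} (hq : 3 ≤ q) (hQ : 81 * q ≤ Q) (h1 : N = Q * k + 1) (h2 : n ∣ N)
    (h3 : 2 * n = Q + 1 ∨ 2 * n + 1 = Q) (h4 : q * (N * (Q - q)) ≤ Q ^ 3) (h5 : N ≠ Q + 1) : False := by
  have hk : 5 * k ≤ 2 * Q := by
    by_contra! c
    obtain ⟨m, rfl⟩ : ∃ m, Q = m + q := ⟨Q - q, by omega⟩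
    rw [Nat.add_sub_cancel, h1] at h4
    have b1 : 3 * (((m + q) * k) * m) ≤ q * (((m + q) * k + 1) * m) := by gcongr; omega
    have b2 : (m + q) * (3 * k * m) ≤ (m + q) * (m + q) ^ 2 := by nlinarith
    have b3 := Nat.le_of_mul_le_mul_left b2 (by omega)
    nlinarith
  rcases h3 with h3 | h3
  · have b : n ∣ N + (k - 1) ↔ n ∣ k - 1 := (Nat.dvd_add_right h2)
    rcases Nat.eq_zero_or_pos k with rfl | k0
    · have := Nat.le_of_dvd (by omega) h2
      omega
    have c : N + (k - 1) = n * (2 * k) := by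
      obtain ⟨j, rfl⟩ : ∃ j, k = j + 1 := ⟨k - 1, by omega⟩
      rw [Nat.add_sub_cancel, h1]; nlinarith
    have d := b.1 (c ▸ dvd_mul_right _ _)
    rcases Nat.eq_zero_or_pos (k - 1) with e | e
    · exact h5 (by rw [h1, show k = 1 by omega, mul_one])
    · have := Nat.le_of_dvd e d
      omega
  · have c : N = n * (2 * k) + (k + 1) := by rw [h1, ← h3]; ring
    have := Nat.le_of_dvd (by omega) ((Nat.dvd_add_right (dvd_mul_right _ _)).1 (c ▸ h2))
    omega

theorem pure3 (h : O3 φ U H) (tx : TX U H) (hM : OM U H 1) (f1 : F1 U H) (f2 : F2 U H) (g1 : G1 S)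
    (g2 : G2 U H) (g3 : G3 U H) (g4 : G4 U H) (X : Submodule F V) (x : V) (hX : KM U H X) (hx : x ∈ X)
    (x0 : x ≠ 0) : U.Sing x ∧ X ≤ KL F K x := by
  haveI := h.toOX.fd
  haveI : FiniteDimensional F K := finite_of_finrank_pos h.pr.pos
  haveI : Finite V := Module.finite_of_finite F
  have A : ∀ y ∈ X, U.q y = 0 := fun y hy => by_contra fun c => by
    obtain ⟨g, hg, v, v0, hv, rfl⟩ := hX
    obtain ⟨_, ⟨a, rfl⟩, rfl⟩ := hy
    set u := a • v
    replace c : U.q (g.1 u) ≠ 0 := c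
    have u0 : u ≠ 0 := fun e => c (by rw [e, map_zero, U.orth_q_zero])
    have hu : U.Sing u := hv.smul a
    obtain ⟨T, t1, t2, t3⟩ := f1 _ c
    have b1 := g1 T {Z | KM U H Z ∧ g.1 u ∈ Z} (fun t ht Z hZ => ⟨hZ.1.map (t1 ht), _, hZ.2,
      (t3 t ht).elim fun _ e => e.1.2.1⟩) fun t ht Z hZ hn => by
        obtain ⟨c', e1, e2⟩ := t3 t ht
        exact e2 (by_contra fun e => f2 _ t c' Z c (t1 ht) e1 e hZ.1 hZ.2 hn)
    have b2 : {Z | KM U H Z ∧ g.1 u ∈ Z} = Submodule.map (g.1 : V →ₗ[F] V) '' {Z | KM U H Z ∧ u ∈ Z} := by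
      ext Z
      refine ⟨fun hZ => ⟨Z.map (g⁻¹.1 : V →ₗ[F] V), ⟨hZ.1.map (H.inv_mem hg), _, hZ.2, by simp⟩, ?_⟩, ?_⟩
      · rw [← Submodule.map_comp]; exact (congrArg Z.map (by ext; simp)).trans (Submodule.map_id _)
      · rintro ⟨Z, hZ, rfl⟩; exact ⟨hZ.1.map hg, _, hZ.2, rfl⟩
    rw [b2, Set.ncard_image_of_injective _ (Submodule.map_injective_of_injective g.1.injective)] at b1
    obtain ⟨T', s1, s2, s3⟩ := g2 u hu u0
    have b3 := g1 T' ({Z | KM U H Z ∧ u ∈ Z} \ {KL F K u}) (fun t ht Z hZ => ⟨⟨hZ.1.1.map (s1 ht), _,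
      hZ.1.2, by simpa using (s3 t ht).1 1⟩, fun e => hZ.2 (Submodule.eq_of_le_of_finrank_eq (fun z hz => by
        obtain ⟨k, hk⟩ := mem_KL.1 ((Set.mem_singleton_iff.1 e).le ⟨z, hz, rfl⟩)
        exact ⟨k, t.1.injective (((s3 t ht).1 k).trans hk)⟩) (by rw [finrank_KL u0, hZ.1.1.finrank]))⟩)
      fun t ht Z hZ hn => (s3 t ht).2.resolve_right fun ⟨w, w1, w2, w3⟩ =>
        hZ.2 (tx u w Z t hu u0 w1 w2 hZ.1.1 hZ.1.2 (s1 ht) w3 hn)
    have b4 := Set.ncard_diff_singleton_add_one (s := {Z | KM U H Z ∧ u ∈ Z}) (a := KL F K u)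
      ⟨om_kl hu u0, 1, one_smul _ _⟩
    obtain ⟨k, hk⟩ := b3
    have q3 : 3 ≤ Nat.card F := by
      have := Finite.one_lt_card (α := F)
      by_contra! c
      haveI := Fintype.ofFinite F
      have e := FiniteField.cast_card_eq_zero F
      rw [← Nat.card_eq_fintype_card, show Nat.card F = 2 by omega] at e
      exact h.two (by exact_mod_cast e)
    refine arith q3 ?_ (by rw [← b4, hk, s2]) b1 t2 (g3 u u0 hM) (g4 u hu u0 hM)
    obtain ⟨m, hm⟩ := Nat.exists_eq_add_of_le h.five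
    rw [Module.natCard_eq_pow_finrank (K := F) (V := K), hm]
    calc 81 * Nat.card F = 3 ^ 4 * Nat.card F * 1 := by ring
      _ ≤ Nat.card F ^ 4 * Nat.card F * Nat.card F ^ m := by gcongr; exact Nat.one_le_pow _ _ (by omega)
      _ = _ := by ring
  have hs := (U.orth_sing x).2 (A x hx)
  refine ⟨hs, fun y hy => mem_KL'.2 (by_contra fun c => c ?_)⟩
  have e : U.h x y = 0 := by simpa [A, hx, hy, X.add_mem hx hy] using (U.orth_q_add x y).symm
  exact perp2 h hs x0 e c e (by rw [U.orth_h_self, A y hy, mul_zero])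

theorem semi3 (h : OX φ U H) (pure : ∀ X x, KM U H X → x ∈ X → x ≠ 0 → U.Sing x ∧ X ≤ KL F K x)
    {g : S.Isom} (hg : g ∈ H) (k : K) :
    ∃ l : K, ∀ x, g.1 (k • x) = l • g.1 x := by
  haveI := h.fd
  let A : V →+ V := (g.1 : V →+ V).comp ((DistribSMul.toAddMonoidHom V k).comp (g⁻¹.1 : V →+ V))
  have p : ∀ g ∈ H, ∀ u, U.Sing u → u ≠ 0 → U.Sing (g.1 u) ∧ ∃ l : K, l • g.1 u = g.1 (k • u) :=
    fun g hg u hu h0 => (pure _ _ ((om_kl hu h0).map hg) ⟨u, ⟨1, one_smul _ _⟩, rfl⟩ (by simpa)).imp_right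
      fun a => a ⟨_, smul_mem_KL k u, rfl⟩
  have hA : ∀ u, U.Sing u → ∃ l : K, l • u = A u := fun u hu => by
    obtain rfl | h0 := eq_or_ne u 0
    · exact ⟨0, by simp⟩
    simpa [A] using (p g hg _ (p _ (H.inv_mem hg) u hu h0).1 (by simpa)).2
  have B : ∀ e f y (a : K), U.IsHyp e f → U.h e y = 0 → U.h f y = 0 → A f = a • f → A y = a • y := by
    intro e f y a Hy y1 y2 ha
    have s : ∀ y, U.h e y = 0 → U.h f y = 0 → U.Sing ((-U.q y) • e + (1 : K) • f + y) := fun y y1 y2 => by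
      simpa [orth_sing] using Hy.q_comb (-U.q y) 1 (U.mem_perp_pair.2 ⟨y1, y2⟩)
    obtain ⟨b, hb⟩ := hA _ (s y y1 y2)
    obtain ⟨b', hb'⟩ := hA _ (s (-y) (by simp [y1]) (by simp [y2]))
    obtain ⟨c, hc⟩ := hA _ (Hy.sing_e.smul (-U.q y))
    simp only [U.orth_q_neg, map_add, map_neg, one_smul, ha, ← hc] at hb hb'
    have e0 := congrArg₂ (· + ·) hb hb'
    have e1 := congrArg (U.h e) e0
    have e2 := congrArg (U.h f) e0
    simp only [map_add, map_smul, map_neg, Hy.h_ee, Hy.h_ff, Hy.h_ef, Hy.h_fe, y1, y2, smul_eq_mul,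
      orthP_ε] at e1 e2
    obtain rfl | e3 := smul_eq_zero.1 (show (b - b') • y = 0 by
      linear_combination (norm := module) e0 - e1 • f - e2 • e) |>.symm
    · simp
    refine smul_right_injective V h.twoK ?_
    linear_combination (norm := module) hb' - hb + e1 • y + e3 • (-U.q y • e + f)
  obtain ⟨e, f, Hy⟩ := h.ndK.orth_exists_hyp h.three
  obtain ⟨y, -, y1, y2, -, -, -, y0⟩ := h.ex_pair Hy.sing_e Hy.sing_f (by simp [Hy.h_ef])
  replace y0 : y ≠ 0 := by rintro rfl; exact y0 U.orth_q_zero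
  obtain ⟨a, ha⟩ := hA f Hy.sing_f
  have C : ∀ e f, U.IsHyp e f → U.h e y = 0 → U.h f y = 0 → ∀ c : K, A (c • f) = a • c • f := by
    intro e' f' Hy' y3 y4 c
    obtain rfl | c0 := eq_or_ne c 0
    · simp
    obtain ⟨b, hb⟩ := hA _ (Hy'.sing_f.smul c)
    rw [← hb, smul_left_injective K y0 ((B (c⁻¹ • e') _ y b ⟨Hy'.sing_e.smul _, Hy'.sing_f.smul _, by
      simp [Hy'.h_ef, c0]⟩ (by simp [y3]) (by simp [y4]) hb.symm).symm.trans (B e f y a Hy y1 y2 ha.symm))]
  refine ⟨a, fun x => ?_⟩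
  obtain ⟨w, hw, hx⟩ := Hy.exists_decomp (g.1 x)
  rw [mem_perp_pair] at hw
  have := C f e (by simpa using Hy.swap) y2 y1
  rw [show g.1 (k • x) = A (g.1 x) by simp [A], hx, map_add, map_add, this, C e f Hy y1 y2,
    B e f w a Hy hw.1 hw.2 ha.symm, smul_add, smul_add]


/-- all the pieces -/
def Pieces : Prop := ∀ {F K V : Type u} [Field F] [Field K] [Algebra F K] [AddCommGroup V] [Module F V]
  [Module K V] [IsScalarTower F K V] [FiniteDimensional F V] {S : PForm (orthP F) V}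
  [Finite F] [Finite K] {φ : Dual F K} {U : PForm (orthP K) V} {H : Subgroup S.Isom}, O3 φ U H →
  S2 U H ∧ E1 U H ∧ E2 U H ∧ F1 U H ∧ F2 U H ∧ G1 S ∧ G2 U H ∧ G3 U H ∧ G4 U H

theorem semi4 (hP : Pieces.{u}) {F K V : Type u} [Field F] [Field K] [Algebra F K] [AddCommGroup V]
    [Module F V] [Module K V] [IsScalarTower F K V] [FiniteDimensional F V] {S : PForm (orthP F) V}
    [Finite F] [Finite K] {φ : Dual F K} {U : PForm (orthP K) V} {H : Subgroup S.Isom} (h : O3 φ U H)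
    {g : S.Isom} (hg : g ∈ H) (k : K) : ∃ l : K, ∀ x, g.1 (k • x) = l • g.1 x := by
  obtain ⟨s2, e1, e2, f1, f2, g1, g2, g3, g4⟩ := hP h
  exact semi3 h.toOX (pure3 h (tx h s2) (om1 h e1 e2) f1 f2 g1 g2 g3 g4) hg k

open Matrix Cfsg.Geo

theorem oo_fld3 {F : Type u} [Field F] [Fintype F] {ι : Type} [Fintype ι] [DecidableEq ι]
    (h2 : (2 : F) ≠ 0) (hn : 7 ≤ Fintype.card ι) {Q : (ι → F) → F} (hQ : IsNondegenerateQuadraticForm Q)
    {r : ℕ} (hr : r.Prime) (h4 : 3 * r = Fintype.card ι) (h5 : 5 ≤ r) {K : Subalgebra F (Matrix ι ι F)}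
    (hK : IsFieldSubalgebra r K) (hsa : IsSelfAdjointFor (QuadraticMap.polar Q) K) (hP : Pieces.{u}) :
    IsMaximalIn (omegaGL Q) (subalgebraNormalizer K ⊓ omegaGL Q) := by
  have hb := big_omega hQ hn
  haveI := hb.nonempty
  have h1 := hb.not_field hK hr.one_lt
  have hS := quadOf_nondeg hQ
  have e := omegaGL_eq _ hS hn
  rw [coe_quadOf] at e
  rw [e] at h1 ⊢
  letI := (isField_of hK).toField
  haveI : Finite K := Subtype.finite
  obtain ⟨φ, hφ⟩ := ex_one' (F := F) (one_ne_zero (α := K))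
  replace hφ : φ ≠ 0 := by rintro rfl; simp at hφ
  haveI : FiniteDimensional F K := finite_of_finrank_pos (hK.finrank_eq ▸ hr.pos)
  set S := orthS (quadOf hQ)
  obtain ⟨B, hB⟩ := exists_lift_form hφ S.h (RingHom.id K) fun k x y => hsa k k.2 x y
  have h2' : (2 : K) ≠ 0 := fun e => h2 ((algebraMap F K).injective (by rw [map_ofNat, e, map_zero]))
  let U := symmS h2' B ⟨fun x y => eq_of_dual hφ fun k => by
    have : ∀ x y, φ (k * B x y) = S.h x (k • y) := fun x y => by rw [← hB, map_smul, smul_eq_mul]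
    rw [this, this, S.orth_symm]
    exact hsa k k.2 _ _⟩
  have hq : ∀ x, S.q x = φ (U.q x) := fun x => mul_left_cancel₀ h2 (by
    rw [← S.orth_h_self, ← hB, ← smul_eq_mul, ← map_smul, Algebra.smul_def, map_ofNat, ← U.orth_h_self]; rfl)
  let ρ : U.Isom →* S.Isom :=
    { toFun := fun g => ⟨g.1.restrictScalars F, orth_isIsom
        (f := (g.1.restrictScalars F).toLinearMap) fun x => by rw [hq, hq]; exact congrArg φ (orth_isom_q g x)⟩
      map_one' := rfl
      map_mul' := fun _ _ => rfl }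
  have h3 := Module.finrank_mul_finrank F K (ι → F)
  rw [hK.finrank_eq, finrank_fintype_fun_eq_card] at h3
  have h6 : finrank K (ι → F) = 3 := Nat.eq_of_mul_eq_mul_left hr.pos (by omega)
  obtain ⟨a, b, Hy⟩ := hS.orth_exists_hyp (by simp; omega)
  refine isMaximalIn_of_not_le _ h1 fun H hH => or_iff_not_imp_left.2 fun hE => le_nml ?_
  rintro _ ⟨g, hg, rfl⟩
  simp only [toGL_mulVec]
  refine semi4 hP ⟨⟨hφ, hS, h2, hK.finrank_eq ▸ hr, hB, by omega, fun g hg => ⟨ρ g, hH _ ?_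
    (mem_nml_of_comm fun k x => ?_), fun _ => rfl⟩, hE⟩, h6, hK.finrank_eq ▸ h5⟩ hg
  · refine (U.E_le_iff (K := S.E.comap ρ)).2 (fun u v a c => ?_) hg
    have c' := c.smul_right 2⁻¹
    have := eich_mul c' c'
    rw [← two_smul K, smul_smul, mul_inv_cancel₀ h2', one_smul,
      ((c'.add c').orth_eq.trans (by rw [← two_smul K, smul_smul, mul_inv_cancel₀ h2', one_smul])).trans
        c.orth_eq.symm] at this
    rw [Subgroup.mem_comap, hS.mem_E_iff (by simp; omega) Hy, ← this]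
    simp
  · rw [toGL_mulVec, toGL_mulVec]; exact map_smul g.1 k x

end H29.Q3
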