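import Cfsg.Agent.H29.Q0

/-! Overgroups of `Ω₃(K)`: the stabiliser of a singular `K`-line acts semilinearly (`pA`) and
consequences (`pB`). -/

set_option autoImplicit false
set_option linter.unusedSectionVars false

namespace H29.Q3

open Module H11 H11.PForm

variable {F K V : Type*} [Field F] [Field K] [Algebra F K] [AddCommGroup V] [Module F V]
  [Module K V] [IsScalarTower F K V] [FiniteDimensional F V] {S : PForm (orthP F) V}
  [Finite F] [Finite K] {φ : Dual F K} {U : PForm (orthP K) V} {H : Subgroup S.Isom}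

theorem dens (hr : (finrank F K).Prime) (A : Subalgebra F (End F K))
    (hA : ∀ κ, LinearMap.mul F K κ ∈ A) :
    (∀ α ∈ A, ∀ κ a, α (κ * a) = κ * α a) ∨ ∀ β, β ∈ A := by
  let C : Subalgebra F K :=
    { carrier := {κ | ∀ α ∈ A, ∀ a, α (κ * a) = κ * α a}
      mul_mem' := fun ha hb α h a => by rw [mul_assoc, ha α h, hb α h, mul_assoc]
      add_mem' := fun ha hb α h a => by rw [add_mul, map_add, ha α h, hb α h, add_mul]
      algebraMap_mem' := fun c α h a => by rw [← Algebra.smul_def, ← Algebra.smul_def, map_smul] }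
  rcases (Subalgebra.isSimpleOrder_of_finrank_prime F K hr).eq_bot_or_eq_top C with e | e
  swap
  · exact .inl fun α h κ a => (e ▸ Algebra.mem_top : κ ∈ C) α h a
  refine .inr fun β => ?_
  haveI : IsSimpleModule A K := isSimpleModule_iff_toSpanSingleton_surjective.2
    ⟨inferInstance, fun x hx y => ⟨⟨_, hA (y / x)⟩, div_mul_cancel₀ y hx⟩⟩
  have key : ∀ (ε : End A K), ∃ c : F, ∀ m, ε m = c • m := fun ε => by
    have a : ∀ m, ε m = ε 1 * m := fun m => by
      have := ε.map_smul ⟨_, hA m⟩ 1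
      rw [mul_comm]
      exact (congrArg ε (mul_one m).symm).trans this
    obtain ⟨c, hc⟩ := Algebra.mem_bot.1 (e.le (fun α h m => by
      rw [← a, ← a]; exact (ε.map_smul ⟨α, h⟩ m).symm : ε 1 ∈ C))
    exact ⟨c, fun m => by rw [a, ← hc, Algebra.smul_def]⟩
  haveI := Fintype.ofFinite K
  obtain ⟨r, hr⟩ := jacobson_density (R := A) (M := K)
    { toFun := β, map_add' := β.map_add, map_smul' := fun ε m => by
        obtain ⟨c, hc⟩ := key ε
        simp [hc] } Finset.univ
  exact (LinearMap.ext fun m => hr m (Finset.mem_univ m) : β = r.1) ▸ r.2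

theorem ex_lin {v : V} (v0 : v ≠ 0) {g : S.Isom} {γ : K → K} (hγ : ∀ a, g.1 (a • v) = γ a • v) :
    ∃ γ' : K ≃ₗ[F] K, (∀ a, γ' a = γ a) ∧ ∀ a, g⁻¹.1 (a • v) = γ'.symm a • v := by
  have i := smul_left_injective K v0
  let l : K →ₗ[F] K :=
    { toFun := γ
      map_add' := fun a b => i (by simp only [add_smul, ← hγ, map_add])
      map_smul' := fun c a => i (by simp only [smul_assoc, ← hγ, map_smul, RingHom.id_apply]) }
  have li : Function.Injective l := fun a b e => i (g.1.injective (by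
    simp only [hγ]; exact congrArg (· • v) e))
  let γ' := LinearEquiv.ofBijective l (Finite.injective_iff_bijective.1 li)
  refine ⟨γ', fun _ => rfl, fun a => g.1.injective ?_⟩
  rw [isom_apply_inv_self, hγ]
  exact congrArg (· • v) (γ'.apply_symm_apply a).symm

theorem pA (h : OX φ U H) : SL U H := fun v g γ hv v0 hg hγ κ => by
  obtain ⟨γ', e1, e2⟩ := ex_lin v0 hγ
  have z : ∀ f, LV U H v f → LV U H v fun _ => 0 := fun f hf => (hf.sub hf).congr (by simp)
  let A : Subalgebra F (End F K) :=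
    { carrier := {α | ∀ f, LV U H v f → LV U H v fun x => α (f x)}
      mul_mem' := fun ha hb f hf => ha _ (hb f hf)
      add_mem' := fun ha hb f hf => ((ha f hf).sub ((z f hf).sub (hb f hf))).congr (by simp)
      algebraMap_mem' := fun c f hf => (h.mul hv v0 hf (algebraMap F K c)).congr fun x _ => by
        simp [Algebra.smul_def] }
  rcases dens h.pr A (fun κ f hf => h.mul hv v0 hf κ) with a | a
  · let α : End F K := (γ' : K →ₗ[F] K) ∘ₗ LinearMap.mul F K κ ∘ₗ (γ'.symm : K →ₗ[F] K)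
    have b : α ∈ A := fun f hf => (h.conj (h.mul hv v0 (h.conj hf (H.inv_mem hg) (γ' := γ') e2
      γ'.symm_apply_apply) κ) hg (γ := γ') (γ' := γ'.symm) (fun a => by rw [hγ, e1])
      γ'.apply_symm_apply).congr fun x _ => by simp [α]
    refine ⟨α 1, fun x => ?_⟩
    have := a α b (γ' x) 1
    rw [mul_one, mul_comm] at this
    rw [← e1, ← e1, ← this]
    simp [α]
  refine (h.not_rad hv v0 fun w b hw => ?_).elim
  obtain ⟨k, hk, ek⟩ := h.hH _ (U.eich_mem_E v w (U.q w))
  have L : LV U H v fun x => -U.h w x := ⟨k, hk, fun a => by simp [ek, eich_apply_self],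
    fun x hx => by rw [ek, eich_apply_of_perp (.of_q hv hw) hx]; simp [sub_eq_add_neg]⟩
  exact (a (-φ.smulRight b) _ L).congr fun x _ => by simp [h.hU]

theorem ex_aut (hA : SL U H) {Y : Submodule F V} (hY : KM U H Y) {y : V} (hy : y ∈ Y) (y0 : y ≠ 0) :
    ∃ j : K →ₗ[F] V, Function.Injective j ∧ LinearMap.range j = Y ∧ j 1 = y ∧ ∀ g ∈ H,
      (∀ z ∈ Y, g.1 z ∈ Y) → g.1 y = y → ∃ τ : K ≃ₐ[F] K, ∀ a, g.1 (j a) = j (τ a) := by
  obtain ⟨k, hk, v, v0, hv, rfl⟩ := hY
  obtain ⟨_, ⟨a, rfl⟩, rfl⟩ := hy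
  have u0 : a • v ≠ 0 := fun e => y0 (by simp [e])
  have e : KL F K (a • v) = KL F K v := Submodule.ext fun x => by
    rw [mem_KL', mem_KL', Submodule.span_singleton_smul_eq (left_ne_zero_of_smul u0).isUnit]
  have hu := hv.smul a
  rw [← e]
  change ∃ j : K →ₗ[F] V, _ ∧ _ ∧ j 1 = k.1 (a • v) ∧ ∀ g ∈ H, _ → g.1 (k.1 (a • v)) = k.1 (a • v) → _
  generalize a • v = u at u0 hu
  refine ⟨(k.1 : V →ₗ[F] V) ∘ₗ (LinearMap.toSpanSingleton K V u).restrictScalars F,
    k.1.injective.comp (smul_left_injective K u0), LinearMap.range_comp _ _, by simp, fun g hg hn h1 => ?_⟩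
  have : ∀ a : K, ∃ b : K, (k⁻¹ * g * k).1 (a • u) = b • u := fun a => by
    obtain ⟨_, ⟨b, rfl⟩, e⟩ := hn _ ⟨_, smul_mem_KL a u, rfl⟩
    replace e : k.1 (b • u) = g.1 (k.1 (a • u)) := e
    exact ⟨b, by simp [← e]⟩
  choose γ hγ using this
  obtain ⟨γ', e1, -⟩ := ex_lin u0 hγ
  have g1 : γ 1 = 1 := smul_left_injective K u0 (by simp [← hγ, h1])
  refine ⟨AlgEquiv.ofLinearEquiv γ' (by rw [e1, g1]) fun x y => ?_, fun a => ?_⟩
  · obtain ⟨κ, hκ⟩ := hA u _ γ hu u0 (H.mul_mem (H.mul_mem (H.inv_mem hk) hg) hk) hγ x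
    have := hκ 1
    rw [mul_one, g1, mul_one] at this
    rw [e1, e1, e1, hκ, this]
  · have := congrArg k.1 (hγ a)
    simpa [e1] using this

theorem pB (h : O3 φ U H) (hA : SL U H) : S1 U H ∧ S2 U H ∧ S3 U H := by
  haveI : FiniteDimensional F K := finite_of_finrank_pos h.pr.pos
  refine ⟨fun Y g y y' hY hg hn hy hy' y0 hi e1 e2 => ?_, fun Y g y a b c hY hg hn hy y0 e1 e2 => ?_,
    fun Y y hY hy y0 => ?_⟩
  · obtain ⟨j, j1, rfl, rfl, j2⟩ := ex_aut hA hY hy y0
    obtain ⟨τ, hτ⟩ := j2 g hg hn e1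
    obtain ⟨κ, rfl⟩ := hy'
    rcases (Subalgebra.isSimpleOrder_of_finrank_prime F K h.pr).eq_bot_or_eq_top
      (AlgHom.equalizer (τ : K →ₐ[F] K) (AlgHom.id F K)) with e | e
    · obtain ⟨c, rfl⟩ := Algebra.mem_bot.1 (e.le (j1 ((hτ κ).symm.trans e2) :
        κ ∈ AlgHom.equalizer (τ : K →ₐ[F] K) (AlgHom.id F K)))
      exact absurd (Submodule.mem_span_singleton.2 ⟨c, by rw [← map_smul, Algebra.smul_def, mul_one]⟩) hi
    · rintro _ ⟨a, rfl⟩
      exact (hτ a).trans (congrArg j (e ▸ Algebra.mem_top :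
        a ∈ AlgHom.equalizer (τ : K →ₐ[F] K) (AlgHom.id F K)))
  · obtain ⟨j, j1, rfl, rfl, j2⟩ := ex_aut hA hY hy y0
    obtain ⟨τ, hτ⟩ := j2 g hg hn e1
    have o : orderOf τ ∣ finrank F K := IsGalois.card_aut_eq_finrank F K ▸ orderOf_dvd_natCard τ
    rcases (Nat.dvd_prime h.pr).1 o with o | o
    · rintro _ ⟨a, rfl⟩
      rw [hτ, orderOf_eq_one_iff.1 o]; rfl
    have five := h.five
    have li := (linearIndependent_monoidHom K K).comp (fun i : Fin 4 => ((τ ^ i.1 : K ≃ₐ[F] K) : K →* K))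
      fun i i' e => Fin.ext (pow_injOn_Iio_orderOf (x := τ) (by simp; omega) (by simp; omega)
        (AlgEquiv.ext fun x => DFunLike.congr_fun e x))
    have := Fintype.linearIndependent_iff.1 li ![algebraMap F K c, algebraMap F K b, algebraMap F K a, -1]
      (funext fun x => by
        have := e2 _ ⟨x, rfl⟩
        rw [hτ, hτ, hτ, ← j.map_smul, ← j.map_smul, ← j.map_smul, ← map_add, ← map_add] at this
        have := j1 this
        simp [Fin.sum_univ_four, pow_succ, this, Algebra.smul_def]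
        ring) 3
    simp at this
  · obtain ⟨j, j1, rfl, rfl, j2⟩ := ex_aut hA hY hy y0
    rw [← IsGalois.card_aut_eq_finrank F K, ← Set.ncard_univ]
    refine le_trans (Set.ncard_le_ncard (t := (fun (τ : K ≃ₐ[F] K) (z : LinearMap.range j) =>
      j (τ z.2.choose)) '' Set.univ) ?_) (Set.ncard_image_le)
    rintro _ ⟨g, hg, hn, e, rfl⟩
    obtain ⟨τ, hτ⟩ := j2 g hg hn e
    exact ⟨τ, trivial, funext fun z => by simp only [← hτ, z.2.choose_spec]⟩

end H29.Q3
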