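import Cfsg.Agent.H29.Q1

/-! Overgroups of `Ω₃(K)`: the pieces `F2` and `E1`. -/

set_option autoImplicit false
set_option linter.unusedSectionVars false

namespace H29.Q3

open Module H11 H11.PForm

variable {F K V : Type*} [Field F] [Field K] [Algebra F K] [AddCommGroup V] [Module F V]
  [Module K V] [IsScalarTower F K V] [FiniteDimensional F V] {S : PForm (orthP F) V}
  [Finite F] [Finite K] {φ : Dual F K} {U : PForm (orthP K) V} {H : Subgroup S.Isom}

theorem pF2 (h : O3 φ U H) (s2 : S2 U H) : F2 U H := fun y t c Z qy ht ⟨r1, r2, r3⟩ c2 hZ hy hn => by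
  have yy : U.h y y ≠ 0 := by simp [U.orth_h_self, qy, h.toOX.twoK]
  have y0 : y ≠ 0 := by rintro rfl; simp at yy
  have dec : ∀ z, ∃ (a : K) (w : V), U.h y w = 0 ∧ z = a • y + w := fun z =>
    ⟨U.h y z / U.h y y, z - (U.h y z / U.h y y) • y, by simp [yy], by simp⟩
  have key : ∀ (a : K) w, U.h y w = 0 → t.1 (t.1 (a • y + w)) + (a • y + w) - (t.1 (a • y + w) +
      t.1 (a • y + w)) = (c - 2) • t.1 w := fun a w hw => by
    simp only [map_add, r1, r2]
    linear_combination (norm := module) (r3 w hw).2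
  have A : ∀ z ∈ Z, t.1 (t.1 z) + z - (t.1 z + t.1 z) = 0 := by
    by_cases hc : ∃ c₀ : F, algebraMap F K c₀ = c
    · obtain ⟨c₀, rfl⟩ := hc
      have := s2 Z t y (c₀ + 1) (-(c₀ + 1)) 1 hZ ht hn hy y0 r2 fun z _ => by
        obtain ⟨a, w, hw, rfl⟩ := dec z
        have e1 := (r3 w hw).2
        have e2 := (r3 _ (r3 w hw).1).2
        rw [algebraMap_smul] at e1 e2
        simp only [map_add, r1, r2]
        linear_combination (norm := module) e2 - e1
      intro z hz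
      simp [this z hz]
    intro z hz
    have hm := Z.sub_mem (Z.add_mem (hn _ (hn z hz)) hz) (Z.add_mem (hn z hz) (hn z hz))
    obtain ⟨a, w, hw, rfl⟩ := dec z
    rw [key a w hw] at hm ⊢
    have hp : U.h y ((c - 2) • t.1 w) = 0 := by simp [(r3 w hw).1]
    generalize (c - 2) • t.1 w = x at hm hp
    by_contra x0
    have su : ∀ z ∈ Z, ∃ z' ∈ Z, t.1 z' = z := fun z hz =>
      (Submodule.eq_of_le_of_finrank_eq (S₁ := Z.map (t.1 : V →ₗ[F] V)) (S₂ := Z)
        (by rintro _ ⟨z, hz, rfl⟩; exact hn z hz) (LinearEquiv.finrank_map_eq _ _)).ge hz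
    refine hc (mem_range_of_mul h.pr (Z.comap ((LinearMap.toSpanSingleton K V x).restrictScalars F))
      (by simpa) (fun e => ?_) fun k hk => ?_)
    · obtain ⟨k, rfl⟩ := (Submodule.eq_of_le_of_finrank_eq (S₁ := KL F K x) (S₂ := Z)
        (by rintro _ ⟨k, rfl⟩; exact Submodule.eq_top_iff'.1 e k) (by rw [finrank_KL x0, hZ.finrank])).ge hy
      replace hp : U.h (k • x) x = 0 := hp
      exact yy (show U.h (k • x) (k • x) = 0 by rw [map_smul, hp, smul_zero])
    obtain ⟨z, hz, e⟩ := su _ hk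
    replace e : t.1 z = k • x := e
    obtain ⟨b, v, hv, rfl⟩ := dec z
    have b0 : b = 0 := by simpa [r1, r2, (r3 v hv).1, hp, yy] using congrArg (U.h y) e
    rw [b0, zero_smul, zero_add] at e hz
    change (c * k) • x ∈ Z
    rw [mul_smul, ← e, ← (r3 v hv).2]
    exact Z.add_mem (hn _ (hn _ hz)) hz
  have B : Z ≤ KL F K y := fun z hz => by
    have := A z hz
    obtain ⟨a, w, hw, rfl⟩ := dec z
    rw [key a w hw, smul_eq_zero_iff_right (sub_ne_zero.2 c2), map_eq_zero_iff _ t.1.injective] at this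
    exact ⟨a, by simp [this]⟩
  exact yy (h.toOX.perpK fun k => h.toOX.ts hZ ((Submodule.eq_of_le_of_finrank_eq B
    (by rw [finrank_KL y0, hZ.finrank])).ge (smul_mem_KL k y)) hy)

theorem pE1 (h : O3 φ U H) (tx : TX U H) (ca : CA U H) : E1 U H := fun d u Y hM hu u0 hY huY hd hr => by
  haveI := h.toOX.fd
  haveI : FiniteDimensional F K := finite_of_finrank_pos h.pr.pos
  by_contra hne
  obtain ⟨x, hx, hx'⟩ : ∃ x ∈ Y, x ∉ KL F K u := by
    by_contra! a
    exact hne (Submodule.eq_of_le_of_finrank_eq a (by rw [finrank_KL u0, hY.finrank]))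
  obtain ⟨y, y1, y2⟩ : ∃ y ∈ U.perp (K ∙ u), y ∉ K ∙ u := by
    by_contra! a
    have := Submodule.finrank_mono a
    have := h.toOX.ndK.finrank_perp (K ∙ u)
    have := finrank_span_one_le (F := K) u
    have := h.dim3
    omega
  rw [mem_perp_singleton] at y1
  obtain ⟨Y₀, hY₀⟩ := Submodule.exists_isCompl (KL F K u ⊓ Y)
  let Y₁ := Y ⊓ Y₀
  have r1 : finrank F Y₁ + finrank F (KL F K u ⊓ Y : Submodule F V) ≤ finrank F K := by
    rw [← Submodule.finrank_sup_add_finrank_inf_eq, show Y₁ ⊓ (KL F K u ⊓ Y) = ⊥ from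
      eq_bot_iff.2 fun z hz => hY₀.disjoint.le_bot ⟨hz.2, hz.1.2⟩, finrank_bot, ← hY.finrank]
    exact Submodule.finrank_mono (sup_le inf_le_left inf_le_right)
  let b : V →ₗ[F] K := (U.h u).restrictScalars F
  let b' : V →ₗ[F] K := (U.h y).restrictScalars F
  let m : K →ₗ[F] K →ₗ[F] F := (LinearMap.mul F K).compr₂ φ
  obtain ⟨s, s0, hs⟩ := cw2 (V := K) (W := Dual F Y₁)
    ((LinearMap.mul F K).compr₂ (m.compl₂ ((-(U.q y * U.h u x) • b) ∘ₗ Y₁.subtype)))
    (m.compl₂ ((U.h u x • b' - U.h y x • b) ∘ₗ Y₁.subtype)) (by rw [Subspace.dual_finrank_eq]; omega)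
  have w1 : U.h u (s • y) = 0 := by simp [y1]
  obtain ⟨t, ht, e⟩ := h.hH _ (U.eich_mem_E u (s • y) (U.q (s • y)))
  have fx : ∀ z ∈ KL F K u ⊓ Y, t.1 z = z := by
    rintro _ ⟨⟨a, rfl⟩, -⟩
    simp [e, eich_apply_self]
  have e4 : ∀ z ∈ Y, S.h z (t.1 x) = 0 := fun z hz => by
    obtain ⟨z₁, a1, z₂, a2, rfl⟩ := Submodule.mem_sup.1 (hY₀.sup_eq_top.ge trivial : z ∈ _)
    have a3 : z₂ ∈ Y := (Y.add_mem_iff_right a1.2).1 hz
    have a4 := LinearMap.congr_fun hs ⟨z₂, a3, a2⟩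
    rw [map_add, LinearMap.add_apply, ← fx z₁ a1, isom_h, h.toOX.ts hY a1.2 hx, zero_add, e,
      eich_apply (.of_q hu w1), map_sub, map_add, h.toOX.ts hY a3 hx, zero_add, ← h.hU, ← h.hU, ← map_sub]
    refine Eq.trans ?_ a4
    simp only [LinearMap.add_apply, LinearMap.compr₂_apply, LinearMap.compl₂_apply, m, ← map_add]
    congr 1
    simp [b, b', U.orth_symm z₂, U.orth_q_smul]
    ring
  refine hne (tx u (s • y) Y t hu u0 w1 (fun a => y2 ((Submodule.smul_mem_iff _ s0).1 a)) hY huY ht e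
    (hM.nml hY inf_le_right hd ht fx hx (ca d Y _ _ hM hY (hY.map ht) (hd.trans_le (Submodule.finrank_mono
      fun z hz => ⟨hz.2, z, hz.2, fx z hz⟩)) ⟨x, hx, rfl⟩ e4) fun a => hx' a.1))

end H29.Q3
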