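import Cfsg.Agent.H29.Q1

/-! Overgroups of `Ω₃(K)`: the torus fixing a nonsingular vector (`pF1`). -/

set_option autoImplicit false
set_option linter.unusedSectionVars false

namespace H29.Q3

open Module H11 H11.PForm

variable {F K V : Type*} [Field F] [Field K] [Algebra F K] [AddCommGroup V] [Module F V]
  [Module K V] [IsScalarTower F K V] [FiniteDimensional F V] {S : PForm (orthP F) V}
  [Finite F] [Finite K] {φ : Dual F K} {U : PForm (orthP K) V} {H : Subgroup S.Isom}

theorem conic (h2 : (2 : K) ≠ 0) {γ : K} (g0 : γ ≠ 0) : {p : K × K | p.1 ^ 2 + γ * p.2 ^ 2 = 1}.ncard = Nat.card K + 1 ∨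
    {p : K × K | p.1 ^ 2 + γ * p.2 ^ 2 = 1}.ncard + 1 = Nat.card K := by
  let ψ : K → K × K := fun s => ((1 - γ * s ^ 2) / (1 + γ * s ^ 2), 2 * s / (1 + γ * s ^ 2))
  have a : ∀ s, 1 + γ * s ^ 2 ≠ 0 → (ψ s).2 / (1 + (ψ s).1) = s ∧ 1 + (ψ s).1 ≠ 0 := fun s hs => by
    have : 1 + (ψ s).1 = 2 / (1 + γ * s ^ 2) := by simp only [ψ]; field_simp; ring
    rw [this]
    exact ⟨by simp only [ψ]; rw [div_div_div_cancel_right₀ hs, mul_div_cancel_left₀ _ h2], div_ne_zero h2 hs⟩
  have e : {p : K × K | p.1 ^ 2 + γ * p.2 ^ 2 = 1} = insert (-1, 0) (ψ '' {s | 1 + γ * s ^ 2 = 0}ᶜ) := by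
    ext ⟨x, z⟩
    constructor
    · intro hp
      replace hp : x ^ 2 + γ * z ^ 2 = 1 := hp
      by_cases hx : 1 + x = 0
      · obtain rfl : x = -1 := by linear_combination hx
        exact .inl (Prod.ext rfl (by simpa [g0] using hp))
      have : 1 + γ * (z / (1 + x)) ^ 2 = 2 / (1 + x) := by field_simp; linear_combination hp
      refine .inr ⟨z / (1 + x), by simp [this, h2, hx], ?_⟩
      simp only [ψ, this, Prod.mk.injEq]
      constructor <;> field_simp
      linear_combination -hp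
    · rintro (e | ⟨s, hs, e⟩)
      · simp [e]
      · replace hs : 1 + γ * s ^ 2 ≠ 0 := hs
        rw [← e]
        simp only [ψ, Set.mem_setOf_eq]
        field_simp
        ring
  rw [e, Set.ncard_insert_of_notMem (by rintro ⟨s, hs, e⟩; exact (a s hs).2 (by simp [e])),
    Set.InjOn.ncard_image fun s hs s' hs' e => by rw [← (a s hs).1, e, (a s' hs').1]]
  have b := Set.ncard_add_ncard_compl {s | 1 + γ * s ^ 2 = 0}
  by_cases c : ∃ s, 1 + γ * s ^ 2 = 0
  · obtain ⟨s, hs⟩ := c
    have s0 : s ≠ 0 := by rintro rfl; simp at hs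
    have d : {s | 1 + γ * s ^ 2 = 0} = {s, -s} := Set.ext fun x => by
      simp only [Set.mem_setOf_eq, Set.mem_insert_iff, Set.mem_singleton_iff, ← sq_eq_sq_iff_eq_or_eq_neg]
      exact ⟨fun e => mul_left_cancel₀ g0 (by linear_combination e - hs), fun e => by rw [e, hs]⟩
    have := Set.ncard_pair (show s ≠ -s from fun e => s0 (mul_left_cancel₀ h2 (by linear_combination e)))
    rw [← d] at this
    omega
  · have : {s | 1 + γ * s ^ 2 = 0}.ncard = 0 := (Set.ncard_eq_zero).2 (Set.eq_empty_of_forall_notMem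
      fun s hs => c ⟨s, hs⟩)
    omega

theorem pF1 (h : O3 φ U H) : F1 U H := fun y qy => by
  haveI := h.toOX.fd
  have h2 := h.toOX.twoK
  have h3 := h.dim3
  have nd := h.toOX.ndK
  have yy : U.h y y ≠ 0 := by simp [U.orth_h_self, qy, h2]
  have f3 := U.le_finrank_ker_h y
  obtain ⟨a, ya, qa⟩ := orth_exists_q_ne_mem (nd.restrict_perp (nondeg_singleton yy)) (by omega)
  rw [mem_perp_singleton] at ya
  have aa : U.h a a ≠ 0 := by simp [U.orth_h_self, qa, h2]
  have ay := U.h_swap_zero ya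
  have f1 := nd.finrank_perp (Submodule.span K {y, a})
  have f2 : finrank K (Submodule.span K {y, a}) = 2 := by
    rw [Submodule.span_insert, Submodule.finrank_sup_span_singleton (fun e => by
      obtain ⟨c, rfl⟩ := Submodule.mem_span_singleton.1 e
      simp_all), finrank_span_singleton (by rintro rfl; simp at yy)]
  obtain ⟨⟨b, hb⟩, b0, hb'⟩ := finrank_eq_one_iff'.1 (show finrank K (U.perp (Submodule.span K {y, a})) = 1 by omega)
  obtain ⟨yb, ab⟩ := U.mem_perp_pair.1 hb
  have by' := U.h_swap_zero yb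
  have ba := U.h_swap_zero ab
  have dec : ∀ v, ∃ r s t : K, v = r • y + s • a + t • b := fun v => by
    obtain ⟨t, ht⟩ := hb' ⟨v - (U.h y v / U.h y y) • y - (U.h a v / U.h a a) • a,
      U.mem_perp_pair.2 ⟨by simp [yy, ya], by simp [aa, ay]⟩⟩
    refine ⟨U.h y v / U.h y y, U.h a v / U.h a a, t, ?_⟩
    rw [show t • b = _ from congrArg Subtype.val ht]
    module
  have qb : U.q b ≠ 0 := fun e => b0 (Subtype.ext (nd b fun v => by
    obtain ⟨r, s, t, rfl⟩ := dec v
    simp [by', ba, U.orth_h_self, e]))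
  set α := U.q a
  set β := U.q b
  let rot : K → K → V →ₗ[K] V := fun x z => x • LinearMap.id + (1 - x) • ((U.h y y)⁻¹ • U.h y).smulRight y +
    z • (((2 : K)⁻¹ • U.h a).smulRight b - ((2 : K)⁻¹ • U.h b).smulRight a)
  have er : ∀ x z r s t : K, rot x z (r • y + s • a + t • b) =
      r • y + (x * s - z * β * t) • a + (x * t + z * α * s) • b := fun x z r s t => by
    simp only [rot, LinearMap.add_apply, LinearMap.smul_apply, LinearMap.sub_apply, LinearMap.id_apply,
      LinearMap.smulRight_apply, map_add, map_smul, ya, yb, ay, ab, ba, by', U.orth_h_self a,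
      U.orth_h_self b, smul_eq_mul]
    match_scalars <;> field_simp <;> (try simp only [α, β]) <;> ring
  clear_value rot
  have mul : ∀ x z x' z' v, rot x z (rot x' z' v) = rot (x * x' - α * β * (z * z')) (x * z' + z * x') v :=
    fun x z x' z' v => by
      obtain ⟨r, s, t, rfl⟩ := dec v
      rw [er, er, er]; module
  have one : ∀ v, rot 1 0 v = v := fun v => by
    obtain ⟨r, s, t, rfl⟩ := dec v
    rw [er]; module
  have inj : ∀ {x z x' z'}, (∀ v, rot x z v = rot x' z' v) → x = x' ∧ z = z' := fun {x z x' z'} e => by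
    have := e ((0 : K) • y + (1 : K) • a + (0 : K) • b)
    rw [er, er] at this
    have e1 := congrArg (U.h a) this
    have e2 := congrArg (U.h b) this
    simp [ab, ba, aa, U.orth_h_self b, h2, qb, qa] at e1 e2
    exact ⟨e1, e2.resolve_right qb⟩
  have qq : ∀ r s t : K, U.q (r • y + s • a + t • b) = r ^ 2 * U.q y + s ^ 2 * α + t ^ 2 * β :=
    fun r s t => by simp [U.orth_q_add, U.orth_q_smul, ya, yb, ab, α, β]
  let C := {p : K × K | p.1 ^ 2 + α * β * p.2 ^ 2 = 1}
  have iv : ∀ x z, x ^ 2 + α * β * z ^ 2 = 1 → ∀ v, rot x z (rot x (-z) v) = v := fun x z e v => by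
    rw [mul, show x * x - α * β * (z * -z) = 1 by linear_combination e, show x * -z + z * x = 0 by ring, one]
  let f : C → U.Isom := fun p => ⟨LinearEquiv.ofLinear (rot p.1.1 p.1.2) (rot p.1.1 (-p.1.2))
    (LinearMap.ext (iv _ _ p.2)) (LinearMap.ext fun v => by
      simpa using iv p.1.1 (-p.1.2) (by rw [neg_sq]; exact p.2) v), orth_isIsom fun v => by
      obtain ⟨r, s, t, rfl⟩ := dec v
      change U.q (rot _ _ _) = _
      rw [er, qq, qq]
      have e : p.1.1 ^ 2 + α * β * p.1.2 ^ 2 = 1 := p.2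
      linear_combination (s ^ 2 * α + t ^ 2 * β) * e⟩
  have ef : ∀ p v, (f p).1 v = rot p.1.1 p.1.2 v := fun _ _ => rfl
  clear_value f
  let T : Subgroup U.Isom :=
    { carrier := Set.range f
      one_mem' := ⟨⟨(1, 0), by simp [C]⟩, isom_ext fun v => by rw [ef, one]; rfl⟩
      mul_mem' := by
        rintro _ _ ⟨⟨⟨x, z⟩, e⟩, rfl⟩ ⟨⟨⟨x', z'⟩, e'⟩, rfl⟩
        refine ⟨⟨(x * x' - α * β * (z * z'), x * z' + z * x'), ?_⟩, isom_ext fun v => by
          rw [isom_mul_apply, ef, ef, ef, mul]⟩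
        simp only [C, Set.mem_setOf_eq] at e e' ⊢
        linear_combination (x' ^ 2 + α * β * z' ^ 2) * e + e'
      inv_mem' := by
        rintro _ ⟨⟨⟨x, z⟩, e⟩, rfl⟩
        exact ⟨⟨(x, -z), by simpa [C] using e⟩, eq_inv_of_mul_eq_one_right (isom_ext fun v => by
          rw [isom_mul_apply, ef, ef, iv _ _ e]; rfl)⟩ }
  have fi : Function.Injective f := fun p p' e => Subtype.ext (Prod.ext_iff.2 (inj fun v => by
    rw [← ef, ← ef, e]))
  have cT : Nat.card T = C.ncard := Nat.card_range_of_injective fi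
  have hq : ∀ x, S.q x = φ (U.q x) := fun x => mul_left_cancel₀ h.two (by
    rw [← S.orth_h_self, ← h.hU, ← smul_eq_mul, ← map_smul, Algebra.smul_def, map_ofNat, ← U.orth_h_self])
  let ρ : U.Isom →* S.Isom :=
    { toFun := fun g => ⟨g.1.restrictScalars F, orth_isIsom
        (f := (g.1.restrictScalars F).toLinearMap) fun x => by rw [hq, hq]; exact congrArg φ (orth_isom_q g x)⟩
      map_one' := rfl
      map_mul' := fun _ _ => rfl }
  have eρ : ∀ g v, (ρ g).1 v = g.1 v := fun _ _ => rfl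
  let σ : T →* S.Isom := MonoidHom.mk' (fun g => ρ (g.1 * g.1)) (by
    rintro ⟨_, p, rfl⟩ ⟨_, p', rfl⟩
    have c : f p * f p' = f p' * f p := isom_ext fun v => by
      rw [isom_mul_apply, isom_mul_apply, ef, ef, ef, ef, mul, mul, mul_comm p.1.1 p'.1.1,
        mul_comm p.1.2 p'.1.2, add_comm, mul_comm p.1.1 p'.1.2, mul_comm p.1.2 p'.1.1]
    rw [← map_mul]
    exact congrArg ρ ((Commute.symm c).mul_mul_mul_comm _ _))
  have eσ : ∀ p v, (σ ⟨f p, p, rfl⟩).1 v = rot (p.1.1 * p.1.1 - α * β * (p.1.2 * p.1.2))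
      (p.1.1 * p.1.2 + p.1.2 * p.1.1) v := fun p v => by rw [← mul, ← ef, ← ef]; rfl
  have ck : Nat.card σ.ker = 2 := by
    let p₁ : C := ⟨(1, 0), by simp [C]⟩
    let p₂ : C := ⟨(-1, 0), by simp [C]⟩
    have : (σ.ker : Set T) = {⟨f p₁, p₁, rfl⟩, ⟨f p₂, p₂, rfl⟩} := by
      ext ⟨_, ⟨⟨x, z⟩, e⟩, rfl⟩
      simp only [SetLike.mem_coe, MonoidHom.mem_ker, Set.mem_insert_iff, Set.mem_singleton_iff]
      refine Iff.trans ?_ (or_congr (Subtype.ext_iff.trans fi.eq_iff) (Subtype.ext_iff.trans fi.eq_iff)).symm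
      simp only [p₁, p₂, Subtype.mk.injEq, Prod.mk.injEq]
      replace e : x ^ 2 + α * β * z ^ 2 = 1 := e
      constructor
      · intro a
        obtain ⟨a1, a2⟩ := inj (x' := 1) (z' := 0) fun v => by rw [← eσ, a, one]; rfl
        have : z = 0 := by
          have : 2 * (α * β) * z ^ 2 = 0 := by linear_combination e - a1
          simpa [h2, qa, qb] using this
        subst this
        simpa using e
      · rintro (⟨rfl, rfl⟩ | ⟨rfl, rfl⟩) <;> exact isom_ext fun v => by rw [eσ]; simpa using one v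
    rw [← SetLike.coe_sort_coe, this, Nat.card_coe_set_eq, Set.ncard_pair fun e => h2 (by
      have := congrArg (·.1.1) (fi (congrArg Subtype.val e))
      linear_combination (this : (1 : K) = -1))]
  obtain ⟨e₀, f₀, Hy⟩ := nd.orth_exists_hyp h.three
  refine ⟨σ.range, ?_, ?_, ?_⟩
  · rintro _ ⟨g, rfl⟩
    obtain ⟨g', hg, e⟩ := h.hH (g.1 * g.1) (by rw [nd.mem_E_iff h.three Hy]; simp)
    exact (isom_ext e : g' = σ g) ▸ hg
  · rw [← Subgroup.index_ker, ← ck, Subgroup.card_mul_index, cT]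
    exact conic h2 (mul_ne_zero qa qb)
  rintro _ ⟨⟨_, ⟨⟨x, z⟩, e⟩, rfl⟩, rfl⟩
  replace e : x ^ 2 + α * β * z ^ 2 = 1 := e
  have et := eσ ⟨(x, z), e⟩
  have e' : (x * x - α * β * (z * z)) ^ 2 + α * β * (x * z + z * x) ^ 2 = 1 := by
    linear_combination (x ^ 2 + α * β * z ^ 2 + 1) * e
  simp only at et
  generalize x * x - α * β * (z * z) = x' at et e'
  generalize x * z + z * x = z' at et e'
  generalize σ _ = t at et
  refine ⟨2 * x', ⟨fun c v => by rw [et, et, map_smul], ?_, fun w hw => ?_⟩, fun c => isom_ext fun v => ?_⟩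
  · simpa [et] using er x' z' 1 0 0
  · obtain ⟨r, s, u, rfl⟩ := dec w
    obtain rfl : r = 0 := by simpa [ya, yb, yy] using hw
    rw [et, et, er, er]
    refine ⟨by simp [ya, yb], ?_⟩
    match_scalars
    · ring
    · linear_combination -s * e'
    · linear_combination -u * e'
  · obtain rfl : x' = 1 := mul_left_cancel₀ h2 (by linear_combination c)
    obtain rfl : z' = 0 := by simpa [qa, qb] using e'
    rw [et, one]; rfl

end H29.Q3
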