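import Cfsg.Agent.H29.Gram

/-! Non-maximality through the similarity group of a second form (`sim_between`), anisotropic
vectors in subspaces of a unitary space (`exists_aniso`), determinants of transvections. -/

set_option autoImplicit false
set_option linter.unusedSectionVars false

namespace H29

open Matrix Cfsg.Geo Module

variable {F : Type*} [Field F] [Fintype F] {ι κ : Type} [Fintype ι] [DecidableEq ι]
  [Fintype κ] [DecidableEq κ] {M : Type} [Field M] {σ : F →+* F} {G : Matrix ι ι F} {ε : F}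

theorem lift_sim_iff {e : M ≃+* F} {T : (κ → F) ≃ₗ[F] (ι → F)} {S A : Matrix κ κ M} {g : GL ι F}
    (h : g.1 = Φ T (A.map e)) :
    g ∈ Sim (RingHom.id F) (gT (RingHom.id F) (S.map e) T.symm) ↔
      ∃ c : M, c ≠ 0 ∧ Aᵀ * S * A = c • S := by
  obtain ⟨g, rfl⟩ := (ΦU T).surjective g
  rw [ΦU_mem_Sim, gT_symm, mem_Sim, show g.1 = _ from (Φ T).injective h,
    e.surjective.exists]
  refine exists_congr fun c => and_congr (by simp) ?_
  rw [← (map_injective e.injective).eq_iff]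
  simp only [Matrix.map_mul, transpose_map]
  exact Eq.congr rfl (by ext i j; simp)

theorem sim_between [Nonempty ι] (e : M ≃+* F) (T : (κ → F) ≃ₗ[F] (ι → F)) {N Ω : Subgroup (GL ι F)}
    (S : Matrix κ κ M)
    (h1 : ∀ A, ∀ g ∈ N, g ∈ Ω → g.1 = Φ T (A.map e) → ∃ c : M, c ≠ 0 ∧ Aᵀ * S * A = c • S)
    {A B : Matrix κ κ M} (hA : ∃ g ∈ Ω, g.1 = Φ T (A.map e) ∧ g ∉ N)
    (hB : ∃ g ∈ Ω, g.1 = Φ T (B.map e)) (h2 : Aᵀ * S * A = S) (h3 : ∀ c : M, Bᵀ * S * B ≠ c • S) :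
    ∃ K, N ⊓ Ω < K ∧ K < Ω := by
  obtain ⟨a, ha, ea, ha'⟩ := hA
  obtain ⟨b, hb, eb⟩ := hB
  refine between (X := Sim (RingHom.id F) (gT (RingHom.id F) (S.map e) T.symm)) (fun g hg => ?_)
    (fun h => let ⟨c, _, hc⟩ := (lift_sim_iff eb).1 (h hb); h3 c hc)
    fun h => ha' (h ⟨(lift_sim_iff ea).2 ⟨1, one_ne_zero, by rw [h2, one_smul]⟩, ha⟩)
  obtain ⟨X, hX⟩ := (Ψ e T).surjective g.1
  exact (lift_sim_iff hX.symm).2 (h1 X g hg.1 hg.2 hX.symm)

theorem det_tv {R : Type*} [CommRing R] {u v : κ → R} (h : v ⬝ᵥ u = 0) :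
    (1 + vecMulVec u v).det = 1 := by
  rw [vecMulVec_eq Unit, det_one_add_replicateCol_mul_replicateRow, h, add_zero]

theorem exists_aniso (h : HF σ 1 G) (hne : σ ≠ RingHom.id F) (p : (ι → F) → Prop)
    (p1 : ∀ x y, p x → p y → p (x + y)) (p2 : ∀ (c : F) x, p x → p (c • x)) {x y : ι → F}
    (hx : p x) (hy : p y) (h0 : fm σ G x y ≠ 0) : ∃ v, p v ∧ fm σ G v v ≠ 0 := by
  by_contra! h1
  have h2 : ∀ c : F, c * fm σ G x y + σ (c * fm σ G x y) = 0 := fun c => by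
    have := h1 _ (p1 _ _ (p2 c x hx) hy)
    rw [fm_add_left, fm_add_right, fm_add_right, h1 _ (p2 c x hx), h1 y hy, h.swap y,
      fm_smul_left] at this
    linear_combination this
  refine hne (RingHom.ext fun c => ?_)
  have h3 := h2 (fm σ G x y)⁻¹
  have h4 := h2 (c * (fm σ G x y)⁻¹)
  rw [inv_mul_cancel₀ h0, map_one] at h3
  rw [inv_mul_cancel_right₀ h0] at h4
  rw [RingHom.id_apply]
  linear_combination h4 - c * h3

theorem not_nml_of {e : M ≃+* F} {T : (κ → F) ≃ₗ[F] (ι → F)} {K : Subalgebra F (Matrix ι ι F)}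
    {n : ℕ} (hK : IsFieldSubalgebra n K) {A U Y : Matrix κ κ M} (hU : Φ T (U.map e) ∈ K)
    (h1 : A * U = Y * A) (h2 : Y * U ≠ U * Y) {g : GL ι F} (h : g.1 = Φ T (A.map e)) :
    g ∉ subalgebraNormalizer K := fun h3 => by
  haveI : Nonempty ι := by_contra fun h4 => by
    rw [not_nonempty_iff] at h4
    exact h2 ((e.mapMatrix.trans (Φ T).toRingEquiv).injective (Subsingleton.elim _ _))
  have h4 := hK.comm _ (nmlA_normalizer K g h3 _ hU) _ hU
  rw [cjA_eq_iff.2 (show _ = Ψ e T Y * _ by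
    rw [h, Ψ_apply, Ψ_apply, ← map_mul, ← map_mul, h1]), Ψ_apply, ← map_mul, ← map_mul] at h4
  exact h2 ((Ψ e T).injective h4)

end H29
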