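import Cfsg.Agent.H29.UFq

/-! Decompositions into two totally singular subspaces: dual coordinates (`exists_tsT`) and
non-maximality in dimension four over small fields (`ts_between`). -/

set_option autoImplicit false
set_option linter.unusedSectionVars false

namespace H29

open Matrix Cfsg.Geo Module
open scoped Kronecker

variable {F : Type*} [Field F] [Fintype F] {ι κ : Type} [Fintype ι] [DecidableEq ι]
  [Fintype κ] [DecidableEq κ] {M : Type} [Field M] {σ : F →+* F} {G : Matrix ι ι F} {ε : F} {k : ℕ}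

/-- Gram matrix of a pair of dual bases -/
def hyp {R : Type*} [Semiring R] (κ : Type) [DecidableEq κ] (ε : R) :
    Matrix (κ × Fin 2) (κ × Fin 2) R := (1 : Matrix κ κ R) ⊗ₖ !![0, 1; ε, 0]

theorem fm_sum_right {μ : Type*} (s : Finset μ) (x : ι → F) (y : μ → ι → F) :
    fm σ G x (∑ i ∈ s, y i) = ∑ i ∈ s, fm σ G x (y i) := by
  classical
  induction s using Finset.induction_on with
  | empty => simp
  | insert a s h ih => rw [Finset.sum_insert h, Finset.sum_insert h, fm_add_right, ih]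

theorem fm_sum_left {μ : Type*} (s : Finset μ) (x : ι → F) (y : μ → ι → F) :
    fm σ G (∑ i ∈ s, y i) x = ∑ i ∈ s, fm σ G (y i) x := by
  classical
  induction s using Finset.induction_on with
  | empty => simp
  | insert a s h ih => rw [Finset.sum_insert h, Finset.sum_insert h, fm_add_left, ih]

theorem exists_tsT (h : HF σ ε G) {D : Fin 2 → Submodule F (ι → F)} (hD : IsMDecomposition k D)
    (hs : ∀ i, IsTotallySingularFor (fm σ G) (D i)) :
    ∃ T : (Fin k × Fin 2 → F) ≃ₗ[F] (ι → F), gT σ G T = hyp (Fin k) ε ∧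
      ∀ g ∈ decompositionStabilizer D, ∃ (τ : Equiv.Perm (Fin 2)) (a : Fin 2 → GL (Fin k) F),
        (g : Matrix ι ι F) = Φ T (bm τ fun i => a i) := by
  let b := fun i => finBasisOfFinrankEq F _ (hD.finrank_eq i)
  let N : Matrix (Fin k) (Fin k) F := of fun x z => fm σ G (b 0 x) (b 1 z)
  have hN : IsUnit N := vecMul_injective_iff_isUnit.1 ((injective_iff_map_eq_zero N.vecMulLinear).2
    fun c hc => (b 0).equivFun.symm.map_eq_zero_iff.1 (Subtype.ext (h.left fun y => by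
      have h1 : y ∈ D 0 ⊔ D 1 := by
        refine (?_ : ⊤ ≤ D 0 ⊔ D 1) trivial
        rw [← hD.iSup_eq_top]
        exact iSup_le (Fin.forall_fin_two.2 ⟨le_sup_left, le_sup_right⟩)
      obtain ⟨u, hu, w, hw, rfl⟩ := Submodule.mem_sup.1 h1
      rw [fm_add_right, hs 0 _ (Subtype.property _) u hu, zero_add,
        show w = _ from congrArg Subtype.val ((b 1).sum_repr ⟨w, hw⟩).symm, Submodule.coe_sum,
        fm_sum_right]
      refine Finset.sum_eq_zero fun z _ => ?_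
      have := congrFun hc z
      simp only [vecMulLinear_apply, vecMul, dotProduct, N, of_apply, Pi.zero_apply] at this
      simp [fm_smul_right, fm_sum_left, fm_smul_left, this])))
  have hC : IsUnit ((N⁻¹).map σ).det :=
    (isUnit_iff_isUnit_det _).1 (isUnit_map (isUnit_nonsing_inv_iff.2 hN))
  let b' : ∀ i, Basis (Fin k) F (D i) :=
    Fin.cons (b 0) (Fin.cons ((b 1).map (toLinearEquiv (b 1) _ hC)) finZeroElim)
  have h1 : ∀ x y, fm σ G (b' 0 x) (b' 1 y) = (1 : Matrix _ _ F) x y := fun x y => by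
    rw [← mul_nonsing_inv N ((isUnit_iff_isUnit_det _).1 hN)]
    change fm σ G (b 0 x) (toLin (b 1) (b 1) _ (b 1 y) : D 1) = _
    simp [toLin_self, fm_sum_right, fm_smul_right, h.σσ, Matrix.mul_apply, N, mul_comm]
  obtain ⟨T, h2, h3⟩ := exists_decT hD b'
  refine ⟨T, ?_, h3⟩
  ext ⟨x, i⟩ ⟨y, j⟩
  rw [← fm_single (σ := σ) (G := gT σ G T), fm_gT, h2, h2]
  fin_cases i <;> fin_cases j
  · simpa [hyp] using hs 0 _ (b' 0 x).2 _ (b' 0 y).2
  · simpa [hyp] using h1 x y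
  · refine (h.swap _ _).trans ((congrArg (ε * σ ·) (h1 y x)).trans ?_)
    simp [hyp, one_apply, eq_comm]
  · simpa [hyp] using hs 1 _ (b' 1 x).2 _ (b' 1 y).2

theorem ts_det {τ : Equiv.Perm (Fin 2)} {a : Fin 2 → Matrix κ κ F}
    (h : (bm τ a)ᵀ * hyp κ ε * (bm τ a).map σ = hyp κ ε) :
    ∃ c, (c = 1 ∨ c = ε) ∧ c ^ Fintype.card κ * ((a 0).det * σ (a 1).det) = 1 := by
  have h1 : ∀ c : F, c • ((a 0)ᵀ * (a 1).map σ) = 1 →
      c ^ Fintype.card κ * ((a 0).det * σ (a 1).det) = 1 := fun c e => by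
    have := congrArg det e
    rwa [det_smul, det_mul, det_transpose, det_one, σ.map_det] at *
  rcases (by decide : ∀ τ : Equiv.Perm (Fin 2), τ = 1 ∨ τ = Equiv.swap 0 1) τ with rfl | rfl
  · refine ⟨1, .inl rfl, h1 _ (ext fun x y => ?_)⟩
    simpa [hyp, Matrix.mul_apply, Fintype.sum_prod_type, bm_apply, one_apply]
      using congrFun (congrFun h (x, 0)) (y, 1)
  · refine ⟨ε, .inr rfl, h1 _ (ext fun x y => ?_)⟩
    simpa [hyp, Matrix.mul_apply, Fintype.sum_prod_type, bm_apply, one_apply, Finset.mul_sum,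
      mul_assoc, mul_left_comm] using congrFun (congrFun h (x, 0)) (y, 1)

/-- a `4 × 4` matrix indexed by pairs -/
def pr4 {R : Type*} (A : Matrix (Fin 4) (Fin 4) R) : Matrix (Fin 2 × Fin 2) (Fin 2 × Fin 2) R :=
  A.submatrix finProdFinEquiv finProdFinEquiv

theorem ts_between (e : M ≃+* F) {T : (Fin 2 × Fin 2 → F) ≃ₗ[F] (ι → F)} {N Ω : Subgroup (GL ι F)}
    (hN : ∀ g ∈ N, ∃ (τ : Equiv.Perm (Fin 2)) (a : Fin 2 → GL (Fin 2) F),
      (g : Matrix ι ι F) = Φ T (bm τ fun i => a i))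
    (h1 : ∀ g ∈ Ω, ∀ (τ : Equiv.Perm (Fin 2)) (a : Fin 2 → GL (Fin 2) F),
      (g : Matrix ι ι F) = Φ T (bm τ fun i => a i) → (a 1).1.det = (a 0).1.det)
    {A B : Matrix (Fin 2 × Fin 2) (Fin 2 × Fin 2) M} (hA : ∃ g ∈ Ω, g.1 = Φ T (A.map e))
    (hB : ∃ g ∈ Ω, g.1 = Φ T (B.map e))
    (h2 : Aᵀ * blockDiagonal (fun _ => J2 M) * A.map id = blockDiagonal fun _ => J2 M)
    (h3 : ∀ c : M, Bᵀ * blockDiagonal (fun _ => J2 M) * B ≠ c • blockDiagonal fun _ => J2 M)
    (h4 : A (0, 0) (0, 0) ≠ 0 ∧ A (0, 1) (0, 0) ≠ 0) : ∃ K, N ⊓ Ω < K ∧ K < Ω := by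
  obtain ⟨a, ha, ea⟩ := hA
  obtain ⟨b, hb, eb⟩ := hB
  have h5 : (blockDiagonal fun _ : Fin 2 => J2 F) = (blockDiagonal fun _ => J2 M).map e := by
    rw [blockDiagonal_map _ _ (map_zero e)]
    congr 1
    ext l i j
    fin_cases i <;> fin_cases j <;> simp [J2]
  refine between (X := Sim (RingHom.id F) (gT (RingHom.id F) (blockDiagonal fun _ => J2 F) T.symm))
    (fun g hg => ?_) (fun h => ?_) fun h => ?_
  · obtain ⟨τ, d, ed⟩ := hN g hg.1
    refine mem_Sim_of_Φ ed (det_ne_zero (d 0)) ?_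
    simp only [bm_gram, gram_J2]
    rw [← blockDiagonal_smul]
    congr 1
    ext1 j
    fin_cases j <;> simp [h1 g hg.2 τ d ed]
  · obtain ⟨b, rfl⟩ := (ΦU T).surjective b
    have h6 := h hb
    rw [ΦU_mem_Sim, gT_symm, mem_Sim, show b.1 = _ from (Φ T).injective eb, h5] at h6
    obtain ⟨c, -, hc⟩ := h6
    refine h3 (e.symm c) (map_injective e.injective ?_)
    simp only [Matrix.map_mul, transpose_map]
    refine hc.trans ?_
    ext i j
    simp
  · obtain ⟨τ, d, ed⟩ := hN a (h ⟨Iso_le_Sim (lift_iso (s := id) (fun _ => rfl)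
      ((gT_symm _ _).trans h5) h2 ea), ha⟩)
    have h0 := (Φ T).injective (ea.symm.trans ed)
    have h7 : ∀ i, A (0, i) (0, 0) ≠ 0 → i = τ 0 := fun i hi => by_contra fun h8 => hi (by
      simpa [bm_apply, h8] using congrFun (congrFun h0 (0, i)) (0, 0))
    exact zero_ne_one ((h7 0 h4.1).trans (h7 1 h4.2).symm)

theorem hyp_map (e : M ≃+* F) (c : M) : hyp κ (e c) = (hyp κ c).map e := by
  ext ⟨x, i⟩ ⟨y, j⟩
  fin_cases i <;> fin_cases j <;> simp [hyp, one_apply, apply_ite e]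

theorem iso_of_Φ {T : (κ → F) ≃ₗ[F] (ι → F)} {g : GL ι F} (hg : g ∈ Iso σ G) {X : Matrix κ κ F}
    (h : g.1 = Φ T X) : Xᵀ * gT σ G T * X.map σ = gT σ G T := by
  obtain ⟨g, rfl⟩ := (ΦU T).surjective g
  rw [← (Φ T).injective h]
  exact mem_Iso.1 (ΦU_mem_Iso.1 hg)

end H29
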