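import Cfsg.Agent.H29.Fr3
import Cfsg.Agent.H11.Chunk

/-! Orthogonal decompositions of unitary spaces: sums of norm circles (`circ4`), quasi-reflections
`ur`, the structure `UD` of an overgroup of the stabiliser, the growth lemma `UD.grow` and the
case of parts of dimension at least two (`udec_two`). -/

set_option autoImplicit false
set_option linter.unusedSectionVars false

namespace H29

open Module H11 H11.PForm Finset

universe u
variable {F : Type*} [Field F] [Finite F] {σ : F →+* F} {hσ : ∀ a, σ (σ a) = a} {V : Type u}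
  [AddCommGroup V] [Module F V] [FiniteDimensional F V] {S : PForm (unitP σ hσ) V}
  {H : Subgroup S.Isom} {X : Submodule F V}

theorem circ2 (hσ : ∀ a, σ (σ a) = a) (hne : σ ≠ RingHom.id F) {a b : F} (a0 : a ≠ 0) (b0 : b ≠ 0)
    (ha : σ a = a) (hb : σ b = b) : ∃ A : Finset F, Nat.card F + 2 ≤ 2 * A.card ∧
      ∀ z ∈ A, ∃ x y, σ x * x = 1 ∧ σ y * y = 1 ∧ z = x * a + y * b := by
  classical
  haveI := Fintype.ofFinite F
  obtain ⟨q, h1, h2, -⟩ := unit_field_facts hσ hne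
  have hq := two_le_of_card_sq h1
  let C : Finset F := univ.filter fun x => σ x * x = 1
  have hC : C.card = q + 1 := by
    rw [← card_norm_fiber h1 1 one_ne_zero (one_pow q), Nat.card_eq_fintype_card, Fintype.card_subtype]
    simp [C, h2, pow_succ]
  let f : F × F → F := fun p => p.1 * a + p.2 * b
  have A1 := card_le_mul_card_image (f := f) ((C ×ˢ C).filter fun p => ¬ f p = 0) 2 fun z hz => by
    obtain ⟨p, hp, rfl⟩ := mem_image.1 hz
    have z0 : σ (f p) ≠ 0 := by simpa using (mem_filter.1 hp).2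
    generalize f p = z at z0
    by_contra! h
    obtain ⟨p1, p2, p3, m1, m2, m3, n1, n2, n3⟩ := two_lt_card_iff.1 h
    have K : ∀ p ∈ {x ∈ {p ∈ C ×ˢ C | ¬f p = 0} | f x = z}, p.2 = (z - p.1 * a) / b ∧
        a * σ z * p.1 ^ 2 - (z * σ z + a ^ 2 - b ^ 2) * p.1 + z * a = 0 := fun p hp => by
      simp only [C, f, mem_filter, mem_product, mem_univ, true_and] at hp
      obtain ⟨⟨⟨c1, c2⟩, -⟩, e⟩ := hp
      have e' := congrArg σ e
      simp only [map_add, map_mul, ha, hb] at e'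
      refine ⟨by field_simp; linear_combination e, ?_⟩
      rw [← e', ← e]
      linear_combination (-p.1 * a ^ 2 - a * p.2 * b) * c1 - p.1 * b ^ 2 * c2 + (a ^ 2 * p.1) * c1
    have N : ∀ p ∈ {x ∈ {p ∈ C ×ˢ C | ¬f p = 0} | f x = z}, ∀ p' ∈ {x ∈ {p ∈ C ×ˢ C | ¬f p = 0} | f x = z},
        p ≠ p' → p.1 - p'.1 ≠ 0 := fun p hp p' hp' n e => n (Prod.ext (sub_eq_zero.1 e) (by
      rw [(K p hp).1, (K p' hp').1, sub_eq_zero.1 e]))
    refine mul_ne_zero (mul_ne_zero a0 z0) (mul_ne_zero (mul_ne_zero (N _ m1 _ m2 n1) (N _ m1 _ m3 n2))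
      (N _ m2 _ m3 n3)) ?_
    linear_combination (p2.1 - p3.1) * (K _ m1).2 - (p1.1 - p3.1) * (K _ m2).2 + (p1.1 - p2.1) * (K _ m3).2
  have A2 : ((C ×ˢ C).filter fun p => f p = 0).card ≤ C.card :=
    card_le_card_of_injOn Prod.fst (fun p hp => (mem_product.1 (mem_filter.1 hp).1).1) fun p hp p' hp' e =>
      Prod.ext e (mul_right_cancel₀ b0 (by
        have h1 : p.1 * a + p.2 * b = 0 := (mem_filter.1 hp).2
        have h2 : p'.1 * a + p'.2 * b = 0 := (mem_filter.1 hp').2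
        linear_combination h1 - h2 - a * e))
  have A3 := card_filter_add_card_filter_not (s := C ×ˢ C) fun p => f p = 0
  rw [card_product, hC] at A3
  refine ⟨image f ((C ×ˢ C).filter fun p => ¬ f p = 0), ?_, fun z hz => ?_⟩
  · rw [h1]; nlinarith
  · obtain ⟨p, hp, rfl⟩ := mem_image.1 hz
    simp only [C, mem_filter, mem_product, mem_univ, true_and] at hp
    exact ⟨_, _, hp.1.1, hp.1.2, rfl⟩

theorem circ4 (hσ : ∀ a, σ (σ a) = a) (hne : σ ≠ RingHom.id F) {a : Fin 4 → F} (a0 : ∀ i, a i ≠ 0)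
    (ha : ∀ i, σ (a i) = a i) (c z : F) : ∃ x : Fin 4 → F, (∀ i, σ (x i) * x i = 1) ∧
      x 0 * a 0 + x 1 * a 1 + x 2 * a 2 + x 3 * a 3 = c ∧ x 0 * a 0 + x 1 * a 1 ≠ z := by
  classical
  haveI := Fintype.ofFinite F
  obtain ⟨A, A1, A2⟩ := circ2 hσ hne (a0 0) (a0 1) (ha 0) (ha 1)
  obtain ⟨B, B1, B2⟩ := circ2 hσ hne (a0 2) (a0 3) (ha 2) (ha 3)
  have h1 := card_union_add_card_inter A (B.image (c - ·))
  rw [card_image_of_injective _ sub_right_injective] at h1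
  have h2 := card_le_univ (A ∪ B.image (c - ·))
  rw [Nat.card_eq_fintype_card] at A1 B1
  obtain ⟨w, hw, wz⟩ := exists_mem_ne (s := A ∩ B.image (c - ·)) (by omega) z
  obtain ⟨x, y, x1, y1, e⟩ := A2 w (mem_inter.1 hw).1
  obtain ⟨w', hw', e'⟩ := mem_image.1 (mem_inter.1 hw).2
  obtain ⟨x', y', x2, y2, rfl⟩ := B2 w' hw'
  exact ⟨![x, y, x', y'], fun i => by fin_cases i <;> simpa, by simp; linear_combination -e - e',
    by simpa [e] using wz⟩

theorem ex_norm1 (hσ : ∀ a, σ (σ a) = a) (hne : σ ≠ RingHom.id F) : ∃ c : F, σ c * c = 1 ∧ σ c ≠ c := by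
  obtain ⟨a, ha⟩ := exists_σ_ne hne
  obtain ⟨t, t1, t2, -⟩ := circ4 hσ hne (a := 1) (by simp) (by simp) a 0
  by_contra! e
  exact ha (by simp [← t2, fun i => e _ (t1 i)])

variable (S) in
/-- the quasi-reflection multiplying the unit vector `v` by `c` -/
noncomputable def ur (v : V) (c : F) : S.Isom := S.qrefl v (1 - c)⁻¹

theorem ur_cond {v : V} {c : F} (hv : S.h v v = 1) (hc : σ c * c = 1) (c1 : c ≠ 1) :
    S.QCond v (1 - c)⁻¹ := by
  have h1 : 1 - c ≠ 0 := sub_ne_zero.2 c1.symm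
  have h2 : 1 - σ c ≠ 0 := by simpa using (map_ne_zero σ).2 h1
  refine ⟨inv_ne_zero h1, (S.unit_congr_iff _ _).2 ?_⟩
  rw [hv, map_inv₀, map_sub, map_one]
  field_simp
  linear_combination hc

theorem ur_one (v : V) : ur S v 1 = 1 := qrefl_junk fun h => h.ne (by simp)

theorem ur_apply {v : V} {c : F} (hv : S.h v v = 1) (hc : σ c * c = 1) (x : V) :
    (ur S v c).1 x = x - ((1 - c) * S.h v x) • v := by
  obtain rfl | c1 := eq_or_ne c 1
  · simp [ur_one]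
  · rw [ur, qrefl_apply (ur_cond hv hc c1), inv_inv]

theorem ur_det {v : V} {c : F} (hv : S.h v v = 1) (hc : σ c * c = 1) :
    (S.detHom (ur S v c) : F) = c := by
  obtain rfl | c1 := eq_or_ne c 1
  · simp [ur_one]
  have h1 : 1 - c ≠ 0 := sub_ne_zero.2 c1.symm
  have h2 : 1 - σ c ≠ 0 := by simpa using (map_ne_zero σ).2 h1
  rw [ur, det_qrefl (ur_cond hv hc c1), map_inv₀, map_sub, map_one, unitP_ε]
  field_simp
  linear_combination hc

theorem conj_ur (g : S.Isom) (v : V) (c : F) : g * ur S v c * g⁻¹ = ur S (g.1 v) c := conj_qrefl g v _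

theorem ur_perp {v x : V} (c : F) (h : S.h v x = 0) : (ur S v c).1 x = x := qrefl_apply_of_perp h

theorem ur_inv {v : V} {c : F} (hv : S.h v v = 1) (hc : σ c * c = 1) : (ur S v c)⁻¹ = ur S v (σ c) := by
  have hc' : σ (σ c) * σ c = 1 := by rw [hσ, mul_comm, hc]
  rw [inv_eq_iff_mul_eq_one]
  ext x
  simp only [isom_mul_apply, ur_apply hv hc, ur_apply hv hc', map_sub, map_smul, hv, isom_one_apply,
    smul_eq_mul]
  match_scalars
  · rfl
  · linear_combination (S.h v x) * hc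

theorem ur_smul {v : V} {c ν : F} (hv : S.h v v = 1) (hc : σ c * c = 1) (hν : σ ν * ν = 1) :
    ur S (ν • v) c = ur S v c := by
  ext x
  rw [ur_apply hv hc, ur_apply (by simp [hv]; linear_combination hν) hc]
  simp only [map_smulₛₗ, LinearMap.smul_apply, smul_eq_mul]
  match_scalars
  · rfl
  · linear_combination (-(1 - c) * S.h v x) * hν

theorem ur_root {v s : V} {c : F} (hv : S.h v v = 1) (hc : σ c * c = 1) (hs : S.Sing s)
    (h : S.h s v = 0) (m : ur S (v + s) c * (ur S v c)⁻¹ ∈ H) : -(1 - c) • v ∈ BSet H hs := by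
  have hc' : σ (σ c) * σ c = 1 := by rw [hσ, mul_comm, hc]
  have E : S.ECond s (-(1 - c) • v) (1 - c) := ⟨hs, by simp [h], (S.unit_congr_iff _ _).2 (by
    simp [hv]; linear_combination hc)⟩
  refine ⟨_, E, ?_⟩
  convert m using 1
  ext x
  rw [ur_inv hv hc, isom_mul_apply, ur_apply hv hc', ur_apply (by
    simp [hv, h, S.h_swap_zero h, hs.h_self]) hc, eich_apply E]
  simp only [map_sub, map_smul, map_add, LinearMap.add_apply, hv, h, map_smulₛₗ, LinearMap.smul_apply,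
    smul_eq_mul, unitP_ε, map_neg, map_one]
  match_scalars
  · rfl
  · linear_combination (-S.h v x) * hc
  · linear_combination (-S.h v x) * hc

theorem u_memE (hne : σ ≠ RingHom.id F) (hS : S.Nondeg) (h2 : 2 ≤ finrank F V) (g : S.Isom) :
    g ∈ S.E ↔ (S.detHom g : F) = 1 := by
  obtain ⟨e, f, Hy⟩ := hS.unit_exists_hyp hne h2
  rw [← Hy.unit_SIsom_eq_E hne hS, SIsom, MonoidHom.mem_ker, Units.val_eq_one]

theorem u_adj (hne : σ ≠ RingHom.id F) (hS : S.Nondeg) (h2 : 2 ≤ finrank F V) (g : S.Isom) {b : V}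
    (hb : S.h b b ≠ 0) : ∃ r : S.Isom, (∀ x, S.h b x = 0 → r.1 x = x) ∧ g * r ∈ S.E := by
  obtain ⟨r, r1, r2, -⟩ := exists_det_eq_of_ne hb (⟨_, hS.det_mem_normOne g⟩ : normOne σ)⁻¹
  exact ⟨r, fun x hx => r1 x (S.mem_perp_singleton.2 hx), (u_memE hne hS h2 _).2 (by simp [r2])⟩

theorem fix_sub (hX : (S.restrict X).Nondeg) (hS : S.Nondeg) {g : S.Isom} (hg : g ∈ S.fix (S.perp X))
    (x : V) : g.1 x - x ∈ X := by
  rw [← hS.perp_perp X]
  intro y hy
  rw [map_sub, ← isom_h g y x, hg y hy, sub_self]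

theorem fix_mem (hX : (S.restrict X).Nondeg) (hS : S.Nondeg) {g : S.Isom} (hg : g ∈ S.fix (S.perp X))
    {x : V} (hx : x ∈ X) : g.1 x ∈ X := by simpa using add_mem (fix_sub hX hS hg x) hx

theorem ex_scal (hX : (S.restrict X).Nondeg) {c : F} (hc : σ c * c = 1) :
    ∃ g ∈ S.fix (S.perp X), ∀ x ∈ X, g.1 x = c • x :=
  ⟨ext1 hX ((S.restrict X).scal ⟨Units.mk0 c (right_ne_zero_of_mul_eq_one hc), hc⟩),
    fun _ hx => ext1_right hX _ hx, fun x hx => ext1_left hX _ ⟨x, hx⟩⟩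

theorem uairr (hne : σ ≠ RingHom.id F) (hX : (S.restrict X).Nondeg) (T : AddSubgroup V)
    (hT : ∀ g ∈ S.fix (S.perp X), ∀ y ∈ X, y ∈ T → g.1 y ∈ T) {y : V} (hy : y ∈ X) (y0 : y ≠ 0)
    (yT : y ∈ T) : ∀ x ∈ X, x ∈ T := by
  have A : ∀ c : F, σ c * c = 1 → ∀ y ∈ X, y ∈ T → c • y ∈ T := fun c hc y hy yT => by
    obtain ⟨g, g1, g2⟩ := ex_scal hX hc
    exact g2 y hy ▸ hT g g1 y hy yT
  let Y : Submodule F X := ⟨⟨⟨{x | x.1 ∈ T}, fun a b => T.add_mem a b⟩, T.zero_mem⟩, fun c x hx => by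
    obtain ⟨t, t1, t2, -⟩ := circ4 hσ hne (a := 1) (by simp) (by simp) c 0
    have := fun i => A _ (t1 i) x x.2 hx
    simp only [Pi.one_apply, mul_one] at t2
    rw [← t2, add_smul, add_smul, add_smul]
    exact add_mem (add_mem (add_mem (this 0) (this 1)) (this 2)) (this 3)⟩
  have := isomIrr_of_ne hX (unit_Λ_ne hσ hne) Y (fun e => y0 (by
    simpa using (Submodule.eq_bot_iff Y).1 e ⟨y, hy⟩ yT)) fun g x hx => by
      have := hT (ext1 hX g) (fun _ h => ext1_right hX g h) x x.2 hx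
      rwa [ext1_left] at this
  exact fun x hx => this.ge (x := ⟨x, hx⟩) trivial

theorem u_self_mem {u : V} (hu : S.Sing u) (c : F) : c • u ∈ BSet H hu := by
  have := (eich_add_smul (ECond.of_mem hu (zero_mem _)) c).2
  rw [eich_zero, zero_add, zero_add] at this
  exact ⟨_, ⟨hu, by simp [hu.h_self], (S.unit_congr_iff _ _).2 (by simp [hu.h_self, hσ])⟩,
    this ▸ one_mem H⟩

theorem upair (hne : σ ≠ RingHom.id F) (hX : (S.restrict X).Nondeg) (h0 : 0 < finrank F X) {s s' : V}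
    (hs : S.Sing s) (hs' : S.Sing s') (h : S.h s s' ≠ 0) (h1 : ∀ x ∈ X, x ∈ BSet H hs)
    (h2 : ∀ x ∈ X, x ∈ BSet H hs') : ∀ u ∈ Submodule.span F {s, s'} ⊔ X,
      ∀ v ∈ Submodule.span F {s, s'} ⊔ X, ∀ a, S.eich u v a ∈ H := by
  have dec : ∀ x ∈ Submodule.span F {s, s'} ⊔ X, ∃ a b : F, ∃ y ∈ X, x = a • s + b • s' + y := by
    intro x hx
    obtain ⟨y, hy, z, hz, rfl⟩ := Submodule.mem_sup.1 hx
    obtain ⟨a, b, rfl⟩ := Submodule.mem_span_pair.1 hy
    exact ⟨a, b, z, hz, rfl⟩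
  have m1 : s ∈ Submodule.span F {s, s'} ⊔ X := Submodule.mem_sup_left (Submodule.subset_span (by simp))
  have m2 : s' ∈ Submodule.span F {s, s'} ⊔ X := Submodule.mem_sup_left (Submodule.subset_span (by simp))
  have h' : S.h s' s ≠ 0 := fun e => h (S.h_swap_zero e)
  have p1 := fun x hx => BSet_perp (h1 x hx)
  have p2 := fun x hx => BSet_perp (h2 x hx)
  have hW : (S.restrict (Submodule.span F {s, s'} ⊔ X)).Nondeg :=
    (S.restrict_nondeg_iff' _).2 fun x hx h0 => by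
      obtain ⟨a, b, y, hy, rfl⟩ := dec x hx
      have a1 := S.h_swap_zero (h0 s m1)
      have a2 := S.h_swap_zero (h0 s' m2)
      simp [hs.h_self, hs'.h_self, p1 y hy, p2 y hy, h, h'] at a1 a2
      subst a1 a2
      simpa using (S.restrict_nondeg_iff' _).1 hX y hy fun z hz => by
        simpa using h0 z (Submodule.mem_sup_right hz)
  obtain ⟨b, hb, b1⟩ := unit_exists_norm_mem hne hX h0 (map_one σ)
  have k : ∀ u (hu : u ∈ Submodule.span F {s, s'} ⊔ X) (su : S.Sing u), (∀ x ∈ X, x ∈ BSet H su) →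
      (∀ v ∈ Submodule.span F {s, s'} ⊔ X, S.h u v = 0 → v ∈ BSet H su) →
      Full (H.comap (ext1 hW)) ⟨u, hu⟩ := fun u hu su hx h =>
    full_of_BSet (S := S.restrict _) (u := ⟨u, hu⟩) su (fun v hv => by
      obtain ⟨a, a1, a2⟩ := h v v.2 hv
      exact ⟨a, ⟨a1.sing, a1.perp, a1.q⟩, by rwa [Subgroup.mem_comap, ext1_eich]⟩) fun a ha => by
      obtain ⟨c, rfl⟩ := lmin_unit hσ hne a ha
      rw [Subgroup.mem_comap, ext1_eich]
      simpa [b1] using eich_comm_mem (hx b hb) (hx _ (X.smul_mem c hb))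
  intro x hx v hv a
  have := full_all_of_pair hW (u := ⟨s, m1⟩) (w := ⟨s', m2⟩) hs hs' (k s m1 hs h1 fun v hv h0 => by
    obtain ⟨a, b, y, hy, rfl⟩ := dec v hv
    simp [hs.h_self, p1 y hy, h] at h0
    simpa [h0] using AddSubgroup.add_mem _ (u_self_mem hs a) (h1 y hy)) (k s' m2 hs' h2 fun v hv h0 => by
    obtain ⟨a, b, y, hy, rfl⟩ := dec v hv
    simp [hs'.h_self, p2 y hy, h'] at h0
    simpa [h0] using AddSubgroup.add_mem _ (u_self_mem hs' b) (h2 y hy)) h ⟨x, hx⟩ ⟨v, hv⟩ a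
  rwa [Subgroup.mem_comap, ext1_eich] at this

/-- an overgroup of the stabiliser of an orthogonal decomposition of a unitary space -/
structure UD (H : Subgroup S.Isom) {t : ℕ} (k : ℕ) (D : Fin t → Submodule F V) : Prop where
  ne : σ ≠ RingHom.id F
  nd : S.Nondeg
  od : ODec S k D
  pos : 0 < k
  big : 2 ≤ k ∧ 3 ≤ t ∨ 5 ≤ t
  mem : ∀ g ∈ S.E, ODec.Perm D g → g ∈ H

namespace UD
variable {t k : ℕ} {D : Fin t → Submodule F V} (h : UD H k D)
include h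

theorem sup {i j : Fin t} (ij : i ≠ j) :
    (S.restrict (D i ⊔ D j)).Nondeg ∧ 2 ≤ finrank F ↥(D i ⊔ D j) := by
  refine ⟨nondeg_sup (h.od.nondeg i) (h.od.nondeg j) (h.od.orth i j ij), ?_⟩
  have := Submodule.finrank_sup_add_finrank_inf_eq (D i) (D j)
  rw [(h.od.disj ij).eq_bot, finrank_bot, h.od.dim, h.od.dim] at this
  have := h.pos; omega

theorem two : 2 ≤ finrank F V := by
  have := h.big
  exact (h.sup (i := ⟨0, by omega⟩) (j := ⟨1, by omega⟩) (by simp)).2.trans (Submodule.finrank_le _)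

theorem ex2 (I : Finset (Fin t)) (hI : I.card + 2 ≤ t) (l : Fin t) : ∃ l', l' ≠ l ∧ l' ∉ I := by
  obtain ⟨a, b, ab, h1, h2⟩ := exists_two_notMem I (by simpa)
  by_cases e : a = l
  exacts [⟨b, e ▸ ab.symm, h2⟩, ⟨a, e, h1⟩]

theorem pf {i : Fin t} {g : S.Isom} (hg : g ∈ S.fix (S.perp (D i))) : ODec.Perm D g :=
  h.od.perm_of_fix (fun _ hx => fix_mem (h.od.nondeg i) h.nd hg hx) hg

theorem adj (g : S.Isom) (l : Fin t) : ∃ r ∈ S.fix (S.perp (D l)), g * r ∈ S.E := by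
  obtain ⟨b, hb, b1⟩ := unit_exists_norm_mem h.ne (h.od.nondeg l) (h.od.dim l ▸ h.pos) (map_one σ)
  obtain ⟨r, r1, r2⟩ := u_adj h.ne h.nd h.two g (b := b) (by simp [b1])
  exact ⟨r, fun x hx => r1 x (hx b hb), r2⟩

theorem comp (x : V) : ∃ c : Fin t → V, (∀ i, c i ∈ D i) ∧ (∀ i, x - c i ∈ S.perp (D i)) ∧
    x = ∑ i, c i := by
  choose c hc r hr e using fun i => exists_decomp (h.od.nondeg i) x
  refine ⟨c, hc, fun i => by rw [e i]; simpa using hr i, sub_eq_zero.1 (h.od.eq_zero h.nd fun i y hy => ?_)⟩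
  rw [map_sub, map_sum, Finset.sum_eq_single i (fun j _ e => h.od.orth i j e.symm (hc j) y hy) (by simp),
    e i]
  simp [hr i y hy]

theorem ex_supp {x : V} {i : Fin t} (hx : x ∉ D i) : ∃ l, l ≠ i ∧ x ∉ S.perp (D l) := by
  by_contra! e
  obtain ⟨a, ha, r, hr, rfl⟩ := exists_decomp (h.od.nondeg i) x
  suffices r = 0 from hx (by simpa [this])
  refine h.od.eq_zero h.nd fun l => ?_
  obtain rfl | li := eq_or_ne l i
  exacts [hr, by simpa using sub_mem (e l li) (h.od.orth l i li ha)]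

theorem swap {i j : Fin t} (ij : i ≠ j) : ∃ s : S.Isom, ODec.Perm D s ∧ (∀ x ∈ D i, s.1 x ∈ D j) ∧
    (∀ x ∈ D j, s.1 x ∈ D i) ∧ ∀ l, l ≠ i → l ≠ j → ∀ x ∈ D l, s.1 x = x :=
  h.od.exists_swap h.nd ij (unit_eqv h.ne k (h.od.nondeg i) (h.od.nondeg j) (h.od.dim i) (h.od.dim j))

theorem ex_sing {i : Fin t} (hk : 2 ≤ k) {a : V} (ha : a ∈ D i) (a0 : a ≠ 0) :
    ∃ u ∈ D i, S.Sing u ∧ S.h u a ≠ 0 := by
  by_contra! e
  obtain ⟨u, hu, u0, us⟩ := unit_exists_sing h.ne S (D i) (h.od.dim i ▸ hk)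
  obtain ⟨f, hf, Hy⟩ := exists_partner_mem (h.od.nondeg i) hu u0 us
  exact a0 (h.od.eq_zero' ha fun x hx => S.h_swap_zero (span_sing (D i) hu hf us (by simp [Hy.h_ef])
    (S.h a).ker.toAddSubgroup (fun x hx sx => S.h_swap_zero (e x hx sx)) x hx))

theorem g1 {I : Finset (Fin t)} (hI : 2 ≤ k ∧ I.card + 2 ≤ t ∨ I.card + 3 ≤ t) {s y : V} (hs : S.Sing s)
    (sI : ∀ l ∉ I, s ∈ S.perp (D l)) (hy : y ∈ BSet H hs) {l₀ : Fin t} (hl : l₀ ∉ I)
    (yl : y ∉ S.perp (D l₀)) : ∀ l ∉ I, ∀ x ∈ D l, x ∈ BSet H hs := by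
  classical
  obtain ⟨a, ha, r, hr, rfl⟩ := exists_decomp (h.od.nondeg l₀) y
  have a0 : a ≠ 0 := by rintro rfl; exact yl (by simpa)
  have M : ∀ g ∈ S.fix (S.perp (D l₀)), ∀ l ∉ I, ∃ r ∈ S.fix (S.perp (D l)), ∀ y ∈ BSet H hs,
      g.1 (r.1 y) ∈ BSet H hs := fun g hg l hl' => by
    obtain ⟨r, r1, r2⟩ := h.adj g l
    exact ⟨r, r1, fun y hy => BSet_map (hu' := hs) hy (h.mem _ r2 ((h.pf hg).mul (h.pf r1)))
      (by simp [r1 s (sI _ hl'), hg s (sI _ hl)])⟩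
  obtain ⟨l₁, l1, l2⟩ := h.ex2 I (by omega) l₀
  obtain ⟨z, hz, z0, zB⟩ : ∃ z ∈ D l₀, z ≠ 0 ∧ z ∈ BSet H hs := by
    rcases hI with ⟨hk, -⟩ | hI
    · obtain ⟨u, hu, us, ua⟩ := h.ex_sing hk ha a0
      obtain ⟨c, c0, hc⟩ := exists_mem_unit_Λ hσ h.ne
      have := sub_mem hy (BSet_map (hu' := hs) hy (h.mem _ (S.eich_mem_E u 0 c)
        (h.od.perm_eich hu (zero_mem _) c)) (eich_apply_of_perp_perp (sI _ hl u hu) (by simp)))
      rw [eich_apply (.of_mem us hc)] at this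
      exact ⟨_, (D l₀).smul_mem (c * S.h u a) hu, smul_ne_zero (mul_ne_zero c0 ua)
        (by rintro rfl; simp at ua), by simpa [hr u hu] using this⟩
    obtain ⟨l₂, l3, l4⟩ := h.ex2 (insert l₁ I) ((Nat.add_le_add_right (card_insert_le _ _) 2).trans hI) l₀
    rw [mem_insert, not_or] at l4
    obtain ⟨c, c1, c2⟩ := ex_norm1 hσ h.ne
    have c3 : c - 1 ≠ 0 := fun e => c2 (by simp [sub_eq_zero.1 e])
    obtain ⟨g, g1, g2⟩ := ex_scal (h.od.nondeg l₀) c1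
    obtain ⟨r₁, p1, p2⟩ := M g g1 l₁ l2
    obtain ⟨r₂, p3, p4⟩ := M g g1 l₂ l4.2
    have m1 := fix_sub (h.od.nondeg l₁) h.nd p1 r
    have B := sub_mem (p2 _ hy) hy
    have e : g.1 (r₁.1 (a + r)) - (a + r) = (c - 1) • a + (r₁.1 r - r) := by
      rw [map_add, map_add, p1 a (h.od.orth _ _ l1 ha), g2 a ha, g1 _ (by
        simpa using add_mem (h.od.orth _ _ l1.symm m1) hr)]
      module
    rw [e] at B
    refine ⟨_, (D l₀).smul_mem ((c - 1) * (c - 1)) ha, smul_ne_zero (mul_ne_zero c3 c3) a0, ?_⟩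
    convert sub_mem (p4 _ B) B using 1
    rw [p3 _ (add_mem (h.od.orth _ _ l3 ((D l₀).smul_mem _ ha)) (h.od.orth _ _ l4.1 m1)), map_add,
      g1 _ (h.od.orth _ _ l1.symm m1), map_smul, g2 a ha]
    module
  have A := uairr h.ne (h.od.nondeg l₀) (BSet H hs) (fun g hg y hy yT => by
    obtain ⟨r, r1, r2⟩ := M g hg l₁ l2
    simpa [r1 y (h.od.orth _ _ l1 hy)] using r2 y yT) hz z0 zB
  intro l hl' x hx
  obtain rfl | e := eq_or_ne l l₀
  · exact A x hx
  obtain ⟨τ, σ0, σ1, -, σ2⟩ := h.swap e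
  obtain ⟨r, r1, r2⟩ := h.adj τ l₀
  have m := h.mem _ r2 (σ0.mul (h.pf r1))
  have e1 : (τ * r).1 s = s := by
    obtain ⟨c, c1, c2, rfl⟩ := h.comp s
    have z : ∀ l ∉ I, c l = 0 := fun l hl => h.od.eq_zero' (c1 l) (by simpa using sub_mem (sI l hl) (c2 l))
    rw [isom_mul_apply, r1 _ (sI _ hl), map_sum]
    refine Finset.sum_congr rfl fun i _ => ?_
    by_cases hi : i ∈ I
    · exact σ2 i (by rintro rfl; exact hl' hi) (by rintro rfl; exact hl hi) _ (c1 i)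
    · simp [z i hi]
  simpa using BSet_map (hu' := hs) (v := (τ * r).1 x) (by
    simpa [r1 x (h.od.orth _ _ e.symm hx)] using A _ (σ1 x hx)) (inv_mem m)
    (by rw [← e1, isom_inv_apply_self, e1])

theorem grow {I : Finset (Fin t)} (hI : 2 ≤ k ∧ I.card + 2 ≤ t ∨ I.card + 3 ≤ t) {s y : V}
    (hs : S.Sing s) (s0 : s ≠ 0) (sI : ∀ l ∉ I, s ∈ S.perp (D l)) (hy : y ∈ BSet H hs) {l : Fin t}
    (hl : l ∉ I) (yl : y ∉ S.perp (D l)) : S.E ≤ H := by
  classical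
  have A := h.g1 hI hs sI hy hl yl
  obtain ⟨l', l1, l2⟩ := h.ex2 I (by omega) l
  obtain ⟨n, hn⟩ : ∃ n, s ∉ S.perp (D n) := by
    by_contra! e
    exact s0 (h.od.eq_zero h.nd e)
  have nI : ∀ l ∉ I, l ≠ n := by rintro l hl rfl; exact hn (sI _ hl)
  obtain ⟨g, g1, gs⟩ : ∃ g ∈ S.fix (S.perp (D n)), S.h s (g.1 s) ≠ 0 := by
    obtain ⟨a, ha, r, hr, rfl⟩ := exists_decomp (h.od.nondeg n) s
    have a0 : a ≠ 0 := by rintro rfl; exact hn (by simpa)
    have e := hs.h_self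
    by_cases aa : S.h a a = 0
    · obtain ⟨f, hf, Hy⟩ := exists_partner_mem (h.od.nondeg n) ha a0 ((S.unit_sing a).2 aa)
      obtain ⟨c, c0, hc⟩ := exists_mem_unit_Λ hσ h.ne
      refine ⟨S.eich f 0 c, fun x hx => eich_apply_of_perp_perp (hx f hf) (by simp), ?_⟩
      rw [eich_apply (.of_mem Hy.sing_f hc), map_sub, smul_zero, add_zero, e]
      simp [c0, Hy.h_ef, hr f hf, S.h_swap_zero (hr f hf), S.unit_symm a f]
    · obtain ⟨c, c1, c2⟩ := ex_norm1 hσ h.ne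
      obtain ⟨g, g1, g2⟩ := ex_scal (h.od.nondeg n) c1
      refine ⟨g, g1, fun e' => mul_ne_zero aa (show c - 1 ≠ 0 from fun e => c2 (by
        simp [sub_eq_zero.1 e])) ?_⟩
      simp [g2 a ha, g1 r hr, hr a ha, S.h_swap_zero (hr a ha)] at e e'
      linear_combination e' - e
  obtain ⟨r, r1, r2⟩ := h.adj g l
  obtain ⟨x, hx, x0⟩ := exists_ne_zero_of_finrank (D l') (h.od.dim l' ▸ h.pos)
  have hs' : S.Sing (g.1 s) := by simpa
  have B := h.g1 hI hs' (fun l hl => by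
    simpa using add_mem (h.od.orth _ _ (nI l hl) (fix_sub (h.od.nondeg n) h.nd g1 s)) (sI l hl))
    (BSet_map (A l' l2 x hx) (h.mem _ r2 ((h.pf g1).mul (h.pf r1))) (by simp [r1 s (sI l hl)]))
    l2 (by
      rw [isom_mul_apply, r1 x (h.od.orth _ _ l1.symm hx), g1 x (h.od.orth _ _ (nI l' l2).symm hx)]
      exact fun e => x0 (h.od.eq_zero' hx e))
  obtain ⟨u1, u2⟩ := h.sup l1
  have U : ∀ {s} (hs : S.Sing s), (∀ l ∉ I, ∀ x ∈ D l, x ∈ BSet H hs) → ∀ x ∈ D l' ⊔ D l,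
      x ∈ BSet H hs := fun hs A x hx => by
    obtain ⟨a, ha, b, hb, rfl⟩ := Submodule.mem_sup.1 hx
    exact add_mem (A _ l2 a ha) (A _ hl b hb)
  have C := upair h.ne u1 (by omega) hs hs' gs (U hs A) (U hs' B)
  obtain ⟨J, W, j1, j2, j3, j4, j5, j6, j7⟩ : ∃ (J : Finset (Fin t)) (W : Submodule F V),
      (2 ≤ k ∧ J.card + 2 ≤ t ∨ J.card + 3 ≤ t) ∧ n ∉ J ∧ (S.restrict W).Nondeg ∧ 2 ≤ finrank F W ∧
      W ≤ D l' ⊔ D l ∧ (∀ i ∈ J, D i ≤ W) ∧ ∀ i ∉ J, W ≤ S.perp (D i) := by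
    rcases h.big with ⟨b1, b2⟩ | b
    · exact ⟨{l}, D l, .inl ⟨b1, by simpa⟩, by simp [(nI _ hl).symm], h.od.nondeg l, h.od.dim l ▸ b1,
        le_sup_right, by simp, fun i hi => h.od.orth _ _ (by simpa using hi)⟩
    · refine ⟨{l', l}, _, .inr (by have := card_le_two (a := l') (b := l); omega),
        by simp [(nI _ hl).symm, (nI _ l2).symm], u1, u2, le_rfl, by simp, fun i hi => ?_⟩
      simp only [mem_insert, mem_singleton, not_or] at hi
      exact sup_le (h.od.orth _ _ hi.1) (h.od.orth _ _ hi.2)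
  have sW : ∀ u ∈ W, S.h u s = 0 := fun u hu => S.h_swap_zero (BSet_perp (U hs A u (j5 hu)))
  have Fu : ∀ u ∈ W, S.Sing u → Full H u := fun u hu su => by
    have hu' := Submodule.mem_sup_right (S := Submodule.span F {s, g.1 s}) (j5 hu)
    have G := h.g1 j1 su (fun n hn => j7 n hn hu) (mem_BSet_of_mem C hu' su (Submodule.mem_sup_left
        (Submodule.subset_span (by simp))) (sW u hu)) j2 hn
    refine full_of_BSet su (fun v hv => ?_) fun a _ => C u hu' 0 (zero_mem _) a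
    obtain ⟨a, ha, r, hr, rfl⟩ := exists_decomp j3 v
    refine add_mem (mem_BSet_of_mem C hu' su (Submodule.mem_sup_right (j5 ha))
      (by simpa [hr u hu] using hv)) ?_
    obtain ⟨c, c1, c2, rfl⟩ := h.comp r
    refine sum_mem fun i _ => ?_
    by_cases hi : i ∈ J
    · rw [h.od.eq_zero' (c1 i) (by simpa using sub_mem (S.perp_anti (j6 i hi) hr) (c2 i))]
      exact zero_mem _
    · exact G i hi _ (c1 i)
  obtain ⟨e, he, e0, es⟩ := unit_exists_sing h.ne S W j4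
  obtain ⟨f, hf, Hy⟩ := exists_partner_mem j3 he e0 es
  exact S.E_le_iff.2 fun x v a _ => full_all_of_pair h.nd es Hy.sing_f (Fu e he es)
    (Fu f hf Hy.sing_f) (by simp [Hy.h_ef]) x v a

theorem tf_map {w : V} (hw : ∀ a, S.eich w 0 a ∈ H) {g : S.Isom} (hg : g ∈ H) (a : F) :
    S.eich (g.1 w) 0 a ∈ H := by
  simpa [conj_eich] using H.mul_mem (H.mul_mem hg (hw a)) (H.inv_mem hg)

theorem root_of {w : V} (ws : S.Sing w) (hw : ∀ a, S.eich w 0 a ∈ H) {m : S.Isom} (m1 : m ∈ H)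
    {I : Finset (Fin t)} (hI : 2 ≤ k ∧ I.card + 2 ≤ t) (s0 : m.1 w - w ≠ 0)
    (hs : S.h w (m.1 w) = 0) (sI : ∀ l ∉ I, m.1 w - w ∈ S.perp (D l)) {l : Fin t} (hl : l ∉ I)
    (yl : w ∉ S.perp (D l)) : S.E ≤ H := by
  have m2 : S.Sing (m.1 w) := by simpa
  have ss : S.Sing (m.1 w - w) := by
    simpa [sub_eq_add_neg] using m2.add ws.neg (by simp [S.h_swap_zero hs])
  have p : S.h (m.1 w - w) w = 0 := by simp [S.h_swap_zero hs, ws.h_self]
  obtain ⟨c, c0, hc⟩ := exists_mem_unit_Λ hσ h.ne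
  have E1 : S.ECond (m.1 w - w) (-c • w) 0 := ⟨ss, by simp [-map_sub, p], by simpa [Sing] using ws.smul (-c)⟩
  have e := eich_eq_transv ss ws p hc
  have E2 := ECond.of_mem ss hc
  refine h.grow (.inl hI) ss s0 sI (y := -c • w) ⟨_, by simpa using E2.add E1, ?_⟩ hl
    (by rwa [Submodule.smul_mem_iff _ (neg_ne_zero.2 c0)])
  have := eich_mul E2 E1
  simp only [zero_add, map_zero, LinearMap.zero_apply, add_zero, unitP_ε, one_mul, sub_add_cancel]
    at this e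
  rw [← this, e]
  have cm : S.eich (m.1 w - w) 0 c * S.eich (m.1 w) 0 c = S.eich (m.1 w) 0 c * S.eich (m.1 w - w) 0 c := by
    have := conj_eich (S.eich (m.1 w) 0 c) (m.1 w - w) 0 c
    rw [eich_apply_of_perp_perp (by simp [S.h_swap_zero hs, ws.h_self]) (by simp), map_zero] at this
    exact (mul_inv_eq_iff_eq_mul.1 this).symm
  rw [← mul_assoc, ← mul_assoc, cm, mul_assoc (S.eich _ 0 c), transv_mul ss hc (neg_mem hc),
    add_neg_cancel, eich_zero, mul_one]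
  exact mul_mem (h.tf_map hw m1 c) (hw _)

theorem ex_unit (hk : 2 ≤ k) {i : Fin t} {y : V} (hy : y ∈ D i) (yy : S.h y y ≠ 0) {μ : F}
    (hμ : σ μ = μ) : ∃ b ∈ D i, S.h y b = 0 ∧ S.h b b = μ := by
  have d := finrank_inf_perp h.nd (D i) (F ∙ y)
  have := finrank_span_one_le (F := F) y
  rw [h.od.dim] at d
  obtain ⟨b, hb, b1⟩ := unit_exists_norm_mem h.ne (U := D i ⊓ S.perp (F ∙ y))
    ((S.restrict_nondeg_iff' _).2 fun x hx h0 => h.od.eq_zero' hx.1 fun z hz => S.h_swap_zero (by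
      have xy := S.h_swap_zero (S.mem_perp_singleton.1 hx.2)
      simpa [xy] using h0 (z - (S.h y z / S.h y y) • y) ⟨sub_mem hz ((D i).smul_mem _ hy),
        S.mem_perp_singleton.2 (by simp [yy])⟩)) (by omega) hμ
  exact ⟨b, hb.1, S.mem_perp_singleton.1 hb.2, b1⟩

theorem mv (hk : 2 ≤ k) {i : Fin t} {y : V} (hy : y ∈ D i) (yy : S.h y y ≠ 0) (α : F) :
    ∃ m ∈ S.E, m ∈ S.fix (S.perp (D i)) ∧ S.h y (m.1 y) = α := by
  have fx := S.unit_h_self_fixed y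
  obtain ⟨b, hb, b1, b2⟩ := h.ex_unit hk hy yy (μ := S.h y y - σ α * α / S.h y y)
    (by simp [fx, hσ, mul_comm])
  obtain ⟨b', hb', b3, b4⟩ := h.ex_unit hk hy yy (map_one σ)
  have e : S.h ((α / S.h y y) • y + b) ((α / S.h y y) • y + b) = S.h y y := by
    simp [b1, b2, S.h_swap_zero b1, fx]; field_simp; ring
  obtain ⟨g, hg⟩ := (h.od.nondeg i).witt_vec (u := ⟨y, hy⟩) (u' := ⟨_, add_mem ((D i).smul_mem
    (α / S.h y y) hy) hb⟩) (fun e => yy (by simp_all)) (fun e' => yy (by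
      rw [← e, show (α / S.h y y) • y + b = 0 from congrArg Subtype.val e']; simp))
    ((unit_q_congr_iff _ _ _ _).2 e)
  obtain ⟨r, r1, r2⟩ := u_adj h.ne h.nd h.two (ext1 (h.od.nondeg i) g) (b := b') (by simp [b4])
  refine ⟨_, r2, mul_mem (fun x hx => ext1_right _ g hx) fun x hx => r1 x (hx b' hb'), ?_⟩
  rw [isom_mul_apply, r1 y (S.h_swap_zero b3), ext1_left _ g ⟨y, hy⟩, hg]
  simp [b1, yy]

theorem three (hk : 2 ≤ k) (ht : 4 ≤ t) {i j l : Fin t} (ij : i ≠ j) (li : l ≠ i) (lj : l ≠ j)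
    {a b r : V} (ha : a ∈ D i) (hb : b ∈ D j) (aa : S.h a a ≠ 0) (bb : S.h b b ≠ 0)
    (ri : r ∈ S.perp (D i)) (rj : r ∈ S.perp (D j)) (rl : r ∉ S.perp (D l)) (ws : S.Sing (a + b + r))
    (hw : ∀ c, S.eich (a + b + r) 0 c ∈ H) : S.E ≤ H := by
  classical
  obtain ⟨m, m1, m2, m3⟩ := h.mv hk ha aa 0
  obtain ⟨n, n1, n2, n3⟩ := h.mv hk hb bb (S.h a a + S.h b b)
  have ma := fix_mem (h.od.nondeg i) h.nd m2 ha
  have nb := fix_mem (h.od.nondeg j) h.nd n2 hb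
  have o1 := fun x hx y hy => h.od.orth i j ij (x := y) hy x hx
  have o2 := fun x hx y hy => h.od.orth j i ij.symm (x := y) hy x hx
  have e : (m * n).1 (a + b + r) = m.1 a + n.1 b + r := by
    simp [n2 a (h.od.orth _ _ ij.symm ha), n2 r rj, m2 r ri, m2 _ (h.od.orth _ _ ij nb)]
  have e0 := ws.h_self
  refine h.root_of ws hw (h.mem _ (mul_mem m1 n1) ((h.pf m2).mul (h.pf n2))) (I := {i, j})
    ⟨hk, by have := card_le_two (a := i) (b := j); omega⟩ (fun e' => aa ?_) ?_ (fun n hn => ?_)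
    (l := l) (by simp [*]) fun e => rl ?_
  · rw [e] at e'
    simpa [m3, o1 a ha _ nb, o1 a ha b hb] using congrArg (S.h a) e'
  · simp [o1 a ha b hb, o2 b hb a ha, ri a ha, rj b hb, S.h_swap_zero (ri a ha),
      S.h_swap_zero (rj b hb)] at e0
    rw [e]
    simp [m3, n3, o1 a ha _ nb, o2 b hb _ ma, ri a ha, rj b hb, S.h_swap_zero (ri _ ma),
      S.h_swap_zero (rj _ nb), e0]
  · simp only [mem_insert, mem_singleton, not_or] at hn
    rw [e, add_sub_add_right_eq_sub]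
    exact sub_mem (add_mem (h.od.orth _ _ hn.1 ma) (h.od.orth _ _ hn.2 nb))
      (add_mem (h.od.orth _ _ hn.1 ha) (h.od.orth _ _ hn.2 hb))
  · simpa using sub_mem e (add_mem (h.od.orth _ _ li ha) (h.od.orth _ _ lj hb))

theorem tf_mem (hk : 2 ≤ k) (ht : 3 ≤ t) (h2 : k = 2 → 4 ≤ t ∧ ∃ c : F, σ c = c ∧ c ≠ 0 ∧ c ≠ 1)
    (hE : ¬ S.E ≤ H) {w : V} (ws : S.Sing w) (hw : ∀ a, S.eich w 0 a ∈ H) : ∃ l, w ∈ D l := by
  classical
  by_contra! hn
  have R : ∀ j, ∀ m ∈ S.E, m ∈ S.fix (S.perp (D j)) → S.h w (m.1 w) = 0 → m.1 w = w :=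
    fun j m m1 m2 e => by
      obtain ⟨l, lj, hl⟩ := h.ex_supp (hn j)
      by_contra e'
      exact hE (h.root_of ws hw (h.mem m m1 (h.pf m2)) (I := {j}) ⟨hk, by simpa⟩ (sub_ne_zero.2 e') e
        (fun n hn => h.od.orth _ _ (by simpa using hn) (fix_sub (h.od.nondeg j) h.nd m2 w))
        (by simpa) hl)
  have A : ∀ j, ∀ a ∈ D j, ∀ r ∈ S.perp (D j), w = a + r → a ≠ 0 → S.h a a ≠ 0 ∧ k = 2 := by
    rintro j a ha r hr rfl a0
    have aa : S.h a a ≠ 0 := fun aa => by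
      obtain ⟨f, hf, Hy⟩ := exists_partner_mem (h.od.nondeg j) ha a0 ((S.unit_sing a).2 aa)
      have T : ∀ c, Hy.tor c ∈ S.fix (S.perp (D j)) := fun c x hx =>
        Hy.tor_perp _ (S.mem_perp_pair.2 ⟨hx a ha, hx f hf⟩)
      obtain ⟨c, m, c1, m1, m2, m3⟩ : ∃ (c : F) (m : S.Isom), c ≠ 1 ∧ m ∈ S.E ∧
          m ∈ S.fix (S.perp (D j)) ∧ m.1 a = c • a := by
        by_cases e : k = 2
        · obtain ⟨c, c1, c2, c3⟩ := (h2 e).2
          exact ⟨c, Hy.tor (.mk0 c c2), c3, T_le_E (Hy.unit_tor_mem_T h.ne c1), T _, by simp⟩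
        obtain ⟨c, c1, c2⟩ := ex_norm1 hσ h.ne
        have d := finrank_inf_perp h.nd (D j) (Submodule.span F {a, f})
        have := finrank_span_two_le (F := F) a f
        rw [h.od.dim] at d
        obtain ⟨b, hb, b1⟩ := unit_exists_norm_mem h.ne (U := D j ⊓ S.perp (Submodule.span F {a, f}))
          ((S.restrict_nondeg_iff' _).2 fun x hx h0 => h.od.eq_zero' hx.1 fun z hz => S.h_swap_zero (by
            obtain ⟨y, hy, e⟩ := Hy.exists_decomp z
            have p := S.mem_perp_pair.1 hx.2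
            rw [e, map_add, h0 y ⟨by
              simpa [← sub_eq_iff_eq_add'.2 e] using sub_mem hz (add_mem ((D j).smul_mem _ ha)
                ((D j).smul_mem _ hf)), hy⟩]
            simp [S.h_swap_zero p.1, S.h_swap_zero p.2])) (by omega) (map_one σ)
        obtain ⟨r, r1, r2⟩ := u_adj h.ne h.nd h.two (Hy.tor (.mk0 c (right_ne_zero_of_mul_eq_one c1)))
          (b := b) (by simp [b1])
        exact ⟨c, _, fun e => c2 (by simp [e]), r2, mul_mem (T _) fun x hx => r1 x (hx b hb.1), by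
          simp [r1 a (S.h_swap_zero (S.mem_perp_pair.1 hb.2).1)]⟩
      have e := ws.h_self
      have := R j m m1 m2 (by simpa [m3, m2 r hr, aa, S.h_swap_zero (hr a ha)] using e)
      simp only [map_add, m3, m2 r hr, add_left_inj] at this
      exact c1 (smul_left_injective F a0 (by simpa using this))
    refine ⟨aa, by_contra fun e => ?_⟩
    have d := finrank_inf_perp h.nd (D j) (F ∙ a)
    have := finrank_span_one_le (F := F) a
    rw [h.od.dim] at d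
    obtain ⟨s, hs, s0, ss⟩ := unit_exists_sing h.ne S (D j ⊓ S.perp (F ∙ a)) (by omega)
    have as := S.mem_perp_singleton.1 hs.2
    have e1 : (S.eich s a (S.q a)).1 (a + r) = a + r - S.h a a • s := by
      rw [eich_apply_of_perp (.of_q ss (S.h_swap_zero as)) (by simp [S.h_swap_zero as, hr s hs.1])]
      simp [hr a ha]
    have := R j _ (S.eich_mem_E s a (S.q a)) (fun x hx => eich_apply_of_perp_perp (hx s hs.1) (hx a ha))
      (by rw [e1, map_sub, ws.h_self]; simp [as, S.h_swap_zero (hr s hs.1)])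
    simp [e1, aa, s0] at this
  obtain ⟨i, a, ha, r, hr, a0, rfl⟩ := h.od.exists_comp h.nd (x := w) fun e => hn ⟨0, by omega⟩ (by simp [e])
  obtain ⟨j, ji, hj⟩ := h.ex_supp (hn i)
  obtain ⟨b, hb, r', hr', rfl⟩ := exists_decomp (h.od.nondeg j) r
  have b0 : b ≠ 0 := by rintro rfl; exact hj (add_mem (h.od.orth _ _ ji ha) (by simpa))
  obtain ⟨aa, e⟩ := A i a ha _ hr rfl a0
  have bb := (A j b hb _ (add_mem (h.od.orth _ _ ji ha) hr') (add_left_comm _ _ _) b0).1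
  obtain ⟨t4, c, c1, c2, c3⟩ := h2 e
  have ri : r' ∈ S.perp (D i) := by simpa using sub_mem hr (h.od.orth _ _ ji.symm hb)
  rw [← add_assoc] at ws hw
  obtain rfl : r' = 0 := h.od.eq_zero h.nd fun l => by
    by_contra hl
    exact hE (h.three hk t4 ji.symm (by rintro rfl; exact hl ri) (by rintro rfl; exact hl hr') ha hb aa bb
      ri hr' hl ws hw)
  rw [add_zero] at ws hw
  obtain ⟨l, li, lj⟩ := h.ex2 {j} (by simp; omega) i
  rw [mem_singleton] at lj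
  obtain ⟨τ, σ0, σ1, -, σ2⟩ := h.swap li.symm
  obtain ⟨r, r1, r2⟩ := h.adj τ l
  have m := h.mem _ r2 (σ0.mul (h.pf r1))
  obtain ⟨d, d0, d1, hd⟩ : ∃ d, d ≠ 0 ∧ 1 - d * S.h b b ≠ 0 ∧ d ∈ (unitP σ hσ).Λ := by
    obtain ⟨d, d0, hd⟩ := exists_mem_unit_Λ hσ h.ne
    by_cases e : 1 - d * S.h b b = 0
    · refine ⟨c * d, mul_ne_zero c2 d0, fun e' => c3 (by linear_combination c * e - e'), ?_⟩
      rw [mem_unitP_Λ] at hd ⊢
      rw [map_mul, c1]; linear_combination c * hd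
    · exact ⟨d, d0, e, hd⟩
  have ta := σ1 a ha
  have e1 : (S.eich (a + b) 0 d * (τ * r)).1 (a + b) =
      -(d * S.h b b) • a + (1 - d * S.h b b) • b + τ.1 a := by
    rw [isom_mul_apply, isom_mul_apply, r1 _ (add_mem (h.od.orth _ _ li ha) (h.od.orth _ _ lj hb)),
      map_add, σ2 j ji (Ne.symm lj) b hb, eich_apply (.of_mem ws hd)]
    simp [h.od.orth _ _ li.symm ta a ha, h.od.orth _ _ (Ne.symm lj) ta b hb, h.od.orth _ _ ji.symm hb a ha]
    module
  exact hE (h.three hk t4 ji.symm li lj ((D i).smul_mem (-(d * S.h b b)) ha)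
    ((D j).smul_mem (1 - d * S.h b b) hb) (by simp [*]) (by simp [-map_sub, *])
    (h.od.orth _ _ li.symm ta) (h.od.orth _ _ (Ne.symm lj) ta)
    (fun e => a0 (by simpa using h.od.eq_zero' ta e)) (e1 ▸ (isom_sing _ _).2 ws)
    (e1 ▸ h.tf_map hw (mul_mem (hw d) m)))

end UD

theorem udec_two (hne : σ ≠ RingHom.id F) (hS : S.Nondeg) {t k : ℕ} {D : Fin t → Submodule F V}
    (hD : ODec S k D) (hk : 2 ≤ k) (ht : 3 ≤ t) (h2 : k = 2 → 4 ≤ t ∧ ∃ c : F, σ c = c ∧ c ≠ 0 ∧ c ≠ 1)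
    (H : Subgroup S.Isom) (hH : ∀ g ∈ S.E, ODec.Perm D g → g ∈ H) :
    S.E ≤ H ∨ ∀ g ∈ H, ODec.Perm D g := by
  have h : UD H k D := ⟨hne, hS, hD, by omega, .inl ⟨hk, ht⟩, hH⟩
  refine or_iff_not_imp_left.2 fun hE g hg i => ?_
  have A : ∀ u ∈ D i, S.Sing u → ∃ n, g.1 u ∈ D n := fun u hu us => h.tf_mem hk ht h2 hE (by simpa)
    (h.tf_map (fun a => hH _ (S.eich_mem_E u 0 a) (hD.perm_eich hu (zero_mem _) a)) hg)
  obtain ⟨e, he, e0, es⟩ := unit_exists_sing hne S (D i) (hD.dim i ▸ hk)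
  obtain ⟨f, hf, Hy⟩ := exists_partner_mem (hD.nondeg i) he e0 es
  obtain ⟨n, hn⟩ := A e he es
  have B : ∀ u ∈ D i, ∀ v ∈ D i, S.Sing v → S.h u v ≠ 0 → g.1 u ∈ D n → g.1 v ∈ D n :=
    fun u hu v hv vs uv m => by
      obtain ⟨l, hl⟩ := A v hv vs
      obtain rfl | e := eq_or_ne n l
      exacts [hl, absurd (by simpa using hD.orth _ _ e hl _ m) uv]
  refine ⟨n, span_sing (D i) he hf es (by simp [Hy.h_ef])
    ((D n).comap (g.1 : V →ₗ[F] V)).toAddSubgroup fun x hx xs => ?_⟩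
  obtain rfl | x0 := eq_or_ne x 0
  · exact zero_mem _
  obtain ⟨z, z1, z2, z3⟩ := (hD.nondeg i).exists_common (unit_rich hne _ 3) (e := ⟨e, he⟩) es
    (by simpa) (y := ⟨x, hx⟩) xs (by simpa)
  exact B _ z.2 x hx xs z3 (B e he _ z.2 z1 (fun e => z2 (S.h_swap_zero e)) hn)

end H29
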