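import Cfsg.Agent.H29.TenS2
import Cfsg.Agent.H29.UG

/-! Overgroups of `SU(U) ⊗ SU(W)` in `SU(U ⊗ W)`, part 1: facts on unitary spaces (`utrans2`,
`uscal_of`, `ucent_mem`, `urad_eich`, `urad_full`). -/

set_option autoImplicit false
set_option linter.unusedSectionVars false

namespace H29

open Module H11 H11.PForm

section Un
variable {F : Type*} [Field F] [Finite F] {σ : F →+* F} {hσ : ∀ a, σ (σ a) = a} {V : Type*}
  [AddCommGroup V] [Module F V] [FiniteDimensional F V] {S : PForm (unitP σ hσ) V}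
  {H : Subgroup S.Isom} {x y v z : V}

theorem ses_zero (hne : σ ≠ RingHom.id F) {a b : F} (h : ∀ c, c * a + σ c * b = 0) : a = 0 := by
  obtain ⟨c, hc⟩ := exists_σ_ne hne
  have h1 := h 1
  rw [map_one] at h1
  exact (mul_eq_zero.1 (by linear_combination σ c * h1 - h c : (σ c - c) * a = 0)).resolve_left
    (sub_ne_zero.2 hc)

theorem uswap {a : F} (h : S.h x y = a) : S.h y x = σ a := by rw [S.unit_symm, h]

theorem uone (h : S.h x y = 1) : S.h y x = 1 := by rw [uswap h, map_one]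

theorem us (h : S.h x x = 0) : S.Sing x := (S.unit_sing x).2 h

theorem uex_ns (hne : σ ≠ RingHom.id F) (hS : S.Nondeg) (N : Submodule F V)
    (h : finrank F V < 2 * finrank F N) : ∃ w ∈ N, S.h w w ≠ 0 := by
  by_contra! e
  have h1 : N ≤ S.perp N := fun y hy x hx => ses_zero hne (b := S.h y x) fun c => by
    simpa [e x hx, e y hy, add_comm] using e (x + c • y) (N.add_mem hx (N.smul_mem c hy))
  have := Submodule.finrank_mono h1
  have := hS.finrank_perp N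
  omega

theorem uex_iso (hne : σ ≠ RingHom.id F) (hS : S.Nondeg) (h : 4 ≤ finrank F V) (x y : V) :
    ∃ z, z ≠ 0 ∧ S.h z z = 0 ∧ S.h z x = 0 ∧ S.h z y = 0 := by
  have := hS.finrank_perp (Submodule.span F {x, y})
  have := finrank_span_two_le (F := F) x y
  obtain ⟨z, h1, h2, h3⟩ := unit_exists_sing hne S (S.perp (Submodule.span F {x, y})) (by omega)
  exact ⟨z, h2, h3.h_self, S.h_swap_zero (S.mem_perp_pair.1 h1).1, S.h_swap_zero (S.mem_perp_pair.1 h1).2⟩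

theorem uex_add (hne : σ ≠ RingHom.id F) (hx : S.h x x = 0) (hy : S.h y y = 0) :
    ∃ ν : F, ν ≠ 0 ∧ S.h (x + ν • y) (x + ν • y) = 0 := by
  by_cases h : S.h x y = 0
  · exact ⟨1, one_ne_zero, by simp [hx, hy, h, S.h_swap_zero h]⟩
  obtain ⟨s, s0, hs⟩ := exists_mem_unit_Λ hσ hne
  rw [mem_unitP_Λ] at hs
  have h' : σ (S.h x y) ≠ 0 := by simpa
  refine ⟨s / S.h x y, div_ne_zero s0 h, ?_⟩
  simp only [map_add, map_smul, map_smulₛₗ, LinearMap.add_apply, LinearMap.smul_apply, hx, hy,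
    smul_eq_mul, S.unit_symm x y, map_div₀]
  field_simp
  linear_combination (σ (S.h x y) * S.h x y) * hs

theorem uspan (hne : σ ≠ RingHom.id F) (hS : S.Nondeg) (h : 2 ≤ finrank F V) (T : AddSubgroup V)
    (hT : ∀ x, S.h x x = 0 → x ∈ T) (x : V) : x ∈ T := by
  obtain ⟨e, f, Hy⟩ := hS.unit_exists_hyp hne h
  exact span_sing ⊤ trivial trivial Hy.sing_e (by simp [Hy.h_ef] : S.h e f ≠ 0) T
    (fun x _ hx => hT x hx.h_self) x trivial

theorem uspanp (hne : σ ≠ RingHom.id F) (hS : S.Nondeg) (h : 5 ≤ finrank F V) (T : AddSubgroup V)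
    (hT : ∀ x, S.h v x = 0 → S.h x x = 0 → x ∈ T) (hx : S.h v x = 0) : x ∈ T :=
  span_sing_perp hS (iso3_unit hne S) (F ∙ v) (by have := finrank_span_one_le (F := F) v; omega) T
    (fun x h1 h2 => hT x (S.mem_perp_singleton.1 h1) h2.h_self) x (S.mem_perp_singleton.2 hx)

theorem usep (hS : S.Nondeg) (h : y ∉ F ∙ v) : ∃ r, S.h r v = 0 ∧ S.h r y = 1 :=
  let ⟨r, r1, r2⟩ := hS.exists_perp_of_notMem h 1
  ⟨r, S.h_swap_zero (S.mem_perp_singleton.1 r1), r2⟩

theorem nm_swap (hv : v ≠ 0) (h : y ∉ F ∙ v) : v ∉ F ∙ y := fun m => h (by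
  obtain ⟨a, rfl⟩ := Submodule.mem_span_singleton.1 m
  rw [Submodule.span_singleton_smul_eq (left_ne_zero_of_smul hv).isUnit]
  exact Submodule.mem_span_singleton_self y)

theorem utrans1 (hne : σ ≠ RingHom.id F) (hS : S.Nondeg) (h : 3 ≤ finrank F V) {v' : V} (v0 : v ≠ 0)
    (v0' : v' ≠ 0) (hv : S.h v v = 0) (hv' : S.h v' v' = 0) : ∃ g ∈ S.E, g.1 v = v' := by
  obtain ⟨g, e⟩ := hS.witt_vec v0 v0' ((S.unit_q_congr_iff S _ _).2 (hv'.trans hv.symm))
  have := hS.finrank_perp (F ∙ v)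
  have := finrank_span_one_le (F := F) v
  obtain ⟨b, b1, b2⟩ := uex_ns hne hS (S.perp (F ∙ v)) (by omega)
  obtain ⟨r, r1, r2⟩ := u_adj hne hS (by omega) g b2
  exact ⟨_, r2, by simp [r1 v (S.h_swap_zero (S.mem_perp_singleton.1 b1)), e]⟩

theorem utrans2 (hne : σ ≠ RingHom.id F) (hS : S.Nondeg) (h : 5 ≤ finrank F V) {v' z' : V} (v0 : v ≠ 0)
    (v0' : v' ≠ 0) (hv : S.h v v = 0) (hv' : S.h v' v' = 0) (hz : S.h z z = 0) (hz' : S.h z' z' = 0)
    (h1 : S.h v z = 0) (h1' : S.h v' z' = 0) (h2 : z ∉ F ∙ v) (h2' : z' ∉ F ∙ v') :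
    ∃ g ∈ S.E, g.1 v = v' ∧ g.1 z = z' := by
  obtain ⟨g, e⟩ := hS.witt_vec v0 v0' ((S.unit_q_congr_iff S _ _).2 (hv'.trans hv.symm))
  obtain ⟨k, k1, k2⟩ := hS.witt_fix (F ∙ v') (u := g.1 z) (fun m => h2 (by
      obtain ⟨a, ha⟩ := Submodule.mem_span_singleton.1 m
      exact Submodule.mem_span_singleton.2 ⟨a, g.1.injective (by rw [map_smul, e, ha])⟩)) h2'
    ((S.unit_q_congr_iff S _ _).2 (by simp [hz, hz'])) fun x hx => by
      obtain ⟨a, rfl⟩ := Submodule.mem_span_singleton.1 hx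
      have : S.h v' (g.1 z) = 0 := by simp [← e, h1]
      simp [h1', this]
  have := hS.finrank_perp (Submodule.span F {v, z})
  have := finrank_span_two_le (F := F) v z
  obtain ⟨b, b1, b2⟩ := uex_ns hne hS (S.perp (Submodule.span F {v, z})) (by omega)
  obtain ⟨r, r1, r2⟩ := u_adj hne hS (by omega) (k * g) b2
  rw [mem_perp_pair] at b1
  exact ⟨_, r2, by simp [r1 v (S.h_swap_zero b1.1), e, k1 v' (Submodule.mem_span_singleton_self _)],
    by simp [r1 z (S.h_swap_zero b1.2), k2]⟩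

theorem uframe (hne : σ ≠ RingHom.id F) (hS : S.Nondeg) (h : 4 ≤ finrank F V) {v' : V}
    (Hy : S.IsHyp v v') : ∃ z z', S.IsHyp z z' ∧ S.h v z = 0 ∧ S.h v' z = 0 ∧ S.h v z' = 0 ∧
      S.h v' z' = 0 := by
  have := Hy.finrank_perp
  obtain ⟨z, h1, h2, h3⟩ := unit_exists_sing hne S (S.perp (Submodule.span F {v, v'})) (by omega)
  obtain ⟨z', h4, h5⟩ := exists_partner_mem (hS.restrict_perp Hy.nondeg) h1 h2 h3
  rw [mem_perp_pair] at h1 h4
  exact ⟨z, z', h5, h1.1, h1.2, h4.1, h4.2⟩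

theorem uscal_of (hne : σ ≠ RingHom.id F) (hS : S.Nondeg) (h : 2 ≤ finrank F V) {E : V →ₗ[F] V}
    (hE : ∀ u, S.h u u = 0 → S.h u (E u) = 0) : ∃ s : F, ∀ u, E u = s • u := by
  obtain ⟨s, s0, hs⟩ := exists_mem_unit_Λ hσ hne
  rw [mem_unitP_Λ, add_comm, add_eq_zero_iff_eq_neg] at hs
  have A : ∀ u, S.h u u = 0 → E u ∈ F ∙ u := fun u hu => by_contra fun m => by
    have a1 : ∀ y, S.h y y = 0 → S.h u y = 1 → S.h y (E u) = S.h u (E y) := fun y hy h1 => by
      have := hE (y + s • u) (by simp [hu, hy, h1, uone h1, hs])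
      simp only [map_add, map_smul, map_smulₛₗ, LinearMap.add_apply, LinearMap.smul_apply, hE u hu,
        hE y hy, smul_eq_mul, hs] at this
      exact mul_left_cancel₀ s0 (by linear_combination this)
    obtain ⟨f, Hy⟩ := hS.exists_isHyp (us hu) (by rintro rfl; simp at m)
    obtain ⟨x, x1, x2⟩ := usep hS m
    refine one_ne_zero (x2.symm.trans (neg_eq_zero.1 (ses_zero hne (b := S.h u (E x)) fun c => ?_)))
    obtain ⟨d, hd⟩ := exists_sing_add' (x := f + σ c • x) (us hu)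
      (by simp [Hy.h_ef, S.h_swap_zero x1])
    have := a1 _ hd.h_self (by simp [Hy.h_ef, S.h_swap_zero x1, hu])
    simp only [map_add, map_smul, map_smulₛₗ, LinearMap.add_apply, LinearMap.smul_apply, hE u hu,
      smul_eq_mul, hσ, a1 f Hy.h_ff Hy.h_ef] at this
    linear_combination -this
  obtain ⟨e, f, Hy⟩ := hS.unit_exists_hyp hne h
  obtain ⟨a, ha⟩ := Submodule.mem_span_singleton.1 (A e Hy.h_ee)
  refine ⟨a, fun u => sub_eq_zero.1 (uspan hne hS h (E - a • LinearMap.id).toAddMonoidHom.ker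
    (fun y hy => ?_) u)⟩
  change E y - a • y = 0
  by_cases m : y ∈ F ∙ e
  · obtain ⟨b, rfl⟩ := Submodule.mem_span_singleton.1 m
    simp [← ha, smul_comm a]
  obtain ⟨ν, ν0, hν⟩ := uex_add hne Hy.h_ee hy
  obtain ⟨b, hb⟩ := Submodule.mem_span_singleton.1 (A y hy)
  obtain ⟨κ, hκ⟩ := Submodule.mem_span_singleton.1 (A _ hν)
  rw [map_add, map_smul, ← ha, ← hb] at hκ
  obtain ⟨r, r1, r2⟩ := usep hS m
  obtain ⟨r', r3, r4⟩ := usep hS (nm_swap (by rintro rfl; simpa using Hy.h_ef) m)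
  have b1 := congrArg (S.h r) hκ
  have b2 := congrArg (S.h r') hκ
  simp [r1, r2, r3, r4, mul_comm ν, ν0] at b1 b2
  simp [← hb, ← b1, ← b2]

theorem ucent_mem (hne : σ ≠ RingHom.id F) (hS : S.Nondeg) (X : Submodule F V)
    (hX : ∀ x ∈ X, ∀ y ∈ X, S.h x y = 0) (hE : ∀ z ∈ X, ∀ a, S.eich z 0 a ∈ H) {g : S.Isom}
    (hg : ∀ x, g.1 x - x ∈ X) : g ∈ H := by
  induction X using WellFoundedLT.induction generalizing g with
  | ind X ih =>
  have h1 : ∀ x y, S.h x (g.1 y - y) = -S.h (g.1 x - x) y := fun x y => by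
    have a := hX _ (hg x) _ (hg y)
    simp only [map_sub, LinearMap.sub_apply, isom_h] at a ⊢
    linear_combination -a
  have h3 : ∀ z ∈ X, g.1 z = z := fun z hz => sub_eq_zero.1 (hS _ fun y => by
    rw [← neg_eq_zero, ← h1, hX z hz _ (hg y)])
  by_cases e : ∀ y, S.h y (g.1 y - y) = 0
  · refine (isom_ext fun y => sub_eq_zero.1 (hS.eq_zero' fun x => ses_zero hne
      (b := S.h y (g.1 x - x)) fun c => ?_) : g = 1) ▸ H.one_mem
    have := e (x + c • y)
    rw [show g.1 (x + c • y) - (x + c • y) = g.1 x - x + c • (g.1 y - y) by simp only [map_add, map_smul]; module] at this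
    simp only [map_add, map_smul, map_smulₛₗ, LinearMap.add_apply, LinearMap.smul_apply, e,
      smul_eq_mul, mul_zero, zero_add, add_zero] at this
    rw [isom_one_apply]
    linear_combination this
  obtain ⟨y, hy⟩ := not_forall.1 e
  have h2 : σ (S.h y (g.1 y - y)) = -S.h y (g.1 y - y) := by rw [← S.unit_symm, h1, neg_neg]
  have c : S.ECond (g.1 y - y) 0 (-(S.h y (g.1 y - y))⁻¹) :=
    .of_mem (us (hX _ (hg y) _ (hg y))) (by
      rw [mem_unitP_Λ, map_neg, map_inv₀, h2, inv_neg, neg_neg, neg_add_cancel])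
  refine (H.mul_mem_cancel_right (hE _ (hg y) (-(S.h y (g.1 y - y))⁻¹))).1 (ih (X ⊓ S.perp (F ∙ y))
    (lt_of_le_of_ne inf_le_left fun a => hy (S.mem_perp_singleton.1 (a.ge (hg y)).2))
    (fun z hz z' hz' => hX z hz.1 z' hz'.1) (fun z hz => hE z hz.1) fun w => ?_)
  rw [isom_mul_apply, eich_apply c, map_sub, map_add, map_smul, map_smul, h3 _ (hg y), map_zero,
    smul_zero, add_zero, sub_right_comm]
  refine ⟨X.sub_mem (hg w) (X.smul_mem _ (hg y)), S.mem_perp_singleton.2 ?_⟩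
  rw [map_sub, map_smul, h1 y w]
  simp only [map_zero, LinearMap.zero_apply, unitP_ε, smul_eq_mul]
  field_simp
  ring

theorem urad_eich (hne : σ ≠ RingHom.id F) (hS : S.Nondeg) {X : Submodule F V}
    (hX : ∀ x ∈ X, ∀ y ∈ X, S.h x y = 0) {y' : V} (y2 : y ∈ S.perp X) (y4 : y' ∈ S.perp X)
    (y1 : S.h y y' = 1) (hL : ∀ w ∈ S.perp X, ∀ b ∈ X, ∃ k ∈ H, (∀ a ∈ X, k.1 a = a) ∧
      ∀ x ∈ S.perp X, k.1 x = x + S.h w x • b) :
    ∀ b ∈ X, (∀ a, S.eich b 0 a ∈ H) ∧ ∀ z ∈ S.perp X, S.eich b z (S.q z) ∈ H := by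
  have c : ∀ a ∈ X, ∀ b ∈ X, S.ECond a b 0 := fun a ha b hb => ⟨us (hX a ha a ha), hX a ha b hb,
    (S.unit_congr_iff _ _).2 (by simp [hX b hb b hb])⟩
  have A : ∀ a ∈ X, ∀ b ∈ X, S.eich a b 0 ∈ H := fun a ha b hb => by
    obtain ⟨k, k1, k2, k3⟩ := hL y y2 b hb
    obtain ⟨l, l1, l2, l3⟩ := hL y' y4 a ha
    have e : ∀ {k : S.Isom} {z b : V}, b ∈ X → (∀ a ∈ X, k.1 a = a) → (∀ x ∈ S.perp X,
        k.1 x = x + S.h z x • b) → ∀ x, k.1 x - x ∈ S.perp X ∧ ∀ z' ∈ S.perp X,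
        S.h z' (k.1 x - x) = -S.h z' z * S.h b x := fun {k z b} hb k2 k3 x => by
      have e1 : ∀ a ∈ X, S.h a (k.1 x) = S.h a x := fun a ha => by
        conv_lhs => rw [← k2 a ha, isom_h]
      refine ⟨fun a ha => by rw [map_sub, e1 a ha, sub_self], fun z' hz => ?_⟩
      have := isom_h k z' x
      rw [k3 z' hz] at this
      simp only [map_add, map_smulₛₗ, LinearMap.add_apply, LinearMap.smul_apply, e1 b hb, map_sub,
        smul_eq_mul, ← S.unit_symm] at this ⊢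
      linear_combination this
    refine (H.mul_mem_cancel_right (H.mul_mem k1 l1)).1 ((isom_ext fun x => ?_ :
      l * k = S.eich a b 0 * (k * l)) ▸ H.mul_mem l1 k1)
    have e1 := k3 _ (e ha l2 l3 x).1
    have e2 := l3 _ (e hb k2 k3 x).1
    rw [(e ha l2 l3 x).2 y y2, y1, map_sub] at e1
    rw [(e hb k2 k3 x).2 y' y4, uone y1, map_sub] at e2
    have e3 : ∀ a ∈ X, S.h a (k.1 (l.1 x)) = S.h a x := fun a ha => by
      conv_lhs => rw [← k2 a ha, isom_h, ← l2 a ha, isom_h]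
    simp only [isom_mul_apply, eich_apply (c a ha b hb), e3 a ha, e3 b hb, unitP_ε]
    linear_combination (norm := module) e2 - e1
  have B : ∀ b ∈ X, ∀ a, S.eich b 0 a ∈ H := fun b hb a => by
    by_cases h : S.ECond b 0 a
    · obtain ⟨d, hd⟩ := lmin_unit hσ hne a (by simpa using AddSubgroup.add_mem _ h.q S.q_zero)
      have := (eich_add_smul h (-d)).2
      rw [show a + ((unitP σ hσ).ε * -d - σ (-d)) = 0 by simp [hd], zero_add] at this
      exact this ▸ A b hb _ (X.smul_mem _ hb)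
    · exact eich_junk h ▸ H.one_mem
  refine fun b hb => ⟨B b hb, fun z hz => ?_⟩
  have c := ECond.of_q (us (hX b hb b hb)) (hz b hb)
  obtain ⟨k, k1, k2, k3⟩ := hL z hz b hb
  refine (H.mul_mem_cancel_left k1).1 (ucent_mem hne hS X hX B fun x =>
    hS.perp_perp X ▸ fun x' hx' => ?_)
  rw [map_sub, sub_eq_zero, ← isom_h (k * S.eich b z (S.q z)) _ x, isom_mul_apply _ _ x',
    eich_apply_of_perp c (hx' b hb), map_sub, k.1.map_smul, k2 b hb, k3 _ hx']
  simp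

theorem urad_full {X Y : Submodule F V} (hX : ∀ x ∈ X, S.h x x = 0) (hY : ∀ x ∈ Y, S.h x x = 0)
    (eX : ∀ b ∈ X, (∀ a, S.eich b 0 a ∈ H) ∧ ∀ z ∈ S.perp X, S.eich b z (S.q z) ∈ H)
    (eY : ∀ b ∈ Y, ∀ z ∈ S.perp Y, S.eich b z (S.q z) ∈ H) {y' : V} (y2 : y ∈ S.perp X)
    (y3 : y ∈ S.perp Y) (y4 : y' ∈ S.perp X) (y5 : y' ∈ S.perp Y) (y1 : S.h y y' = 1)
    (hd : ∀ x, ∃ a ∈ Y, x - a ∈ S.perp X) {b : V} (hb : b ∈ X) : Full H b := by
  have hs := us (hX b hb)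
  have m : ∀ z ∈ S.perp X, z ∈ BSet H hs := fun z hz => ⟨_, .of_q hs (hz b hb), (eX b hb).2 z hz⟩
  refine full_of_BSet hs (fun x hx => ?_) fun a _ => (eX b hb).1 a
  obtain ⟨a, ha, e⟩ := hd x
  have e1 : S.h a b = 0 := by
    have := e b hb
    rw [map_sub, hx, zero_sub, neg_eq_zero] at this
    exact S.h_swap_zero this
  have := BSet_map (hu' := hs) (m y' y4) (eY a ha y y3)
    (eich_apply_of_perp_perp e1 (S.h_swap_zero (y2 b hb)))
  rw [eich_apply_of_perp (.of_q (us (hY a ha)) (y3 a ha)) (y5 a ha), y1] at this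
  simpa using (BSet H hs).add_mem (m (x - a) e) ((BSet H hs).sub_mem (m y' y4) this)

end Un

end H29
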