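import Cfsg.Agent.H29.TU1

/-! Overgroups of `SU(U) ⊗ SU(W)` in `SU(U ⊗ W)`, part 2: the structure `TU`, levels `ULv` at the
subspaces `U ⊗ v` and `TU.nl_or` (a non-scalar level gives the whole group). -/

set_option autoImplicit false
set_option linter.unusedSectionVars false

namespace H29

open Module H11 H11.PForm

variable {F U W V : Type*} [Field F] [Finite F] {σ : F →+* F} {hσ : ∀ a, σ (σ a) = a}
  [AddCommGroup U] [Module F U] [AddCommGroup W] [Module F W]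
  [AddCommGroup V] [Module F V] [FiniteDimensional F U] [FiniteDimensional F W]
  [FiniteDimensional F V] {S : PForm (unitP σ hσ) V} {H : Subgroup S.Isom}
  {A : PForm (unitP σ hσ) U} {B : PForm (unitP σ hσ) W} {t : W →ₗ[F] U →ₗ[F] V}
  {c : W →ₛₗ[σ] V →ₗ[F] U} {v z : W} {φ φ' : V →ₗ[F] U} {E E' : U →ₗ[F] U}

/-- `φ` is a level of `H` at `U ⊗ v` -/
def ULv (t : W →ₗ[F] U →ₗ[F] V) (c : W →ₛₗ[σ] V →ₗ[F] U) (H : Subgroup S.Isom) (v : W)
    (φ : V →ₗ[F] U) : Prop :=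
  ∃ k ∈ H, (∀ u, k.1 (t v u) = t v u) ∧ ∀ x, c v x = 0 → k.1 x = x + t v (φ x)

theorem ULv.congr (h : ULv t c H v φ) (e : ∀ x, c v x = 0 → φ' x = φ x) : ULv t c H v φ' :=
  let ⟨k, a, b, d⟩ := h
  ⟨k, a, b, fun x hx => by rw [d x hx, e x hx]⟩

theorem ULv.zero (e : ∀ x, c v x = 0 → t v (φ x) = 0) : ULv t c H v φ :=
  ⟨1, H.one_mem, fun _ => rfl, fun x hx => by simp [e x hx]⟩

theorem ULv.sub (h : ULv t c H v φ) (h' : ULv t c H v φ') : ULv t c H v (φ - φ') := by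
  obtain ⟨k, a, b, d⟩ := h
  obtain ⟨k', a', b', d'⟩ := h'
  refine ⟨k'⁻¹ * k, H.mul_mem (H.inv_mem a') a, fun s => k'.1.injective (by simp [b, b']),
    fun x hx => k'.1.injective ?_⟩
  rw [isom_mul_apply, isom_apply_inv_self, map_add, b', d x hx, d' x hx]
  simp

/-- `E` lies in the level of `H` -/
def TUL (B : PForm (unitP σ hσ) W) (t : W →ₗ[F] U →ₗ[F] V) (c : W →ₛₗ[σ] V →ₗ[F] U)
    (H : Subgroup S.Isom) (E : U →ₗ[F] U) : Prop :=
  ∀ v z, B.h v v = 0 → B.h v z = 0 → ULv t c H v (E ∘ₗ c z)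

theorem TUL.congr (h : TUL B t c H E) (e : ∀ x, E' x = E x) : TUL B t c H E' := by
  rwa [LinearMap.ext e]

theorem TUL.smul (h : TUL B t c H E) (s : F) : TUL B t c H (s • E) := fun v z hv h0 =>
  (h v (σ s • z) hv (by simp [h0])).congr fun x _ => by simp [hσ]

theorem TUL.sub (h : TUL B t c H E) (h' : TUL B t c H E') : TUL B t c H (E - E') := fun v z hv h0 =>
  ((h v z hv h0).sub (h' v z hv h0)).congr fun x _ => by simp

theorem TUL.zero : TUL B t c H 0 := fun _ _ _ _ => .zero fun _ _ => by simp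

/-- the vectors with a property closed under differences -/
def subT {M : Type*} [AddCommGroup M] (p : M → Prop) (h0 : p 0) (h : ∀ x y, p x → p y → p (x - y)) :
    AddSubgroup M := .ofSub {x | p x} ⟨0, h0⟩ fun x hx y hy => by
  simpa [sub_eq_add_neg] using h x y hx hy

/-- an overgroup of `SU(U) ⊗ SU(W)` -/
structure TU (A : PForm (unitP σ hσ) U) (B : PForm (unitP σ hσ) W) (t : W →ₗ[F] U →ₗ[F] V)
    (c : W →ₛₗ[σ] V →ₗ[F] U) (H : Subgroup S.Isom) : Prop where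
  ne : σ ≠ RingHom.id F
  nd : S.Nondeg
  ndU : A.Nondeg
  ndW : B.Nondeg
  ct : ∀ z w u, c z (t w u) = B.h z w • u
  ext : ∀ T : AddSubgroup V, (∀ w u, t w u ∈ T) → ∀ x, x ∈ T
  hh : ∀ w u x, S.h (t w u) x = A.h u (c w x)
  hW : ∀ ρ ∈ B.E, ∃ g ∈ H, ∀ w u, g.1 (t w u) = t (ρ.1 w) u
  hU : ∀ γ ∈ A.E, ∃ g ∈ H, ∀ w u, g.1 (t w u) = t w (γ.1 u)
  five : 5 ≤ finrank F W
  lt : finrank F U < finrank F W
  two : 2 ≤ finrank F U

namespace TU
variable (h : TU A B t c H)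
include h

theorem lext {M : Type*} [AddCommGroup M] [Module F M] {f g : V →ₗ[F] M}
    (e : ∀ w u, f (t w u) = g (t w u)) (x : V) : f x = g x :=
  sub_eq_zero.1 (h.ext (f - g).toAddMonoidHom.ker (fun w u => sub_eq_zero.2 (e w u)) x)

theorem tt (w w' : W) (u u' : U) : S.h (t w u) (t w' u') = B.h w w' * A.h u u' := by simp [h.hh, h.ct]

theorem inj (hv : v ≠ 0) {u : U} (e : t v u = 0) : u = 0 := by
  obtain ⟨y, hy⟩ := h.ndW.exists_h_eq_one hv
  simpa [h.ct, uone hy] using congrArg (c y) e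

theorem cinj {x : V} (e : ∀ y, c y x = 0) : x = 0 :=
  h.nd.eq_zero' (h.ext (S.h.flip x).toAddMonoidHom.ker fun w u => by simp [h.hh, e])

theorem span (hv : v ≠ 0) (T : AddSubgroup V) (e : ∀ y, B.h v y = 0 → ∀ u, t y u ∈ T) {x : V}
    (hx : c v x = 0) : x ∈ T := by
  obtain ⟨y, hy⟩ := h.ndW.exists_h_eq_one hv
  have := h.ext (T.comap (LinearMap.id - t y ∘ₗ c v : V →ₗ[F] V).toAddMonoidHom)
    (fun w u => by simpa [h.ct] using e (w - B.h v w • y) (by simp [hy]) u) x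
  replace this : x - t y (c v x) ∈ T := this
  simpa [hx] using this

theorem eq_t {η : W} (hη : B.h η z = 1) {x : V} (e : ∀ y, B.h z y = 0 → c y x = 0) :
    x = t z (c η x) := sub_eq_zero.1 (h.cinj fun y => by
  simpa [h.ct, ← B.unit_symm] using e (y - B.h z y • η) (by simp [uone hη]))

theorem c_inv {g : S.Isom} {v' : W} {γ : U → U} (e : ∀ u, g.1 (t v u) = t v' (γ u)) (u : U) (x : V) :
    A.h u (c v (g⁻¹.1 x)) = A.h (γ u) (c v' x) := by
  rw [← h.hh, ← isom_h_left, e, h.hh]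

theorem conj (hf : ULv t c H v φ) {g : S.Isom} (hg : g ∈ H) {v' : W} {γ : U →ₗ[F] U}
    (e : ∀ u, g.1 (t v u) = t v' (γ u)) (hγ : Function.Surjective γ) :
    ULv t c H v' (γ ∘ₗ φ ∘ₗ (g⁻¹.1 : V →ₗ[F] V)) := by
  obtain ⟨k, a, b, d⟩ := hf
  refine ⟨g * k * g⁻¹, H.mul_mem (H.mul_mem hg a) (H.inv_mem hg), fun u => by
    obtain ⟨u, rfl⟩ := hγ u
    rw [← e]; simp [b], fun x hx => ?_⟩
  rw [isom_mul_apply, isom_mul_apply, d _ (h.ndU.eq_zero' fun u => by
    rw [h.c_inv e, hx, map_zero]), map_add, e, isom_apply_inv_self]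
  rfl

theorem comp (hf : ULv t c H v φ) {g : S.Isom} (hg : g ∈ H) (e : ∀ u, g.1 (t v u) = t v u) :
    ULv t c H v (φ ∘ₗ (g.1 : V →ₗ[F] V)) :=
  h.conj hf (H.inv_mem hg) (γ := .id) (fun u => g.1.injective (by simp [e])) Function.surjective_id

theorem hE {a : F} (e : B.ECond v z a) : ∃ g ∈ H, ∀ x,
    g.1 x = x + t z (c v x) - t v (c z x) - a • t v (c v x) := by
  obtain ⟨g, hg, e'⟩ := h.hW _ (B.eich_mem_E v z a)
  exact ⟨g, hg, h.lext (f := g.1) (g := .id + t z ∘ₗ c v - t v ∘ₗ c z - a • t v ∘ₗ c v) fun w u => by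
    simp [e', eich_apply e, h.ct]; module⟩

theorem hT (hv : B.h v v = 0) {s : F} (hs : s + σ s = 0) :
    ∃ g ∈ H, ∀ x, g.1 x = x + s • t v (c v x) := by
  obtain ⟨g, hg, e⟩ := h.hE (.of_mem (us hv) (a := -s) (neg_mem hs))
  exact ⟨g, hg, fun x => by simp [e]⟩

theorem lv_id : TUL B t c H .id := fun v z hv h0 => by
  obtain ⟨k, a, b⟩ := h.hE (.of_q (us hv) (v := -z) (by simp [h0]))
  exact ⟨k, a, fun u => by simp [b, h.ct, hv, B.h_swap_zero h0], fun x hx => by simp [b, hx]⟩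

theorem lv0 (hf : ULv t c H v φ) (v0 : v ≠ 0) (hv : B.h v v = 0) (u : U) : φ (t v u) = 0 := by
  obtain ⟨k, -, b, d⟩ := hf
  have := d (t v u) (by simp [h.ct, hv])
  rw [b, left_eq_add] at this
  exact h.inj v0 this

theorem lv_of (hf : ULv t c H v φ) (v0 : v ≠ 0) (hv : B.h v v = 0) (hz : B.h v z = 0) :
    TUL B t c H (φ ∘ₗ t z) := by
  refine uspanp h.ne h.ndW h.five (subT (fun z => TUL B t c H (φ ∘ₗ t z))
    (TUL.zero.congr fun x => by simp) fun x y a b => (a.sub b).congr fun x => by simp)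
    (fun z hz zz => ?_) hz
  by_cases m : z ∈ F ∙ v
  · obtain ⟨a, rfl⟩ := Submodule.mem_span_singleton.1 m
    exact TUL.zero.congr fun x => by simp [h.lv0 hf v0 hv]
  obtain ⟨s, s0, hs⟩ := exists_mem_unit_Λ hσ h.ne
  obtain ⟨g, hg, e⟩ := h.hT zz hs
  have a1 : ULv t c H v ((φ ∘ₗ t z) ∘ₗ c (σ s • z)) :=
    ((h.comp hf hg fun u => by simp [e, h.ct, B.h_swap_zero hz]).sub hf).congr fun x _ => by
      simp [e, hσ]
  intro v' z' hv' h1
  obtain rfl | v0' := eq_or_ne v' 0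
  · exact .zero fun x _ => by simp
  refine uspanp h.ne h.ndW h.five (subT (fun y => ULv t c H v' ((φ ∘ₗ t z) ∘ₗ c y))
    (.zero fun x _ => by simp) fun x y a b => (a.sub b).congr fun x _ => by simp)
    (fun y hy yy => ?_) h1
  by_cases m' : y ∈ F ∙ v'
  · obtain ⟨a, rfl⟩ := Submodule.mem_span_singleton.1 m'
    exact .zero fun x hx => by simp [hx]
  obtain ⟨ρ, hρ, r1, r2⟩ := utrans2 h.ne h.ndW h.five (z := σ s • z) v0 v0' hv hv' (by simp [zz]) yy
    (by simp [hz]) hy (fun m' => m ((Submodule.smul_mem_iff _ (by simpa)).1 m')) m'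
  obtain ⟨k, hk, e⟩ := h.hW ρ hρ
  exact (h.conj a1 hk (γ := .id) (fun u => by simp [e, r1]) Function.surjective_id).congr
    fun x _ => congrArg (φ ∘ₗ t z) (h.ndU.ext_right fun u =>
      (h.c_inv (γ := id) (fun u => by rw [e, r2, id]) u x).symm)

theorem lv_conj (hE : TUL B t c H E) {γ : A.Isom} (hγ : γ ∈ A.E) (e : ∀ x, E' (γ.1 x) = γ.1 (E x)) :
    TUL B t c H E' := by
  intro v z hv h0
  obtain ⟨g, hg, e'⟩ := h.hU γ hγ
  refine (h.conj (hE v z hv h0) hg (γ := γ.1) (fun x => e' v x) γ.1.surjective).congr fun x _ => ?_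
  have : γ.1 (c z (g⁻¹.1 x)) = c z x := h.ndU.ext_right fun y => by
    obtain ⟨y, rfl⟩ := γ.1.surjective y
    rw [isom_h, h.c_inv (e' z)]
  conv_lhs => rw [LinearMap.comp_apply, ← this]
  exact e _

theorem hyp : ∃ v v', B.IsHyp v v' := h.ndW.unit_exists_hyp h.ne (by have := h.five; omega)

theorem lv_mul (hE : TUL B t c H E) (hE' : TUL B t c H E') : TUL B t c H (E ∘ₗ E') := by
  obtain ⟨v, v', Hy⟩ := h.hyp
  have := h.five
  obtain ⟨z, z', Hz, a1, -, a2, -⟩ := uframe h.ne h.ndW (by omega) Hy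
  have := h.ndW.finrank_perp (Submodule.span F {v, z})
  have := finrank_span_two_le (F := F) v z
  obtain ⟨w, b1, b2⟩ := uex_ns h.ne h.ndW (B.perp (Submodule.span F {v, z})) (by omega)
  rw [mem_perp_pair] at b1
  obtain ⟨k, hk, -, b⟩ := hE' z w Hz.h_ee b1.2
  refine ((((h.lv_of (h.comp (hE v z' Hy.h_ee a2) hk fun u => ?_) (by rintro rfl; simpa using Hy.h_ef)
    Hy.h_ee b1.1).sub (hE.smul (B.h z' w)))).smul (B.h w w)⁻¹).congr fun u => ?_
  · simp [b _ (show c z (t v u) = 0 by simp [h.ct, B.h_swap_zero a1]), h.ct, B.h_swap_zero b1.1]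
  · simp [b _ (show c z (t w u) = 0 by simp [h.ct, b1]), h.ct, uone Hz.h_ef, smul_smul, b2]

theorem lv_rank (hq : (∃ s : F, σ s = s ∧ s ≠ 0 ∧ s ≠ 1) ∨ 3 ≤ finrank F U) (hE : TUL B t c H E) {u : U}
    (hu : A.h u u = 0) (hb : A.h u (E u) ≠ 0) : TUL B t c H ((A.h u).smulRight u) := by
  have D : ∀ s : F, s + σ s = 0 → TUL B t c H (s • ((A.h u ∘ₗ E).smulRight u - (A.h u).smulRight (E u)) -
      (s * s * A.h u (E u)) • (A.h u).smulRight u) := fun s hs =>
    ((h.lv_conj hE (A.eich_mem_E u 0 (-s)) (E' := E + _) fun x => by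
      simp [eich_apply (.of_mem (us hu) (neg_mem hs)), hu]; module).sub hE).congr
        fun x => (add_sub_cancel_left _ _).symm
  obtain ⟨s, s0, hs⟩ := exists_mem_unit_Λ hσ h.ne
  rcases hq with ⟨r, r1, r2, r3⟩ | hq
  · refine (((D (r * s) (by rw [map_mul, r1, ← mul_add, hs, mul_zero])).sub ((D s hs).smul r)).smul
      (r * (1 - r) * s * s * A.h u (E u))⁻¹).congr fun x => ?_
    have := sub_ne_zero.2 r3.symm
    simp only [LinearMap.smulRight_apply, LinearMap.smul_apply, LinearMap.sub_apply]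
    match_scalars <;> field_simp <;> ring
  have := h.ndU.finrank_perp (F ∙ u)
  have := finrank_span_one_le (F := F) u
  obtain ⟨y, y1, y2⟩ := uex_ns h.ne h.ndU (A.perp (F ∙ u)) (by omega)
  rw [mem_perp_singleton] at y1
  obtain ⟨κ, hκ⟩ : ∃ κ, κ = s * (A.h y (E u) + 2 * A.q y * A.h u (E u) - A.h u (E y) -
    A.h u (E u) * A.h y y) := ⟨_, rfl⟩
  have M : TUL B t c H ((s * A.h u (E u)) • ((A.h y).smulRight u - (A.h u).smulRight y) +
      κ • (A.h u).smulRight u) :=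
    ((h.lv_conj (D s hs) (A.eich_mem_E u y (A.q y)) (E' := _ + _) fun x => by
      simp [eich_apply (.of_q (us hu) y1), hu, y1, A.h_swap_zero y1, hκ]; module).sub (D s hs)).congr
        fun x => (add_sub_cancel_left _ _).symm
  refine ((h.lv_mul M M).smul (-(s * A.h u (E u)) ^ 2 * A.h y y)⁻¹).congr fun x => ?_
  simp only [LinearMap.smulRight_apply, LinearMap.smul_apply, LinearMap.sub_apply, LinearMap.add_apply,
    LinearMap.comp_apply, map_add, map_sub, map_smul, hu, y1, A.h_swap_zero y1]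
  match_scalars <;> field_simp <;> ring

theorem lv_flag {u : U} (u0 : u ≠ 0) (uu : A.h u u = 0) (hu : TUL B t c H ((A.h u).smulRight u))
    (a b : U) : TUL B t c H ((A.h a).smulRight b) := by
  have a2 : ∀ u', u' ≠ 0 → A.h u' u' = 0 → TUL B t c H ((A.h u').smulRight u') := fun u' h1 h2 => by
    obtain ⟨g, hg, r, r0, e⟩ := h.ndU.exists_E_move (unit_rich h.ne A 3) (us uu) u0 (us h2) h1
    refine ((h.lv_conj hu hg (E' := (A.h (g.1 u)).smulRight (g.1 u)) fun x => by simp).smul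
      (σ r * r)⁻¹).congr fun x => ?_
    have : σ r ≠ 0 := by simpa
    simp only [e, LinearMap.smulRight_apply, LinearMap.smul_apply, map_smulₛₗ, smul_eq_mul]
    match_scalars; field_simp
  refine uspan h.ne h.ndU h.two (subT (fun b => TUL B t c H ((A.h a).smulRight b))
    (TUL.zero.congr fun x => by simp) fun x y a b => (a.sub b).congr fun x => by simp [smul_sub])
    (fun b hb => uspan h.ne h.ndU h.two (subT (fun a => TUL B t c H ((A.h a).smulRight b))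
      (TUL.zero.congr fun x => by simp) fun x y a b => (a.sub b).congr fun x => by simp [sub_smul])
      (fun a ha => ?_) a) b
  obtain rfl | a0 := eq_or_ne a 0
  · exact TUL.zero.congr fun x => by simp
  obtain rfl | b0 := eq_or_ne b 0
  · exact TUL.zero.congr fun x => by simp
  obtain ⟨y, y1, y2, y3⟩ := h.ndU.exists_common (unit_rich h.ne A 3) (us ha) a0 (us hb) b0
  have y4 : A.h b y ≠ 0 := mt A.h_swap_zero y3
  refine ((h.lv_mul (a2 b b0 hb) (h.lv_mul (a2 y (by rintro rfl; simp at y2) y1.h_self)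
    (a2 a a0 ha))).smul (A.h b y * A.h y a)⁻¹).congr fun x => ?_
  simp only [LinearMap.smulRight_apply, LinearMap.smul_apply, LinearMap.comp_apply, map_smul,
    smul_eq_mul]
  match_scalars; field_simp

theorem mem_p {x : V} : x ∈ S.perp (LinearMap.range (t v)) ↔ c v x = 0 :=
  ⟨fun e => h.ndU.eq_zero' fun u => by rw [← h.hh, e _ ⟨u, rfl⟩],
    by rintro e _ ⟨u, rfl⟩; rw [h.hh, e, map_zero]⟩

theorem E_le (hL : ∀ a b, TUL B t c H ((A.h a).smulRight b)) : S.E ≤ H := by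
  have hq : ∀ v, B.h v v = 0 → ∀ x ∈ LinearMap.range (t v), ∀ y ∈ LinearMap.range (t v),
      S.h x y = 0 := by
    rintro v hv _ ⟨u, rfl⟩ _ ⟨u', rfl⟩; simp [h.tt, hv]
  obtain ⟨u, u', Hu⟩ := h.ndU.unit_exists_hyp h.ne h.two
  have C : ∀ v v', B.IsHyp v v' → ∀ a, Full H (t v a) := fun v v' Hy a => by
    obtain ⟨y, y', Hz, a1, a2, a3, a4⟩ := uframe h.ne h.ndW (by have := h.five; omega) Hy
    have y1 : S.h (t y u) (t y' u') = 1 := by simp [h.tt, Hz.h_ef, Hu.h_ef]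
    have R : ∀ v, v ≠ 0 → B.h v v = 0 → B.h v y = 0 → B.h v y' = 0 → ∀ b ∈ LinearMap.range (t v),
        (∀ a, S.eich b 0 a ∈ H) ∧ ∀ z ∈ S.perp (LinearMap.range (t v)), S.eich b z (S.q z) ∈ H :=
      fun v v0 hv b1 b2 => urad_eich h.ne h.nd (hq v hv) (h.mem_p.2 (by simp [h.ct, b1]))
        (h.mem_p.2 (by simp [h.ct, b2])) y1 (by
        rintro w hw _ ⟨b, rfl⟩
        obtain ⟨k, k1, k2, k3⟩ := h.span v0 (subT (fun w => ULv t c H v ((S.h w).smulRight b))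
          (.zero fun x _ => by simp) fun x y a b => (a.sub b).congr fun x _ => by simp [sub_smul])
          (fun y hy u => (hL u b v y hv hy).congr fun x _ => by simp [h.hh]) (h.mem_p.1 hw)
        exact ⟨k, k1, by rintro _ ⟨u, rfl⟩; exact k2 u, fun x hx => by simp [k3 x (h.mem_p.1 hx)]⟩)
    exact urad_full (fun x hx => hq v Hy.h_ee x hx x hx) (fun x hx => hq v' Hy.h_ff x hx x hx)
      (R v (by rintro rfl; simpa using Hy.h_ef) Hy.h_ee a1 a3)
      (fun b hb => (R v' (by rintro rfl; simpa using Hy.h_ef) Hy.h_ff a2 a4 b hb).2)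
      (h.mem_p.2 (by simp [h.ct, a1])) (h.mem_p.2 (by simp [h.ct, a2]))
      (h.mem_p.2 (by simp [h.ct, a3])) (h.mem_p.2 (by simp [h.ct, a4])) y1
      (fun x => ⟨_, ⟨c v x, rfl⟩, h.mem_p.2 (by simp [h.ct, Hy.h_ef])⟩) ⟨a, rfl⟩
  obtain ⟨z, z₁, Hy⟩ := h.hyp
  exact S.E_le_iff.2 fun x y a _ => full_all_of_pair h.nd (us (by simp [h.tt, Hy.h_ee]))
    (us (by simp [h.tt, Hy.h_ff])) (C z z₁ Hy u) (C z₁ z ⟨Hy.2, Hy.1, uone Hy.h_ef⟩ u')
    (by simp [h.tt, Hy.h_ef, Hu.h_ef]) x y a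

theorem nl_or (hq : (∃ s : F, σ s = s ∧ s ≠ 0 ∧ s ≠ 1) ∨ 3 ≤ finrank F U) :
    S.E ≤ H ∨ ∀ E, TUL B t c H E → ∃ s : F, ∀ u, E u = s • u :=
  or_iff_not_imp_left.2 fun hE E h1 => uscal_of h.ne h.ndU h.two fun u hu => by_contra fun hb =>
    hE (h.E_le (h.lv_flag (by rintro rfl; simp at hb) hu (h.lv_rank hq h1 hu hb)))

end TU

end H29
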