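import Cfsg.Agent.H29.TU2

/-! Overgroups of `SU(U) ⊗ SU(W)` in `SU(U ⊗ W)`, part 3: with scalar level, elements fixing some
`U ⊗ z` pointwise act on `W` (`TU.fixC`), the pure subspaces form a block (`TU.block`, `TU.lemS`). -/

set_option autoImplicit false
set_option linter.unusedSectionVars false

namespace H29

open Module H11 H11.PForm

variable {F U W V : Type*} [Field F] [Finite F] {σ : F →+* F} {hσ : ∀ a, σ (σ a) = a}
  [AddCommGroup U] [Module F U] [AddCommGroup W] [Module F W]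
  [AddCommGroup V] [Module F V] [FiniteDimensional F U] [FiniteDimensional F W]
  [FiniteDimensional F V] {S : PForm (unitP σ hσ) V} {H : Subgroup S.Isom}
  {A : PForm (unitP σ hσ) U} {B : PForm (unitP σ hσ) W} {t : W →ₗ[F] U →ₗ[F] V}
  {c : W →ₛₗ[σ] V →ₗ[F] U} {v y z z' : W} {φ : V →ₗ[F] U} {g k : S.Isom} {x : V} {s : F}

/-- the conjugate of `t v ∘ c v` -/
def umm (t : W →ₗ[F] U →ₗ[F] V) (c : W →ₛₗ[σ] V →ₗ[F] U) (g : S.Isom) (v : W) : V →ₗ[F] V :=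
  (g.1 : V →ₗ[F] V) ∘ₗ t v ∘ₗ c v ∘ₗ (g⁻¹.1 : V →ₗ[F] V)

theorem umm_apply (x : V) : umm t c g v x = g.1 (t v (c v (g⁻¹.1 x))) := rfl

/-- the image of `U ⊗ v` -/
def UX (t : W →ₗ[F] U →ₗ[F] V) (g : S.Isom) (v : W) : Submodule F V :=
  (LinearMap.range (t v)).map (g.1 : V →ₗ[F] V)

theorem mem_UX : x ∈ UX t g v ↔ ∃ u, g.1 (t v u) = x :=
  ⟨by rintro ⟨_, ⟨u, rfl⟩, rfl⟩; exact ⟨u, rfl⟩, by rintro ⟨u, rfl⟩; exact ⟨_, ⟨u, rfl⟩, rfl⟩⟩

theorem UX_self (u : U) : g.1 (t v u) ∈ UX t g v := mem_UX.2 ⟨u, rfl⟩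

theorem umm_mem (x : V) : umm t c g v x ∈ UX t g v := UX_self _

theorem UX_mul : UX t (k * g) v = (UX t g v).map (k.1 : V →ₗ[F] V) := Submodule.map_comp _ _ _

theorem UX_one : UX t (1 : S.Isom) v = LinearMap.range (t v) := Submodule.map_id _

theorem UX_inv (h : UX t g v = LinearMap.range (t z)) : UX t g⁻¹ z = LinearMap.range (t v) := by
  rw [UX, ← h, ← UX_mul, inv_mul_cancel, UX_one]

/-- `k` permutes the subspaces `U ⊗ y`, `y` isotropic -/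
def KP (B : PForm (unitP σ hσ) W) (t : W →ₗ[F] U →ₗ[F] V) (k : S.Isom) : Prop :=
  ∀ y, y ≠ 0 → B.h y y = 0 → ∃ y', UX t k y = LinearMap.range (t y')

namespace TU
variable (h : TU A B t c H)
include h

theorem inj' (hv : v ≠ 0) : Function.Injective (t v) :=
  (injective_iff_map_eq_zero _).2 fun _ => h.inj hv

theorem ex_u : ∃ u u', A.h u u' = 1 :=
  let ⟨u, u', Hu⟩ := h.ndU.unit_exists_hyp h.ne h.two
  ⟨u, u', Hu.h_ef⟩

theorem inj2 {u : U} (hu : u ≠ 0) (e : t v u = 0) : v = 0 :=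
  h.ndW.eq_zero' fun y => by simpa [h.ct, hu] using congrArg (c y) e

theorem rk (hv : v ≠ 0) : finrank F (UX t g v) = finrank F U := by
  rw [UX, LinearEquiv.finrank_map_eq, LinearMap.finrank_range_of_inj (h.inj' hv)]

theorem rk1 (hv : v ≠ 0) : finrank F (LinearMap.range (t v)) = finrank F U :=
  LinearMap.finrank_range_of_inj (h.inj' hv)

theorem UX_eq (hv : v ≠ 0) (hz : z ≠ 0) (e : ∀ u, ∃ u', g.1 (t v u) = t z u') :
    UX t g v = LinearMap.range (t z) :=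
  Submodule.eq_of_le_of_finrank_eq (fun x hx => by
    obtain ⟨u, rfl⟩ := mem_UX.1 hx
    exact (e u).imp fun _ => Eq.symm) (by rw [h.rk hv, h.rk1 hz])

theorem cfix (e : ∀ u, k.1 (t z u) = t z u) (x : V) : c z (k.1 x) = c z x :=
  h.ndU.ext_right fun w => by rw [← h.hh, ← h.hh, ← isom_h k _ x, e]

theorem fix_of (e : ∀ x, c z (k.1 x - x) = 0) (u : U) : k.1 (t z u) = t z u :=
  h.nd.ext_left fun y => by
    obtain ⟨y, rfl⟩ := k.1.surjective y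
    rw [isom_h, h.hh, h.hh, ← sub_eq_zero.1 ((map_sub _ _ _).symm.trans (e y))]

theorem hm (hg : g ∈ H) (hv : B.h v v = 0) (hs : s + σ s = 0) :
    ∃ k ∈ H, ∀ x, k.1 x = x + s • umm t c g v x := by
  obtain ⟨k, hk, e⟩ := h.hT hv hs
  exact ⟨g * k * g⁻¹, H.mul_mem (H.mul_mem hg hk) (H.inv_mem hg), fun x => by simp [e, umm_apply]⟩

theorem mm0 (hv : B.h v v = 0) (hx : x ∈ UX t g v) : umm t c g v x = 0 := by
  obtain ⟨u, rfl⟩ := mem_UX.1 hx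
  simp [umm_apply, h.ct, hv]

theorem mm_surj (hv : v ≠ 0) (hx : x ∈ UX t g v) : ∃ y, umm t c g v y = x := by
  obtain ⟨u, rfl⟩ := mem_UX.1 hx
  obtain ⟨w, hw⟩ := h.ndW.exists_h_eq_one hv
  exact ⟨g.1 (t w u), by simp [umm_apply, h.ct, hw]⟩

theorem iso_of (v0 : v ≠ 0) (hv : B.h v v = 0) (e : UX t g v = LinearMap.range (t z)) :
    z ≠ 0 ∧ B.h z z = 0 := by
  obtain ⟨u, u', hu⟩ := h.ex_u
  refine ⟨fun z0 => ?_, ?_⟩
  · obtain ⟨a, ha⟩ := e.le (UX_self u)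
    simp [h.inj v0 (u := u) (by simpa [z0] using ha.symm)] at hu
  obtain ⟨a, ha⟩ := mem_UX.1 (e.ge ⟨u, rfl⟩)
  obtain ⟨b, hb⟩ := mem_UX.1 (e.ge ⟨u', rfl⟩)
  have := h.tt z z u u'
  rwa [← ha, ← hb, isom_h, h.tt, hv, hu, zero_mul, mul_one, eq_comm] at this

theorem pure_all {M : V →ₗ[F] V} (e : ∀ y, y ≠ 0 → B.h y y = 0 → ∀ u, ∃ u', M (t y u) = t y u') :
    ∃ μ : U →ₗ[F] U, ∀ y u, M (t y u) = t y (μ u) := by
  obtain ⟨v, v', Hy⟩ := h.hyp
  have v0 : v ≠ 0 := by rintro rfl; simpa using Hy.h_ef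
  refine ⟨c v' ∘ₗ M ∘ₗ t v, fun y u => ?_⟩
  obtain ⟨a, ha⟩ := e v v0 Hy.h_ee u
  rw [show (c v' ∘ₗ M ∘ₗ t v) u = a by simp [ha, h.ct, uone Hy.h_ef]]
  refine sub_eq_zero.1 (uspan h.ne h.ndW (by have := h.five; omega)
    (M ∘ₗ t.flip u - t.flip a).toAddMonoidHom.ker (fun y hy => sub_eq_zero.2 ?_) y)
  change M (t y u) = t y a
  by_cases m : y ∈ F ∙ v
  · obtain ⟨b, rfl⟩ := Submodule.mem_span_singleton.1 m
    simp [ha]
  obtain ⟨ν, ν0, hν⟩ := uex_add h.ne Hy.h_ee hy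
  obtain ⟨r, r1, r2⟩ := usep h.ndW m
  obtain ⟨r', r3, r4⟩ := usep h.ndW (nm_swap v0 m)
  obtain ⟨b, hb⟩ := e y (by rintro rfl; simp at m) hy u
  obtain ⟨κ, hκ⟩ := e _ (fun e => by simpa [r1, r2, ν0] using congrArg (B.h r) e) hν u
  have b1 := congrArg (c r) hκ
  have b2 := congrArg (c r') hκ
  simp [ha, hb, h.ct, r1, r2, r3, r4, (smul_right_injective U ν0).eq_iff] at b1 b2
  rw [hb, b1, b2]

variable (hN : ∀ E, TUL B t c H E → ∃ s : F, ∀ u, E u = s • u)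
include hN

theorem fix0 (z0 : z ≠ 0) (hz : B.h z z = 0) (hk : k ∈ H) (e : ∀ u, k.1 (t z u) = t z u)
    (yy : B.h y y = 0) (hy : B.h z y = 0) : ∃ y', ∀ u, k.1 (t y u) = t y' u := by
  by_cases h1 : y ∈ F ∙ z
  · obtain ⟨a, rfl⟩ := Submodule.mem_span_singleton.1 h1
    exact ⟨a • z, fun w => by simp [e]⟩
  obtain ⟨u', u₀, hu⟩ := h.ex_u
  have u0 : u₀ ≠ 0 := by rintro rfl; simp at hu
  obtain ⟨y₁, hy₁⟩ := h.ndW.exists_h_eq (S.h (k.1 (t y u₀)) ∘ₗ t.flip u')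
  have a0 : ∀ v, B.h v y₁ = A.h u' (c v (k.1 (t y u₀))) := fun v => by
    rw [B.unit_symm, hy₁, ← h.hh, S.unit_symm (k.1 _)]; rfl
  have a1 : ∀ v, B.h z v = 0 → ∀ w, c v (k.1 (t y w) - t y₁ w) = 0 := fun v hv w => by
    obtain ⟨s, h2⟩ := hN _ (h.lv_of (h.comp (h.lv_id z v hz hv) hk e) z0 hz hy)
    replace h2 : ∀ w, c v (k.1 (t y w)) = s • w := h2
    simp [h2, h.ct, a0, hu]
  have a2 : B.h z y₁ = 0 := by simp [a0, h.cfix e, h.ct, hy]
  obtain ⟨η, hη⟩ := h.ndW.exists_h_eq_one z0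
  let ψ := c η ∘ₗ ((k.1 : V →ₗ[F] V) ∘ₗ t y - t y₁)
  have a3 : ∀ w, k.1 (t y w) = t y₁ w + t z (ψ w) := fun w =>
    sub_eq_iff_eq_add'.1 (h.eq_t (uone hη) fun v hv => a1 v hv w)
  have a5 : B.h y₁ y₁ = 0 := by
    have := isom_h k (t y u') (t y u₀)
    simpa [a3, h.tt, yy, hz, a2, B.h_swap_zero a2, hu] using this
  obtain ⟨r, r1, r2⟩ := h.ndW.exists_perp_of_notMem' (U := F ∙ z) (u := y₁) (fun m => by
    obtain ⟨a, rfl⟩ := Submodule.mem_span_singleton.1 m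
    obtain ⟨r, r1, r2⟩ := usep h.ndW h1
    have : t y u₀ = t z (a • u₀ + ψ u₀) := k.1.injective (by rw [e, a3]; simp)
    simpa [h.ct, r2, u0, r1] using congrArg (c r) this) 1
  obtain ⟨s, s0, hs⟩ := exists_mem_unit_Λ hσ h.ne
  obtain ⟨g, hg, e1⟩ := h.hm hk yy hs
  obtain ⟨g', hg', e2⟩ := h.hT a5 (neg_mem hs)
  have a4 : ∀ x, c z x = 0 → c y (k⁻¹.1 x) = c y₁ x := fun x hx => h.ndU.ext_right fun w => by
    rw [← h.hh, ← isom_h_left, a3]; simp [h.hh, hx]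
  obtain ⟨s', h2⟩ := hN _ (h.lv_of (φ := s • ψ ∘ₗ c y₁) ⟨g * g', H.mul_mem hg hg', fun w => by
    rw [isom_mul_apply, e1, umm_apply, a4 _ (by simp [e2, hz, h.ct, a2]), e2]
    simp [h.ct, B.h_swap_zero a2], fun x hx => by
      rw [isom_mul_apply, e1, umm_apply, a4 _ (by simp [e2, hx, h.ct, a2]), a3, e2]
      simp [h.ct, a5]⟩ z0 hz (B.mem_perp_singleton.1 r1))
  refine ⟨y₁ + (s⁻¹ * s') • z, fun w => ?_⟩
  have := congrArg (s⁻¹ • t z ·) (h2 w)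
  simp only [LinearMap.comp_apply, LinearMap.smul_apply, h.ct, r2, one_smul, map_smul, smul_smul,
    inv_mul_cancel₀ s0] at this
  simp [a3, this]

theorem fixC (z0 : z ≠ 0) (hz : B.h z z = 0) (hk : k ∈ H) (e : ∀ u, k.1 (t z u) = t z' u) (y : W) :
    ∃ y', ∀ u, k.1 (t y u) = t y' u := by
  have h5 := h.five
  have main : ∀ z z' k, z ≠ 0 → B.h z z = 0 → k ∈ H → (∀ u, k.1 (t z u) = t z' u) → ∀ y, B.h y y = 0 →
      B.h z y = 0 → ∃ y', ∀ u, k.1 (t y u) = t y' u := fun z z' k z0 hz hk e y yy hy => by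
    have z1 : z' ≠ 0 := by
      rintro rfl
      obtain ⟨u, u', hu⟩ := h.ex_u
      simp [h.inj z0 (u := u) (by simpa using e u)] at hu
    obtain ⟨ρ, hρ, e1⟩ := utrans1 h.ne h.ndW (by omega) z0 z1 hz
      (h.iso_of z0 hz (h.UX_eq z0 z1 fun u => ⟨u, e u⟩)).2
    obtain ⟨g, hg, e2⟩ := h.hW ρ hρ
    obtain ⟨y', h2⟩ := h.fix0 hN z0 hz (H.mul_mem (H.inv_mem hg) hk) (fun w => by
      rw [isom_mul_apply, e, ← e1, ← e2, isom_inv_apply_self]) yy hy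
    exact ⟨ρ.1 y', fun w => by rw [← e2, ← h2, isom_mul_apply, isom_apply_inv_self]⟩
  refine uspan h.ne h.ndW (by omega) (subT (fun y => ∃ y', ∀ u, k.1 (t y u) = t y' u) ⟨0, by simp⟩
    fun x y ⟨x', a⟩ ⟨y', b⟩ => ⟨x' - y', by simp [a, b]⟩) (fun y yy => ?_) y
  obtain ⟨v, v0, v1, v2, v3⟩ := uex_iso h.ne h.ndW (by omega) z y
  obtain ⟨v', h1⟩ := main z z' k z0 hz hk e v v1 (B.h_swap_zero v2)
  exact main v v' k v0 v1 hk h1 y yy v3

theorem std (hg : g ∈ H) (v0 : v ≠ 0) (hv : B.h v v = 0) (z0 : z ≠ 0) (hz : B.h z z = 0)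
    (e : ∀ x ∈ UX t g v, c z x = 0) : ∃ y, UX t g v = LinearMap.range (t y) := by
  obtain ⟨s, s0, hs⟩ := exists_mem_unit_Λ hσ h.ne
  obtain ⟨k, hk, e1⟩ := h.hm hg hv hs
  choose f hf using h.fixC hN z0 hz hk (h.fix_of fun x => by simp [e1, e _ (umm_mem x)])
  have a1 : ∀ y w, s • umm t c g v (t y w) = t (f y - y) w := fun y w => by simp [← hf, e1]
  obtain ⟨y, hy⟩ : ∃ y, f y - y ≠ 0 := by
    by_contra! h1
    obtain ⟨u, u', hu⟩ := h.ex_u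
    obtain ⟨x, hx⟩ := h.mm_surj v0 (UX_self (g := g) u)
    rw [h.lext (f := umm t c g v) (g := 0) (fun y w => by simpa [h1, s0] using a1 y w)] at hx
    simp [h.inj v0 (u := u) (by simpa using hx.symm)] at hu
  exact ⟨_, (Submodule.eq_of_le_of_finrank_eq (by
    rintro _ ⟨w, rfl⟩; exact a1 y w ▸ Submodule.smul_mem _ _ (umm_mem _))
    (by rw [h.rk1 hy, h.rk v0])).symm⟩

theorem block (hk : k ∈ H) (z0 : z ≠ 0) (hz : B.h z z = 0) (e : UX t k z = LinearMap.range (t z')) :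
    KP B t k := by
  have main : ∀ z z', z ≠ 0 → B.h z z = 0 → UX t k z = LinearMap.range (t z') → ∀ y, y ≠ 0 →
      B.h y y = 0 → B.h z y = 0 → ∃ y', UX t k y = LinearMap.range (t y') :=
    fun z z' z0 hz e y y0 yy hy => h.std hN hk y0 yy (h.iso_of z0 hz e).1 (h.iso_of z0 hz e).2
      fun x hx => h.ndU.eq_zero' fun u => by
        obtain ⟨a, rfl⟩ := mem_UX.1 hx
        obtain ⟨b, hb⟩ := mem_UX.1 (e.ge ⟨u, rfl⟩)
        rw [← h.hh, ← hb, isom_h, h.tt, hy, zero_mul]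
  intro y y0 yy
  obtain ⟨v, v0, v1, v2, v3⟩ := uex_iso h.ne h.ndW (by have := h.five; omega) z y
  obtain ⟨v', h1⟩ := main z z' z0 hz e v v0 v1 (B.h_swap_zero v2)
  exact main v v' v0 v1 h1 y y0 yy v3

theorem std2 (hg : g ∈ H) (v0 : v ≠ 0) (hv : B.h v v = 0)
    (e : UX t g v ≤ LinearMap.range (t y) ⊔ LinearMap.range (t z)) :
    ∃ y, UX t g v = LinearMap.range (t y) := by
  obtain ⟨w, w0, w1, w2, w3⟩ := uex_iso h.ne h.ndW (by have := h.five; omega) y z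
  refine h.std hN hg v0 hv w0 w1 fun x hx => ?_
  obtain ⟨_, ⟨a, rfl⟩, _, ⟨b, rfl⟩, rfl⟩ := Submodule.mem_sup.1 (e hx)
  simp [h.ct, w2, w3]

theorem two_dim (hg : g ∈ H) (v0 : v ≠ 0) (hv : B.h v v = 0) {X : Submodule F V}
    (hX : finrank F X ≤ finrank F U) (y0 : y ≠ 0) (hz : z ∉ F ∙ y)
    (e1 : ∀ u, t y u ∈ X ⊔ UX t g v) (e2 : ∀ u, t z u ∈ X ⊔ UX t g v) :
    ∃ y, UX t g v = LinearMap.range (t y) := by
  refine h.std2 hN hg v0 hv (y := y) (z := z) (le_sup_right.trans (Submodule.eq_of_le_of_finrank_le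
    (sup_le (by rintro _ ⟨u, rfl⟩; exact e1 u) (by rintro _ ⟨u, rfl⟩; exact e2 u)) ?_).ge)
  have a1 := Submodule.finrank_sup_add_finrank_inf_eq (LinearMap.range (t y)) (LinearMap.range (t z))
  have a2 := Submodule.finrank_add_le_finrank_add_finrank X (UX t g v)
  obtain ⟨r, r1, r2⟩ := usep h.ndW hz
  rw [h.rk1 y0, h.rk1 (by rintro rfl; simp at hz), show _ ⊓ _ = (⊥ : Submodule F V) from
    eq_bot_iff.2 (by
      rintro _ ⟨⟨a, e⟩, b, rfl⟩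
      simp [show b = 0 by simpa [h.ct, r1, r2] using (congrArg (c r) e).symm]), finrank_bot] at a1
  rw [h.rk v0] at a2
  omega

theorem lemS (hg : g ∈ H) (v0 : v ≠ 0) (hv : B.h v v = 0) (s0 : s ≠ 0)
    (e : ∀ x, k.1 x = x + s • umm t c g v x) (hK : KP B t k) : ∃ y, UX t g v = LinearMap.range (t y) := by
  by_cases h1 : ∀ y, y ≠ 0 → B.h y y = 0 → ∀ u, ∃ u', umm t c g v (t y u) = t y u'
  · obtain ⟨μ, hμ⟩ := h.pure_all h1
    obtain ⟨u, hu⟩ : ∃ u, μ u ≠ 0 := by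
      by_contra! h1
      obtain ⟨u, u', hu⟩ := h.ex_u
      obtain ⟨x, hx⟩ := h.mm_surj v0 (UX_self (g := g) u)
      rw [h.lext (f := umm t c g v) (g := 0) (fun y w => by simp [h1, hμ])] at hx
      simp [h.inj v0 (u := u) (by simpa using hx.symm)] at hu
    have := Submodule.finrank_mono (show LinearMap.range (t.flip (μ u)) ≤ UX t g v by
      rintro _ ⟨y, rfl⟩; exact (hμ y u ▸ umm_mem _ : t y (μ u) ∈ _))
    rw [h.rk v0, LinearMap.finrank_range_of_inj ((injective_iff_map_eq_zero _).2 fun y =>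
      h.inj2 hu)] at this
    exact absurd h.lt this.not_gt
  push Not at h1
  obtain ⟨y, y0, yy, u, hu⟩ := h1
  obtain ⟨y', e1⟩ := hK y y0 yy
  have a1 : ∀ u, ∃ u', umm t c g v (t y u) = s⁻¹ • (t y' u' - t y u) := fun u =>
    let ⟨u', h1⟩ := e1.le (UX_self u)
    ⟨u', by simp [h1, e, s0]⟩
  have a2 : y ∉ F ∙ y' := fun m => by
    obtain ⟨a, rfl⟩ := Submodule.mem_span_singleton.1 m
    obtain ⟨u', h1⟩ := a1 u
    have := left_ne_zero_of_smul y0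
    exact hu (s⁻¹ • (a⁻¹ • u' - u)) (by
      rw [h1]; simp only [map_smul, map_sub, LinearMap.smul_apply]; match_scalars <;> field_simp)
  obtain ⟨r, r1, r2⟩ := usep h.ndW a2
  refine h.std2 hN hg v0 hv (y := y') (z := y) ?_
  rw [← Submodule.eq_of_le_of_finrank_eq (S₁ := LinearMap.range (umm t c g v ∘ₗ t y)) (S₂ := UX t g v)
    (by rintro _ ⟨u, rfl⟩; exact umm_mem _) (by
      rw [h.rk v0, LinearMap.finrank_range_of_inj ((injective_iff_map_eq_zero _).2 fun u hu => ?_)]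
      obtain ⟨u', h1⟩ := a1 u
      simpa [h.ct, r1, r2, s0] using congrArg (c r) (h1.symm.trans hu))]
  rintro _ ⟨u, rfl⟩
  obtain ⟨u', h1⟩ := a1 u
  rw [LinearMap.comp_apply, h1]
  exact Submodule.smul_mem _ _ (sub_mem (Submodule.mem_sup_left (LinearMap.mem_range_self _ _))
    (Submodule.mem_sup_right (LinearMap.mem_range_self _ _)))

theorem fixN (hk : k ∈ H) (hK : KP B t k) (z0 : z ≠ 0) (e : ∀ u, k.1 (t z u) = t z u) (y : W) :
    ∃ y', ∀ u, k.1 (t y u) = t y' u := by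
  by_cases hz : B.h z z = 0
  · exact h.fixC hN z0 hz hk e y
  obtain ⟨w, w1, w2⟩ : ∃ w, B.h w w = 0 ∧ B.h w z ≠ 0 := by
    by_contra! h1
    exact hz (uspan h.ne h.ndW (by have := h.five; omega) (B.h.flip z).toAddMonoidHom.ker h1 z)
  obtain ⟨a, ha⟩ := exists_sing_add' (us w1) w2
  have w0 : w ≠ 0 := by rintro rfl; simp at w2
  have y0 : z + a • w ≠ 0 := fun e => w2 (by simpa [w1] using congrArg (B.h w) e)
  obtain ⟨w', e1⟩ := hK w w0 w1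
  obtain ⟨y', e2⟩ := hK _ y0 ha.h_self
  obtain ⟨u', u₀, hu⟩ := h.ex_u
  have a1 : ∀ u, ∃ α β, k.1 (t (z + a • w) u) = t y' α ∧ t z u + a • t w' β = t y' α := fun u => by
    obtain ⟨α, h1⟩ := e2.le (UX_self u)
    obtain ⟨β, h2⟩ := e1.le (UX_self u)
    exact ⟨α, β, h1.symm, by simp [h1, h2, e]⟩
  obtain ⟨r, r1, r2⟩ := usep h.ndW (y := y') (v := w') fun m => by
    obtain ⟨b, rfl⟩ := Submodule.mem_span_singleton.1 m
    obtain ⟨α, β, -, h1⟩ := a1 u₀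
    obtain ⟨α', β', -, h2⟩ := a1 u'
    have := h.tt z z u' u₀
    rw [eq_sub_of_add_eq h1, eq_sub_of_add_eq h2] at this
    simp [h.tt, (h.iso_of w0 w1 e1).2, hu] at this
    exact hz this.symm
  refine h.fixC hN y0 ha.h_self hk (z' := B.h r z • y') (fun u => ?_) y
  obtain ⟨α, β, h1, h2⟩ := a1 u
  have := congrArg (c r) h2
  simp only [map_add, map_smul, h.ct, r1, r2, zero_smul, smul_zero, add_zero, one_smul] at this
  rw [h1, ← this]; simp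

end TU

end H29
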