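import Cfsg.Agent.H29.Ten2
import Cfsg.Agent.H29.ExtO

/-! Overgroups of `Sp(U) ⊗ Sp(W)` in `Ω⁺(U ⊗ W)`, part 1: `rad_eich`, `rad_full` (Eichler maps from
a full unipotent radical), levels `TLv` at the subspaces `U ⊗ v` and `TT.E_le` (a non-scalar level
gives the whole group). -/

set_option autoImplicit false
set_option linter.unusedSectionVars false

namespace H29

open Module H11 H11.PForm

variable {F U W V : Type*} [Field F] [AddCommGroup U] [Module F U] [AddCommGroup W] [Module F W]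
  [AddCommGroup V] [Module F V] [FiniteDimensional F U] [FiniteDimensional F W]
  [FiniteDimensional F V] {S : PForm (orthP F) V} {H : Subgroup S.Isom}

theorem rad_eich (hS : S.Nondeg) {X : Submodule F V} (hX : ∀ x ∈ X, S.q x = 0) {y y' : V}
    (y2 : y ∈ S.perp X) (y4 : y' ∈ S.perp X) (y1 : S.h y y' = 1)
    (hL : ∀ w ∈ S.perp X, ∀ b ∈ X, ∃ k ∈ H, (∀ a ∈ X, k.1 a = a) ∧
      ∀ x ∈ S.perp X, k.1 x = x + S.h w x • b) :
    ∀ b ∈ X, ∀ z ∈ S.perp X, S.eich b z (S.q z) ∈ H := by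
  have c0 : ∀ a ∈ X, ∀ b ∈ X, S.h a b = 0 := fun x hx y hy => by
    simpa [hX, hx, hy, X.add_mem hx hy] using (S.orth_q_add x y).symm
  have A : ∀ a ∈ X, ∀ b ∈ X, S.eich a b 0 ∈ H := fun a ha b hb => by
    obtain ⟨k, k1, k2, k3⟩ := hL y y2 b hb
    obtain ⟨l, l1, l2, l3⟩ := hL y' y4 a ha
    have e : ∀ {k : S.Isom} {z b : V}, b ∈ X → (∀ a ∈ X, k.1 a = a) → (∀ x ∈ S.perp X,
        k.1 x = x + S.h z x • b) → ∀ x, k.1 x - x ∈ S.perp X ∧ ∀ z' ∈ S.perp X,
        S.h z' (k.1 x - x) = -S.h z z' * S.h b x := fun {k z b} hb k2 k3 x => by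
      have e1 : ∀ a ∈ X, S.h a (k.1 x) = S.h a x := fun a ha => by
        conv_lhs => rw [← k2 a ha, isom_h]
      refine ⟨fun a ha => by rw [map_sub, e1 a ha, sub_self], fun z' hz => ?_⟩
      have := isom_h k z' x
      rw [k3 z' hz] at this
      simp only [map_add, map_smul, LinearMap.add_apply, LinearMap.smul_apply, e1 b hb, map_sub,
        smul_eq_mul, RingHom.id_apply] at this ⊢
      linear_combination this
    have c : S.ECond a b 0 := ⟨(S.orth_sing _).2 (hX a ha), c0 a ha b hb, by simp [hX b hb]⟩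
    refine (H.mul_mem_cancel_right (H.mul_mem k1 l1)).1 ((isom_ext fun x => ?_ :
      l * k = S.eich a b 0 * (k * l)) ▸ H.mul_mem l1 k1)
    have e1 := k3 _ (e ha l2 l3 x).1
    have e2 := l3 _ (e hb k2 k3 x).1
    rw [(e ha l2 l3 x).2 y y2, S.orth_symm, y1, map_sub] at e1
    rw [(e hb k2 k3 x).2 y' y4, y1, map_sub] at e2
    have e3 : ∀ a ∈ X, S.h a (k.1 (l.1 x)) = S.h a x := fun a ha => by
      conv_lhs => rw [← k2 a ha, isom_h, ← l2 a ha, isom_h]
    simp only [isom_mul_apply, eich_apply c, e3 a ha, e3 b hb, orthP_ε]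
    linear_combination (norm := module) e2 - e1
  intro b hb z hz
  have c := ECond.of_q ((S.orth_sing _).2 (hX b hb)) (hz b hb)
  obtain ⟨k, k1, k2, k3⟩ := hL z hz b hb
  refine (H.mul_mem_cancel_left k1).1 (cent_mem hS X hX A fun x => hS.perp_perp X ▸ fun x' hx' => ?_)
  rw [map_sub, sub_eq_zero, ← isom_h (k * S.eich b z (S.q z)) _ x, isom_mul_apply _ _ x',
    eich_apply_of_perp c (hx' b hb), map_sub, k.1.map_smul, k2 b hb, k3 _ hx']
  simp

theorem rad_full {X Y : Submodule F V} (hX : ∀ x ∈ X, S.q x = 0) (hY : ∀ x ∈ Y, S.q x = 0)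
    (eX : ∀ b ∈ X, ∀ z ∈ S.perp X, S.eich b z (S.q z) ∈ H)
    (eY : ∀ b ∈ Y, ∀ z ∈ S.perp Y, S.eich b z (S.q z) ∈ H) {y y' : V} (y2 : y ∈ S.perp X)
    (y3 : y ∈ S.perp Y) (y4 : y' ∈ S.perp X) (y5 : y' ∈ S.perp Y) (y1 : S.h y y' = 1)
    (hd : ∀ x, ∃ a ∈ Y, x - a ∈ S.perp X) {b : V} (hb : b ∈ X) : Full H b := by
  have hs := (S.orth_sing _).2 (hX b hb)
  have m : ∀ z ∈ S.perp X, z ∈ BSet H hs := fun z hz => ⟨_, .of_q hs (hz b hb), eX b hb z hz⟩
  refine full_of_BSet hs (fun x hx => ?_) fun a ha => by simp [show a = 0 from ha, eich_zero]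
  obtain ⟨a, ha, e⟩ := hd x
  have e1 : S.h a b = 0 := by
    have := e b hb
    rw [map_sub, hx, zero_sub, neg_eq_zero] at this
    exact S.h_swap_zero this
  have := BSet_map (hu' := hs) (m y' y4) (eY a ha y y3)
    (eich_apply_of_perp_perp e1 (S.h_swap_zero (y2 b hb)))
  rw [eich_apply_of_perp (.of_q ((S.orth_sing _).2 (hY a ha)) (y3 a ha)) (y5 a ha), y1] at this
  simpa using (BSet H hs).add_mem (m (x - a) e) ((BSet H hs).sub_mem (m y' y4) this)

/-- `φ` is a level of `H` at `U ⊗ v` -/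
def TLv (t : W →ₗ[F] U →ₗ[F] V) (c : W →ₗ[F] V →ₗ[F] U) (H : Subgroup S.Isom) (v : W)
    (φ : V →ₗ[F] U) : Prop :=
  ∃ k ∈ H, (∀ u, k.1 (t v u) = t v u) ∧ ∀ x, c v x = 0 → k.1 x = x + t v (φ x)

variable {A : PForm (sympP F) U} {B : PForm (sympP F) W} {t : W →ₗ[F] U →ₗ[F] V}
  {c : W →ₗ[F] V →ₗ[F] U} {v z : W} {φ φ' : V →ₗ[F] U} {E E' : U →ₗ[F] U}

theorem TLv.congr (h : TLv t c H v φ) (e : ∀ x, c v x = 0 → φ' x = φ x) : TLv t c H v φ' :=
  let ⟨k, a, b, d⟩ := h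
  ⟨k, a, b, fun x hx => by rw [d x hx, e x hx]⟩

theorem TLv.sub (h : TLv t c H v φ) (h' : TLv t c H v φ') : TLv t c H v (φ - φ') := by
  obtain ⟨k, a, b, d⟩ := h
  obtain ⟨k', a', b', d'⟩ := h'
  refine ⟨k'⁻¹ * k, H.mul_mem (H.inv_mem a') a, fun s => k'.1.injective (by simp [b, b']),
    fun x hx => k'.1.injective ?_⟩
  rw [isom_mul_apply, isom_apply_inv_self, map_add, b', d x hx, d' x hx]
  simp

/-- `E` lies in the level of `H` -/
def TL (B : PForm (sympP F) W) (t : W →ₗ[F] U →ₗ[F] V) (c : W →ₗ[F] V →ₗ[F] U)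
    (H : Subgroup S.Isom) (E : U →ₗ[F] U) : Prop :=
  ∀ v z, B.h v z = 0 → TLv t c H v (E ∘ₗ c z)

theorem TL.congr (h : TL B t c H E) (e : ∀ x, E' x = E x) : TL B t c H E' := by
  rwa [LinearMap.ext e]

theorem TL.smul (h : TL B t c H E) (s : F) : TL B t c H (s • E) := fun v z h0 =>
  (h v (s • z) (by simp [h0])).congr fun x _ => by simp

theorem TL.sub (h : TL B t c H E) (h' : TL B t c H E') : TL B t c H (E - E') := fun v z h0 =>
  ((h v z h0).sub (h' v z h0)).congr fun x _ => by simp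

theorem ex_both (hB : B.Nondeg) (hv : v ≠ 0) (hz : z ≠ 0) : ∃ y, B.h y v ≠ 0 ∧ B.h z y ≠ 0 := by
  by_cases e : B.h v z = 0
  · obtain ⟨y, -, a, b⟩ := exists_sing_not_perp_two hB (B.symp_sing v) hv hz e
    exact ⟨y, mt B.h_swap_zero a, b⟩
  · exact ⟨v + z, by simpa [B.symp_h_self] using mt B.h_swap_zero e,
      by simpa [B.symp_h_self] using mt B.h_swap_zero e⟩

/-- an overgroup of `Sp(U) ⊗ Sp(W)` -/
structure TT (A : PForm (sympP F) U) (B : PForm (sympP F) W) (t : W →ₗ[F] U →ₗ[F] V)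
    (c : W →ₗ[F] V →ₗ[F] U) (H : Subgroup S.Isom) : Prop where
  nd : S.Nondeg
  ndU : A.Nondeg
  ndW : B.Nondeg
  ct : ∀ z w u, c z (t w u) = B.h z w • u
  ext : ∀ T : AddSubgroup V, (∀ w u, t w u ∈ T) → ∀ x, x ∈ T
  hh : ∀ w u x, S.h (t w u) x = A.h u (c w x)
  q : ∀ w u, S.q (t w u) = 0
  hW : ∀ w (s : F), ∃ g ∈ H, ∀ x, g.1 x = x + s • t w (c w x)
  hU : ∀ u (s : F), ∃ g ∈ H, ∀ w x, g.1 (t w x) = t w (x + (s * A.h u x) • u)
  five : 5 ≤ finrank F W
  lt : finrank F U + 2 ≤ finrank F W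
  pos : 0 < finrank F U

namespace TT
variable (h : TT A B t c H)
include h

theorem inj (hv : v ≠ 0) {u : U} (e : t v u = 0) : u = 0 := by
  obtain ⟨y, hy⟩ := h.ndW.exists_h_eq_one hv
  simpa [h.ct, B.symp_symm v y, hy] using congrArg (c y) e

theorem cinj {x : V} (e : ∀ y, c y x = 0) : x = 0 :=
  h.nd.eq_zero' (h.ext (S.h.flip x).toAddMonoidHom.ker fun w u => by simp [h.hh, e])

theorem span (hv : v ≠ 0) (T : AddSubgroup V) (e : ∀ y, B.h v y = 0 → ∀ u, t y u ∈ T) {x : V}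
    (hx : c v x = 0) : x ∈ T := by
  obtain ⟨y, hy⟩ := h.ndW.exists_h_eq_one hv
  have := h.ext (T.comap (LinearMap.id - t y ∘ₗ c v : V →ₗ[F] V).toAddMonoidHom)
    (fun w u => by simpa [h.ct] using e (w - B.h v w • y) (by simp [hy]) u) x
  replace this : x - t y (c v x) ∈ T := this
  simpa [hx] using this

theorem eq_t {η : W} (hη : B.h η z = 1) {x : V} (e : ∀ y, B.h z y = 0 → c y x = 0) :
    x = t z (c η x) := sub_eq_zero.1 (h.cinj fun y => by
  simpa [h.ct] using e (y - B.h y z • η) (by simp [B.symp_symm η z, hη, B.symp_symm y z]))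

theorem c_inv {g : S.Isom} {v' : W} {γ : U → U} (e : ∀ u, g.1 (t v u) = t v' (γ u)) (u : U) (x : V) :
    A.h u (c v (g⁻¹.1 x)) = A.h (γ u) (c v' x) := by
  rw [← h.hh, ← isom_h_left, e, h.hh]

theorem conj (hf : TLv t c H v φ) {g : S.Isom} (hg : g ∈ H) {v' : W} {γ : U →ₗ[F] U}
    (e : ∀ u, g.1 (t v u) = t v' (γ u)) (hγ : Function.Surjective γ) :
    TLv t c H v' (γ ∘ₗ φ ∘ₗ (g⁻¹.1 : V →ₗ[F] V)) := by
  obtain ⟨k, a, b, d⟩ := hf
  refine ⟨g * k * g⁻¹, H.mul_mem (H.mul_mem hg a) (H.inv_mem hg), fun u => by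
    obtain ⟨u, rfl⟩ := hγ u
    rw [← e]; simp [b], fun x hx => ?_⟩
  rw [isom_mul_apply, isom_mul_apply, d _ (h.ndU.eq_zero' fun u => by
    rw [h.c_inv e, hx, map_zero]), map_add, e, isom_apply_inv_self]
  rfl

theorem comp (hf : TLv t c H v φ) {g : S.Isom} (hg : g ∈ H) (e : ∀ u, g.1 (t v u) = t v u) :
    TLv t c H v (φ ∘ₗ (g.1 : V →ₗ[F] V)) :=
  h.conj hf (H.inv_mem hg) (γ := .id) (fun u => g.1.injective (by simp [e])) Function.surjective_id

theorem extr (hf : TLv t c H v φ) (hz : B.h v z = 0) (s : F) :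
    TLv t c H v (s • φ ∘ₗ t z ∘ₗ c z) := by
  obtain ⟨g, hg, e⟩ := h.hW z s
  exact ((h.comp hf hg fun u => by simp [e, h.ct, B.h_swap_zero hz]).sub hf).congr fun x _ => by
    simp [e]

theorem exQ {y : W} (hy : B.h v y = 0) : ∃ k ∈ H, ∀ x,
    k.1 x = x + t y (c v x) + t v (c y x) + t v (c v x) := by
  obtain ⟨g, hg, e⟩ := h.hW (v + y) 1
  obtain ⟨k, hk, e'⟩ := h.hW y (-1)
  refine ⟨g * k, H.mul_mem hg hk, fun x => ?_⟩
  simp only [isom_mul_apply, e, e', map_add, map_smul, h.ct, hy, B.symp_h_self, LinearMap.add_apply]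
  module

theorem lv_id : TL B t c H .id := fun v z h0 =>
  let ⟨k, a, b⟩ := h.exQ h0
  ⟨k, a, fun u => by simp [b, h.ct, B.symp_h_self, B.h_swap_zero h0], fun x hx => by simp [b, hx]⟩

theorem lv_of (hf : TLv t c H v φ) (hv : v ≠ 0) (hz : B.h v z = 0) (hzv : z ∉ F ∙ v) :
    TL B t c H (φ ∘ₗ t z) := by
  set E := φ ∘ₗ t z
  let P := fun v => ∀ z, B.h v z = 0 → TLv t c H v (E ∘ₗ c z)
  have a1 : ∀ y, B.h v y = 0 → B.h z y ≠ 0 → TLv t c H v (E ∘ₗ c y) := fun y h1 h2 =>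
    (h.extr (h.extr hf hz 1) h1 (B.h z y)⁻¹).congr fun x _ => by simp [E, h.ct, smul_smul, h2]
  have a2 : P v := fun y h1 => by
    by_cases h2 : B.h z y = 0
    · obtain ⟨r, r1, r2⟩ := h.ndW.exists_perp_of_notMem' hzv 1
      rw [mem_perp_singleton] at r1
      exact ((a1 (y + r) (by simp [h1, r1]) (by simp [h2, r2])).sub
        (a1 r r1 (by simp [r2]))).congr fun x _ => by simp
    · exact a1 y h1 h2
  have a3 : ∀ v v', B.h v' v ≠ 0 → P v → P v' := fun v v' h1 h2 y h3 => by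
    obtain ⟨g, hg, e⟩ := h.hW (v' - v) (B.h v' v)⁻¹
    refine (h.conj (h2 (y - ((B.h v' v)⁻¹ * B.h (v' - v) y) • (v' - v)) ?_) hg (γ := .id) (v' := v')
      (fun u => by simp [e, h.ct, B.symp_h_self, smul_smul, h1]) Function.surjective_id).congr
      fun x _ => congrArg E (h.ndU.ext_right fun u => (h.c_inv (γ := id) (fun u => ?_) u x).symm)
    · have : B.h (v' - v) y = -B.h v y := by rw [map_sub, LinearMap.sub_apply, h3, zero_sub]
      rw [this]
      simp only [map_sub, map_smul, B.symp_h_self, smul_eq_mul, B.symp_symm v' v]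
      field_simp; ring
    · rw [e, h.ct]
      simp only [map_sub (B.h (v' - v)) y, map_smul, B.symp_h_self, map_sub t y,
        LinearMap.sub_apply, LinearMap.smul_apply, id]
      module
  intro v' y h1
  obtain rfl | h2 := eq_or_ne v' 0
  · exact ⟨1, H.one_mem, fun _ => rfl, fun x _ => by simp⟩
  obtain ⟨r, r1, r2⟩ := ex_both h.ndW hv h2
  exact a3 _ _ r2 (a3 _ _ r1 a2) y h1

theorem lv_conj (hE : TL B t c H E) (u : U) (s : F)
    (e : ∀ x, E' (x + (s * A.h u x) • u) = E x + (s * A.h u (E x)) • u) : TL B t c H E' := by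
  intro v z h0
  obtain ⟨g, hg, e'⟩ := h.hU u s
  let γ : U →ₗ[F] U := .id + (s • A.h u).smulRight u
  have hγ : ∀ x, γ (x - (s * A.h u x) • u) = x := fun x => by simp [γ, A.symp_h_self]
  refine (h.conj (hE v z h0) hg (γ := γ) (fun x => e' v x) fun x => ⟨_, hγ x⟩).congr fun x _ => ?_
  have : c z (g⁻¹.1 x) = c z x - (s * A.h u (c z x)) • u := h.ndU.ext_right fun y => by
    rw [h.c_inv (e' z)]
    simp [A.symp_symm u y]; ring
  conv_lhs => rw [LinearMap.comp_apply, ← hγ (c z x), ← this]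
  exact e _

theorem lv_comm (hE : TL B t c H E) (u : U) (s : F) (e : ∀ x, E' x = (s * A.h u (E x)) • u -
    (s * A.h u x) • E u - (s * s * A.h u x * A.h u (E u)) • u) : TL B t c H E' :=
  ((h.lv_conj hE u s (E' := E + E') fun x => by simp [e, A.symp_h_self]; module).sub hE).congr
    fun x => by simp

theorem ex_hyp (l : List W) (hl : l.length + 1 ≤ finrank F W) : ∃ y, y ≠ 0 ∧ ∀ x ∈ l, B.h x y = 0 := by
  obtain ⟨y, -, a, b⟩ := exists_mem_ker_notMem (l.map fun x => B.h x) ⊤ (⊥ : Submodule F W)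
    (by simp; omega)
  exact ⟨y, by simpa using a, by simpa using b⟩

theorem ex_pair {v v' : W} (e : B.h v v' = 1) : ∃ y y', B.h v y = 0 ∧ B.h v' y = 0 ∧ B.h v y' = 0 ∧
    B.h v' y' = 0 ∧ B.h y y' = 1 := by
  obtain ⟨y, y0, hy⟩ := h.ex_hyp [v, v'] (by have := h.five; simp; omega)
  obtain ⟨r, hr⟩ := h.ndW.exists_h_eq_one y0
  simp only [List.mem_cons, List.not_mem_nil, or_false, forall_eq_or_imp, forall_eq] at hy
  exact ⟨y, r + B.h v' r • v - B.h v r • v', hy.1, hy.2, by simp [e, B.symp_h_self],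
    by simp [e, B.symp_h_self, B.symp_symm v v'],
    by simp [hr, B.h_swap_zero hy.1, B.h_swap_zero hy.2]⟩

theorem lv_mul (hE : TL B t c H E) (hE' : TL B t c H E') : TL B t c H (E ∘ₗ E') := by
  obtain ⟨z, z0, -⟩ := h.ex_hyp [] (by have := h.five; simp; omega)
  obtain ⟨z₁, e⟩ := h.ndW.exists_h_eq_one z0
  obtain ⟨y, y', a1, a2, a3, a4, a5⟩ := h.ex_pair e
  obtain ⟨v, v0, hv⟩ := h.ex_hyp [z, z₁, y, y'] (by have := h.five; simp; omega)
  simp only [List.mem_cons, List.not_mem_nil, or_false, forall_eq_or_imp, forall_eq] at hv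
  obtain ⟨k, hk, -, b⟩ := hE' z₁ y a2
  refine (h.lv_of (h.comp (hE v z (B.h_swap_zero hv.1)) hk fun u => ?_) v0 (B.h_swap_zero hv.2.2.2)
    fun m => ?_).congr fun u => ?_
  · simp [b _ (show c z₁ (t v u) = 0 by simp [h.ct, hv]), h.ct, hv]
  · obtain ⟨s, rfl⟩ := Submodule.mem_span_singleton.1 m
    simp [hv] at a5
  · simp [b _ (show c z₁ (t y' u) = 0 by simp [h.ct, a4]), h.ct, a3, a5, e]

theorem lv_rank (hq : (∃ s : F, s ≠ 0 ∧ s ≠ 1) ∨ 3 ≤ finrank F U) (hE : TL B t c H E) {u : U}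
    (hu : E u ∉ F ∙ u) : ∃ u, u ≠ 0 ∧ TL B t c H ((A.h u).smulRight u) := by
  have u0 : u ≠ 0 := by rintro rfl; simp at hu
  have D : ∀ s : F, TL B t c H (s • ((A.h u ∘ₗ E).smulRight u - (A.h u).smulRight (E u)) -
      (s * s * A.h u (E u)) • (A.h u).smulRight u) := fun s =>
    h.lv_comm hE u s fun x => by simp; module
  by_cases h1 : ∃ s, A.h u s = 0 ∧ A.h s (E u) ≠ 0 ∧ s ∉ F ∙ u
  · obtain ⟨s, a1, a2, a3⟩ := h1
    have a4 := A.h_swap_zero a1
    have N : TL B t c H ((-A.h s (E u)) • (A.h u).smulRight s - A.h u (E s) • (A.h s).smulRight u) :=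
      h.lv_comm (D 1) s 1 fun x => by simp [a1, a4]; module
    by_cases h2 : A.h u (E s) = 0
    · obtain ⟨r, r1, r2⟩ := h.ndU.exists_perp_of_notMem a3 1
      rw [mem_perp_singleton] at r1
      have M : ∀ r, A.h u r = 0 → A.h r s = 1 →
          TL B t c H ((-A.h s (E u)) • (A.h u).smulRight r) := fun r r1 r2 =>
        h.lv_comm N r 1 fun x => by simp [h2, r1, r2]; module
      refine ⟨u, u0, (((M r r1 r2).sub (M (r + u) (by simp [r1, A.symp_h_self]) (by simp [r2, a1]))).smul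
        (A.h s (E u))⁻¹).congr fun x => ?_⟩
      simp only [LinearMap.smulRight_apply, LinearMap.smul_apply, LinearMap.sub_apply]
      match_scalars <;> field_simp <;> ring
    · obtain ⟨r, r1, r2⟩ := h.ndU.exists_perp_of_notMem' (U := F ∙ s) (u := u) (fun m => a3 (by
        obtain ⟨a, rfl⟩ := Submodule.mem_span_singleton.1 m
        rw [Submodule.span_singleton_smul_eq (left_ne_zero_of_smul u0).isUnit]
        exact Submodule.mem_span_singleton_self s)) 1
      rw [mem_perp_singleton] at r1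
      have M : TL B t c H (A.h s (E u) • (A.h r).smulRight s + A.h u (E s) • (A.h s).smulRight r) :=
        h.lv_comm N r 1 fun x => by
          simp [r1, r2, A.h_swap_zero r1, A.symp_symm u r]; module
      refine ⟨s, by rintro rfl; simp at a3, ((h.lv_mul M N).smul
        (A.h s (E u) * A.h u (E s))⁻¹).congr fun x => ?_⟩
      simp only [LinearMap.smulRight_apply, LinearMap.smul_apply, LinearMap.sub_apply,
        LinearMap.comp_apply, LinearMap.add_apply, map_sub, map_smul, A.symp_h_self, a4, r2,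
        A.h_swap_zero r1, A.symp_symm u r]
      match_scalars <;> field_simp <;> ring
  push Not at h1
  have h2 : A.h u (E u) ≠ 0 := fun e => by
    obtain ⟨s, s1, s2⟩ := h.ndU.exists_perp_of_notMem hu 1
    obtain ⟨a, rfl⟩ := Submodule.mem_span_singleton.1 (h1 s (A.mem_perp_singleton.1 s1)
      (by simp [s2]))
    simp [e] at s2
  rcases hq with ⟨s, s0, s1⟩ | hq
  · refine ⟨u, u0, (((D s).sub ((D 1).smul s)).smul (s * (1 - s) * A.h u (E u))⁻¹).congr fun x => ?_⟩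
    have := sub_ne_zero.2 s1.symm
    simp only [LinearMap.smulRight_apply, LinearMap.smul_apply, LinearMap.sub_apply]
    match_scalars <;> field_simp <;> ring
  obtain ⟨y, -, y1, y2⟩ := exists_mem_ker_notMem [A.h u, A.h (E u)] ⊤ (⊥ : Submodule F U)
    (by simp; omega)
  simp only [List.mem_cons, List.not_mem_nil, or_false, forall_eq_or_imp, forall_eq] at y2
  have y3 := A.h_swap_zero y2.2
  obtain ⟨a, ha⟩ := Submodule.mem_span_singleton.1 (h1 (u + y) (by simp [y2, A.symp_h_self])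
    (by simp [y3, h2]))
  have := congrArg (A.h · (E u)) ha
  simp only [map_smul, map_add, LinearMap.add_apply, LinearMap.smul_apply, y3, add_zero,
    smul_eq_mul, RingHom.id_apply] at this
  rw [mul_left_eq_self₀.1 this |>.resolve_right h2, one_smul, left_eq_add] at ha
  exact absurd (by simp [ha]) y1

theorem lv_flag {u : U} (u0 : u ≠ 0) (hu : TL B t c H ((A.h u).smulRight u)) (a b : U) :
    TL B t c H ((A.h a).smulRight b) := by
  have a1 : ∀ u u', A.h u' u ≠ 0 → TL B t c H ((A.h u).smulRight u) →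
      TL B t c H ((A.h u').smulRight u') := fun u u' h1 h2 =>
    h.lv_conj h2 (u' - u) (A.h u' u)⁻¹ fun x => by
      simp only [LinearMap.smulRight_apply, map_add, map_smul, map_sub, LinearMap.sub_apply,
        A.symp_h_self, smul_eq_mul]
      match_scalars <;> field_simp <;> ring
  have a2 : ∀ u', TL B t c H ((A.h u').smulRight u') := fun u' => by
    obtain rfl | h2 := eq_or_ne u' 0
    · exact (hu.smul 0).congr fun x => by simp
    obtain ⟨r, r1, r2⟩ := ex_both h.ndU u0 h2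
    exact a1 _ _ r2 (a1 _ _ r1 hu)
  have a3 : ∀ a, A.h b a ≠ 0 → TL B t c H ((A.h a).smulRight b) := fun a h1 =>
    ((h.lv_mul (a2 b) (a2 a)).smul (A.h b a)⁻¹).congr fun x => by
      simp [smul_smul]; congr 1; field_simp
  obtain rfl | b0 := eq_or_ne b 0
  · exact (hu.smul 0).congr fun x => by simp
  by_cases h1 : A.h b a = 0
  · obtain ⟨r, hr⟩ := h.ndU.exists_h_eq_one b0
    exact ((a3 (a + r) (by simp [h1, hr])).sub (a3 r (by simp [hr]))).congr fun x => by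
      simp [add_smul]
  · exact a3 a h1

theorem E_le (hL : ∀ a b, TL B t c H ((A.h a).smulRight b)) : S.E ≤ H := by
  have p : ∀ v x, x ∈ S.perp (LinearMap.range (t v)) ↔ c v x = 0 := fun v x =>
    ⟨fun e => h.ndU.eq_zero' fun u => by rw [← h.hh, e _ ⟨u, rfl⟩],
      by rintro e _ ⟨u, rfl⟩; rw [h.hh, e, map_zero]⟩
  have hq : ∀ v, ∀ x ∈ LinearMap.range (t v), S.q x = 0 := by rintro v _ ⟨u, rfl⟩; exact h.q v u
  obtain ⟨u, u0⟩ := finrank_pos_iff_exists_ne_zero.1 h.pos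
  obtain ⟨u', hu⟩ := h.ndU.exists_h_eq_one u0
  have C : ∀ v v', B.h v v' = 1 → ∀ a, Full H (t v a) := fun v v' e a => by
    obtain ⟨y, y', a1, a2, a3, a4, a5⟩ := h.ex_pair e
    have y1 : S.h (t y u) (t y' u') = 1 := by simp [h.hh, h.ct, a5, hu]
    have R : ∀ v, v ≠ 0 → B.h v y = 0 → B.h v y' = 0 → ∀ b ∈ LinearMap.range (t v),
        ∀ z ∈ S.perp (LinearMap.range (t v)), S.eich b z (S.q z) ∈ H := fun v v0 b1 b2 =>
      rad_eich h.nd (hq v) ((p _ _).2 (by simp [h.ct, b1])) ((p _ _).2 (by simp [h.ct, b2])) y1 (by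
        rintro w hw _ ⟨b, rfl⟩
        let T : AddSubgroup V := .ofSub {w | TLv t c H v ((S.h w).smulRight b)}
          ⟨0, 1, H.one_mem, fun _ => rfl, fun x _ => by simp⟩
          fun x hx y hy => (TLv.sub hx hy).congr fun x _ => by simp [add_smul, sub_eq_add_neg]
        obtain ⟨k, k1, k2, k3⟩ : w ∈ T := h.span v0 T (fun y hy u => (hL u b v y hy).congr
          fun x _ => by simp [h.hh]) ((p _ _).1 hw)
        exact ⟨k, k1, by rintro _ ⟨u, rfl⟩; exact k2 u, fun x hx => by simp [k3 x ((p _ _).1 hx)]⟩)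
    exact rad_full (hq v) (hq v') (R v (by rintro rfl; simp at e) a1 a3)
      (R v' (by rintro rfl; simp at e) a2 a4) ((p _ _).2 (by simp [h.ct, a1]))
      ((p _ _).2 (by simp [h.ct, a2])) ((p _ _).2 (by simp [h.ct, a3]))
      ((p _ _).2 (by simp [h.ct, a4])) y1
      (fun x => ⟨_, ⟨c v x, rfl⟩, (p _ _).2 (by simp [h.ct, e])⟩) ⟨a, rfl⟩
  obtain ⟨z, z0, -⟩ := h.ex_hyp [] (by have := h.five; simp; omega)
  obtain ⟨z₁, e⟩ := h.ndW.exists_h_eq_one z0
  exact S.E_le_iff.2 fun x y a _ => full_all_of_pair h.nd ((S.orth_sing _).2 (h.q z u))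
    ((S.orth_sing _).2 (h.q z₁ u')) (C z z₁ e u) (C z₁ (-z) (by simp [B.symp_symm z z₁, e]) u')
    (by simp [h.hh, h.ct, e, hu]) x y a

end TT

end H29
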