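import Cfsg.Agent.H29.TenS

/-! Overgroups of `Sp(U) ⊗ Sp(W)` in `Ω⁺(U ⊗ W)`, part 2: the maximal intersection argument for the
images of the subspaces `U ⊗ w` and the maximality `spsp_max`. -/

set_option autoImplicit false
set_option linter.unusedSectionVars false

namespace H29

open Module H11 H11.PForm

variable {F U W V : Type*} [Field F] [AddCommGroup U] [Module F U] [AddCommGroup W] [Module F W]
  [AddCommGroup V] [Module F V] [FiniteDimensional F U] [FiniteDimensional F W]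
  [FiniteDimensional F V] {S : PForm (orthP F) V} {H : Subgroup S.Isom}
  {A : PForm (sympP F) U} {B : PForm (sympP F) W} {t : W →ₗ[F] U →ₗ[F] V}
  {c : W →ₗ[F] V →ₗ[F] U} {v z : W} {φ : V →ₗ[F] U} {X D : Submodule F V} {d : ℕ} {g : S.Isom}
  {x : V}

/-- images of the subspaces `U ⊗ w` -/
def TWm (t : W →ₗ[F] U →ₗ[F] V) (H : Subgroup S.Isom) (X : Submodule F V) : Prop :=
  ∃ g ∈ H, ∃ w, w ≠ 0 ∧ X = (LinearMap.range (t w)).map (g.1 : V →ₗ[F] V)

/-- distinct members meet in dimension at most `d` -/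
def TMx (t : W →ₗ[F] U →ₗ[F] V) (H : Subgroup S.Isom) (d : ℕ) : Prop :=
  ∀ X Y, TWm t H X → TWm t H Y → d < finrank F (X ⊓ Y : Submodule F V) → X = Y

theorem twm_t (hv : v ≠ 0) : TWm t H (LinearMap.range (t v)) :=
  ⟨1, H.one_mem, v, hv, (Submodule.map_id _).symm⟩

theorem TWm.map (h : TWm t H X) (hg : g ∈ H) : TWm t H (X.map (g.1 : V →ₗ[F] V)) := by
  obtain ⟨k, hk, w, hw, rfl⟩ := h
  exact ⟨g * k, H.mul_mem hg hk, w, hw, (Submodule.map_comp _ _ _).symm⟩

theorem TMx.nml (hM : TMx t H d) (hX : TWm t H X) (hD : D ≤ X) (hd : d ≤ finrank F D) (hg : g ∈ H)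
    (h1 : ∀ y ∈ D, g.1 y = y) (hx : x ∈ X) (hx' : g.1 x ∈ X) (hxD : x ∉ D) : ∀ z ∈ X, g.1 z ∈ X :=
  fun z hz => by
  rw [hM X _ hX (hX.map hg) (hd.trans_lt (Submodule.finrank_lt_finrank_of_lt (lt_of_le_of_ne
    (le_inf hD fun y hy => ⟨y, hD hy, h1 y hy⟩) fun e' => hxD (by
      have a : g.1 x ∈ D := e' ▸ ⟨hx', x, hx, rfl⟩
      exact g.1.injective (h1 _ a) ▸ a))))]
  exact ⟨z, hz, rfl⟩

namespace TT
variable (h : TT A B t c H)
include h

theorem inj' (hv : v ≠ 0) : Function.Injective (t v) :=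
  (injective_iff_map_eq_zero _).2 fun _ => h.inj hv

theorem rk (hX : TWm t H X) : finrank F X = finrank F U := by
  obtain ⟨g, -, w, hw, rfl⟩ := hX
  rw [LinearEquiv.finrank_map_eq, LinearMap.finrank_range_of_inj (h.inj' hw)]

theorem eq_of (hX : TWm t H X) (hv : v ≠ 0) (e : ∀ u, t v u ∈ X) : X = LinearMap.range (t v) :=
  (Submodule.eq_of_le_of_finrank_eq (by rintro _ ⟨u, rfl⟩; exact e u)
    (by rw [h.rk hX, h.rk (twm_t hv)])).symm

theorem notMem {y : W} {u u' : U} (hy : y ∉ F ∙ v) (hu : u ≠ 0) :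
    t y u + t v u' ∉ LinearMap.range (t v) := by
  rintro ⟨a, e⟩
  obtain ⟨r, r1, r2⟩ := h.ndW.exists_perp_of_notMem hy 1
  rw [mem_perp'] at r1
  exact hu (by simpa [h.ct, r2, r1 v (Submodule.mem_span_singleton_self v)] using congrArg (c r) e.symm)

variable (hN : ∀ E, TL B t c H E → ∃ s : F, ∀ u, E u = s • u)
include hN

theorem nl1 (hf : TLv t c H v φ) (hv : v ≠ 0) (hz : B.h v z = 0) : ∃ s : F, ∀ u, φ (t z u) = s • u := by
  by_cases e : z ∈ F ∙ v
  · obtain ⟨a, rfl⟩ := Submodule.mem_span_singleton.1 e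
    obtain ⟨k, -, b, d⟩ := hf
    refine ⟨0, fun u => ?_⟩
    have := d (t v u) (by simp [h.ct, B.symp_h_self])
    rw [b, left_eq_add] at this
    simp [h.inj hv this]
  · exact hN _ (h.lv_of hf hv hz e)

theorem pureC (hX : TWm t H X) (hz : z ≠ 0) (h1 : ∀ x ∈ X, c z x = 0) :
    ∃ w, w ≠ 0 ∧ X = LinearMap.range (t w) := by
  have hX' := hX
  obtain ⟨g, hg, w, hw, e⟩ := hX
  obtain ⟨k, hk, ek⟩ := h.hW w 1
  obtain ⟨w₁, hw₁⟩ := h.ndW.exists_h_eq_one hw
  let τ := g * k * g⁻¹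
  have hτ : τ ∈ H := H.mul_mem (H.mul_mem hg hk) (H.inv_mem hg)
  let m : V →ₗ[F] V := (τ.1 : V →ₗ[F] V) - .id
  have m0 : ∀ x, τ.1 x = x + m x := fun x => by simp [m]
  have m1 : ∀ x, m x = g.1 (t w (c w (g⁻¹.1 x))) := fun x => by simp [m, τ, isom_mul_apply, ek]
  have m2 : ∀ x, m x ∈ X := fun x => e ▸ ⟨_, ⟨_, rfl⟩, (m1 x).symm⟩
  have m3 : ∀ x ∈ X, ∃ y, m y = x := by
    rintro _ hx
    obtain ⟨_, ⟨u, rfl⟩, rfl⟩ := e ▸ hx
    exact ⟨g.1 (t w₁ u), by simp [m1, h.ct, hw₁]⟩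
  have f : ∀ z, (∀ x ∈ X, c z x = 0) → ∀ u, τ.1 (t z u) = t z u := fun z h1 u => by
    rw [m0, m1, show c w (g⁻¹.1 (t z u)) = 0 from h.ndU.eq_zero' fun u' => by
      rw [← h.hh, ← isom_h_left, S.orth_symm, h.hh, h1 _ (e ▸ ⟨_, ⟨_, rfl⟩, rfl⟩), map_zero]]
    simp
  have a : ∀ z, z ≠ 0 → (∀ x ∈ X, c z x = 0) → ∀ y y', B.h z y = 0 → B.h z y' = 0 →
      ∃ s : F, ∀ u, c y (m (t y' u)) = s • u := fun z hz h1 y y' h2 h3 => by
    obtain ⟨s, hs⟩ := h.nl1 hN ((h.comp (h.lv_id z y h2) hτ (f z h1)).sub (h.lv_id z y h2)) hz h3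
    exact ⟨s, fun u => by simpa [m] using hs u⟩
  by_cases h2 : ∃ y y₀ u, B.h z y = 0 ∧ B.h z y₀ = 0 ∧ c y (m (t y₀ u)) ≠ 0
  · obtain ⟨y, y₀, u, y1, y2, y3⟩ := h2
    obtain ⟨θ, hθ⟩ := ex_one' (F := F) (w := u) (by rintro rfl; simp at y3)
    let ψ : Dual F W := θ ∘ₗ c.flip (m (t y₀ u))
    have b : ∀ y (s : F), (∀ u, c y (m (t y₀ u)) = s • u) → ∀ u, c y (m (t y₀ u)) = ψ y • u :=
      fun y s hs u => by simp [ψ, hs, hθ]
    have b0 := (a z hz h1 y y₀ y1 y2).elim (b y)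
    have b1 : ψ y ≠ 0 := fun e => y3 (by simp [b0, e])
    have b2 : LinearMap.range (m ∘ₗ t y₀) = X := Submodule.eq_of_le_of_finrank_eq
      (by rintro _ ⟨u, rfl⟩; exact m2 _) (by
        rw [h.rk hX', LinearMap.finrank_range_of_inj ((injective_iff_map_eq_zero _).2 fun u hu => by
          simpa [b1, show m (t y₀ u) = 0 from hu] using (b0 u).symm)])
    obtain ⟨z', -, z1, z2⟩ := exists_mem_ker_notMem [B.h z, B.h y₀, ψ] ⊤ (F ∙ z) (by
      have := finrank_span_one_le (F := F) z; have := h.five; simp; omega)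
    simp only [List.mem_cons, List.not_mem_nil, or_false, forall_eq_or_imp, forall_eq] at z2
    have b3 : ∀ x ∈ X, c z' x = 0 := by
      rw [← b2]; rintro _ ⟨u, rfl⟩
      simpa [z2] using (a z hz h1 z' y₀ z2.1 y2).elim (b z') u
    obtain ⟨r, r1, r2⟩ := h.ndW.exists_perp_of_notMem' z1 1
    rw [mem_perp_singleton] at r1
    obtain ⟨y₂, hy₂⟩ := h.ndW.exists_h_eq ψ
    have b4 : ∀ u, m (t y₀ u) = t (-y₂) u := fun u => sub_eq_zero.1 (h.cinj fun y => by
      have c1 := (a z' (by rintro rfl; simp at z1) b3 (y - B.h z' y • r) y₀ (by simp [r2])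
        (B.h_swap_zero z2.2.1)).elim (b _) u
      have c2 := (a z hz h1 r y₀ r1 y2).elim (b _) u
      simp only [map_sub, map_smul, LinearMap.sub_apply, LinearMap.smul_apply, c2, sub_smul,
        smul_assoc, sub_left_inj] at c1
      simp [c1, h.ct, ← hy₂, B.symp_symm y₂ y])
    have b5 : -y₂ ≠ 0 := fun e => y3 (by simp [b4, e])
    exact ⟨_, b5, h.eq_of hX' b5 fun u => b4 u ▸ m2 _⟩
  push Not at h2
  obtain ⟨η, hη⟩ := h.ndW.exists_h_eq_one hz
  replace hη : B.h (-η) z = 1 := by simp [B.symp_symm z η, hη]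
  by_cases h3 : ∃ y u, B.h z y = 0 ∧ m (t y u) ≠ 0
  · obtain ⟨y, u, y1, y2⟩ := h3
    obtain ⟨s, hs⟩ := h.nl1 hN (φ := c (-η) ∘ₗ m) ⟨τ, hτ, f z h1, fun x hx => by
      rw [m0]; exact congrArg _ (h.eq_t hη fun y hy => h.span hz (c y ∘ₗ m).toAddMonoidHom.ker
        (fun y' hy' u => h2 y y' u hy hy') hx)⟩ hz y1
    have b : ∀ u, m (t y u) = t z (s • u) := fun u => hs u ▸ h.eq_t hη fun y' hy => h2 y' y u hy y1
    have s0 : s ≠ 0 := by rintro rfl; simp [b] at y2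
    exact ⟨z, hz, h.eq_of hX' hz fun u => by simpa [b, s0] using m2 (t y (s⁻¹ • u))⟩
  push Not at h3
  refine ⟨z, hz, Submodule.eq_of_le_of_finrank_eq (fun x hx => ?_) (by rw [h.rk hX', h.rk (twm_t hz)])⟩
  obtain ⟨x, rfl⟩ := m3 x hx
  refine ⟨_, (h.eq_t hη fun y hy => h.ndU.eq_zero' fun u => ?_).symm⟩
  have := isom_h τ (t y u) x
  rw [m0, h3 y u hy, add_zero, m0, map_add, add_eq_left] at this
  rw [← h.hh, this]

omit hN in
theorem perp (hM : TMx t H d) (hX : TWm t H X) (hd : d ≤ finrank F ↥(X ⊓ LinearMap.range (t v)))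
    (hx : x ∈ X) (hx' : x ∉ LinearMap.range (t v)) (h1 : B.h v z = 0) (h2 : z ∉ F ∙ v)
    (h3 : c z x = 0) : ∀ x ∈ X, c z x = 0 := fun x' hx1 => by_contra fun u0 => by
  obtain ⟨g, hg, e⟩ := h.hW z 1
  have a1 := hM.nml hX inf_le_left hd hg (by rintro _ ⟨-, u, rfl⟩; simp [e, h.ct, B.h_swap_zero h1])
    hx (by simpa [e, h3]) (fun a => hx' a.2) _ hx1
  rw [e, one_smul, X.add_mem_iff_right hx1] at a1
  have z0 : z ≠ 0 := by rintro rfl; simp at h2
  obtain ⟨θ, hθ⟩ := ex_one' (F := F) z0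
  let L : W →ₗ[F] V := t.flip (c z x') + t z ∘ₗ c.flip x' ∘ₗ (.id - θ.smulRight z)
  let N := B.perp (Submodule.span F {z, v})
  have a2 : N.map L ≤ X := by
    rintro _ ⟨y, hy, rfl⟩
    obtain ⟨y1, y2⟩ := B.mem_perp_pair.1 hy
    obtain ⟨k, hk, ek⟩ := h.exQ (v := z) (y := y - θ y • z) (by simp [y1, B.symp_h_self])
    have := hM.nml hX inf_le_left hd hk (by
        rintro _ ⟨-, u, rfl⟩; simp [ek, h.ct, B.h_swap_zero h1, B.h_swap_zero y2]) a1
      (by simpa [ek, h.ct, B.symp_h_self, B.h_swap_zero y1])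
      (fun a => h.notMem (u' := 0) h2 u0 (by simpa using a.2)) _ hx1
    rw [ek, X.add_mem_iff_left a1, add_assoc, X.add_mem_iff_right hx1] at this
    convert X.add_mem this (X.smul_mem (θ y) a1) using 1
    simp [L]; abel
  have a3 : Function.Injective L := (injective_iff_map_eq_zero _).2 fun y hy => by
    by_cases hy' : y ∈ F ∙ z
    · obtain ⟨a, rfl⟩ := Submodule.mem_span_singleton.1 hy'
      simp [L, hθ] at hy
      simp [hy.resolve_right fun e => u0 (h.inj z0 e)]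
    · exact absurd (show L y ∈ _ from hy ▸ zero_mem _) (h.notMem hy' u0)
  have a4 := h.ndW.finrank_perp (Submodule.span F {z, v})
  have a5 := finrank_span_two_le (F := F) z v
  have a6 := h.lt
  rw [← Submodule.eq_of_le_of_finrank_le a2 (by
    rw [h.rk hX, ← (Submodule.equivMapOfInjective _ a3 _).finrank_eq]; simp only [N]; omega)] at hx1
  obtain ⟨y, hy, e⟩ := hx1
  exact u0 (by rw [← e]; simp [L, h.ct, B.symp_h_self, (B.mem_perp_pair.1 hy).1])

theorem step (hM : TMx t H (d + 1)) : TMx t H d := by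
  have main : ∀ v X, v ≠ 0 → TWm t H X →
      d < finrank F ↥(X ⊓ LinearMap.range (t v)) → X = LinearMap.range (t v) := by
    intro v X hv hX hd
    by_contra hne
    obtain ⟨x, hx, hx'⟩ : ∃ x ∈ X, x ∉ LinearMap.range (t v) := by
      by_contra! hh
      exact hne (Submodule.eq_of_le_of_finrank_eq hh (by rw [h.rk hX, h.rk (twm_t hv)]))
    obtain ⟨z, z0, hz⟩ : ∃ z, z ≠ 0 ∧ ∀ x ∈ X, c z x = 0 := by
      by_contra! hn
      have a0 : ∀ x ∈ X, x ∉ LinearMap.range (t v) → ∀ z, B.h v z = 0 → c z x = 0 → z ∈ F ∙ v :=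
        fun x hx hx' z h1 h3 => by_contra fun h2 => (hn z (by rintro rfl; simp at h2)).elim
          fun y hy => hy.2 (h.perp hM hX hd hx hx' h1 h2 h3 y hy.1)
      let L := (c.flip x).prod (B.h v)
      have a1 : LinearMap.ker L ≤ F ∙ v := fun z hz => a0 x hx hx' z (congrArg Prod.snd hz)
        (congrArg Prod.fst hz)
      have a2 := Submodule.finrank_mono a1
      have a3 := finrank_span_one_le (F := F) v
      have a4 := LinearMap.finrank_range_add_finrank_ker L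
      have a5 := h.lt
      have a6 := (LinearMap.range L).finrank_le
      rw [finrank_prod, finrank_self] at a6
      have a7 : c v x = 0 := congrArg Prod.fst ((Submodule.eq_of_le_of_finrank_le a1 (by omega)).ge
        (Submodule.mem_span_singleton_self v))
      obtain ⟨x', hx1, u0⟩ := hn v hv
      obtain ⟨y, hy⟩ : (c v x', 0) ∈ LinearMap.range L := by
        rw [Submodule.eq_top_of_finrank_eq (S := LinearMap.range L) (by
          rw [finrank_prod, finrank_self]; omega)]; trivial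
      have y1 : c y x = c v x' := congrArg Prod.fst hy
      have y2 : B.h v y = 0 := congrArg Prod.snd hy
      obtain ⟨g, hg, e⟩ := h.hW v 1
      have b1 := hM.nml hX inf_le_left hd hg (by rintro _ ⟨-, u, rfl⟩; simp [e, h.ct, B.symp_h_self])
        hx (by simpa [e, a7]) (fun a => hx' a.2) _ hx1
      rw [e, one_smul, X.add_mem_iff_right hx1] at b1
      obtain ⟨k, hk, ek⟩ := h.exQ y2
      have b2 := hM.nml hX inf_le_left hd hk (by
          rintro _ ⟨-, u, rfl⟩; simp [ek, h.ct, B.symp_h_self, B.h_swap_zero y2]) hx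
        (by simpa [ek, a7, y1] using X.add_mem hx b1) (fun a => hx' a.2) _ hx1
      rw [ek, X.add_mem_iff_left b1, add_assoc, X.add_mem_iff_right hx1] at b2
      obtain ⟨z, -, z1, z2⟩ := exists_mem_ker_notMem [B.h v, B.h y] ⊤ (F ∙ v) (by
        have := h.five; simp; omega)
      simp only [List.mem_cons, List.not_mem_nil, or_false, forall_eq_or_imp, forall_eq] at z2
      refine z1 (a0 _ b2 (h.notMem (fun m => ?_) u0) z z2.1
        (by simp [h.ct, B.h_swap_zero z2.1, B.h_swap_zero z2.2]))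
      obtain ⟨a, rfl⟩ := Submodule.mem_span_singleton.1 m
      exact u0 (by simp [← y1, a7])
    obtain ⟨w, hw, rfl⟩ := h.pureC hN hX z0 hz
    obtain ⟨_, ⟨⟨u', e⟩, u, rfl⟩, hz⟩ := Submodule.exists_mem_ne_zero_of_ne_bot
      (p := LinearMap.range (t w) ⊓ LinearMap.range (t v)) (fun e => by
        rw [e, finrank_bot] at hd; omega)
    obtain ⟨a, rfl⟩ := Submodule.mem_span_singleton.1 (by_contra fun m : w ∉ F ∙ v =>
      h.notMem (u := u') (u' := 0) m (by rintro rfl; simp [← e] at hz) ⟨u, by simp [e]⟩)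
    obtain ⟨u, rfl⟩ := hx
    exact hx' ⟨a • u, by simp⟩
  rintro X _ hX ⟨g, hg, w, hw, rfl⟩ hd
  have e : (X.map (g⁻¹.1 : V →ₗ[F] V)).map (g.1 : V →ₗ[F] V) = X := Submodule.ext fun x =>
    ⟨by rintro ⟨_, ⟨y, hy, rfl⟩, rfl⟩; simpa, fun hx => ⟨_, ⟨x, hx, rfl⟩, by simp⟩⟩
  rw [← main w _ hw (hX.map (H.inv_mem hg)), e]
  rwa [← g.1.finrank_map_eq, Submodule.map_inf _ g.1.injective, e]

theorem pure (hX : TWm t H X) : ∃ w, w ≠ 0 ∧ X = LinearMap.range (t w) := by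
  have hM : TMx t H 0 := Nat.decreasingInduction' (P := TMx t H) (fun _ _ _ => h.step hN)
    (Nat.zero_le (finrank F V)) fun X Y _ _ hd => (hd.not_ge (Submodule.finrank_le _)).elim
  obtain ⟨x, hx, hx0⟩ := Submodule.exists_mem_ne_zero_of_ne_bot (p := X) fun e => by
    have := h.rk hX
    have := h.pos
    rw [e, finrank_bot] at *
    omega
  obtain ⟨z, h1, h2⟩ := Submodule.exists_mem_ne_zero_of_ne_bot
    (LinearMap.ker_ne_bot_of_finrank_lt (f := c.flip x) (by have := h.lt; omega))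
  by_cases h3 : ∀ x ∈ X, c z x = 0
  · exact h.pureC hN hX h2 h3
  push Not at h3
  obtain ⟨x', hx1, u0⟩ := h3
  obtain ⟨g, hg, e⟩ := h.hW z 1
  have a1 := hM.nml hX bot_le (Nat.zero_le _) hg (by simp) hx
    (by simpa [e, show c z x = 0 from h1]) (by simpa) _ hx1
  rw [e, one_smul, X.add_mem_iff_right hx1] at a1
  exact ⟨z, h2, hM _ _ hX (twm_t h2) (finrank_pos_iff_exists_ne_zero.2
    ⟨⟨_, a1, _, rfl⟩, fun e => u0 (h.inj h2 (congrArg Subtype.val e))⟩)⟩

omit hN in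
theorem dich (h2 : 2 ≤ finrank F U) (hq : (∃ s : F, s ≠ 0 ∧ s ≠ 1) ∨ 3 ≤ finrank F U) :
    S.E ≤ H ∨ ∀ g ∈ H, ∀ w, ∃ w', ∀ x, (∃ u, t w u = x) ↔ ∃ u, t w' u = g.1 x := by
  by_cases hN : ∀ E, TL B t c H E → ∃ s : F, ∀ u, E u = s • u
  · refine .inr fun g hg w => ?_
    by_cases hw : w = 0
    · exact ⟨0, fun x => by simp [hw, eq_comm (a := (0 : V))]⟩
    obtain ⟨w', -, e⟩ := h.pure hN ((twm_t hw).map hg)
    refine ⟨w', fun x => Iff.trans ?_ (SetLike.ext_iff.1 e (g.1 x))⟩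
    simp [Submodule.mem_map_equiv]
  push Not at hN
  obtain ⟨E, h1, h3⟩ := hN
  obtain ⟨u, hu⟩ : ∃ u, E u ∉ F ∙ u := by
    by_contra! h4
    obtain ⟨c, hc⟩ := kern (K := F) (exists_notMem_line h2)
      E.toAddMonoidHom fun u => Submodule.mem_span_singleton.1 (h4 u)
    exact (h3 c).elim fun x hx => hx (hc x)
  obtain ⟨u, a1, a2⟩ := h.lv_rank hq h1 hu
  exact .inl (h.E_le (h.lv_flag a1 a2))

end TT

open Matrix Cfsg.Geo
open scoped Kronecker

theorem spsp_max {F : Type*} [Field F] [Fintype F] {ι : Type} [Fintype ι] [DecidableEq ι]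
    {Q : (ι → F) → F} (hQ : IsNondegenerateQuadraticForm Q) {a b : ℕ} (ha : 2 ≤ a) (hab : a + 2 ≤ b)
    (hb : 5 ≤ b) (hq : ¬ (Fintype.card F = 2 ∧ a = 2)) (e : ι ≃ Fin a × Fin b) (P : GL ι F)
    {f₁ : (Fin a → F) → (Fin a → F) → F} {f₂ : (Fin b → F) → (Fin b → F) → F}
    (hf₁ : IsSymplecticForm f₁) (hf₂ : IsSymplecticForm f₂)
    (hT : IsTensorFormStructure id (QuadraticMap.polar Q) f₁ f₂ e P)
    (hp : ∀ (x₁ : Fin a → F) (x₂ : Fin b → F), Q (P.1 *ᵥ ((fun p : Fin a × Fin b => x₁ p.1 * x₂ p.2) ∘ e)) = 0) :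
    IsMaximalIn (omegaGL Q) (tensorProductSubgroup a b e P ⊓ omegaGL Q) := by
  have hc : Fintype.card ι = a * b := by simp [Fintype.card_congr e]
  have hn : 7 ≤ Fintype.card ι := by nlinarith
  haveI : Nontrivial (Fin a) := Fin.nontrivial_iff_two_le.2 ha
  haveI : Nontrivial (Fin b) := Fin.nontrivial_iff_two_le.2 (by omega)
  have h1 : ¬ omegaGL Q ≤ tensorProductSubgroup a b e P := fun hle => (big_omega hQ hn).not_kr
    (T := coordT e P) (by omega) (by omega) (by nlinarith) fun g hg => kr_self e P g (hle hg)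
  have hS := quadOf_nondeg hQ
  have e1 := omegaGL_eq _ hS hn
  rw [coe_quadOf] at e1
  rw [e1] at h1 ⊢
  set S := orthS (quadOf hQ)
  set T := coordT e P
  obtain ⟨s, s0, hs⟩ := hT
  let A := sympS (s • bilinOf hf₁.bilinear) fun x => by simp [hf₁.alternating]
  let B := sympS (bilinOf hf₂.bilinear) fun x => hf₂.alternating x
  let t : (Fin b → F) →ₗ[F] (Fin a → F) →ₗ[F] (ι → F) := tp.compr₂ T.toLinearMap
  let c : (Fin b → F) →ₗ[F] (ι → F) →ₗ[F] (Fin a → F) := (ct ∘ₗ B.h).compl₂ T.symm.toLinearMap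
  have ht : ∀ w u, t w u = T (tp w u) := fun _ _ => rfl
  have b1 : ∀ z w u, c z (t w u) = B.h z w • u := fun z w u => by simp [c, ht]
  have b2 : ∀ M : AddSubgroup (ι → F), (∀ w u, t w u ∈ M) → ∀ x, x ∈ M := fun M hM x => by
    obtain ⟨x, rfl⟩ := T.surjective x
    rw [← Finset.univ_sum_single x, map_sum]
    refine sum_mem fun p _ => ?_
    have := hM (Pi.single p.2 1) (x p • Pi.single p.1 1)
    rwa [ht, map_smul, tp_single, ← Pi.single_smul, smul_eq_mul, mul_one] at this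
  have b3 : ∀ w u w' u', S.h (t w u) (t w' u') = A.h u u' * B.h w w' := fun w u w' u' => by
    refine (hs (tp w u) (tp w' u')).trans ((congrArg _ (fm_kron (σ := RingHom.id F) _ _ u u' w w')).trans ?_)
    rw [← eq_fm_of_bilin hf₁.bilinear, ← eq_fm_of_bilin hf₂.bilinear, ← mul_assoc]; rfl
  have b4 : ∀ w u x, S.h (t w u) x = A.h u (c w x) := fun w u x => sub_eq_zero.1
    (b2 (S.h (t w u) - A.h u ∘ₗ c w).toAddMonoidHom.ker (fun w' u' => by simp [b1, b3, mul_comm]) x)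
  have b5 : ∀ w u, S.q (t w u) = 0 := fun w u => hp u w
  refine isMaximalIn_of_not_le _ h1 fun H hH => ?_
  have key : ∀ (u : Fin a → F) (r : F) (w : Fin b → F) (r' : F) (X : Submodule F (ι → F)),
      (∀ x ∈ X, S.q x = 0) → (∀ y x, t (y + (r' * B.h w y) • w) (x + (r * A.h u x) • u) - t y x ∈ X) →
      ∃ g ∈ H, ∀ y x, g.1 (t y x) = t (y + (r' * B.h w y) • w) (x + (r * A.h u x) • u) := by
    intro u r w r' X hX hX'
    obtain ⟨α, -, a1⟩ := exists_tv_SL (r • A.h u) u (by simp [A.symp_h_self])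
    obtain ⟨β, -, a2⟩ := exists_tv_SL (r' • B.h w) w (by simp [B.symp_h_self])
    let g := glEquiv (ΦU T (kronU α β))
    have a3 : ∀ y x, g (t y x) = t (y + (r' * B.h w y) • w) (x + (r * A.h u x) • u) := fun y x =>
      (Φ_mulVec T _ _).trans (congrArg T ((kron_mulVec_tp _ _ _ _).trans (by rw [a1, a2]; rfl)))
    have a4 : ∀ x y, S.h (g x) (g y) = S.h x y := fun x y => sub_eq_zero.1
      (b2 (S.h (g x) ∘ₗ g.toLinearMap - S.h x).toAddMonoidHom.ker (fun w' u' => b2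
        (S.h.flip (g (t w' u')) ∘ₗ g.toLinearMap - S.h.flip (t w' u')).toAddMonoidHom.ker (fun y x => by
          change S.h (g _) (g _) - S.h _ _ = 0
          rw [a3, a3, b3, b3]
          simp [A.symp_h_self, B.symp_h_self, A.symp_symm u x, B.symp_symm w y]; ring) x) y)
    let k : S.Isom := ⟨g, orth_isIsom (f := g.toLinearMap) (b2 (.ofSub {x | S.q (g x) = S.q x}
      ⟨0, by simp⟩ fun x hx y hy => by
        simp only [Set.mem_setOf_eq, map_add, map_neg, S.orth_q_add, S.orth_q_neg, a4] at hx hy ⊢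
        rw [hx, hy]) fun w u => (by rw [a3, b5, b5] : S.q (g _) = _))⟩
    refine ⟨k, hH k (cent_mem hS X hX (fun _ _ _ _ => S.eich_mem_E _ _ _) fun x => by
      have := b2 (X.comap (g.toLinearMap - LinearMap.id)).toAddSubgroup
        (fun y x => by simpa [a3] using hX' y x) x
      exact this)
      (mem_tensorProductSubgroup.2 ⟨α, β, ext_mulVec fun x => toGL_mulVec _ _ _⟩), a3⟩
  refine (TT.dich (A := A) (B := B) (t := t) (c := c) ⟨hS, fun x hx => ?_, fun x hx => ?_, b1, b2, b4,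
    b5, fun w r => ?_, fun u r => ?_, by simpa, by simpa, by simp; omega⟩ (by simpa) ?_).imp_right
    fun h => Kr.le ?_
  · exact by_contra fun h0 => (hf₁.nondegenerate x h0).2.elim fun y hy => hy
      ((mul_eq_zero.1 (hx y)).resolve_left s0)
  · exact by_contra fun h0 => (hf₂.nondegenerate x h0).2.elim fun y hy => hy (hx y)
  · obtain ⟨g, hg, e⟩ := key 0 0 w r (LinearMap.range (t w)) (by rintro _ ⟨u, rfl⟩; exact b5 w u)
      fun y x => ⟨(r * B.h w y) • x, by simp⟩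
    exact ⟨g, hg, fun x => sub_eq_zero.1 (b2 ((g.1 : _ →ₗ[F] _) - (LinearMap.id + r • t w ∘ₗ c w)).toAddMonoidHom.ker
      (fun y x => by simp [e, b1, smul_smul]) x)⟩
  · simpa using key u r 0 0 (LinearMap.range (t.flip u)) (by rintro _ ⟨w, rfl⟩; exact b5 w u)
      fun y x => ⟨(r * A.h u x) • y, by simp⟩
  · by_cases h : a = 2
    · exact .inl (by simpa using ex_idx2 (by
        have := Fintype.one_lt_card (α := F); omega) (0 : F) 1)
    · exact .inr (by simp; omega)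
  rintro _ ⟨k, hk, rfl⟩
  obtain ⟨g, eg⟩ := (ΦU T).surjective (toGL S k)
  have c1 : ∀ x, T ((g⁻¹ : GL _ F).1 *ᵥ x) = k⁻¹.1 (T x) := fun x => by
    rw [← Φ_mulVec, ← coe_ΦU, map_inv, eg, ← map_inv, toGL_mulVec]
  obtain ⟨α, β, e⟩ := nml_kron (g := g) fun X => eq_kron_of_pure fun w u => by
    obtain ⟨w', h3⟩ := h _ (H.inv_mem hk) w
    obtain ⟨v, hv⟩ := (h3 _).1 ⟨u, rfl⟩
    rw [ht, ht, ← c1, T.injective.eq_iff] at hv
    obtain ⟨y, hy⟩ := (h3 (T (cjA g (X ⊗ₖ 1) *ᵥ tp w u))).2 ⟨X *ᵥ v, by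
      rw [← c1, ← mulVec_inv_mulVec g (tp w u), cjA_mulVec, inv_mulVec_mulVec, ← hv, kron_mulVec_tp,
        one_mulVec, ht]⟩
    exact ⟨y, T.injective hy⟩
  exact ⟨α, β, eg ▸ congrArg _ (Units.ext e)⟩

end H29
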