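import Cfsg.Agent.H29.As11

/-! Types of non-degenerate quadratic subspaces: the sign `typ` and the discriminant `dsc` are
multiplicative on orthogonal sums; criteria for plus type. -/

set_option autoImplicit false
set_option linter.unusedSectionVars false

namespace H29

open Matrix Cfsg.Geo Module H11 H11.PForm
open scoped Kronecker

variable {F : Type*} [Field F] {ι κ μ : Type} [Fintype ι] [DecidableEq ι] [Fintype κ]
  [DecidableEq κ] [Fintype μ] [DecidableEq μ] {H : Subgroup (GL ι F)} {G : Matrix ι ι F} {t : ℕ}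
  {Q : (ι → F) → F} {A B W : Submodule F (ι → F)}

local notation "ρ" => RingHom.id _

theorem nd_sup {σ : F →+* F} {ε : F} (h : HF σ ε G) (hA : IsNondegenerateOn (fm σ G) A)
    (hB : IsNondegenerateOn (fm σ G) B) (ho : AreOrthogonalFor (fm σ G) A B) :
    IsNondegenerateOn (fm σ G) (A ⊔ B) ∧
      finrank F (A ⊔ B : Submodule F (ι → F)) = finrank F A + finrank F B := by
  refine ⟨h.ndOn fun w hw h1 => ?_, ?_⟩
  · obtain ⟨a, ha, b, hb, rfl⟩ := Submodule.mem_sup.1 hw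
    rw [(inf_pp hA).le (show a ∈ A ⊓ _ from ⟨ha, fun x hx => by
      simpa [fm_add_left, h.eq_zero_comm (ho x hx b hb)] using h1 x (Submodule.mem_sup_left hx)⟩),
      (inf_pp hB).le (show b ∈ B ⊓ _ from ⟨hb, fun x hx => by
      simpa [fm_add_left, ho a ha x hx] using h1 x (Submodule.mem_sup_right hx)⟩), add_zero]
  · rw [← Submodule.finrank_sup_add_finrank_inf_eq, eq_bot_iff.2 ((le_inf inf_le_right
      fun x hx => ho x hx.1).trans (inf_pp hB).le), finrank_bot, add_zero]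

theorem prod_of_dec {σ : F →+* F} {ε : F} (h : HF σ ε G) {k : ℕ} {D : Fin t → Submodule F (ι → F)}
    (hD : IsNondegenerateMDecomposition (fm σ G) k D) (φ : Submodule F (ι → F) → ℤˣ) (h0 : φ ⊥ = 1)
    (h1 : ∀ A B, IsNondegenerateOn (fm σ G) A → IsNondegenerateOn (fm σ G) B →
      AreOrthogonalFor (fm σ G) A B → k ∣ finrank F A → k ∣ finrank F B → φ (A ⊔ B) = φ A * φ B) :
    φ ⊤ = ∏ i, φ (D i) := by
  have h2 : ∀ I : Finset (Fin t), IsNondegenerateOn (fm σ G) (⨆ i ∈ I, D i) ∧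
      φ (⨆ i ∈ I, D i) = ∏ i ∈ I, φ (D i) := fun I => by
    induction I using Finset.induction_on with
    | empty => simpa [IsNondegenerateOn]
    | insert i I hi ih =>
      have h3 : AreOrthogonalFor (fm σ G) (D i) (⨆ i ∈ I, D i) := fun x hx y hy =>
        h.eq_zero_comm ((iSup₂_le fun j hj => hD.orthogonal j i (by rintro rfl; exact hi hj) :
          _ ≤ pp σ G (D i)) hy x hx)
      rw [Finset.iSup_insert, Finset.prod_insert hi, ← ih.2]
      exact ⟨(nd_sup h (hD.nondegenerate i) ih.1 h3).1, h1 _ _ (hD.nondegenerate i) ih.1 h3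
        (hD.decomp.finrank_eq i).symm.dvd
        (finrank_biSup hD.decomp.indep hD.decomp.finrank_eq I ▸ Dvd.intro_left _ rfl)⟩
  simpa [hD.decomp.iSup_eq_top] using (h2 Finset.univ).2

namespace QInv

variable (h : QInv G H Q)
include h

theorem hf : HF ρ 1 G := by
  obtain ⟨G', e, h1⟩ := hf_of_quad h.1
  rwa [fm_ext (congrFun₂ (h.2.1.symm.trans e))]

theorem iso : H ≤ Iso ρ G := fun g hg => iso_of_quad h.2.1 (h.2.2 g hg)

theorem self (v : ι → F) : fm ρ G v v = 2 * Q v := h.2.1 ▸ polar_self h.1.smul v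

theorem add (x y : ι → F) : Q (x + y) = Q x + Q y + fm ρ G x y := quad_add h.2.1 x y

theorem zero : Q 0 = 0 := by simpa using h.1.smul 0 0

theorem mono {K : Subgroup (GL ι F)} (hK : K ≤ H) : QInv G K Q :=
  ⟨h.1, h.2.1, fun g hg => h.2.2 g (hK hg)⟩

/-- the associated space -/
abbrev S : PForm (orthP F) (ι → F) := orthS (quadOf h.1)

theorem S_h (x y : ι → F) : h.S.h x y = fm ρ G x y := congrFun₂ h.2.1 x y

theorem S_perp (W : Submodule F (ι → F)) : h.S.perp W = pp ρ G W := by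
  ext x
  simp only [mem_perp', mem_pp, h.S_h]

theorem nondeg : h.S.Nondeg := quadOf_nondeg h.1

theorem nd (hW : IsNondegenerateOn (fm ρ G) W) : (h.S.restrict W).Nondeg :=
  restrict_nondeg_of_on _ (fun x y => (h.S_h x y).symm ▸ id) hW

theorem ts_pp (hW : IsTotallySingularQuad Q W) : W ≤ pp ρ G W := fun x hx y hy => by
  simpa [hW x hx, hW y hy, hW _ (W.add_mem hx hy)] using (h.add x y).symm

theorem plus_iff {m : ℕ} (hW : finrank F W = 2 * m) :
    IsPlusTypeOn Q W ↔ (h.S.restrict W).HasTS m := by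
  refine ⟨fun ⟨U, h1, h2, h3⟩ => ⟨U.comap W.subtype, orth_ts fun x hx => h2 _ hx, by
    rw [(Submodule.comapSubtypeEquivOfLe h1).finrank_eq]; omega⟩, fun ⟨U, h1, h2⟩ =>
    ⟨U.map W.subtype, Submodule.map_subtype_le _ _, ?_, by
      rw [Submodule.finrank_map_subtype_eq]; omega⟩⟩
  rintro _ ⟨x, hx, rfl⟩
  exact orth_ts_iff.1 h1 x hx

theorem isom_iff : AreIsometricFor Q A B ↔ Eqv (h.S.restrict A) (h.S.restrict B) :=
  ⟨fun ⟨e, he⟩ => ⟨e, orth_isIsom (f := e.toLinearMap) he⟩, fun ⟨e, he⟩ => ⟨e, he.orth_q⟩⟩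

theorem isom_map {g : GL ι F} (hg : g ∈ H) :
    AreIsometricFor Q A (A.map (toLin' (g : Matrix ι ι F))) :=
  ⟨(glEquiv g).submoduleMap A, fun w => h.2.2 g hg w⟩

end QInv

theorem plus_of_isom (h : AreIsometricFor Q A B) (h1 : IsPlusTypeOn Q A) : IsPlusTypeOn Q B := by
  obtain ⟨e, he⟩ := h
  obtain ⟨U, h2, h3, h4⟩ := h1
  refine ⟨((U.comap A.subtype).map e.toLinearMap).map B.subtype, Submodule.map_subtype_le _ _, ?_,
    by rw [Submodule.finrank_map_subtype_eq, e.finrank_map_eq,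
      (Submodule.comapSubtypeEquivOfLe h2).finrank_eq, h4, e.finrank_eq]⟩
  rintro _ ⟨_, ⟨x, hx, rfl⟩, rfl⟩
  exact (he x).trans (h3 _ hx)

theorem isom_symm (h : AreIsometricFor Q A B) : AreIsometricFor Q B A :=
  let ⟨e, he⟩ := h; ⟨e.symm, fun w => by rw [← he, e.apply_symm_apply]⟩

open Classical in
/-- the type of a subspace, as a sign -/
noncomputable def typ (Q : (ι → F) → F) (W : Submodule F (ι → F)) : ℤˣ :=
  if IsPlusTypeOn Q W then 1 else -1

theorem typ_eq_one : typ Q W = 1 ↔ IsPlusTypeOn Q W := by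
  rw [typ]; split_ifs <;> simp [*]

theorem typ_eq_neg : typ Q W = -1 ↔ ¬ IsPlusTypeOn Q W := by
  rw [typ]; split_ifs <;> simp [*]

theorem typ_isom (h : AreIsometricFor Q A B) : typ Q A = typ Q B := by
  rw [typ, typ, propext ⟨plus_of_isom h, plus_of_isom (isom_symm h)⟩]

variable [Fintype F]

namespace QInv

variable (h : QInv G H Q)
include h

open Classical in
theorem cnt_typ (hW : IsNondegenerateOn (fm ρ G) W) {m : ℕ} (hm : finrank F W = 2 * m) (a : F) :
    (Fintype.card F : ℤ) * Nat.card {x : W // Q x = a} = Fintype.card F ^ (2 * m) +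
      typ Q W * (if a = 0 then (Fintype.card F - 1 : ℤ) else -1) * Fintype.card F ^ m := by
  have := orth_cnt_even a m (h.nd hW) hm
  rw [orth_cnt_def, Nat.card_eq_fintype_card (α := F), ← h.plus_iff hm] at this
  rw [typ]
  split_ifs at this ⊢ <;> exact this

theorem typ_sup (hA : IsNondegenerateOn (fm ρ G) A) (hB : IsNondegenerateOn (fm ρ G) B)
    (ho : AreOrthogonalFor (fm ρ G) A B) (h1 : 2 ∣ finrank F A) (h2 : 2 ∣ finrank F B) :
    typ Q (A ⊔ B) = typ Q A * typ Q B := by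
  classical
  obtain ⟨a, ha⟩ := h1
  obtain ⟨b, hb⟩ := h2
  obtain ⟨h3, h4⟩ := nd_sup h.hf hA hB ho
  have h5 : Nat.card {x : (A ⊔ B : Submodule F _) // Q x = 0} =
      ∑ c : F, Nat.card {x : A // Q x = c} * Nat.card {x : B // Q x = -c} := by
    simp_rw [← Nat.card_prod]
    rw [← Nat.card_sigma]
    refine Nat.card_congr (Equiv.ofBijective (fun p : Σ c : F, {x : A // Q x = c} ×
      {x : B // Q x = -c} => (⟨⟨p.2.1.1 + p.2.2.1, Submodule.add_mem_sup p.2.1.1.2 p.2.2.1.2⟩, by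
        simp [h.add, p.2.1.2, p.2.2.2, ho _ p.2.1.1.2 _ p.2.2.1.2]⟩ :
          {x : (A ⊔ B : Submodule F _) // Q x = 0})) ⟨?_, ?_⟩).symm
    · rintro ⟨_, ⟨x, rfl⟩, y, hy⟩ ⟨_, ⟨x', rfl⟩, y', hy'⟩ e
      replace e : x.1 + y.1 = x'.1 + y'.1 := congrArg (·.1.1) e
      have : x.1 - x'.1 = y'.1 - y.1 := by linear_combination (norm := module) e
      obtain rfl : x = x' := Subtype.ext (sub_eq_zero.1 ((inf_pp hB).le (show _ ∈ B ⊓ _ from
        ⟨this ▸ B.sub_mem y'.2 y.2, ho _ (A.sub_mem x.2 x'.2)⟩)))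
      obtain rfl : y = y' := Subtype.ext (add_left_cancel e)
      rfl
    · rintro ⟨⟨z, hz⟩, h5⟩
      obtain ⟨x, hx, y, hy, rfl⟩ := Submodule.mem_sup.1 hz
      exact ⟨⟨_, ⟨⟨x, hx⟩, rfl⟩, ⟨y, hy⟩, by
        rw [h.add, ho x hx y hy] at h5
        linear_combination h5⟩, rfl⟩
  have h6 := h.cnt_typ h3 (m := a + b) (by omega) 0
  have h7 : (Fintype.card F : ℤ) ^ 2 * Nat.card {x : (A ⊔ B : Submodule F _) // Q x = 0} =
      ∑ c : F, ((Fintype.card F : ℤ) ^ (2 * a) + typ Q A *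
        (if c = 0 then (Fintype.card F - 1 : ℤ) else -1) * Fintype.card F ^ a) *
      (Fintype.card F ^ (2 * b) + typ Q B *
        (if c = 0 then (Fintype.card F - 1 : ℤ) else -1) * Fintype.card F ^ b) := by
    rw [h5]
    push_cast
    rw [Finset.mul_sum]
    refine Finset.sum_congr rfl fun c _ => ?_
    rw [← h.cnt_typ hA ha, ← if_congr (neg_eq_zero (a := c)) rfl rfl, ← h.cnt_typ hB hb]
    ring
  rw [← Finset.add_sum_erase _ _ (Finset.mem_univ 0), Finset.sum_congr rfl fun c hc => by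
    rw [if_neg (Finset.ne_of_mem_erase hc)], Finset.sum_const, Finset.card_erase_of_mem
    (Finset.mem_univ _), Finset.card_univ, nsmul_eq_mul, Nat.cast_pred Fintype.card_pos] at h7
  simp only [if_true] at h6 h7
  have h8 : (1 : ℤ) < Fintype.card F := by exact_mod_cast Fintype.one_lt_card
  generalize (Fintype.card F : ℤ) = q at h6 h7 h8
  refine Units.ext (mul_left_cancel₀ (a := q ^ (a + b + 1) * (q - 1)) (by
    have : 0 < q - 1 := by omega
    positivity) ?_)
  push_cast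
  linear_combination h7 - q * h6

theorem typ_dec {k : ℕ} {D : Fin t → Submodule F (ι → F)}
    (hD : IsNondegenerateMDecomposition (fm ρ G) k D) (hk : Even k) :
    typ Q ⊤ = ∏ i, typ Q (D i) :=
  prod_of_dec h.hf hD _ (typ_eq_one.2 ⟨⊥, le_rfl, by simp [IsTotallySingularQuad, h.zero], by simp⟩)
    fun _ _ h1 h2 h3 h4 h5 => h.typ_sup h1 h2 h3 (hk.two_dvd.trans h4) (hk.two_dvd.trans h5)

theorem isom_of_typ (hA : IsNondegenerateOn (fm ρ G) A) (hB : IsNondegenerateOn (fm ρ G) B)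
    {m : ℕ} (h1 : finrank F A = 2 * m) (h2 : finrank F B = 2 * m) (h3 : typ Q A = typ Q B) :
    AreIsometricFor Q A B := h.isom_iff.2 (orth_eqv_even m (h.nd hA) (h.nd hB) h1 h2 (by
      rw [← h.plus_iff h1, ← h.plus_iff h2, ← typ_eq_one, ← typ_eq_one, h3]))

open Classical in
/-- the discriminant of a subspace -/
noncomputable def dsc (W : Submodule F (ι → F)) : ℤˣ :=
  if h1 : (h.S.restrict W).Nondeg then h1.disc else 1

theorem dsc_eq (h1 : (h.S.restrict W).Nondeg) : h.dsc W = h1.disc := dif_pos h1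

theorem dsc_sup (hA : IsNondegenerateOn (fm ρ G) A) (hB : IsNondegenerateOn (fm ρ G) B)
    (ho : AreOrthogonalFor (fm ρ G) A B) : h.dsc (A ⊔ B) = h.dsc A * h.dsc B := by
  obtain ⟨h3, h4⟩ := nd_sup h.hf hA hB ho
  have e1 := eqv_comap_subtype (S := h.S) (le_sup_left : A ≤ A ⊔ B)
  have h5 := e1.symm.nondeg (h.nd hA)
  have h6 : B.comap (A ⊔ B).subtype = (h.S.restrict (A ⊔ B)).perp (A.comap (A ⊔ B).subtype) :=
    Submodule.eq_of_le_of_finrank_eq (fun y hy x hx => (h.S_h _ _).trans (ho _ hx _ hy)) (by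
      have := (h.nd h3).finrank_perp (A.comap (A ⊔ B).subtype)
      rw [(Submodule.comapSubtypeEquivOfLe le_sup_left).finrank_eq] at this
      rw [(Submodule.comapSubtypeEquivOfLe le_sup_right).finrank_eq]
      omega)
  rw [h.dsc_eq (h.nd h3), h.dsc_eq (h.nd hA), h.dsc_eq (h.nd hB), (h.nd h3).disc_eq_mul h5,
    e1.disc_eq h5, ((eqv_restrict_congr h6.symm).trans (eqv_comap_subtype le_sup_right)).disc_eq]

theorem dsc_dec {k : ℕ} {D : Fin t → Submodule F (ι → F)}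
    (hD : IsNondegenerateMDecomposition (fm ρ G) k D) : h.dsc ⊤ = ∏ i, h.dsc (D i) :=
  prod_of_dec h.hf hD _ ((h.dsc_eq (h.nd (by simp [IsNondegenerateOn]))).trans
    (Nondeg.disc_of_subsingleton _)) fun _ _ h1 h2 h3 _ _ => h.dsc_sup h1 h2 h3

theorem isom_iff_dsc (h2 : (2 : F) ≠ 0) (hA : IsNondegenerateOn (fm ρ G) A)
    (hB : IsNondegenerateOn (fm ρ G) B) (h1 : finrank F A = finrank F B) :
    AreIsometricFor Q A B ↔ h.dsc A = h.dsc B := by
  rw [h.isom_iff, h.dsc_eq (h.nd hA), h.dsc_eq (h.nd hB)]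
  exact ⟨fun e => e.disc_eq _ _, orth_eqv_of_disc h2 _ _ _ h1 rfl⟩

theorem plus_iff_dsc (h2 : (2 : F) ≠ 0) {m : ℕ} (hm : Fintype.card ι = 2 * m) :
    IsPlusTypeOn Q ⊤ ↔ h.dsc ⊤ = sqSign (-1 : F) ^ m := by
  rw [h.plus_iff (by simpa), h.dsc_eq (h.nd h.hf.ndTop)]
  exact Nondeg.hasTS_iff_disc _ h2 (by simpa)

theorem plus_iff_det (h2 : (2 : F) ≠ 0) {m : ℕ} (hm : Fintype.card ι = 2 * m)
    (T : (κ → F) ≃ₗ[F] (ι → F)) :
    IsPlusTypeOn Q ⊤ ↔ sqSign (gT ρ G T).det = sqSign (-1 : F) ^ m := by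
  have := (h.nondeg.sqSign_det_gram h2 ((Pi.basisFun F κ).map T)).2
  rw [h.plus_iff_dsc h2 hm, h.dsc_eq (h.nd h.hf.ndTop), (eqv_restrict_top _).disc_eq _ h.nondeg,
    show gT ρ G T = _ from Matrix.ext fun i j => ?_, this]
  · simp [hm, pow_mul]
  · rw [← fm_single (σ := ρ) (G := gT _ _ _), fm_gT]
    simp [← h.S_h]

theorem le_of_max (hW : IsTotallySingularQuad Q W) (h1 : ∀ x ∈ pp ρ G W, Q x = 0 → x ∈ W)
    (hA : IsTotallySingularQuad Q A) : finrank F A ≤ finrank F W :=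
  TS.finrank_le_of_maximal h.nondeg (orth_ts hW)
    (fun x hx e => h1 x (h.S_perp W ▸ hx) ((orth_sing _ x).1 e)) (orth_ts hA)

theorem two_mul_le (hW : IsTotallySingularQuad Q W) : 2 * finrank F W ≤ Fintype.card ι := by
  have := h.hf.finrank_pp W
  have := Submodule.finrank_mono (h.ts_pp hW)
  omega

end QInv

end H29
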